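import Cfsg.Agent.H95.Basic

set_option autoImplicit false

namespace Cfsg.Agent.H95

open Cfsg Cfsg.Geo
open scoped MatrixGroups Matrix DirectSum

section Decomp

variable {F : Type*} [Field F] {V : Type*} [AddCommGroup V] [Module F V] {t : ℕ}
  {D : Fin t → Submodule F V}

/-- The component in `D i` of a vector, for an internal direct sum decomposition. -/
noncomputable def comp (hD : DirectSum.IsInternal D) (i : Fin t) : V →ₗ[F] V :=
  (D i).subtype ∘ₗ DirectSum.component F (Fin t) (fun i => D i) i ∘ₗ
    (LinearEquiv.ofBijective (DirectSum.coeLinearMap D) hD).symm.toLinearMap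

lemma comp_apply (hD : DirectSum.IsInternal D) (i : Fin t) (x : V) :
    comp hD i x = (((LinearEquiv.ofBijective (DirectSum.coeLinearMap D) hD).symm x) i : V) := rfl

lemma comp_mem (hD : DirectSum.IsInternal D) (i : Fin t) (x : V) : comp hD i x ∈ D i := by
  rw [comp_apply]; exact Submodule.coe_mem _

lemma comp_of_mem (hD : DirectSum.IsInternal D) {i : Fin t} {x : V} (hx : x ∈ D i) :
    comp hD i x = x := by
  rw [comp_apply, hD.ofBijective_coeLinearMap_of_mem hx]

lemma comp_of_mem_ne (hD : DirectSum.IsInternal D) {i j : Fin t} {x : V} (hx : x ∈ D j)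
    (hij : j ≠ i) : comp hD i x = 0 := by
  rw [comp_apply, hD.ofBijective_coeLinearMap_of_mem_ne hij hx]; rfl

lemma comp_sum_of_mem (hD : DirectSum.IsInternal D) (y : Fin t → V) (hy : ∀ j, y j ∈ D j)
    (i : Fin t) : comp hD i (∑ j, y j) = y i := by
  rw [map_sum, Finset.sum_eq_single i]
  · exact comp_of_mem hD (hy i)
  · intro j _ hji
    exact comp_of_mem_ne hD (hy j) hji
  · intro h; exact absurd (Finset.mem_univ i) h

lemma sum_comp (hD : DirectSum.IsInternal D) (x : V) : ∑ i, comp hD i x = x := by
  obtain ⟨z, rfl⟩ := hD.surjective x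
  have hz : z = ∑ i, DirectSum.of (fun i => D i) i (z i) := (DirectSum.sum_univ_of z).symm
  have h1 : DirectSum.coeAddMonoidHom D z = ∑ i, ((z i : D i) : V) := by
    conv_lhs => rw [hz]
    rw [map_sum]
    simp
  rw [h1]
  apply Finset.sum_congr rfl
  intro i _
  exact comp_sum_of_mem hD (fun j => ((z j : D j) : V)) (fun j => Submodule.coe_mem _) i

/-- Uniqueness of the decomposition. -/
lemma comp_eq_of_sum (hD : DirectSum.IsInternal D) (y : Fin t → V) (hy : ∀ j, y j ∈ D j)
    {x : V} (hx : x = ∑ j, y j) (i : Fin t) : comp hD i x = y i := by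
  rw [hx]; exact comp_sum_of_mem hD y hy i

/-- The weight of a vector: the number of non-zero components. -/
noncomputable def wt (hD : DirectSum.IsInternal D) (x : V) : ℕ := by
  classical
  exact (Finset.univ.filter (fun i => comp hD i x ≠ 0)).card

lemma wt_def (hD : DirectSum.IsInternal D) (x : V) [DecidablePred (fun i => comp hD i x ≠ 0)] :
    wt hD x = (Finset.univ.filter (fun i => comp hD i x ≠ 0)).card := by
  unfold wt
  congr

/-- A linear automorphism permuting the members of the decomposition permutes the components. -/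
lemma comp_perm (hD : DirectSum.IsInternal D) (g : V →ₗ[F] V) (σ : Equiv.Perm (Fin t))
    (hg : ∀ i, (D i).map g = D (σ i)) (x : V) (i : Fin t) :
    comp hD (σ i) (g x) = g (comp hD i x) := by
  have h1 : g x = ∑ j, g (comp hD (σ.symm j) x) := by
    conv_lhs => rw [← sum_comp hD x]
    rw [map_sum]
    exact (Equiv.sum_comp σ.symm (fun j => g (comp hD j x))).symm
  have h2 := comp_eq_of_sum hD (fun j => g (comp hD (σ.symm j) x)) (fun j => by
    have : g (comp hD (σ.symm j) x) ∈ (D (σ.symm j)).map g :=
      Submodule.mem_map_of_mem (comp_mem hD _ x)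
    rw [hg, Equiv.apply_symm_apply] at this
    exact this) h1 (σ i)
  rw [h2, Equiv.symm_apply_apply]

/-- A linear automorphism permuting the members of the decomposition preserves the weight. -/
lemma wt_perm (hD : DirectSum.IsInternal D) (g : V →ₗ[F] V) (hginj : Function.Injective g)
    (σ : Equiv.Perm (Fin t)) (hg : ∀ i, (D i).map g = D (σ i)) (x : V) :
    wt hD (g x) = wt hD x := by
  classical
  rw [wt_def, wt_def]
  symm
  apply Finset.card_bijective σ σ.bijective
  intro i
  simp only [Finset.mem_filter, Finset.mem_univ, true_and]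
  rw [comp_perm hD g σ hg x i]
  constructor
  · intro h h'
    exact h (hginj (by rw [h', map_zero]))
  · intro h h'
    exact h (by rw [h', map_zero])

lemma wt_of_mem (hD : DirectSum.IsInternal D) {i : Fin t} {x : V} (hx : x ∈ D i) (hx0 : x ≠ 0) :
    wt hD x = 1 := by
  classical
  rw [wt_def, Finset.card_eq_one]
  refine ⟨i, ?_⟩
  ext j
  simp only [Finset.mem_filter, Finset.mem_univ, true_and, Finset.mem_singleton]
  constructor
  · intro h
    by_contra hji
    exact h (comp_of_mem_ne hD hx (fun h' => hji h'.symm))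
  · rintro rfl
    rwa [comp_of_mem hD hx]

lemma wt_le_one_of_mem (hD : DirectSum.IsInternal D) {i : Fin t} {x : V} (hx : x ∈ D i) :
    wt hD x ≤ 1 := by
  classical
  by_cases hx0 : x = 0
  · rw [wt_def, hx0]
    simp
  · rw [wt_of_mem hD hx hx0]

lemma wt_add_of_mem (hD : DirectSum.IsInternal D) {i j : Fin t} (hij : i ≠ j) {x y : V}
    (hx : x ∈ D i) (hx0 : x ≠ 0) (hy : y ∈ D j) (hy0 : y ≠ 0) :
    wt hD (x + y) = 2 := by
  classical
  rw [wt_def, Finset.card_eq_two]
  refine ⟨i, j, hij, ?_⟩
  ext k
  simp only [Finset.mem_filter, Finset.mem_univ, true_and, Finset.mem_insert,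
    Finset.mem_singleton, map_add]
  constructor
  · intro h
    by_contra hk
    push Not at hk
    apply h
    rw [comp_of_mem_ne hD hx (fun h' => hk.1 h'.symm), comp_of_mem_ne hD hy (fun h' => hk.2 h'.symm),
      add_zero]
  · rintro (rfl | rfl)
    · rwa [comp_of_mem hD hx, comp_of_mem_ne hD hy (fun h' => hij h'.symm), add_zero]
    · rwa [comp_of_mem_ne hD hx hij, comp_of_mem hD hy, zero_add]

lemma comp_sum_finset (hD : DirectSum.IsInternal D) (S : Finset (Fin t)) (y : Fin t → V)
    (hy : ∀ j, y j ∈ D j) (i : Fin t) :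
    comp hD i (∑ j ∈ S, y j) = if i ∈ S then y i else 0 := by
  classical
  have h : ∑ j ∈ S, y j = ∑ j, (if j ∈ S then y j else 0) := by
    rw [Finset.sum_ite_mem]
    simp
  rw [h, comp_sum_of_mem hD (fun j => if j ∈ S then y j else 0) (fun j => by
    split_ifs
    · exact hy j
    · exact (D j).zero_mem) i]

lemma wt_sum_finset (hD : DirectSum.IsInternal D) (S : Finset (Fin t)) (y : Fin t → V)
    (hy : ∀ j, y j ∈ D j) (hy0 : ∀ j ∈ S, y j ≠ 0) :
    wt hD (∑ j ∈ S, y j) = S.card := by
  classical
  rw [wt_def]
  congr 1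
  ext i
  simp only [Finset.mem_filter, Finset.mem_univ, true_and]
  rw [comp_sum_finset hD S y hy i]
  constructor
  · intro h
    by_contra hi
    exact h (if_neg hi)
  · intro hi
    rw [if_pos hi]
    exact hy0 i hi

/-- The component in `D i`, as an element of `D i`. -/
noncomputable def compD (hD : DirectSum.IsInternal D) (i : Fin t) : V →ₗ[F] D i :=
  DirectSum.component F (Fin t) (fun i => D i) i ∘ₗ
    (LinearEquiv.ofBijective (DirectSum.coeLinearMap D) hD).symm.toLinearMap

lemma coe_compD (hD : DirectSum.IsInternal D) (i : Fin t) (x : V) :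
    ((compD hD i x : D i) : V) = comp hD i x := rfl

section Coord

variable {m : ℕ} (hD : DirectSum.IsInternal D) (bD : ∀ i, Module.Basis (Fin m) F (D i))

/-- Coordinates with respect to bases of the members of the decomposition. -/
noncomputable def coord (i : Fin t) (j : Fin m) : V →ₗ[F] F :=
  (bD i).coord j ∘ₗ compD hD i

lemma comp_eq_sum_coord (i : Fin t) (x : V) :
    comp hD i x = ∑ j, coord hD bD i j x • ((bD i j : D i) : V) := by
  rw [← coe_compD]
  conv_lhs => rw [← (bD i).sum_repr (compD hD i x)]
  rw [Submodule.coe_sum]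
  rfl

lemma coord_basis (i i' : Fin t) (j j' : Fin m) :
    coord hD bD i j ((bD i' j' : D i') : V) = if i = i' ∧ j = j' then 1 else 0 := by
  by_cases hi : i = i'
  · subst hi
    have h1 : compD hD i ((bD i j' : D i) : V) = bD i j' := by
      apply Subtype.ext
      rw [coe_compD, comp_of_mem hD (Submodule.coe_mem _)]
    simp only [coord, LinearMap.comp_apply, h1, Module.Basis.coord_apply, Module.Basis.repr_self]
    by_cases hj : j = j'
    · subst hj; simp
    · simp [hj, Finsupp.single_apply, Ne.symm hj]
  · have h1 : compD hD i ((bD i' j' : D i') : V) = 0 := by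
      apply Subtype.ext
      rw [coe_compD, comp_of_mem_ne hD (Submodule.coe_mem _) (fun h => hi h.symm)]
      rfl
    simp [coord, h1, hi]

lemma comp_eq_zero_iff (i : Fin t) (x : V) :
    comp hD i x = 0 ↔ ∀ j, coord hD bD i j x = 0 := by
  rw [← coe_compD]
  constructor
  · intro h j
    have h' : compD hD i x = 0 := Subtype.ext h
    simp [coord, h']
  · intro h
    have h' : compD hD i x = 0 := by
      apply (bD i).repr.injective
      ext j
      simpa [coord] using h j
    rw [h']; rfl

end Coord

end Decomp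

section WtGroup

variable {ι : Type} [Fintype ι] [DecidableEq ι] {F : Type*} [Field F] {t : ℕ}
  {D : Fin t → Submodule F (ι → F)}

/-- The invertible matrices preserving the weight modulo the characteristic. -/
noncomputable def wtGroup (hD : DirectSum.IsInternal D) : Subgroup (GL ι F) where
  carrier := {g | ∀ x, ((wt hD ((g : Matrix ι ι F) *ᵥ x) : ℕ) : F) = (wt hD x : F)}
  mul_mem' {a b} ha hb := by
    intro x
    rw [Units.val_mul, ← Matrix.mulVec_mulVec, ha, hb]
  one_mem' := by
    intro x
    simp
  inv_mem' {a} ha := by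
    intro x
    have h := ha (((a⁻¹ : GL ι F) : Matrix ι ι F) *ᵥ x)
    rw [Matrix.mulVec_mulVec, ← Units.val_mul, mul_inv_cancel, Units.val_one, Matrix.one_mulVec] at h
    exact h.symm

lemma mem_wtGroup_iff (hD : DirectSum.IsInternal D) (g : GL ι F) :
    g ∈ wtGroup hD ↔ ∀ x, ((wt hD ((g : Matrix ι ι F) *ᵥ x) : ℕ) : F) = (wt hD x : F) := Iff.rfl

/-- Elements of the decomposition stabiliser preserve the weight exactly. -/
lemma wt_of_mem_decompositionStabilizer (hD : DirectSum.IsInternal D) {g : GL ι F}
    (hg : g ∈ decompositionStabilizer D) (x : ι → F) :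
    wt hD ((g : Matrix ι ι F) *ᵥ x) = wt hD x := by
  obtain ⟨σ, hσ⟩ := hg
  have := wt_perm hD (Matrix.toLin' (g : Matrix ι ι F)) (by
    intro v w h
    simp only [Matrix.toLin'_apply] at h
    exact mulVec_injective g h) σ hσ x
  simpa [Matrix.toLin'_apply] using this

lemma decompositionStabilizer_le_wtGroup (hD : DirectSum.IsInternal D) :
    decompositionStabilizer D ≤ wtGroup hD := by
  intro g hg x
  rw [wt_of_mem_decompositionStabilizer hD hg x]

end WtGroup

end Cfsg.Agent.H95
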