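import Cfsg.Agent.H95.Basic
import Cfsg.Agent.H45.SLGen
import Cfsg.Agent.H17.Forms

set_option autoImplicit false

namespace Cfsg.Agent.H95

open Cfsg Cfsg.Geo
open scoped MatrixGroups Matrix

section SLMax

variable {ι : Type} [Fintype ι] [DecidableEq ι] {F : Type*} [Field F]

/-- Two elements of `GL` with the same action on vectors are equal. -/
lemma gl_ext {g h : GL ι F}
    (H : ∀ x, (g : Matrix ι ι F) *ᵥ x = (h : Matrix ι ι F) *ᵥ x) : g = h := by
  apply Units.ext
  ext i j
  have := congrFun (H (Pi.single j 1)) i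
  simpa [Matrix.mulVec_single_one] using this

/-- The general transvection `x ↦ x + φ(x) u` (with `φ(u) = 0`) as an element of `GL`. -/
noncomputable def tvGL (u : ι → F) (φ : (ι → F) →ₗ[F] F) (h : φ u = 0) : GL ι F :=
  glOf (LinearEquiv.transvection h)

lemma tvGL_mulVec (u : ι → F) (φ : (ι → F) →ₗ[F] F) (h : φ u = 0) (x : ι → F) :
    ((tvGL u φ h : GL ι F) : Matrix ι ι F) *ᵥ x = x + φ x • u := by
  rw [tvGL, glOf_mulVec, LinearEquiv.transvection.apply]

lemma tvGL_mem_specialLinear (u : ι → F) (φ : (ι → F) →ₗ[F] F) (h : φ u = 0) :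
    tvGL u φ h ∈ specialLinear ι F :=
  glOf_mem_specialLinear _ (by simp)

/-- A subgroup containing all transvections contains the special linear group. -/
theorem specialLinear_le_of_tv (M : Subgroup (GL ι F))
    (h : ∀ (u : ι → F) (φ : (ι → F) →ₗ[F] F) (hφ : φ u = 0), tvGL u φ hφ ∈ M) :
    specialLinear ι F ≤ M := by
  intro g hg
  have hdet : (g : Matrix ι ι F).det = 1 := (mem_specialLinear_iff g).mp hg
  have hle : H45.elemSubgroup ι F ≤ M.comap Matrix.SpecialLinearGroup.toGL := by
    unfold H45.elemSubgroup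
    rw [Subgroup.closure_le]
    rintro A ⟨i, j, hij, c, rfl⟩
    show Matrix.SpecialLinearGroup.toGL (Matrix.SpecialLinearGroup.transvection hij c) ∈ M
    have : Matrix.SpecialLinearGroup.toGL (Matrix.SpecialLinearGroup.transvection hij c) =
        tvGL (Pi.single i 1) (c • LinearMap.proj j) (by simp [hij.symm]) := by
      apply gl_ext
      intro x
      rw [tvGL_mulVec]
      show (Matrix.transvection i j c) *ᵥ x = _
      rw [Matrix.transvection, Matrix.add_mulVec, Matrix.one_mulVec]
      congr 1
      ext k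
      simp [Matrix.mulVec, dotProduct, Matrix.single_apply, Pi.single_apply]
      by_cases hk : k = i
      · subst hk
        simp
      · simp [hk, Ne.symm hk]
    rw [this]
    exact h _ _ _
  have hmem : (⟨(g : Matrix ι ι F), hdet⟩ : Matrix.SpecialLinearGroup ι F) ∈
      M.comap Matrix.SpecialLinearGroup.toGL := by
    apply hle
    rw [H45.elemSubgroup_eq_top]
    trivial
  have h2 : Matrix.SpecialLinearGroup.toGL (⟨(g : Matrix ι ι F), hdet⟩ :
      Matrix.SpecialLinearGroup ι F) = g := Units.ext rfl
  rw [← h2]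
  exact hmem

end SLMax

end Cfsg.Agent.H95
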