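import Cfsg.Agent.H95.SpMax
import Cfsg.Agent.H95.Decomp
import Cfsg.Agent.H17.AltBasis
import Cfsg.Agent.H17.SpBlock

set_option autoImplicit false

namespace Cfsg.Agent.H95

open Cfsg Cfsg.Geo
open scoped MatrixGroups Matrix

section DecompStab

variable {ι : Type} [Fintype ι] [DecidableEq ι] {F : Type*} [Field F] {t : ℕ}

/-- An invertible matrix mapping each member of an equidimensional decomposition into some member
stabilises the decomposition. -/
lemma mem_decompositionStabilizer_of_forall {k : ℕ} {D : Fin t → Submodule F (ι → F)}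
    (hD : IsMDecomposition k D) (g : GL ι F)
    (h : ∀ i, ∃ j, ∀ x ∈ D i, (g : Matrix ι ι F) *ᵥ x ∈ D j) :
    g ∈ decompositionStabilizer D := by
  classical
  choose σ hσ using h
  have hginj : Function.Injective (Matrix.toLin' (g : Matrix ι ι F)) := by
    intro v w hvw
    simp only [Matrix.toLin'_apply] at hvw
    exact mulVec_injective g hvw
  have hmap : ∀ i, (D i).map (Matrix.toLin' (g : Matrix ι ι F)) = D (σ i) := by
    intro i
    have hle : (D i).map (Matrix.toLin' (g : Matrix ι ι F)) ≤ D (σ i) := by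
      rintro _ ⟨x, hx, rfl⟩
      rw [Matrix.toLin'_apply]
      exact hσ i x hx
    apply Submodule.eq_of_le_of_finrank_eq hle
    rw [hD.finrank_eq, ← hD.finrank_eq i]
    exact LinearEquiv.finrank_eq (Submodule.equivMapOfInjective _ hginj (D i)).symm
  have hinj : Function.Injective σ := by
    intro i i' hii
    by_contra hne
    have h1 : (D i).map (Matrix.toLin' (g : Matrix ι ι F)) =
        (D i').map (Matrix.toLin' (g : Matrix ι ι F)) := by
      rw [hmap, hmap, hii]
    have h2 : D i = D i' := Submodule.map_injective_of_injective hginj h1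
    have h3 : Disjoint (D i) (D i') := hD.indep.pairwiseDisjoint hne
    rw [h2, disjoint_self] at h3
    have h5 := hD.finrank_eq i'
    rw [h3, finrank_bot] at h5
    exact hD.pos.ne' h5.symm
  exact ⟨Equiv.ofBijective σ (Finite.injective_iff_bijective.mp hinj), hmap⟩

end DecompStab

section SpDecomp

variable {m : ℕ} {F : Type*} [Field F] {t : ℕ} {D : Fin t → Submodule F (Fin m ⊕ Fin m → F)}

lemma sympForm_comp_right (hI : DirectSum.IsInternal D)
    (horth : ∀ i j, i ≠ j → ∀ u ∈ D i, ∀ v ∈ D j, sympForm m F u v = 0)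
    {i : Fin t} {a : Fin m ⊕ Fin m → F} (ha : a ∈ D i) (x : Fin m ⊕ Fin m → F) :
    sympForm m F a x = sympForm m F a (comp hI i x) := by
  conv_lhs => rw [← sum_comp hI x]
  rw [sympForm_sum_right, Finset.sum_eq_single i]
  · intro j _ hji
    exact horth i j (Ne.symm hji) a ha _ (comp_mem hI j x)
  · intro h; exact absurd (Finset.mem_univ i) h

lemma sympForm_comp_left (hI : DirectSum.IsInternal D)
    (horth : ∀ i j, i ≠ j → ∀ u ∈ D i, ∀ v ∈ D j, sympForm m F u v = 0)
    {i : Fin t} {a : Fin m ⊕ Fin m → F} (ha : a ∈ D i) (x : Fin m ⊕ Fin m → F) :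
    sympForm m F x a = sympForm m F (comp hI i x) a := by
  rw [sympForm_skew, sympForm_comp_right hI horth ha, ← sympForm_skew]

lemma comp_eq_zero_of_orth (hI : DirectSum.IsInternal D)
    (horth : ∀ i j, i ≠ j → ∀ u ∈ D i, ∀ v ∈ D j, sympForm m F u v = 0) {i : Fin t}
    (hnd : ∀ a ∈ D i, a ≠ 0 → ∃ x ∈ D i, sympForm m F a x ≠ 0)
    {y : Fin m ⊕ Fin m → F} (hy : ∀ a ∈ D i, sympForm m F a y = 0) : comp hI i y = 0 := by
  by_contra hne
  obtain ⟨x, hx, hxy⟩ := hnd _ (comp_mem hI i y) hne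
  apply hxy
  rw [sympForm_skew, ← sympForm_comp_right hI horth hx, hy x hx, neg_zero]

/-- Hyperbolic coordinates on a subspace on which the symplectic form is nondegenerate. -/
theorem exists_hyp_coords (W : Submodule F (Fin m ⊕ Fin m → F))
    (hW : ∀ u ∈ W, (∀ v ∈ W, sympForm m F u v = 0) → u = 0) :
    ∃ (r : ℕ) (u : Fin r ⊕ Fin r → Fin m ⊕ Fin m → F)
      (κ : (Fin m ⊕ Fin m → F) →ₗ[F] (Fin r ⊕ Fin r → F)),
      (∀ a, u a ∈ W) ∧ (∀ a a', sympForm m F (u a) (u a') = Matrix.J (Fin r) F a a') ∧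
      (∀ w ∈ W, ∑ a, κ w a • u a = w) ∧ Module.finrank F W = 2 * r := by
  classical
  obtain ⟨BW, hBWdef⟩ : ∃ BW : LinearMap.BilinForm F W, BW = (H17.sympBilin m F).restrict W :=
    ⟨_, rfl⟩
  have hBW : ∀ x y : W, BW x y = sympForm m F (x : Fin m ⊕ Fin m → F) (y : Fin m ⊕ Fin m → F) := by
    intro x y
    rw [hBWdef, ← H17.sympBilin_apply]
    rfl
  have hAlt : BW.IsAlt := fun x => by rw [hBW]; exact sympForm_self _
  obtain ⟨k', ef, ff, h1, h2, h3, h4⟩ := H17.alt_hyp_aux _ W BW hAlt rfl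
  simp only [hBW] at h1 h2 h3 h4
  have hfe : ∀ i j, sympForm m F (ff j : Fin m ⊕ Fin m → F) (ef i : Fin m ⊕ Fin m → F) =
      if i = j then -1 else 0 := by
    intro i j
    rw [sympForm_skew, h1]
    split_ifs <;> simp
  obtain ⟨u, hudef⟩ : ∃ u : Fin k' ⊕ Fin k' → Fin m ⊕ Fin m → F,
      u = Sum.elim (fun i => (ff i : Fin m ⊕ Fin m → F)) (fun i => (ef i : Fin m ⊕ Fin m → F)) :=
    ⟨_, rfl⟩
  have hu : ∀ a, u a ∈ W := by
    rw [hudef]
    rintro (i | i)
    · exact (ff i).2
    · exact (ef i).2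
  have hG : ∀ a a', sympForm m F (u a) (u a') = Matrix.J (Fin k') F a a' := by
    rw [hudef]
    rintro (i | i) (j | j)
    · simp [Matrix.J, h3]
    · simp only [Sum.elim_inl, Sum.elim_inr, hfe, Matrix.J, Matrix.fromBlocks_apply₁₂,
        Matrix.neg_apply, Matrix.one_apply]
      by_cases hij : i = j
      · simp [hij]
      · simp [hij, Ne.symm hij]
    · simp [Matrix.J, h1, Matrix.one_apply]
    · simp [Matrix.J, h2]
  have hTW : ∀ c : Fin k' ⊕ Fin k' → F, ∑ a, c a • u a ∈ W := fun c =>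
    W.sum_mem (fun a _ => W.smul_mem _ (hu a))
  have hTinj : ∀ c : Fin k' ⊕ Fin k' → F, ∑ a, c a • u a = 0 → c = 0 := by
    intro c hc
    apply H17.sympForm_nd k' c
    intro c'
    rw [← H17.sympForm_gram m k' u hG, hc, sympForm_zero_right]
  obtain ⟨κ, hκ⟩ : ∃ κ : (Fin m ⊕ Fin m → F) →ₗ[F] (Fin k' ⊕ Fin k' → F), ∀ w, κ w = Sum.elim
      (fun i => -sympForm m F w (ef i : Fin m ⊕ Fin m → F))
      (fun i => sympForm m F w (ff i : Fin m ⊕ Fin m → F)) := by
    refine ⟨LinearMap.pi (Sum.elim (fun i => -(sympL (ef i : Fin m ⊕ Fin m → F)))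
      (fun i => sympL (ff i : Fin m ⊕ Fin m → F))), fun w => ?_⟩
    ext a
    rcases a with i | i <;> simp
  have hTsurj : ∀ w ∈ W, ∑ a, κ w a • u a = w := by
    intro w hw
    have hv' : w - ∑ a, κ w a • u a ∈ W := W.sub_mem hw (hTW _)
    have hzero : w - ∑ a, κ w a • u a = 0 := by
      apply hW _ hv'
      intro x hx
      refine h4 ⟨_, hv'⟩ (fun j => ?_) (fun j => ?_) ⟨x, hx⟩
      · show sympForm m F (ef j : Fin m ⊕ Fin m → F) (w - ∑ a, κ w a • u a) = 0
        rw [sympForm_sub_right, H17.sympForm_sum_right, Fintype.sum_sum_type, hudef, hκ]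
        simp only [Sum.elim_inl, Sum.elim_inr, h1, h2, mul_zero, Finset.sum_const_zero, add_zero,
          mul_ite, mul_one, Finset.sum_ite_eq, Finset.mem_univ, if_true]
        rw [sympForm_skew w]
        ring
      · show sympForm m F (ff j : Fin m ⊕ Fin m → F) (w - ∑ a, κ w a • u a) = 0
        rw [sympForm_sub_right, H17.sympForm_sum_right, Fintype.sum_sum_type, hudef, hκ]
        simp only [Sum.elim_inl, Sum.elim_inr, h3, hfe, mul_zero, Finset.sum_const_zero, zero_add,
          mul_ite, mul_neg, mul_one, Finset.sum_ite_eq', Finset.mem_univ, if_true]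
        rw [sympForm_skew w]
        ring
    exact (sub_eq_zero.mp hzero).symm
  refine ⟨k', u, κ, hu, hG, hTsurj, ?_⟩
  have hT : ∀ c, Fintype.linearCombination F u c = ∑ a, c a • u a := fun c =>
    Fintype.linearCombination_apply F u c
  have hrange : LinearMap.range (Fintype.linearCombination F u) = W := by
    ext w
    constructor
    · rintro ⟨c, rfl⟩
      rw [hT]
      exact hTW c
    · intro hw
      exact ⟨κ w, by rw [hT, hTsurj w hw]⟩
  have hinj : Function.Injective (Fintype.linearCombination F u) := by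
    rw [← LinearMap.ker_eq_bot, LinearMap.ker_eq_bot']
    intro c hc
    rw [hT] at hc
    exact hTinj c hc
  have h5 := LinearMap.finrank_range_of_inj hinj
  rw [hrange, Module.finrank_pi, Fintype.card_sum, Fintype.card_fin] at h5
  omega

lemma sympForm_three {rx ry a a' b b' : Fin m ⊕ Fin m → F}
    (h1 : sympForm m F rx a' = 0) (h2 : sympForm m F rx b' = 0) (h3 : sympForm m F a ry = 0)
    (h4 : sympForm m F b ry = 0) (h5 : sympForm m F a b' = 0) (h6 : sympForm m F b a' = 0) :
    sympForm m F (rx + a + b) (ry + a' + b') =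
      sympForm m F rx ry + sympForm m F a a' + sympForm m F b b' := by
  simp only [sympForm_add_left, sympForm_add_right, h1, h2, h3, h4, h5, h6]
  ring

/-- For a nondegenerate decomposition, some symplectic isometry interchanges two given members
and stabilises all the others. -/
theorem exists_block_swap {k : ℕ} (hD : IsNondegenerateMDecomposition (sympForm m F) k D)
    {i l : Fin t} (hil : i ≠ l) :
    ∃ τ : GL (Fin m ⊕ Fin m) F, τ ∈ spGL m F ∧ τ ∈ decompositionStabilizer D ∧
      ∀ j, ∀ x ∈ D j, (τ : Matrix (Fin m ⊕ Fin m) (Fin m ⊕ Fin m) F) *ᵥ x ∈ D (Equiv.swap i l j) := by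
  classical
  have hdec := hD.decomp
  have hI : DirectSum.IsInternal D :=
    DirectSum.isInternal_submodule_of_iSupIndep_of_iSup_eq_top hdec.indep hdec.iSup_eq_top
  have horth : ∀ i j, i ≠ j → ∀ u ∈ D i, ∀ v ∈ D j, sympForm m F u v = 0 := hD.orthogonal
  have hnd : ∀ j, ∀ a ∈ D j, a ≠ 0 → ∃ x ∈ D j, sympForm m F a x ≠ 0 :=
    fun j a ha ha0 => (hD.nondegenerate j a ha ha0).2
  have hnd' : ∀ j, ∀ u ∈ D j, (∀ v ∈ D j, sympForm m F u v = 0) → u = 0 := by
    intro j u hu h
    by_contra hne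
    obtain ⟨x, hx, hxu⟩ := hnd j u hu hne
    exact hxu (h x hx)
  obtain ⟨r, u, κ, hu, hG, hκ, hfin⟩ := exists_hyp_coords (D i) (hnd' i)
  obtain ⟨r', u', κ', hu', hG', hκ', hfin'⟩ := exists_hyp_coords (D l) (hnd' l)
  have hrr : r' = r := by
    have h1 := hdec.finrank_eq i
    have h2 := hdec.finrank_eq l
    omega
  subst hrr
  obtain ⟨φ, hφ⟩ : ∃ φ : (Fin m ⊕ Fin m → F) →ₗ[F] (Fin m ⊕ Fin m → F),
      ∀ x, φ x = ∑ a, κ x a • u' a :=
    ⟨Fintype.linearCombination F u' ∘ₗ κ, fun x => by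
      rw [LinearMap.comp_apply, Fintype.linearCombination_apply]⟩
  obtain ⟨φ', hφ'⟩ : ∃ φ' : (Fin m ⊕ Fin m → F) →ₗ[F] (Fin m ⊕ Fin m → F),
      ∀ x, φ' x = ∑ a, κ' x a • u a :=
    ⟨Fintype.linearCombination F u ∘ₗ κ', fun x => by
      rw [LinearMap.comp_apply, Fintype.linearCombination_apply]⟩
  have hφD : ∀ x, φ x ∈ D l := fun x => by
    rw [hφ]; exact (D l).sum_mem (fun a _ => (D l).smul_mem _ (hu' a))
  have hφ'D : ∀ x, φ' x ∈ D i := fun x => by
    rw [hφ']; exact (D i).sum_mem (fun a _ => (D i).smul_mem _ (hu a))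
  have hφiso : ∀ a ∈ D i, ∀ b ∈ D i, sympForm m F (φ a) (φ b) = sympForm m F a b := by
    intro a ha b hb
    rw [hφ, hφ, H17.sympForm_gram m r' u' hG']
    conv_rhs => rw [← hκ a ha, ← hκ b hb]
    rw [H17.sympForm_gram m r' u hG]
  have hφ'iso : ∀ a ∈ D l, ∀ b ∈ D l, sympForm m F (φ' a) (φ' b) = sympForm m F a b := by
    intro a ha b hb
    rw [hφ', hφ', H17.sympForm_gram m r' u hG]
    conv_rhs => rw [← hκ' a ha, ← hκ' b hb]
    rw [H17.sympForm_gram m r' u' hG']
  obtain ⟨T, hT⟩ : ∃ T : (Fin m ⊕ Fin m → F) →ₗ[F] (Fin m ⊕ Fin m → F),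
      ∀ x, T x = x - comp hI i x - comp hI l x + φ (comp hI i x) + φ' (comp hI l x) :=
    ⟨LinearMap.id - comp hI i - comp hI l + φ ∘ₗ comp hI i + φ' ∘ₗ comp hI l, fun x => by simp⟩
  have hr_i : ∀ x, comp hI i (x - comp hI i x - comp hI l x) = 0 := by
    intro x
    rw [map_sub, map_sub, comp_of_mem hI (comp_mem hI i x),
      comp_of_mem_ne hI (comp_mem hI l x) (Ne.symm hil)]
    simp
  have hr_l : ∀ x, comp hI l (x - comp hI i x - comp hI l x) = 0 := by
    intro x
    rw [map_sub, map_sub, comp_of_mem hI (comp_mem hI l x),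
      comp_of_mem_ne hI (comp_mem hI i x) hil]
    simp
  have hrD_i : ∀ x, ∀ d ∈ D i, sympForm m F (x - comp hI i x - comp hI l x) d = 0 := by
    intro x d hd
    rw [sympForm_comp_left hI horth hd, hr_i, sympForm_zero_left]
  have hrD_l : ∀ x, ∀ d ∈ D l, sympForm m F (x - comp hI i x - comp hI l x) d = 0 := by
    intro x d hd
    rw [sympForm_comp_left hI horth hd, hr_l, sympForm_zero_left]
  have hDr_i : ∀ x, ∀ d ∈ D i, sympForm m F d (x - comp hI i x - comp hI l x) = 0 := by
    intro x d hd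
    rw [sympForm_skew, hrD_i x d hd, neg_zero]
  have hDr_l : ∀ x, ∀ d ∈ D l, sympForm m F d (x - comp hI i x - comp hI l x) = 0 := by
    intro x d hd
    rw [sympForm_skew, hrD_l x d hd, neg_zero]
  have hiso : ∀ x y, sympForm m F (T x) (T y) = sympForm m F x y := by
    intro x y
    have hx : x = (x - comp hI i x - comp hI l x) + comp hI i x + comp hI l x := by abel
    have hy : y = (y - comp hI i y - comp hI l y) + comp hI i y + comp hI l y := by abel
    rw [hT, hT, sympForm_three (hrD_l x _ (hφD _)) (hrD_i x _ (hφ'D _)) (hDr_l y _ (hφD _))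
      (hDr_i y _ (hφ'D _)) (horth l i (Ne.symm hil) _ (hφD _) _ (hφ'D _))
      (horth i l hil _ (hφ'D _) _ (hφD _)),
      hφiso _ (comp_mem hI i x) _ (comp_mem hI i y), hφ'iso _ (comp_mem hI l x) _ (comp_mem hI l y)]
    conv_rhs => rw [hx, hy]
    rw [sympForm_three (hrD_i x _ (comp_mem hI i y)) (hrD_l x _ (comp_mem hI l y))
      (hDr_i y _ (comp_mem hI i x)) (hDr_l y _ (comp_mem hI l x))
      (horth i l hil _ (comp_mem hI i x) _ (comp_mem hI l y))
      (horth l i (Ne.symm hil) _ (comp_mem hI l x) _ (comp_mem hI i y))]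
  have hTinj : Function.Injective T := by
    rw [← LinearMap.ker_eq_bot, LinearMap.ker_eq_bot']
    intro x hx
    apply H17.sympForm_nd m x
    intro c
    rw [← hiso, hx, sympForm_zero_right]
  have hTD : ∀ j, ∀ x ∈ D j, T x ∈ D (Equiv.swap i l j) := by
    intro j x hx
    rw [hT]
    by_cases hji : j = i
    · rw [hji] at hx ⊢
      rw [comp_of_mem hI hx, comp_of_mem_ne hI hx hil, Equiv.swap_apply_left, map_zero]
      simp only [sub_self, zero_sub, neg_zero, zero_add, add_zero, sub_zero]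
      exact hφD x
    · by_cases hjl : j = l
      · rw [hjl] at hx ⊢
        rw [comp_of_mem hI hx, comp_of_mem_ne hI hx (Ne.symm hil), Equiv.swap_apply_right, map_zero]
        simp only [sub_self, zero_sub, neg_zero, zero_add, add_zero, sub_zero]
        exact hφ'D x
      · rw [comp_of_mem_ne hI hx hji, comp_of_mem_ne hI hx hjl,
          Equiv.swap_apply_of_ne_of_ne hji hjl, map_zero, map_zero]
        simpa using hx
  have hval : ∀ x, ((glOf (LinearEquiv.ofInjectiveEndo T hTinj) : GL (Fin m ⊕ Fin m) F) :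
      Matrix (Fin m ⊕ Fin m) (Fin m ⊕ Fin m) F) *ᵥ x = T x := by
    intro x
    rw [glOf_mulVec]
    rfl
  refine ⟨glOf (LinearEquiv.ofInjectiveEndo T hTinj), ?_, ?_, ?_⟩
  · intro x y
    show sympForm m F ((glOf (LinearEquiv.ofInjectiveEndo T hTinj) : GL (Fin m ⊕ Fin m) F).1 *ᵥ x)
      ((glOf (LinearEquiv.ofInjectiveEndo T hTinj) : GL (Fin m ⊕ Fin m) F).1 *ᵥ y) = _
    rw [hval, hval]
    exact hiso x y
  · apply mem_decompositionStabilizer_of_forall hdec
    intro j
    refine ⟨Equiv.swap i l j, fun x hx => ?_⟩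
    rw [hval]
    exact hTD j x hx
  · intro j x hx
    rw [hval]
    exact hTD j x hx

end SpDecomp

end Cfsg.Agent.H95
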