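import Cfsg.Agent.H95.PairGeo
import Cfsg.Agent.H95.SpDecomp

set_option autoImplicit false
set_option linter.unusedSectionVars false
set_option linter.unusedVariables false

/-! Helper lemmas (helper95): in `Sp_2m(q)`, `q` odd, the stabiliser of a pair of complementary
maximal totally isotropic subspaces is maximal (core argument). -/

namespace Cfsg.Agent.H95

open Cfsg Cfsg.Geo Module
open scoped MatrixGroups Matrix

section PairSp

variable {m : ℕ} {F : Type*} [Field F]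

/-- The map `x ↦ x + f(x,y) a + f(x,a) y + c f(x,a) a`. -/
def spS (a y : Fin m ⊕ Fin m → F) (c : F) (x : Fin m ⊕ Fin m → F) : Fin m ⊕ Fin m → F :=
  x + sympForm m F x y • a + sympForm m F x a • y + (c * sympForm m F x a) • a

lemma spS_comp (a y₁ y₂ : Fin m ⊕ Fin m → F) (c₁ c₂ : F) (x : Fin m ⊕ Fin m → F)
    (h1 : sympForm m F a y₁ = 0) (h2 : sympForm m F a y₂ = 0) :
    spS a y₁ c₁ (spS a y₂ c₂ x) = spS a (y₁ + y₂) (c₁ + c₂ + sympForm m F y₂ y₁) x := by
  have h2' : sympForm m F y₂ a = 0 := by rw [sympForm_skew, h2, neg_zero]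
  unfold spS
  simp only [sympForm_add_left, sympForm_add_right, sympForm_smul_left, sympForm_self, h1, h2',
    mul_zero, add_zero]
  module

lemma spS_transv (a z : Fin m ⊕ Fin m → F) (C d : F) (x : Fin m ⊕ Fin m → F)
    (h : sympForm m F a z = 0) :
    spS a z C (x + (d * sympForm m F x a) • a) = spS a z (C + d) x := by
  unfold spS
  simp only [sympForm_add_left, sympForm_smul_left, sympForm_self, h, mul_zero, add_zero]
  module

/-- `y` is a direction at `a` for `M`: `M` contains maps `spS a (t y) c` for all `t`. -/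
def spDir (M : Subgroup (GL (Fin m ⊕ Fin m) F)) (a y : Fin m ⊕ Fin m → F) : Prop :=
  sympForm m F a y = 0 ∧ ∀ t : F, ∃ c : F, ∃ g ∈ M, ∀ x,
    (g : Matrix (Fin m ⊕ Fin m) (Fin m ⊕ Fin m) F) *ᵥ x = spS a (t • y) c x

lemma spDir_add {M : Subgroup (GL (Fin m ⊕ Fin m) F)} {a y₁ y₂ : Fin m ⊕ Fin m → F}
    (h1 : spDir M a y₁) (h2 : spDir M a y₂) : spDir M a (y₁ + y₂) := by
  refine ⟨by rw [sympForm_add_right, h1.1, h2.1, add_zero], fun t => ?_⟩
  obtain ⟨c₁, g₁, hg₁, e₁⟩ := h1.2 t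
  obtain ⟨c₂, g₂, hg₂, e₂⟩ := h2.2 t
  refine ⟨c₁ + c₂ + sympForm m F (t • y₂) (t • y₁), g₁ * g₂, M.mul_mem hg₁ hg₂, fun x => ?_⟩
  rw [Units.val_mul, ← Matrix.mulVec_mulVec, e₂, e₁, smul_add]
  exact spS_comp a _ _ c₁ c₂ x (by rw [sympForm_smul_right, h1.1, mul_zero])
    (by rw [sympForm_smul_right, h2.1, mul_zero])

lemma spDir_smul {M : Subgroup (GL (Fin m ⊕ Fin m) F)} {a y : Fin m ⊕ Fin m → F} (r : F)
    (h : spDir M a y) : spDir M a (r • y) := by
  refine ⟨by rw [sympForm_smul_right, h.1, mul_zero], fun t => ?_⟩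
  obtain ⟨c, g, hg, e⟩ := h.2 (t * r)
  exact ⟨c, g, hg, fun x => by rw [e, smul_smul]⟩

lemma spDir_sub {M : Subgroup (GL (Fin m ⊕ Fin m) F)} {a y₁ y₂ : Fin m ⊕ Fin m → F}
    (h1 : spDir M a y₁) (h2 : spDir M a y₂) : spDir M a (y₁ - y₂) := by
  have := spDir_add h1 (spDir_smul (-1) h2)
  rwa [neg_one_smul, ← sub_eq_add_neg] at this

lemma spDir_conj {M : Subgroup (GL (Fin m ⊕ Fin m) F)} {h : GL (Fin m ⊕ Fin m) F}
    (hhM : h ∈ M) (hh : h ∈ spGL m F) {a y : Fin m ⊕ Fin m → F} (hd : spDir M a y) :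
    spDir M ((h : Matrix (Fin m ⊕ Fin m) (Fin m ⊕ Fin m) F) *ᵥ a)
      ((h : Matrix (Fin m ⊕ Fin m) (Fin m ⊕ Fin m) F) *ᵥ y) := by
  refine ⟨?_, fun t => ?_⟩
  · have := hh a y
    exact this.trans hd.1
  · obtain ⟨c, g, hg, e⟩ := hd.2 t
    refine ⟨c, h * g * h⁻¹, M.mul_mem (M.mul_mem hhM hg) (M.inv_mem hhM), fun x => ?_⟩
    rw [Units.val_mul, Units.val_mul, ← Matrix.mulVec_mulVec, ← Matrix.mulVec_mulVec, e]
    unfold spS
    simp only [Matrix.mulVec_add, Matrix.mulVec_smul, spGL_inv_form hh]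
    rw [Matrix.mulVec_mulVec, ← Units.val_mul, mul_inv_cancel, Units.val_one, Matrix.one_mulVec]

/-- An element of `Sp` acting as `spS a y 0`. -/
noncomputable def spEl (a y : Fin m ⊕ Fin m → F) : GL (Fin m ⊕ Fin m) F :=
  sympTransv (a + y) 1 * sympTransv a (-1) * sympTransv y (-1)

lemma spEl_mem (a y : Fin m ⊕ Fin m → F) : spEl a y ∈ spGL m F :=
  (spGL m F).mul_mem ((spGL m F).mul_mem (sympTransv_mem_spGL _ _) (sympTransv_mem_spGL _ _))
    (sympTransv_mem_spGL _ _)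

lemma spEl_mulVec (a y x : Fin m ⊕ Fin m → F) (h : sympForm m F a y = 0) :
    ((spEl a y : GL (Fin m ⊕ Fin m) F) : Matrix (Fin m ⊕ Fin m) (Fin m ⊕ Fin m) F) *ᵥ x
      = spS a y 0 x := by
  have h' : sympForm m F y a = 0 := by rw [sympForm_skew, h, neg_zero]
  unfold spEl spS
  rw [Units.val_mul, Units.val_mul, ← Matrix.mulVec_mulVec, ← Matrix.mulVec_mulVec,
    sympTransv_mulVec, sympTransv_mulVec, sympTransv_mulVec]
  simp only [sympForm_add_left, sympForm_add_right, sympForm_smul_left, sympForm_self, h, h',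
    mul_zero, add_zero, zero_mul]
  module

lemma transvCenters_smul {M : Subgroup (GL (Fin m ⊕ Fin m) F)} {v : Fin m ⊕ Fin m → F}
    (hv : v ∈ transvCenters M) (r : F) : r • v ∈ transvCenters M := by
  intro c
  have : sympTransv (r • v) c = sympTransv v (r * r * c) := by
    apply Units.ext
    apply H17.matrix_ext_mulVec
    intro x
    rw [sympTransv_mulVec, sympTransv_mulVec, sympForm_smul_right, smul_smul]
    congr 2
    ring
  rw [this]
  exact hv _

/-- Two directions at `a` with non-zero form value give all transvections at `a`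
(characteristic not two). -/
lemma transvCenters_of_spDir (h2 : (2 : F) ≠ 0) {M : Subgroup (GL (Fin m ⊕ Fin m) F)}
    {a y y' : Fin m ⊕ Fin m → F} (hy : spDir M a y) (hy' : spDir M a y')
    (hne : sympForm m F y y' ≠ 0) : a ∈ transvCenters M := by
  intro c
  obtain ⟨t, ht⟩ : ∃ t : F, -(2 * t * sympForm m F y y') = c :=
    ⟨-c / (2 * sympForm m F y y'), by field_simp⟩
  obtain ⟨c₁, g₁, hg₁, e₁⟩ := hy.2 t
  obtain ⟨c₂, g₂, hg₂, e₂⟩ := hy'.2 1
  have hay : sympForm m F a (t • y) = 0 := by rw [sympForm_smul_right, hy.1, mul_zero]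
  have hay' : sympForm m F a ((1 : F) • y') = 0 := by
    rw [sympForm_smul_right, hy'.1, mul_zero]
  have key : g₁ * g₂ = g₂ * g₁ * sympTransv a c := by
    apply Units.ext
    apply H17.matrix_ext_mulVec
    intro x
    have L : ((g₁ * g₂ : GL (Fin m ⊕ Fin m) F) : Matrix (Fin m ⊕ Fin m) (Fin m ⊕ Fin m) F) *ᵥ x
        = spS a (t • y + (1 : F) • y') (c₁ + c₂ + sympForm m F ((1 : F) • y') (t • y)) x := by
      rw [Units.val_mul, ← Matrix.mulVec_mulVec, e₂, e₁]
      exact spS_comp a _ _ c₁ c₂ x hay hay'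
    have R : ((g₂ * g₁ * sympTransv a c : GL (Fin m ⊕ Fin m) F) :
        Matrix (Fin m ⊕ Fin m) (Fin m ⊕ Fin m) F) *ᵥ x
        = spS a ((1 : F) • y' + t • y) (c₂ + (c₁ + c) + sympForm m F (t • y) ((1 : F) • y')) x := by
      rw [Units.val_mul, Units.val_mul, ← Matrix.mulVec_mulVec, ← Matrix.mulVec_mulVec,
        sympTransv_mulVec, e₁, e₂, spS_transv a _ c₁ c x hay]
      exact spS_comp a _ _ c₂ (c₁ + c) x hay' hay
    rw [L, R, add_comm ((1 : F) • y') (t • y)]
    congr 1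
    rw [sympForm_smul_left, sympForm_smul_right, sympForm_smul_left, sympForm_smul_right,
      sympForm_skew y' y, ← ht]
    ring
  have e3 : sympTransv a c = (g₂ * g₁)⁻¹ * (g₁ * g₂) := by
    rw [key]
    group
  rw [e3]
  exact M.mul_mem (M.inv_mem (M.mul_mem hg₂ hg₁)) (M.mul_mem hg₁ hg₂)

lemma finrank_sp : finrank F (Fin m ⊕ Fin m → F) = 2 * m := by
  rw [Module.finrank_fintype_fun_eq_card, Fintype.card_sum, Fintype.card_fin]
  ring

lemma symp_hsub : ∀ v w e : Fin m ⊕ Fin m → F,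
    sympL (v - w) e = sympL v e - sympL w e := by
  intro v w e
  rw [sympL_apply, sympL_apply, sympL_apply, sympForm_sub_right]

lemma symp_hsm : ∀ (c : F) (w : Fin m ⊕ Fin m → F), ∃ c' : F, ∀ e : Fin m ⊕ Fin m → F,
    sympL (c' • w) e = c * sympL w e :=
  fun c w => ⟨c, fun e => by rw [sympL_apply, sympL_apply, sympForm_smul_right]⟩

lemma symp_hND (P P' : Submodule F (Fin m ⊕ Fin m → F))
    (hP : IsTotallySingularFor (sympForm m F) P) (hsup : P ⊔ P' = ⊤) :
    ∀ w ∈ P, (∀ e' ∈ P', sympL w e' = 0) → w = 0 := by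
  intro w hw h
  apply (H17.sympBilin_nondegenerate (F := F) m).1
  intro y
  rw [H17.sympBilin_apply]
  obtain ⟨p, hp, p', hp', rfl⟩ := Submodule.mem_sup.mp
    (show y ∈ P ⊔ P' by rw [hsup]; exact Submodule.mem_top)
  have h1 := h p' hp'
  rw [sympL_apply] at h1
  rw [sympForm_add_right, hP w hw p hp, zero_add, sympForm_skew, h1, neg_zero]

lemma pairSp_exists0 (P P' : Submodule F (Fin m ⊕ Fin m → F))
    (hP : IsTotallySingularFor (sympForm m F) P) (hsup : P ⊔ P' = ⊤)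
    (a : Fin m ⊕ Fin m → F) (ha : a ∈ P) (ha0 : a ≠ 0) :
    ∃ c' ∈ P', sympForm m F c' a ≠ 0 := by
  by_contra hcon
  push Not at hcon
  exact ha0 (symp_hND P P' hP hsup a ha (fun e' he' => by rw [sympL_apply]; exact hcon e' he'))

lemma pairSp_exists1 (P P' : Submodule F (Fin m ⊕ Fin m → F))
    (hP : IsTotallySingularFor (sympForm m F) P) (hsup : P ⊔ P' = ⊤)
    (s z : Fin m ⊕ Fin m → F) (hs : s ∈ P) (hz : z ∈ P) (hzs : z ∉ Submodule.span F {s}) :
    ∃ e' ∈ P', sympForm m F e' s = 0 ∧ sympForm m F e' z ≠ 0 :=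
  pair_exists1 (fun v => sympL v) P P' symp_hsub symp_hsm (symp_hND P P' hP hsup) s z hs hz hzs

lemma pairSp_existsV (P P' : Submodule F (Fin m ⊕ Fin m → F))
    (hP : IsTotallySingularFor (sympForm m F) P) (hP' : IsTotallySingularFor (sympForm m F) P')
    (hsup : P ⊔ P' = ⊤) (a z : Fin m ⊕ Fin m → F) (ha : a ∈ P)
    (hz : z ∉ P' ⊔ Submodule.span F {a}) :
    ∃ b' ∈ P', sympForm m F b' a = 0 ∧ sympForm m F b' z ≠ 0 :=
  pair_existsV (fun v => sympL v) P P' symp_hsub symp_hsm (symp_hND P P' hP hsup)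
    (fun u hu e he => hP' e he u hu) hsup a z ha hz

/-- Producing a transvection centre in `P`. -/
theorem pairSp_full (h2 : (2 : F) ≠ 0) (hm : 5 ≤ m)
    (P P' : Submodule F (Fin m ⊕ Fin m → F))
    (hP : IsTotallySingularFor (sympForm m F) P) (hP' : IsTotallySingularFor (sympForm m F) P')
    (dP : finrank F P = m) (dP' : finrank F P' = m) (hPP' : P ⊓ P' = ⊥)
    (M : Subgroup (GL (Fin m ⊕ Fin m) F)) (hMsp : M ≤ spGL m F)
    (hE : ∀ p ∈ P, ∀ p' ∈ P', sympForm m F p p' = 0 → spDir M p p')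
    (x x' : Fin m ⊕ Fin m → F) (hxx' : spDir M x x') (hxP' : x ∉ P')
    (hx' : x' ∉ P' ⊔ Submodule.span F {x}) :
    ∃ a ∈ P, a ≠ 0 ∧ a ∈ transvCenters M := by
  have hV : finrank F (Fin m ⊕ Fin m → F) = 2 * m := finrank_sp
  have hsup : P ⊔ P' = ⊤ := sup_eq_top_of_inf_bot hV P P' dP dP' hPP'
  obtain ⟨a, haP, ha0, hxa, hx'a, hind⟩ := pairgeo_two hm hV P P' dP dP' hPP' x x' hxP' hx'
    (sympL x) (sympL x')
  rw [sympL_apply] at hxa hx'a
  have hxna : x ∉ P' ⊔ Submodule.span F {a} := by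
    intro h
    have := hind 1 0 (by rw [one_smul, zero_smul, add_zero]; exact h)
    exact one_ne_zero this.1
  obtain ⟨b', hb'P', hb'a, hb'x⟩ := pairSp_existsV P P' hP hP' hsup a x haP hxna
  obtain ⟨c, τ, hτM, hτ⟩ := hxx'.2 1
  have hτa : (τ : Matrix (Fin m ⊕ Fin m) (Fin m ⊕ Fin m) F) *ᵥ a = a := by
    rw [hτ]
    unfold spS
    rw [one_smul, hxa, hx'a]
    simp
  obtain ⟨d, hd⟩ : ∃ d, d = sympForm m F b' x • x' +
      (sympForm m F b' x' + c * sympForm m F b' x) • x := ⟨_, rfl⟩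
  have hτb : (τ : Matrix (Fin m ⊕ Fin m) (Fin m ⊕ Fin m) F) *ᵥ b' = b' + d := by
    rw [hτ, hd]
    unfold spS
    rw [one_smul]
    module
  have hab' : sympForm m F a b' = 0 := by rw [sympForm_skew, hb'a, neg_zero]
  have h1 : spDir M a b' := hE a haP b' hb'P' hab'
  have h2' := spDir_conj hτM (hMsp hτM) h1
  rw [hτa, hτb] at h2'
  have h3 : spDir M a d := by
    have := spDir_sub h2' h1
    rwa [add_sub_cancel_left] at this
  have hdn : d ∉ P' ⊔ Submodule.span F {a} := by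
    intro h
    have h' := hind (sympForm m F b' x' + c * sympForm m F b' x) (sympForm m F b' x) (by
      have e : (sympForm m F b' x' + c * sympForm m F b' x) • x + sympForm m F b' x • x' = d := by
        rw [hd, add_comm]
      rw [e]; exact h)
    exact hb'x h'.2
  obtain ⟨y', hy'P', hy'a, hy'd⟩ := pairSp_existsV P P' hP hP' hsup a d haP hdn
  have hay' : sympForm m F a y' = 0 := by rw [sympForm_skew, hy'a, neg_zero]
  have h4 : spDir M a y' := hE a haP y' hy'P' hay'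
  refine ⟨a, haP, ha0, transvCenters_of_spDir h2 h3 h4 ?_⟩
  rw [sympForm_skew]
  exact neg_ne_zero.mpr hy'd

/-- A transvection centre in `P` spreads to all of `P`. -/
lemma transvCenters_spread (P P' : Submodule F (Fin m ⊕ Fin m → F))
    (hP : IsTotallySingularFor (sympForm m F) P) (hsup : P ⊔ P' = ⊤)
    (M : Subgroup (GL (Fin m ⊕ Fin m) F)) (hMsp : M ≤ spGL m F)
    (hE : ∀ p ∈ P, ∀ p' ∈ P', sympForm m F p p' = 0 → spDir M p p')
    (a : Fin m ⊕ Fin m → F) (haP : a ∈ P) (ha0 : a ≠ 0) (haC : a ∈ transvCenters M) :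
    ∀ p ∈ P, p ∈ transvCenters M := by
  intro p hp
  by_cases hcase : a ∈ Submodule.span F {p - a}
  · obtain ⟨t, ht⟩ := Submodule.mem_span_singleton.mp hcase
    have ht0 : t ≠ 0 := by
      rintro rfl
      rw [zero_smul] at ht
      exact ha0 ht.symm
    have e : p = (1 + t⁻¹) • a := by
      have h1 : t⁻¹ • a = p - a := by
        conv_lhs => rw [← ht]
        rw [smul_smul, inv_mul_cancel₀ ht0, one_smul]
      rw [add_smul, one_smul, h1]
      abel
    rw [e]
    exact transvCenters_smul haC _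
  · obtain ⟨e', he'P', he's, he'a⟩ := pairSp_exists1 P P' hP hsup (p - a) a (P.sub_mem hp haP) haP
      hcase
    have hae' : sympForm m F a e' ≠ 0 := by
      rw [sympForm_skew]
      exact neg_ne_zero.mpr he'a
    obtain ⟨c', hc'⟩ : ∃ c', c' = (sympForm m F a e')⁻¹ • (p - a) := ⟨_, rfl⟩
    have hc'P : c' ∈ P := by rw [hc']; exact P.smul_mem _ (P.sub_mem hp haP)
    have hc'e' : sympForm m F c' e' = 0 := by
      rw [hc', sympForm_smul_left, sympForm_skew (p - a) e', he's, neg_zero, mul_zero]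
    obtain ⟨c₀, g, hgM, hg⟩ := (hE c' hc'P e' he'P' hc'e').2 1
    have hga : (g : Matrix (Fin m ⊕ Fin m) (Fin m ⊕ Fin m) F) *ᵥ a = p := by
      rw [hg]
      unfold spS
      rw [one_smul, hP a haP c' hc'P, hc', smul_smul, mul_inv_cancel₀ hae']
      simp
    rw [← hga]
    exact transvCenters_mulVec hgM (hMsp hgM) haC

/-- From a transvection centre in `P` and an element of `M` mapping `P` into `P'`. -/
theorem pairSp_finish (P P' : Submodule F (Fin m ⊕ Fin m → F))
    (hP : IsTotallySingularFor (sympForm m F) P) (hP' : IsTotallySingularFor (sympForm m F) P')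
    (hsup : P ⊔ P' = ⊤)
    (M : Subgroup (GL (Fin m ⊕ Fin m) F)) (hMsp : M ≤ spGL m F)
    (hE : ∀ p ∈ P, ∀ p' ∈ P', sympForm m F p p' = 0 → spDir M p p')
    (hE' : ∀ p' ∈ P', ∀ p ∈ P, sympForm m F p' p = 0 → spDir M p' p)
    (s : GL (Fin m ⊕ Fin m) F) (hsM : s ∈ M)
    (hsP : ∀ x ∈ P, (s : Matrix (Fin m ⊕ Fin m) (Fin m ⊕ Fin m) F) *ᵥ x ∈ P')
    (a : Fin m ⊕ Fin m → F) (haP : a ∈ P) (ha0 : a ≠ 0) (haC : a ∈ transvCenters M) :
    spGL m F ≤ M := by
  have hsup' : P' ⊔ P = ⊤ := by rw [sup_comm]; exact hsup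
  have hPall := transvCenters_spread P P' hP hsup M hMsp hE a haP ha0 haC
  have ha₂0 : (s : Matrix (Fin m ⊕ Fin m) (Fin m ⊕ Fin m) F) *ᵥ a ≠ 0 := by
    intro h
    apply ha0
    apply mulVec_injective s
    simp only
    rw [h, Matrix.mulVec_zero]
  have hP'all := transvCenters_spread P' P hP' hsup' M hMsp hE' _ (hsP a haP) ha₂0
    (transvCenters_mulVec hsM (hMsp hsM) haC)
  have hsub : ∀ q ∈ P, ∀ q' ∈ P', sympForm m F q q' ≠ 0 → q + q' ∈ transvCenters M := by
    intro q hq q' hq' hne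
    have := transvCenters_transv (hP'all q' hq') (hPall q hq) (sympForm m F q q')⁻¹
    rwa [inv_mul_cancel₀ hne, one_smul] at this
  apply spGL_le_of_transv
  intro v
  obtain ⟨p, hp, p', hp', rfl⟩ := Submodule.mem_sup.mp
    (show v ∈ P ⊔ P' by rw [hsup]; exact Submodule.mem_top)
  by_cases h : sympForm m F p p' = 0
  · by_cases hp'0 : p' = 0
    · rw [hp'0, add_zero]
      exact hPall p hp
    · obtain ⟨r, hr, hrp'⟩ := pairSp_exists0 P' P hP' hsup' p' hp' hp'0
      have hu := hsub r hr p' hp' hrp'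
      have hw := hPall (p - r) (P.sub_mem hp hr)
      have hB : sympForm m F (p - r) (r + p') = - sympForm m F r p' := by
        rw [sympForm_sub_left, sympForm_add_right, sympForm_add_right, hP p hp r hr, h,
          sympForm_self]
        ring
      have := transvCenters_transv hu hw (- sympForm m F r p')⁻¹
      rw [hB, inv_mul_cancel₀ (neg_ne_zero.mpr hrp'), one_smul] at this
      have e : p - r + (r + p') = p + p' := by abel
      rw [e] at this
      exact this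
  · exact hsub p hp p' hp' h

/-- Core of the maximality of the stabiliser of a pair of complementary maximal totally
isotropic subspaces in the symplectic group, odd characteristic. -/
theorem pairSp_core (h2 : (2 : F) ≠ 0) (hm : 5 ≤ m)
    (U U' : Submodule F (Fin m ⊕ Fin m → F))
    (hU : IsTotallySingularFor (sympForm m F) U) (hU' : IsTotallySingularFor (sympForm m F) U')
    (dU : finrank F U = m) (dU' : finrank F U' = m) (hUU' : U ⊓ U' = ⊥)
    (M : Subgroup (GL (Fin m ⊕ Fin m) F)) (hMsp : M ≤ spGL m F)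
    (hE : ∀ p ∈ U, ∀ p' ∈ U', sympForm m F p p' = 0 → spDir M p p')
    (hE' : ∀ p' ∈ U', ∀ p ∈ U, sympForm m F p' p = 0 → spDir M p' p)
    (s : GL (Fin m ⊕ Fin m) F) (hsM : s ∈ M)
    (hsU : ∀ x ∈ U, (s : Matrix (Fin m ⊕ Fin m) (Fin m ⊕ Fin m) F) *ᵥ x ∈ U')
    (hsU' : ∀ x ∈ U', (s : Matrix (Fin m ⊕ Fin m) (Fin m ⊕ Fin m) F) *ᵥ x ∈ U)
    (x : Fin m ⊕ Fin m → F) (hxU : x ∉ U) (hxU' : x ∉ U')
    (X' : Submodule F (Fin m ⊕ Fin m → F)) (dX' : finrank F X' = m)
    (hX' : ∀ x' ∈ X', sympForm m F x x' = 0 → spDir M x x') :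
    spGL m F ≤ M := by
  have hV : finrank F (Fin m ⊕ Fin m → F) = 2 * m := finrank_sp
  have hsup : U ⊔ U' = ⊤ := sup_eq_top_of_inf_bot hV U U' dU dU' hUU'
  have hsup' : U' ⊔ U = ⊤ := by rw [sup_comm]; exact hsup
  have hU'U : U' ⊓ U = ⊥ := by rw [inf_comm]; exact hUU'
  obtain ⟨x', hx'X', hxx', hcases⟩ := pairgeo_one (by omega) hV U U' X' dU dU' dX' hUU' x hxU hxU'
    (sympL x)
  rw [sympL_apply] at hxx'
  have hdir : spDir M x x' := hX' x' hx'X' (by rw [sympForm_skew, hxx', neg_zero])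
  rcases hcases with hc | hc
  · obtain ⟨a, haU, ha0, haC⟩ := pairSp_full h2 hm U U' hU hU' dU dU' hUU' M hMsp hE x x' hdir
      hxU' hc
    exact pairSp_finish U U' hU hU' hsup M hMsp hE hE' s hsM hsU a haU ha0 haC
  · obtain ⟨a, haU, ha0, haC⟩ := pairSp_full h2 hm U' U hU' hU dU' dU hU'U M hMsp hE' x x' hdir
      hxU hc
    exact pairSp_finish U' U hU' hU hsup' M hMsp hE' hE s hsM hsU' a haU ha0 haC

end PairSp

end Cfsg.Agent.H95
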