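import Mathlib
import Cfsg.Agent.H14.OtDefs

/-!
# S5992 / S5993 team project (helper95): definitions and piece statements

Elements of prime order of `Ω_{2d+1}(q)`, `q` odd, and nondegenerate `m`-spaces (`m` even) of
plus (hyperbolic) or minus (elliptic) type.

Everything abstract is phrased with a symmetric bilinear form `B : V →ₗ[F] V →ₗ[F] F` (`2 ≠ 0`),
helper45's `perp B W` (`W` is nondegenerate iff `W ⊓ perp B W = ⊥`), helper42's `TI B U`,
`kk T W`, `cc F r`, `ii F r` and helper14's orthogonal context `OCtx r B T`.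

A type is prescribed by an arbitrary proposition `pl`: "`Plus B W ↔ pl`" reads "`W` is of plus
type" for `pl = True` and "`W` is of minus type" for `pl = False`.
-/

set_option autoImplicit false

namespace Cfsg.Agent.H95.Oh

open Cfsg.Agent.H45 Cfsg.Agent.H42.Spd Cfsg.Agent.H42.Ti Cfsg.Agent.H14.Ot Module

universe u v

section Basic

variable {F : Type u} [Field F] {V : Type v} [AddCommGroup V] [Module F V]

/-- `W` is of plus type: it contains a totally isotropic subspace of half its dimension. -/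
def Plus (B : V →ₗ[F] V →ₗ[F] F) (W : Submodule F V) : Prop :=
  ∃ U : Submodule F V, U ≤ W ∧ TI B U ∧ 2 * Module.finrank F U = Module.finrank F W

end Basic

/-- The subspaces of the frozen statements: nondegenerate `m`-spaces of the standard quadratic
space of dimension `2 d + 1`, of plus type iff `pl`. -/
def IsHE (F : Type u) [Field F] (d m : ℕ) (pl : Prop)
    (W : Submodule F (Unit ⊕ (Fin d ⊕ Fin d) → F)) : Prop :=
  Module.finrank F ↥W = m ∧
    Cfsg.Geo.IsNondegenerateOn (QuadraticMap.polar (Cfsg.quadFormOdd d F)) W ∧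
    (Cfsg.Geo.IsPlusTypeOn (Cfsg.quadFormOdd d F) W ↔ pl)

/-! ## Group G: quadratic spaces over a finite field of odd characteristic -/

/-- S5992-ORTHO: a nondegenerate subspace has an orthogonal basis of nonsingular vectors. -/
def StOrtho : Prop :=
  ∀ (F : Type u) [Field F] [Fintype F] (V : Type v) [AddCommGroup V] [Module F V]
    [FiniteDimensional F V] (B : V →ₗ[F] V →ₗ[F] F), (2 : F) ≠ 0 → (∀ x y, B x y = B y x) →
    ∀ W : Submodule F V, W ⊓ perp B W = ⊥ →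
    ∃ v : Fin (Module.finrank F W) → V, (∀ a, v a ∈ W) ∧ (∀ a b, a ≠ b → B (v a) (v b) = 0) ∧
      (∀ a, B (v a) (v a) ≠ 0) ∧ Submodule.span F (Set.range v) = W

/-- S5992-DISC: the span of `2 t` pairwise orthogonal nonsingular vectors is of plus type iff
`(-1) ^ t` times its discriminant is a square. -/
def StDisc : Prop :=
  ∀ (F : Type u) [Field F] [Fintype F] (V : Type v) [AddCommGroup V] [Module F V]
    [FiniteDimensional F V] (B : V →ₗ[F] V →ₗ[F] F), (2 : F) ≠ 0 → (∀ x y, B x y = B y x) →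
    ∀ (t : ℕ) (v : Fin (2 * t) → V), (∀ a b, a ≠ b → B (v a) (v b) = 0) →
      (∀ a, B (v a) (v a) ≠ 0) →
      (Plus B (Submodule.span F (Set.range v)) ↔ IsSquare ((-1 : F) ^ t * ∏ a, B (v a) (v a)))

/-- S5992-SUBDISC: a nondegenerate subspace `K` of dimension at least `b + 1` contains `b`
pairwise orthogonal nonsingular vectors with prescribed discriminant class. -/
def StSubDisc : Prop :=
  ∀ (F : Type u) [Field F] [Fintype F] (V : Type v) [AddCommGroup V] [Module F V]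
    [FiniteDimensional F V] (B : V →ₗ[F] V →ₗ[F] F), (2 : F) ≠ 0 → (∀ x y, B x y = B y x) →
    ∀ K : Submodule F V, K ⊓ perp B K = ⊥ →
    ∀ (b : ℕ) (δ : F), 1 ≤ b → b + 1 ≤ Module.finrank F K → δ ≠ 0 →
    ∃ v : Fin b → V, (∀ a, v a ∈ K) ∧ (∀ a a', a ≠ a' → B (v a) (v a') = 0) ∧
      (∀ a, B (v a) (v a) ≠ 0) ∧ IsSquare (δ * ∏ a, B (v a) (v a))

/-- S5992-BOTH: a nondegenerate subspace `K` of dimension at least `e + 1` contains
nondegenerate subspaces of even dimension `e ≥ 2` of both types. -/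
def StBoth : Prop :=
  ∀ (F : Type u) [Field F] [Fintype F] (V : Type v) [AddCommGroup V] [Module F V]
    [FiniteDimensional F V] (B : V →ₗ[F] V →ₗ[F] F), (2 : F) ≠ 0 → (∀ x y, B x y = B y x) →
    ∀ K : Submodule F V, K ⊓ perp B K = ⊥ →
    ∀ (e : ℕ) (pl : Prop), Even e → 2 ≤ e → e + 1 ≤ Module.finrank F K →
    ∃ W : Submodule F V, W ≤ K ∧ W ⊓ perp B W = ⊥ ∧ Module.finrank F W = e ∧ (Plus B W ↔ pl)

/-- S5992-SUMTYPE: the orthogonal sum of two nondegenerate subspaces of even dimension is of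
plus type iff the summands have the same type. -/
def StSumType : Prop :=
  ∀ (F : Type u) [Field F] [Fintype F] (V : Type v) [AddCommGroup V] [Module F V]
    [FiniteDimensional F V] (B : V →ₗ[F] V →ₗ[F] F), (2 : F) ≠ 0 → (∀ x y, B x y = B y x) →
    ∀ W₀ W₁ : Submodule F V, W₀ ⊓ perp B W₀ = ⊥ → W₁ ⊓ perp B W₁ = ⊥ → W₁ ≤ perp B W₀ →
    Even (Module.finrank F W₀) → Even (Module.finrank F W₁) →
    (W₀ ⊔ W₁) ⊓ perp B (W₀ ⊔ W₁) = ⊥ ∧
      Module.finrank F ↥(W₀ ⊔ W₁) = Module.finrank F W₀ + Module.finrank F W₁ ∧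
      (Plus B (W₀ ⊔ W₁) ↔ (Plus B W₀ ↔ Plus B W₁))

/-- S5992-ISO: two nondegenerate subspaces of the same even dimension and the same type are
isometric. -/
def StIso : Prop :=
  ∀ (F : Type u) [Field F] [Fintype F] (V : Type v) [AddCommGroup V] [Module F V]
    [FiniteDimensional F V] (B : V →ₗ[F] V →ₗ[F] F), (2 : F) ≠ 0 → (∀ x y, B x y = B y x) →
    ∀ W W' : Submodule F V, W ⊓ perp B W = ⊥ → W' ⊓ perp B W' = ⊥ →
    Module.finrank F W = Module.finrank F W' → Even (Module.finrank F W) →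
    (Plus B W ↔ Plus B W') →
    ∃ e : ↥W ≃ₗ[F] ↥W', ∀ x y : ↥W, B (e x : V) (e y : V) = B (x : V) (y : V)

/-- S5992-ZEROS: the number of singular vectors of a nondegenerate space of dimension `2 t`:
`q^(2t-1) + q^t - q^(t-1)` for plus type, `q^(2t-1) - q^t + q^(t-1)` for minus type. -/
def StZeros : Prop :=
  ∀ (F : Type u) [Field F] [Fintype F] (V : Type v) [AddCommGroup V] [Module F V]
    [FiniteDimensional F V] (B : V →ₗ[F] V →ₗ[F] F), (2 : F) ≠ 0 → (∀ x y, B x y = B y x) →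
    (∀ x, (∀ y, B x y = 0) → x = 0) →
    ∀ t : ℕ, 1 ≤ t → Module.finrank F V = 2 * t →
    (Plus B ⊤ → Nat.card {x : V // B x x = 0} + Fintype.card F ^ (t - 1) =
        Fintype.card F ^ (2 * t - 1) + Fintype.card F ^ t) ∧
    (¬ Plus B ⊤ → Nat.card {x : V // B x x = 0} + Fintype.card F ^ t =
        Fintype.card F ^ (2 * t - 1) + Fintype.card F ^ (t - 1))

/-! ## Group T: isometries of odd prime order `r ≠ p` -/

/-- S5992-TYPEODD: for `i` odd, a space with a fixed-point-free isometry of order `r` is of plus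
type. -/
def StTypeOdd : Prop :=
  ∀ (F : Type u) [Field F] [Fintype F] (V : Type v) [AddCommGroup V] [Module F V]
    [FiniteDimensional F V] (r : ℕ) (B : V →ₗ[F] V →ₗ[F] F) (T : Module.End F V),
    OCtx r B T → LinearMap.ker (T - 1) = ⊥ → Odd (ii F r) → Plus B ⊤

/-- S5992-TYPEEVEN: for `i` even, a space of dimension `i j` with a fixed-point-free isometry of
order `r` is of plus type iff `j` is even. -/
def StTypeEven : Prop :=
  ∀ (F : Type u) [Field F] [Fintype F] (V : Type v) [AddCommGroup V] [Module F V]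
    [FiniteDimensional F V] (r : ℕ) (B : V →ₗ[F] V →ₗ[F] F) (T : Module.End F V),
    OCtx r B T → LinearMap.ker (T - 1) = ⊥ → Even (ii F r) →
    ∀ j : ℕ, Module.finrank F V = ii F r * j → (Plus B ⊤ ↔ Even j)

/-- S5992-RESTRICT: an invariant nondegenerate subspace as an orthogonal context of its own. -/
def StRestrict : Prop :=
  ∀ (F : Type u) [Field F] [Fintype F] (V : Type v) [AddCommGroup V] [Module F V]
    [FiniteDimensional F V] (r : ℕ) (B : V →ₗ[F] V →ₗ[F] F) (T : Module.End F V),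
    OCtx r B T → ∀ W : Submodule F V, W ∈ T.invtSubmodule → W ⊓ perp B W = ⊥ →
    ∃ (V' : Type v) (_ : AddCommGroup V') (_ : Module F V') (_ : FiniteDimensional F V')
      (B' : V' →ₗ[F] V' →ₗ[F] F) (T' : Module.End F V') (ι : V' →ₗ[F] V),
      OCtx r B' T' ∧ Function.Injective ι ∧ LinearMap.range ι = W ∧
      (∀ x, ι (T' x) = T (ι x)) ∧ (∀ x y, B' x y = B (ι x) (ι y))

/-- S5992-FWD: the shape of an invariant nondegenerate subspace `W`: `dim W = dim C_W(T) + c j`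
with `dim C_V(T) + c j ≤ dim V`, and if `C_W(T) = 0` its type is determined by `i` and `j`. -/
def StFwd : Prop :=
  ∀ (F : Type u) [Field F] [Fintype F] (V : Type v) [AddCommGroup V] [Module F V]
    [FiniteDimensional F V] (r : ℕ) (B : V →ₗ[F] V →ₗ[F] F) (T : Module.End F V),
    OCtx r B T → ∀ W : Submodule F V, W ∈ T.invtSubmodule → W ⊓ perp B W = ⊥ →
    ∃ j : ℕ, Module.finrank F W = kk T W + cc F r * j ∧
      kk T ⊤ + cc F r * j ≤ Module.finrank F V ∧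
      (kk T W = 0 → (Plus B W ↔ (Odd (ii F r) ∨ Even j)))

/-- S5992-TRICK2: helper14's form trick (O-TRICK) with one more clause: an invariant subspace
of the non-fixed part is nondegenerate for `A` iff it is for `B`. -/
def StTrick2 : Prop :=
  ∀ (F : Type u) [Field F] [Fintype F] (V : Type v) [AddCommGroup V] [Module F V]
    [FiniteDimensional F V] (r : ℕ) (B : V →ₗ[F] V →ₗ[F] F) (T : Module.End F V),
    OCtx r B T →
    ∃ (V' : Type v) (_ : AddCommGroup V') (_ : Module F V') (_ : FiniteDimensional F V')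
      (A : V' →ₗ[F] V' →ₗ[F] F) (T' : Module.End F V') (ι : V' →ₗ[F] V),
      Ctx r A T' ∧ Function.Injective ι ∧ (∀ x, ι (T' x) = T (ι x)) ∧
      LinearMap.range ι = LinearMap.range (T - 1) ∧
      LinearMap.ker (T' - 1) = ⊥ ∧
      (∀ W' : Submodule F V', W' ∈ T'.invtSubmodule →
        (W' ⊓ perp A W' = ⊥ ↔ W'.map ι ⊓ perp B (W'.map ι) = ⊥))

/-- S5992-BACK: invariant nondegenerate subspaces of dimension `c j` without fixed vectors. -/
def StBack : Prop :=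
  ∀ (F : Type u) [Field F] [Fintype F] (V : Type v) [AddCommGroup V] [Module F V]
    [FiniteDimensional F V] (r : ℕ) (B : V →ₗ[F] V →ₗ[F] F) (T : Module.End F V),
    OCtx r B T → ∀ j : ℕ, kk T ⊤ + cc F r * j ≤ Module.finrank F V →
    ∃ W : Submodule F V, W ∈ T.invtSubmodule ∧ W ⊓ perp B W = ⊥ ∧
      W ⊓ LinearMap.ker (T - 1) = ⊥ ∧ Module.finrank F W = cc F r * j

/-- S5992-EXW: invariant nondegenerate subspaces of dimension `c j + e` of prescribed type
(`e` even, `e < dim C_V(T)`; for `e = 0` the type is forced). -/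
def StExW : Prop :=
  ∀ (F : Type u) [Field F] [Fintype F] (V : Type v) [AddCommGroup V] [Module F V]
    [FiniteDimensional F V] (r : ℕ) (B : V →ₗ[F] V →ₗ[F] F) (T : Module.End F V),
    OCtx r B T → ∀ (j e : ℕ) (pl : Prop), kk T ⊤ + cc F r * j ≤ Module.finrank F V →
    Even e → e + 1 ≤ kk T ⊤ → (e = 0 → (pl ↔ (Odd (ii F r) ∨ Even j))) →
    ∃ W : Submodule F V, W ∈ T.invtSubmodule ∧ W ⊓ perp B W = ⊥ ∧
      Module.finrank F W = cc F r * j + e ∧ (Plus B W ↔ pl)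

/-! ## Group I: involutions -/

/-- S5992-INV: an isometry with `T * T = 1` of a nondegenerate space fixes nondegenerate
subspaces of every even dimension `2 ≤ m < dim V` of both types. -/
def StInv : Prop :=
  ∀ (F : Type u) [Field F] [Fintype F] (V : Type v) [AddCommGroup V] [Module F V]
    [FiniteDimensional F V] (B : V →ₗ[F] V →ₗ[F] F) (T : Module.End F V),
    (2 : F) ≠ 0 → (∀ x y, B x y = B y x) → (∀ x, (∀ y, B x y = 0) → x = 0) →
    (∀ x y, B (T x) (T y) = B x y) → T * T = 1 →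
    ∀ (m : ℕ) (pl : Prop), Even m → 2 ≤ m → m + 1 ≤ Module.finrank F V →
    ∃ W : Submodule F V, W ∈ T.invtSubmodule ∧ W ⊓ perp B W = ⊥ ∧
      Module.finrank F W = m ∧ (Plus B W ↔ pl)

/-! ## Group U: unipotent elements (`r = p`, S5993 only) -/

/-- S5992-UNIPABS: if `N = T - 1` satisfies `N ^ 3 = 0` and has at most one Jordan block of odd
size (`2 dim ker N + dim V ≤ 2 dim ker N² + 1`), every invariant nondegenerate subspace of
even dimension is of plus type. -/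
def StUnipAbs : Prop :=
  ∀ (F : Type u) [Field F] [Fintype F] (V : Type v) [AddCommGroup V] [Module F V]
    [FiniteDimensional F V] (B : V →ₗ[F] V →ₗ[F] F) (T : Module.End F V),
    (∀ x y, B x y = B y x) → (∀ x, (∀ y, B x y = 0) → x = 0) →
    (∀ x y, B (T x) (T y) = B x y) → (T - 1) ^ 3 = 0 →
    2 * Module.finrank F ↥(LinearMap.ker (T - 1)) + Module.finrank F V ≤
      2 * Module.finrank F ↥(LinearMap.ker ((T - 1) ^ 2)) + 1 →
    ∀ W : Submodule F V, W ∈ T.invtSubmodule → W ⊓ perp B W = ⊥ →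
    Even (Module.finrank F W) → Plus B W

/-- S5992-UNIPEX: an element of order `p` of `Ω_{2d+1}(q)` with `(x - 1) ^ 3 = 0` and at most
one Jordan block of odd size. -/
def StUnipEx : Prop :=
  ∀ (F : Type u) [Field F] [Fintype F] (p : ℕ) [Fact p.Prime] [CharP F p] (d : ℕ), p ≠ 2 →
    1 ≤ d →
    ∃ x : Matrix.GeneralLinearGroup (Unit ⊕ (Fin d ⊕ Fin d)) F,
      x ∈ Cfsg.Geo.omegaGL (Cfsg.quadFormOdd d F) ∧ orderOf x = p ∧
      (Matrix.toLin' (x : Matrix (Unit ⊕ (Fin d ⊕ Fin d)) (Unit ⊕ (Fin d ⊕ Fin d)) F) - 1) ^ 3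
        = 0 ∧
      2 * Module.finrank F ↥(LinearMap.ker (Matrix.toLin'
          (x : Matrix (Unit ⊕ (Fin d ⊕ Fin d)) (Unit ⊕ (Fin d ⊕ Fin d)) F) - 1)) + (2 * d + 1) ≤
        2 * Module.finrank F ↥(LinearMap.ker ((Matrix.toLin'
          (x : Matrix (Unit ⊕ (Fin d ⊕ Fin d)) (Unit ⊕ (Fin d ⊕ Fin d)) F) - 1) ^ 2)) + 1

/-! ## Group C: the standard space -/

/-- S5992-BRIDGE: the polar form of `quadFormOdd d F` as a bilinear form, and the translation of
the notions of the frozen statements. -/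
def StBridge : Prop :=
  ∀ (F : Type u) [Field F] [Fintype F] (d : ℕ), (2 : F) ≠ 0 →
    ∃ B : (Unit ⊕ (Fin d ⊕ Fin d) → F) →ₗ[F] (Unit ⊕ (Fin d ⊕ Fin d) → F) →ₗ[F] F,
      (∀ x y, B x y = QuadraticMap.polar (Cfsg.quadFormOdd d F) x y) ∧
      (∀ x y, B x y = B y x) ∧ (∀ x, (∀ y, B x y = 0) → x = 0) ∧
      (∀ x, B x x = 2 * Cfsg.quadFormOdd d F x) ∧
      (∀ W : Submodule F (Unit ⊕ (Fin d ⊕ Fin d) → F),
        Cfsg.Geo.IsNondegenerateOn (QuadraticMap.polar (Cfsg.quadFormOdd d F)) W ↔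
          W ⊓ perp B W = ⊥) ∧
      (∀ W : Submodule F (Unit ⊕ (Fin d ⊕ Fin d) → F),
        Cfsg.Geo.IsPlusTypeOn (Cfsg.quadFormOdd d F) W ↔ Plus B W) ∧
      (∀ g : Matrix.GeneralLinearGroup (Unit ⊕ (Fin d ⊕ Fin d)) F,
        g ∈ Cfsg.isometryGroup F (Cfsg.quadFormOdd d F) ↔
          ∀ x y, B (Matrix.toLin' (g : Matrix (Unit ⊕ (Fin d ⊕ Fin d)) (Unit ⊕ (Fin d ⊕ Fin d)) F) x)
            (Matrix.toLin' (g : Matrix (Unit ⊕ (Fin d ⊕ Fin d)) (Unit ⊕ (Fin d ⊕ Fin d)) F) y)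
              = B x y)

/-- S5992-EXIST: an element of order `r` of `Ω_{2d+1}(q)` with the smallest possible fixed
space. -/
def StExist : Prop :=
  ∀ (F : Type u) [Field F] [Fintype F] (p : ℕ) [Fact p.Prime] [CharP F p] (r : ℕ), r.Prime →
    r ≠ 2 → r ≠ p → (2 : F) ≠ 0 → ∀ d : ℕ, cc F r ≤ 2 * d + 1 →
    ∃ x : Matrix.GeneralLinearGroup (Unit ⊕ (Fin d ⊕ Fin d)) F,
      x ∈ Cfsg.Geo.omegaGL (Cfsg.quadFormOdd d F) ∧ orderOf x = r ∧
      Module.finrank F ↥(LinearMap.ker (Matrix.toLin'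
        (x : Matrix (Unit ⊕ (Fin d ⊕ Fin d)) (Unit ⊕ (Fin d ⊕ Fin d)) F) - 1)) =
          (2 * d + 1) % cc F r

/-- S5992-ORBTRANS: Witt: two nondegenerate subspaces of the same even dimension and type, both
orthogonal to a nondegenerate subspace `R`, are conjugate under an isometry fixing `R`
pointwise. -/
def StOrbTrans : Prop :=
  ∀ (F : Type u) [Field F] [Fintype F] (d : ℕ), (2 : F) ≠ 0 →
    ∀ R W W' : Submodule F (Unit ⊕ (Fin d ⊕ Fin d) → F),
    Cfsg.Geo.IsNondegenerateOn (QuadraticMap.polar (Cfsg.quadFormOdd d F)) R →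
    Cfsg.Geo.IsNondegenerateOn (QuadraticMap.polar (Cfsg.quadFormOdd d F)) W →
    Cfsg.Geo.IsNondegenerateOn (QuadraticMap.polar (Cfsg.quadFormOdd d F)) W' →
    (∀ u ∈ W, ∀ v ∈ R, QuadraticMap.polar (Cfsg.quadFormOdd d F) u v = 0) →
    (∀ u ∈ W', ∀ v ∈ R, QuadraticMap.polar (Cfsg.quadFormOdd d F) u v = 0) →
    Module.finrank F W = Module.finrank F W' → Even (Module.finrank F W) →
    (Cfsg.Geo.IsPlusTypeOn (Cfsg.quadFormOdd d F) W ↔
      Cfsg.Geo.IsPlusTypeOn (Cfsg.quadFormOdd d F) W') →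
    ∃ g : Matrix.GeneralLinearGroup (Unit ⊕ (Fin d ⊕ Fin d)) F,
      g ∈ Cfsg.isometryGroup F (Cfsg.quadFormOdd d F) ∧
      (∀ v ∈ R, Matrix.toLin'
        (g : Matrix (Unit ⊕ (Fin d ⊕ Fin d)) (Unit ⊕ (Fin d ⊕ Fin d)) F) v = v) ∧
      W.map (Matrix.toLin'
        (g : Matrix (Unit ⊕ (Fin d ⊕ Fin d)) (Unit ⊕ (Fin d ⊕ Fin d)) F)) = W'

/-- S5992-CNTORB: if the fixed space `K` of `x` (`x ^ r = 1`) has dimension `< c`, the number
of `m`-spaces of given type inside `K` (`m < dim K`) is prime to `r`. -/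
def StCntOrb : Prop :=
  ∀ (F : Type u) [Field F] [Fintype F] (p : ℕ) [Fact p.Prime] [CharP F p] (r : ℕ), r.Prime →
    r ≠ 2 → r ≠ p → (2 : F) ≠ 0 → ∀ (d m : ℕ) (pl : Prop), Even m → 2 ≤ m →
    ∀ x : Matrix.GeneralLinearGroup (Unit ⊕ (Fin d ⊕ Fin d)) F,
    x ∈ Cfsg.isometryGroup F (Cfsg.quadFormOdd d F) → x ^ r = 1 →
    m < Module.finrank F ↥(LinearMap.ker (Matrix.toLin'
      (x : Matrix (Unit ⊕ (Fin d ⊕ Fin d)) (Unit ⊕ (Fin d ⊕ Fin d)) F) - 1)) →
    Module.finrank F ↥(LinearMap.ker (Matrix.toLin'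
      (x : Matrix (Unit ⊕ (Fin d ⊕ Fin d)) (Unit ⊕ (Fin d ⊕ Fin d)) F) - 1)) < cc F r →
    ¬ r ∣ Nat.card {W : Submodule F (Unit ⊕ (Fin d ⊕ Fin d) → F) // IsHE F d m pl W ∧
      W ≤ LinearMap.ker (Matrix.toLin'
        (x : Matrix (Unit ⊕ (Fin d ⊕ Fin d)) (Unit ⊕ (Fin d ⊕ Fin d)) F) - 1)}

/-- S5992-CNT: in the same situation, if moreover `m < c`, the number of all `m`-spaces of
given type is prime to `r`. -/
def StCnt : Prop :=
  ∀ (F : Type u) [Field F] [Fintype F] (p : ℕ) [Fact p.Prime] [CharP F p] (r : ℕ), r.Prime →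
    r ≠ 2 → r ≠ p → (2 : F) ≠ 0 → ∀ (d m : ℕ) (pl : Prop), Even m → 2 ≤ m → m < cc F r →
    ∀ x : Matrix.GeneralLinearGroup (Unit ⊕ (Fin d ⊕ Fin d)) F,
    x ∈ Cfsg.isometryGroup F (Cfsg.quadFormOdd d F) → x ^ r = 1 →
    m < Module.finrank F ↥(LinearMap.ker (Matrix.toLin'
      (x : Matrix (Unit ⊕ (Fin d ⊕ Fin d)) (Unit ⊕ (Fin d ⊕ Fin d)) F) - 1)) →
    Module.finrank F ↥(LinearMap.ker (Matrix.toLin'
      (x : Matrix (Unit ⊕ (Fin d ⊕ Fin d)) (Unit ⊕ (Fin d ⊕ Fin d)) F) - 1)) < cc F r →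
    ¬ r ∣ Nat.card {W : Submodule F (Unit ⊕ (Fin d ⊕ Fin d) → F) // IsHE F d m pl W}

/-! ## Group A: arithmetic -/

/-- S5992-ARBACK (hyperbolic). -/
def StArBackH : Prop :=
  ∀ n m i c k₀ a : ℕ, Odd n → Even m → 2 ≤ m → m + 1 ≤ n → 0 < i →
    c = (if Even i then i else 2 * i) → n = k₀ + c * a →
    ((Odd i ∧ c ≤ m ∧ (m % c = 0 ∨ (0 < m % c ∧ m % c < n % c))) ∨
      (Even i ∧ i ≤ m ∧ m % c < n % c ∧ (0 < m % c ∨ Even (m / i)))) →
    ∃ j e : ℕ, k₀ + c * j ≤ n ∧ Even e ∧ e + 1 ≤ k₀ ∧ c * j + e = m ∧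
      (e = 0 → (Odd i ∨ Even j))

/-- S5992-ARBACK (elliptic). -/
def StArBackE : Prop :=
  ∀ n m i c k₀ a : ℕ, Odd n → Even m → 2 ≤ m → m + 1 ≤ n → 0 < i →
    c = (if Even i then i else 2 * i) → n = k₀ + c * a →
    ((Odd i ∧ c ≤ m ∧ 0 < m % c ∧ m % c < n % c) ∨
      (Even i ∧ i ≤ m ∧ m % c < n % c ∧ (0 < m % c ∨ Odd (m / i)))) →
    ∃ j e : ℕ, k₀ + c * j ≤ n ∧ Even e ∧ e + 1 ≤ k₀ ∧ c * j + e = m ∧
      (e = 0 → ¬ (Odd i ∨ Even j))

/-- S5992-ARFWD (hyperbolic). -/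
def StArFwdH : Prop :=
  ∀ n m i c kW j : ℕ, Odd n → Even m → 2 ≤ m → 0 < i →
    c = (if Even i then i else 2 * i) → m = kW + c * j → n % c + c * j ≤ n → kW ≤ n % c →
    (kW = 0 → (Odd i ∨ Even j)) → ¬ (m < c ∧ m < n % c) →
    ((Odd i ∧ c ≤ m ∧ (m % c = 0 ∨ (0 < m % c ∧ m % c < n % c))) ∨
      (Even i ∧ i ≤ m ∧ m % c < n % c ∧ (0 < m % c ∨ Even (m / i))))

/-- S5992-ARFWD (elliptic). -/
def StArFwdE : Prop :=
  ∀ n m i c kW j : ℕ, Odd n → Even m → 2 ≤ m → 0 < i →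
    c = (if Even i then i else 2 * i) → m = kW + c * j → n % c + c * j ≤ n → kW ≤ n % c →
    (kW = 0 → ¬ (Odd i ∨ Even j)) → ¬ (m < c ∧ m < n % c) →
    ((Odd i ∧ c ≤ m ∧ 0 < m % c ∧ m % c < n % c) ∨
      (Even i ∧ i ≤ m ∧ m % c < n % c ∧ (0 < m % c ∨ Odd (m / i))))

end Cfsg.Agent.H95.Oh
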