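import Mathlib
import Cfsg.Prelude.Def_LieExceptional
import Cfsg.Agent.H8BN2

/-!
# Feit–Higman for (B,N)-pairs of rank 2 (S1142): definitions and the statements of the pieces
(helper95, team project)

`Ω` is a finite set (the cosets of `B`), `a c : Matrix Ω Ω ℝ` the two generators of the Hecke
algebra, `p q` their parameters, `2 n` the order of the Weyl group.
-/

set_option autoImplicit false

universe u

namespace Cfsg.Agent.H95.FH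

open Matrix

/-- The alternating product `x * y * x * ⋯` with `k` factors. -/
def alt {R : Type*} [Monoid R] : R → R → ℕ → R
  | _, _, 0 => 1
  | x, y, (k + 1) => x * alt y x k

/-- The index parameter of the alternating word of length `k` starting with the generator of
parameter `p`. -/
def wt (p q : ℝ) (k : ℕ) : ℝ := p ^ ((k + 1) / 2) * q ^ (k / 2)

/-- The hypotheses on the two generators `a`, `c` of the Hecke algebra of a thick (B,N)-pair of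
rank 2 with Weyl group of order `2 n`. -/
structure HeckeData (Ω : Type u) [Fintype Ω] [DecidableEq Ω] (a c : Matrix Ω Ω ℝ) (p q n : ℕ) :
    Prop where
  ne : Nonempty Ω
  hn : 2 ≤ n
  hp : 2 ≤ p
  hq : 2 ≤ q
  symm_a : aᵀ = a
  symm_c : cᵀ = c
  sq_a : a * a = (p : ℝ) • (1 : Matrix Ω Ω ℝ) + ((p : ℝ) - 1) • a
  sq_c : c * c = (q : ℝ) • (1 : Matrix Ω Ω ℝ) + ((q : ℝ) - 1) • c
  braid : alt a c n = alt c a n
  zo_a : ∀ k, k ≤ n → ∀ x y, alt a c k x y = 0 ∨ alt a c k x y = 1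
  zo_c : ∀ k, k ≤ n → ∀ x y, alt c a k x y = 0 ∨ alt c a k x y = 1
  disj_aa : ∀ k l, k ≤ n → l ≤ n → k ≠ l → ∀ x y, alt a c k x y * alt a c l x y = 0
  disj_cc : ∀ k l, k ≤ n → l ≤ n → k ≠ l → ∀ x y, alt c a k x y * alt c a l x y = 0
  disj_ac : ∀ k l, k ≤ n → 1 ≤ l → l < n → ∀ x y, alt a c k x y * alt c a l x y = 0

/-- The projection `(a + 1) / (p + 1)`. -/
noncomputable def eP {Ω : Type u} [Fintype Ω] [DecidableEq Ω] (a : Matrix Ω Ω ℝ) (p : ℕ) :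
    Matrix Ω Ω ℝ := ((p : ℝ) + 1)⁻¹ • (a + 1)

/-- The operator `e f e`. -/
noncomputable def DD {Ω : Type u} [Fintype Ω] [DecidableEq Ω] (a c : Matrix Ω Ω ℝ) (p q : ℕ) :
    Matrix Ω Ω ℝ := eP a p * eP c q * eP a p

/-- The `2 n` alternating words. -/
def basisSet {Ω : Type u} [Fintype Ω] [DecidableEq Ω] (a c : Matrix Ω Ω ℝ) (n : ℕ) :
    Set (Matrix Ω Ω ℝ) :=
  {X | (∃ k, k ≤ n ∧ X = alt a c k) ∨ (∃ l, 1 ≤ l ∧ l < n ∧ X = alt c a l)}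

/-- The span of the alternating words (the Hecke algebra). -/
def Alg {Ω : Type u} [Fintype Ω] [DecidableEq Ω] (a c : Matrix Ω Ω ℝ) (n : ℕ) :
    Submodule ℝ (Matrix Ω Ω ℝ) := Submodule.span ℝ (basisSet a c n)

/-- The span of the alternating words of length at most `l`. -/
def Fil {Ω : Type u} [Fintype Ω] [DecidableEq Ω] (a c : Matrix Ω Ω ℝ) (l : ℕ) :
    Submodule ℝ (Matrix Ω Ω ℝ) :=
  Submodule.span ℝ {X | ∃ k, k ≤ l ∧ (X = alt a c k ∨ X = alt c a k)}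

/-- The possible eigenvalues of `e f e` other than `0` and `1`. -/
noncomputable def mu (p q n j : ℕ) : ℝ :=
  ((p : ℝ) + q + 2 * Real.sqrt ((p : ℝ) * q) * Real.cos (2 * Real.pi * j / n)) /
    (((p : ℝ) + 1) * ((q : ℝ) + 1))

/-- The closed form of `N / multiplicity`. -/
noncomputable def closed (p q n j : ℕ) : ℝ :=
  (n : ℝ) * ((p : ℝ) + q + 2 * Real.sqrt ((p : ℝ) * q) * Real.cos (2 * Real.pi * j / n)) *
      ((p : ℝ) * q + 1 - 2 * Real.sqrt ((p : ℝ) * q) * Real.cos (2 * Real.pi * j / n)) /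
    (4 * (p : ℝ) * q * (1 - Real.cos (2 * Real.pi * j / n) ^ 2))

/-- The action of `a` on the plane spanned by `v` and `f v` (coordinates as columns). -/
def a2 (p μ : ℝ) : Matrix (Fin 2) (Fin 2) ℝ := !![p, (p + 1) * μ; 0, -1]

/-- The action of `c` on the plane spanned by `v` and `f v`. -/
def c2 (q : ℝ) : Matrix (Fin 2) (Fin 2) ℝ := !![-1, 0; q + 1, q]

/-- The matrix coefficient `⟨X v, v⟩ / ⟨v, v⟩`. -/
def gam (μ : ℝ) (X : Matrix (Fin 2) (Fin 2) ℝ) : ℝ := X 0 0 + μ * X 1 0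

/-- `∑_w ⟨A_w v, v⟩² / q_w` over the `2 n` alternating words. -/
noncomputable def Ssum (p q : ℝ) (n : ℕ) (μ : ℝ) : ℝ :=
  ∑ k ∈ Finset.range (n + 1), gam μ (alt (a2 p μ) (c2 q) k) ^ 2 / wt p q k +
    ∑ l ∈ Finset.Ico 1 n, gam μ (alt (c2 q) (a2 p μ) l) ^ 2 / wt q p l

/-- The values `gam ((a2 c2)^k)`. -/
def Gseq (p q μ : ℝ) : ℕ → ℝ
  | 0 => 1
  | 1 => p * ((q + 1) * μ - 1)
  | (k + 2) => ((p + 1) * (q + 1) * μ - p - q) * Gseq p q μ (k + 1) - p * q * Gseq p q μ k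

/-- The sequence `u_0 = 0, u_1 = 1, u_{k+2} = T u_{k+1} - s u_k`. -/
def useq (T s : ℝ) : ℕ → ℝ
  | 0 => 0
  | 1 => 1
  | (k + 2) => T * useq T s (k + 1) - s * useq T s k

/-! ## Part I: from the (B,N)-pair to the matrices -/

/-- FH-DIH: a finite group generated by two distinct involutions. -/
def DihStmt : Prop :=
  ∀ {W : Type u} [Group W] [Finite W] {ι : Type u} (f : ι → W) (i₀ i₁ : ι),
    (∀ i, i = i₀ ∨ i = i₁) → f i₀ * f i₀ = 1 → f i₁ * f i₁ = 1 → f i₀ ≠ 1 → f i₁ ≠ 1 →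
    f i₀ ≠ f i₁ → Subgroup.closure (Set.range f) = ⊤ →
    ∃ n : ℕ, 2 ≤ n ∧ Nat.card W = 2 * n ∧ alt (f i₀) (f i₁) n = alt (f i₁) (f i₀) n ∧
      (∀ k, k ≤ n → Cfsg.H8Exch.len f (alt (f i₀) (f i₁) k) = k) ∧
      (∀ k, k ≤ n → Cfsg.H8Exch.len f (alt (f i₁) (f i₀) k) = k) ∧
      (∀ k, 1 ≤ k → k < n → alt (f i₀) (f i₁) k ≠ alt (f i₁) (f i₀) k)

/-- FH-ORB: the orbital matrices of a finite group with a (B,N)-pair on the cosets of `B`. -/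
def OrbStmt : Prop :=
  ∀ {G : Type u} [Group G] [Finite G] (P : Cfsg.BNPair G),
    ∃ (Ω : Type u) (_ : Fintype Ω) (_ : DecidableEq Ω) (_ : Nonempty Ω)
      (M : Cfsg.H8BN.Wq P → Matrix Ω Ω ℝ),
      M 1 = 1 ∧ (∀ w x y, M w x y = 0 ∨ M w x y = 1) ∧ (∀ w, (M w)ᵀ = M w⁻¹) ∧
      (∀ w w', w ≠ w' → ∀ x y, M w x y * M w' x y = 0) ∧
      (∀ (s : P.S) (w : Cfsg.H8BN.Wq P),
        Cfsg.H8Exch.len (Cfsg.H8BN.sg P) w <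
          Cfsg.H8Exch.len (Cfsg.H8BN.sg P) (Cfsg.H8BN.sg P s * w) →
        M (Cfsg.H8BN.sg P s) * M w = M (Cfsg.H8BN.sg P s * w)) ∧
      (∀ s : P.S, ∃ q : ℕ, 2 ≤ q ∧ M (Cfsg.H8BN.sg P s) * M (Cfsg.H8BN.sg P s) =
        (q : ℝ) • (1 : Matrix Ω Ω ℝ) + ((q : ℝ) - 1) • M (Cfsg.H8BN.sg P s))

/-- FH-BN: a finite (B,N)-pair of rank 2 gives Hecke data. -/
def BNStmt : Prop :=
  ∀ {G : Type u} [Group G] [Finite G] (P : Cfsg.BNPair G), P.rank = 2 →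
    ∃ (Ω : Type u) (_ : Fintype Ω) (_ : DecidableEq Ω) (a c : Matrix Ω Ω ℝ) (p q n : ℕ),
      ((P.B ⊓ P.N).subgroupOf P.N).index = 2 * n ∧ HeckeData Ω a c p q n

/-! ## Part II: linear algebra -/

/-- FH-ROW -/
def RowStmt : Prop :=
  ∀ {Ω : Type u} [Fintype Ω] [DecidableEq Ω] (a c : Matrix Ω Ω ℝ) (p q n : ℕ),
    HeckeData Ω a c p q n →
    (Odd n → p = q) ∧ (∀ k, k ≤ n → ∀ x, ∑ y, alt a c k x y = wt p q k) ∧
      (∀ k, k ≤ n → ∀ x, ∑ y, alt c a k x y = wt q p k)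

/-- FH-ALG -/
def AlgStmt : Prop :=
  ∀ {Ω : Type u} [Fintype Ω] [DecidableEq Ω] (a c : Matrix Ω Ω ℝ) (p q n : ℕ),
    HeckeData Ω a c p q n →
    (1 : Matrix Ω Ω ℝ) ∈ Alg a c n ∧ a ∈ Alg a c n ∧ c ∈ Alg a c n ∧
      ∀ X ∈ Alg a c n, ∀ Y ∈ Alg a c n, X * Y ∈ Alg a c n

/-- FH-EXPAND -/
def ExpandStmt : Prop :=
  ∀ {Ω : Type u} [Fintype Ω] [DecidableEq Ω] (a c : Matrix Ω Ω ℝ) (p q n : ℕ),
    HeckeData Ω a c p q n → ∀ X ∈ Alg a c n,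
    X = ∑ k ∈ Finset.range (n + 1),
          (((alt a c k)ᵀ * X).trace / ((Fintype.card Ω : ℝ) * wt p q k)) • alt a c k +
        ∑ l ∈ Finset.Ico 1 n,
          (((alt c a l)ᵀ * X).trace / ((Fintype.card Ω : ℝ) * wt q p l)) • alt c a l

/-- FH-LW -/
def LWStmt : Prop :=
  ∀ {Ω : Type u} [Fintype Ω] [DecidableEq Ω] (a c : Matrix Ω Ω ℝ) (p q n : ℕ),
    HeckeData Ω a c p q n → ∀ m, 1 ≤ m → m ≤ n →
    alt (1 + a) (1 + c) m - alt a c m ∈ Fil a c (m - 1) ∧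
      alt (1 + c) (1 + a) m - alt c a m ∈ Fil a c (m - 1) ∧
      alt a c m ∉ Fil a c (m - 1) ∧ alt c a m ∉ Fil a c (m - 1)

/-- FH-QUANT1 -/
def Quant1Stmt : Prop :=
  ∀ {Ω : Type u} [Fintype Ω] [DecidableEq Ω] (a c : Matrix Ω Ω ℝ) (p q n : ℕ),
    HeckeData Ω a c p q n → ∀ (v : Ω → ℝ) (μ : ℝ), v ≠ 0 → (DD a c p q).mulVec v = μ • v →
    μ ≠ 0 → μ ≠ 1 → alt (a2 p μ) (c2 q) n = alt (c2 q) (a2 p μ) n

/-- FH-CHEB -/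
def ChebStmt : Prop :=
  (∀ (x T : ℝ) (h : ℕ), 0 < x → 1 ≤ h → useq T (x ^ 2) h = 0 →
      ∃ k : ℕ, 1 ≤ k ∧ k < h ∧ T = 2 * x * Real.cos (Real.pi * k / h)) ∧
  (∀ (x T : ℝ) (h : ℕ), 0 < x → 1 ≤ h →
      (T + x) * useq T (x ^ 2) h = x ^ 2 * useq T (x ^ 2) (h - 1) →
      ∃ k : ℕ, 1 ≤ k ∧ k ≤ h ∧ T = 2 * x * Real.cos (2 * Real.pi * k / (2 * h + 1)))

/-- FH-QUANT2 -/
def Quant2Stmt : Prop :=
  ∀ (p q n : ℕ) (μ : ℝ), 2 ≤ n → 2 ≤ p → 2 ≤ q → (Odd n → p = q) → μ ≠ 0 →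
    alt (a2 p μ) (c2 q) n = alt (c2 q) (a2 p μ) n → ∃ j : ℕ, 1 ≤ j ∧ 2 * j < n ∧ μ = mu p q n j

/-- FH-SPEC -/
def SpecStmt : Prop :=
  ∀ {Ω : Type u} [Fintype Ω] [DecidableEq Ω] (D : Matrix Ω Ω ℝ), Dᵀ = D → ∀ μ : ℝ,
    (∃ v : Ω → ℝ, v ≠ 0 ∧ D.mulVec v = μ • v) →
    ∃ L : Polynomial ℝ, (Polynomial.aeval D L)ᵀ = Polynomial.aeval D L ∧
      Polynomial.aeval D L * Polynomial.aeval D L = Polynomial.aeval D L ∧
      D * Polynomial.aeval D L = μ • Polynomial.aeval D L ∧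
      ∃ m : ℕ, 0 < m ∧ (Polynomial.aeval D L).trace = m

/-- FH-SPEC2 -/
def Spec2Stmt : Prop :=
  ∀ {Ω : Type u} [Fintype Ω] [DecidableEq Ω] (D : Matrix Ω Ω ℝ), Dᵀ = D → ∀ Q : Polynomial ℝ,
    (∀ t : ℝ, (∃ v : Ω → ℝ, v ≠ 0 ∧ D.mulVec v = t • v) → Q.eval t = 0) →
    Polynomial.aeval D Q = 0

/-- FH-EXIST -/
def ExistStmt : Prop :=
  ∀ {Ω : Type u} [Fintype Ω] [DecidableEq Ω] (a c : Matrix Ω Ω ℝ) (p q n : ℕ),
    HeckeData Ω a c p q n → ∀ j : ℕ, 1 ≤ j → 2 * j < n →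
    ∃ v : Ω → ℝ, v ≠ 0 ∧ (DD a c p q).mulVec v = mu p q n j • v

/-- FH-MULT -/
def MultStmt : Prop :=
  ∀ {Ω : Type u} [Fintype Ω] [DecidableEq Ω] (a c : Matrix Ω Ω ℝ) (p q n : ℕ),
    HeckeData Ω a c p q n → ∀ μ : ℝ, μ ≠ 0 →
    (∃ v : Ω → ℝ, v ≠ 0 ∧ (DD a c p q).mulVec v = μ • v) →
    ∃ m : ℕ, 0 < m ∧ (Fintype.card Ω : ℝ) = m * Ssum p q n μ

/-- FH-GAM -/
def GamStmt : Prop :=
  ∀ (p q μ : ℝ), p ≠ 0 → ∀ k : ℕ,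
    gam μ (alt (a2 p μ) (c2 q) (2 * k)) = Gseq p q μ k ∧
    gam μ (alt (a2 p μ) (c2 q) (2 * k + 1)) = p * Gseq p q μ k ∧
    gam μ (alt (c2 q) (a2 p μ) (2 * k)) = Gseq p q μ k ∧
    gam μ (alt (c2 q) (a2 p μ) (2 * k + 1)) = Gseq p q μ (k + 1) / p

/-- FH-TRIGE -/
def TrigEvenStmt : Prop :=
  ∀ (p q n j : ℕ), 2 ≤ n → 2 ≤ p → 2 ≤ q → Even n → 1 ≤ j → 2 * j < n →
    Ssum p q n (mu p q n j) = closed p q n j

/-- FH-TRIGO -/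
def TrigOddStmt : Prop :=
  ∀ (p n j : ℕ), 2 ≤ n → 2 ≤ p → Odd n → 1 ≤ j → 2 * j < n →
    Ssum p p n (mu p p n j) = closed p p n j

/-! ## Part III: number theory -/

/-- FH-NT1 -/
def NT1Stmt : Prop :=
  ∀ (m k : ℕ), 0 < m → Nat.Coprime k m → ∀ A B D : ℚ, (A ≠ 0 ∨ B ≠ 0 ∨ D ≠ 0) →
    (A : ℝ) * Real.cos (2 * Real.pi * k / m) ^ 2 + B * Real.cos (2 * Real.pi * k / m) + D = 0 →
    Nat.totient m ≤ 4

/-- FH-NT2 -/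
def NT2Stmt : Prop :=
  ∀ m : ℕ, 0 < m → Nat.totient m ≤ 4 →
    m = 1 ∨ m = 2 ∨ m = 3 ∨ m = 4 ∨ m = 5 ∨ m = 6 ∨ m = 8 ∨ m = 10 ∨ m = 12

/-- FH-NTEVEN -/
def NTEvenStmt : Prop :=
  ∀ (p q n N : ℕ), 2 ≤ n → 2 ≤ p → 2 ≤ q → Even n →
    (∀ j : ℕ, 1 ≤ j → 2 * j < n → ∃ m : ℕ, 0 < m ∧ (N : ℝ) = m * closed p q n j) →
    n = 2 ∨ n = 4 ∨ n = 6 ∨ n = 8

/-- FH-NTODD -/
def NTOddStmt : Prop :=
  ∀ (p n N : ℕ), 2 ≤ n → 2 ≤ p → Odd n →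
    (∀ j : ℕ, 1 ≤ j → 2 * j < n → ∃ m : ℕ, 0 < m ∧ (N : ℝ) = m * closed p p n j) →
    n = 3

end Cfsg.Agent.H95.FH
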