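import Cfsg.Agent.H95.Herm
import Cfsg.Agent.H17.SUGen

set_option autoImplicit false

namespace Cfsg.Agent.H95

open Cfsg Cfsg.Geo
open scoped MatrixGroups Matrix

section SUMax

variable {n : ℕ} {F : Type*} [Field F] [Fintype F] {q : ℕ}

/-- The map from `SU` to `GL`. -/
noncomputable def suToGL (n : ℕ) (F : Type*) [Field F] (q : ℕ) : ↥(Cfsg.SU n F q) →* GL (Fin n) F :=
  Matrix.SpecialLinearGroup.toGL.comp (Cfsg.SU n F q).subtype

omit [Fintype F] in
lemma suToGL_val (A : ↥(Cfsg.SU n F q)) :
    ((suToGL n F q A : GL (Fin n) F) : Matrix (Fin n) (Fin n) F) =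
      ((A : Matrix.SpecialLinearGroup (Fin n) F) : Matrix (Fin n) (Fin n) F) := rfl

omit [Fintype F] in
lemma suToGL_mem (A : ↥(Cfsg.SU n F q)) :
    suToGL n F q A ∈ GU n F q ⊓ specialLinear (Fin n) F := by
  refine Subgroup.mem_inf.mpr ⟨?_, ?_⟩
  · intro u v
    exact A.2 u v
  · rw [mem_specialLinear_iff, suToGL_val]
    exact A.1.2

omit [Fintype F] in
lemma exists_su_of_mem {g : GL (Fin n) F} (hg : g ∈ GU n F q ⊓ specialLinear (Fin n) F) :
    ∃ A : ↥(Cfsg.SU n F q), suToGL n F q A = g :=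
  ⟨⟨⟨(g : Matrix (Fin n) (Fin n) F), (mem_specialLinear_iff g).mp hg.2⟩, fun u v => hg.1 u v⟩,
    Units.ext rfl⟩

/-- Eichler transformations as elements of `GU ⊓ SL`. -/
theorem exists_eichler (hF : Fintype.card F = q ^ 2) (w u : Fin n → F) (b : F)
    (hww : hermForm n F q w w = 0) (huw : hermForm n F q u w = 0)
    (hb : b + b ^ q + hermForm n F q u u = 0) :
    ∃ E : GL (Fin n) F, E ∈ GU n F q ⊓ specialLinear (Fin n) F ∧
      ∀ z, (E : Matrix (Fin n) (Fin n) F) *ᵥ z =
        z + (hermForm n F q z w • u + (-hermForm n F q z u) • w +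
          (b * hermForm n F q z w) • w) := by
  obtain ⟨E, hE⟩ := H17.ex_E hF w u b hww huw hb
  exact ⟨suToGL n F q E, suToGL_mem E, fun z => hE z⟩

/-- A subgroup containing all unitary transvections contains `SU`. -/
theorem suGL_le_of_transv (hF : Fintype.card F = q ^ 2) (hn : 3 ≤ n) (h32 : ¬ (n = 3 ∧ q = 2))
    (M : Subgroup (GL (Fin n) F))
    (h : ∀ (v : Fin n → F) (c : F) (hv : hermForm n F q v v = 0), c + c ^ q = 0 →
      unitTransv q v c hv ∈ M) :
    GU n F q ⊓ specialLinear (Fin n) F ≤ M := by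
  have hq := H17.two_le_of_card_sq hF
  intro g hg
  obtain ⟨A, rfl⟩ := exists_su_of_mem hg
  have hle : H17.suT n F q ≤ M.comap (suToGL n F q) := by
    unfold H17.suT
    rw [Subgroup.closure_le]
    rintro A ⟨v, c, hv, hA⟩
    show suToGL n F q A ∈ M
    by_cases hc : c + c ^ q = 0
    · have h1 : suToGL n F q A = unitTransv q v c hv := by
        apply Units.ext
        rw [suToGL_val, hA]
        apply H17.matrix_ext_mulVec
        intro x
        rw [H17.unitaryTransvection_mulVec, unitTransv_mulVec]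
      rw [h1]
      exact h v c hv hc
    · have hv0 : v = 0 := by
        by_contra hv0
        obtain ⟨x, hx⟩ : ∃ x, hermForm n F q x v ≠ 0 := by
          by_contra hcon
          push Not at hcon
          exact hv0 (H17.hermForm_nd_left hF n v hcon)
        have h1 := A.2 x x
        have hAx : ((A : Matrix.SpecialLinearGroup (Fin n) F) : Matrix (Fin n) (Fin n) F) *ᵥ x =
            x + (c * hermForm n F q x v) • v := by
          rw [hA, H17.unitaryTransvection_mulVec]
        change hermForm n F q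
          (((A : Matrix.SpecialLinearGroup (Fin n) F) : Matrix (Fin n) (Fin n) F) *ᵥ x)
          (((A : Matrix.SpecialLinearGroup (Fin n) F) : Matrix (Fin n) (Fin n) F) *ᵥ x) =
            hermForm n F q x x at h1
        rw [hAx] at h1
        simp only [hermForm_add_left, hermForm_add_right hF, hermForm_smul_left,
          hermForm_smul_right, hv] at h1
        rw [hermForm_herm hF x v, mul_pow] at h1
        apply hc
        have h2 : (c + c ^ q) * (hermForm n F q x v * (hermForm n F q x v) ^ q) = 0 := by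
          linear_combination h1
        rcases mul_eq_zero.mp h2 with h3 | h3
        · exact h3
        · exfalso
          rcases mul_eq_zero.mp h3 with h4 | h4
          · exact hx h4
          · exact hx ((pow_eq_zero_iff (by omega)).mp h4)
      have h1 : suToGL n F q A = 1 := by
        apply Units.ext
        rw [suToGL_val, hA, hv0]
        apply H17.matrix_ext_mulVec
        intro x
        rw [H17.unitaryTransvection_mulVec]
        simp
      rw [h1]
      exact M.one_mem
  have hA : A ∈ H17.suT n F q := by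
    rw [H17.su_gen hF hn h32]
    trivial
  exact hle hA

/-- Isotropic vectors all of whose unitary transvections lie in `M`. -/
def uCenters (q : ℕ) (M : Subgroup (GL (Fin n) F)) : Set (Fin n → F) :=
  {v | ∃ hv : hermForm n F q v v = 0, ∀ c : F, c + c ^ q = 0 → unitTransv q v c hv ∈ M}

omit [Fintype F] in
lemma GU_inv_form {g : GL (Fin n) F} (hg : g ∈ GU n F q) (x v : Fin n → F) :
    hermForm n F q (((g⁻¹ : GL (Fin n) F) : Matrix (Fin n) (Fin n) F) *ᵥ x) v =
      hermForm n F q x ((g : Matrix (Fin n) (Fin n) F) *ᵥ v) := by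
  have := hg (((g⁻¹ : GL (Fin n) F) : Matrix (Fin n) (Fin n) F) *ᵥ x) v
  change hermForm n F q ((g : Matrix (Fin n) (Fin n) F) *ᵥ
    (((g⁻¹ : GL (Fin n) F) : Matrix (Fin n) (Fin n) F) *ᵥ x))
    ((g : Matrix (Fin n) (Fin n) F) *ᵥ v) = _ at this
  rw [Matrix.mulVec_mulVec, ← Units.val_mul, mul_inv_cancel, Units.val_one,
    Matrix.one_mulVec] at this
  exact this.symm

omit [Fintype F] in
lemma GU_form {g : GL (Fin n) F} (hg : g ∈ GU n F q) (x v : Fin n → F) :
    hermForm n F q ((g : Matrix (Fin n) (Fin n) F) *ᵥ x) ((g : Matrix (Fin n) (Fin n) F) *ᵥ v) =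
      hermForm n F q x v := hg x v

omit [Fintype F] in
lemma unitTransv_conj {g : GL (Fin n) F} (hg : g ∈ GU n F q) (v : Fin n → F) (c : F)
    (hv : hermForm n F q v v = 0)
    (hv' : hermForm n F q ((g : Matrix (Fin n) (Fin n) F) *ᵥ v)
      ((g : Matrix (Fin n) (Fin n) F) *ᵥ v) = 0) :
    g * unitTransv q v c hv * g⁻¹ = unitTransv q ((g : Matrix (Fin n) (Fin n) F) *ᵥ v) c hv' := by
  apply Units.ext
  apply H17.matrix_ext_mulVec
  intro x
  rw [Units.val_mul, Units.val_mul, ← Matrix.mulVec_mulVec, ← Matrix.mulVec_mulVec,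
    unitTransv_mulVec, unitTransv_mulVec, Matrix.mulVec_add, Matrix.mulVec_smul,
    Matrix.mulVec_mulVec, ← Units.val_mul, mul_inv_cancel, Units.val_one, Matrix.one_mulVec,
    GU_inv_form hg]

omit [Fintype F] in
lemma uCenters_mulVec {M : Subgroup (GL (Fin n) F)} {g : GL (Fin n) F}
    (hgM : g ∈ M) (hg : g ∈ GU n F q) {v : Fin n → F} (hv : v ∈ uCenters q M) :
    (g : Matrix (Fin n) (Fin n) F) *ᵥ v ∈ uCenters q M := by
  obtain ⟨hv0, hvM⟩ := hv
  have hv' : hermForm n F q ((g : Matrix (Fin n) (Fin n) F) *ᵥ v)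
      ((g : Matrix (Fin n) (Fin n) F) *ᵥ v) = 0 := by
    rw [GU_form hg, hv0]
  refine ⟨hv', fun c hc => ?_⟩
  rw [← unitTransv_conj hg v c hv0 hv']
  exact M.mul_mem (M.mul_mem hgM (hvM c hc)) (M.inv_mem hgM)

lemma uCenters_transv (hF : Fintype.card F = q ^ 2) {M : Subgroup (GL (Fin n) F)}
    {u w : Fin n → F} (hu : u ∈ uCenters q M) (hw : w ∈ uCenters q M) (c : F)
    (hc : c + c ^ q = 0) :
    w + (c * hermForm n F q w u) • u ∈ uCenters q M := by
  obtain ⟨hu0, huM⟩ := hu
  have := uCenters_mulVec (huM c hc) (unitTransv_mem_GU hF u c hu0 hc) hw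
  rwa [unitTransv_mulVec] at this

lemma uCenters_smul (hF : Fintype.card F = q ^ 2) {M : Subgroup (GL (Fin n) F)}
    {v : Fin n → F} (hv : v ∈ uCenters q M) (a : F) : a • v ∈ uCenters q M := by
  obtain ⟨hv0, hvM⟩ := hv
  have hv' : hermForm n F q (a • v) (a • v) = 0 := by
    rw [hermForm_smul_left, hermForm_smul_right, hv0]
    ring
  refine ⟨hv', fun c hc => ?_⟩
  have h1 : unitTransv q (a • v) c hv' = unitTransv q v (c * a ^ (q + 1)) hv0 := by
    apply Units.ext
    apply H17.matrix_ext_mulVec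
    intro x
    rw [unitTransv_mulVec, unitTransv_mulVec, hermForm_smul_right, smul_smul]
    congr 2
    ring
  rw [h1]
  apply hvM
  have h2 : (a ^ (q + 1)) ^ q = a ^ (q + 1) := by
    rw [pow_succ, mul_pow, frob_frob hF, mul_comm]
  rw [mul_pow, h2]
  linear_combination a ^ (q + 1) * hc

omit [Fintype F] in
lemma uCenters_of_mem {M : Subgroup (GL (Fin n) F)} {v : Fin n → F} (hv : v ∈ uCenters q M)
    (c : F) (hv0 : hermForm n F q v v = 0) (hc : c + c ^ q = 0) : unitTransv q v c hv0 ∈ M := by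
  obtain ⟨_, hvM⟩ := hv
  exact hvM c hc

/-- If `x` is isotropic and `h(x, z) ≠ 0`, some `z + l • x` is isotropic. -/
lemma exists_isotropic_add (hF : Fintype.card F = q ^ 2) {x z : Fin n → F}
    (hx : hermForm n F q x x = 0) (hxz : hermForm n F q x z ≠ 0) :
    ∃ l : F, hermForm n F q (z + l • x) (z + l • x) = 0 := by
  have hzz : (hermForm n F q z z) ^ q = hermForm n F q z z := (hermForm_herm hF z z).symm
  obtain ⟨μ, hμ⟩ := H17.exists_trace_neg hF (hermForm n F q z z) hzz
  refine ⟨μ / hermForm n F q x z, ?_⟩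
  simp only [hermForm_add_left, hermForm_add_right hF, hermForm_smul_left, hermForm_smul_right, hx]
  rw [hermForm_herm hF x z, div_pow]
  have h1 : hermForm n F q x z ^ q ≠ 0 := pow_ne_zero _ hxz
  field_simp
  linear_combination (hermForm n F q x z * hermForm n F q x z ^ q) * hμ

end SUMax

end Cfsg.Agent.H95
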