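import Mathlib
import Cfsg.Prelude.Def_LinearParabolics

/-!
# helper95: definitions for the GL_n / S_n flag-character comparison (S2423, S2422, S2421)

* `pmat F σ` : the permutation matrix with `pmat F σ i j = 1` iff `i = σ j` (so `σ ↦ pmat F σ` is a hom).
* `rkInv a b g s t` : rank of the submatrix of `g` with rows `{i | s ≤ a i}` and columns `{j | b j ≤ t}`.
* `cntInv a b σ s t` : the number of `j` with `s ≤ a (σ j)` and `b j ≤ t`.
* `GF n`, `mon`, `gx`, `gy` : the generating-function ring in two sets of `n` variables.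
-/

set_option autoImplicit false

namespace Cfsg.Agent.H95.Flag

/-- The permutation matrix of `σ`, sending the basis vector `e_j` to `e_{σ j}`. -/
def pmat {n : ℕ} (F : Type*) [Zero F] [One F] (σ : Equiv.Perm (Fin n)) : Matrix (Fin n) (Fin n) F :=
  Matrix.of fun i j => if i = σ j then 1 else 0

theorem pmat_apply {n : ℕ} (F : Type*) [Zero F] [One F] (σ : Equiv.Perm (Fin n)) (i j : Fin n) :
    pmat F σ i j = if i = σ j then 1 else 0 := rfl

theorem pmat_one {n : ℕ} (F : Type*) [Semiring F] : pmat F (1 : Equiv.Perm (Fin n)) = 1 := by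
  ext i j
  rw [pmat_apply, Matrix.one_apply]
  rfl

theorem pmat_mul {n : ℕ} (F : Type*) [Semiring F] (σ τ : Equiv.Perm (Fin n)) :
    pmat F (σ * τ) = pmat F σ * pmat F τ := by
  ext i j
  rw [Matrix.mul_apply, pmat_apply]
  rw [Finset.sum_eq_single (τ j)]
  · rw [pmat_apply, pmat_apply, if_pos rfl, mul_one]
    rfl
  · intro k _ hk
    rw [pmat_apply F τ, if_neg hk, mul_zero]
  · intro h; exact absurd (Finset.mem_univ _) h

theorem pmat_mul_inv {n : ℕ} (F : Type*) [Semiring F] (σ : Equiv.Perm (Fin n)) :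
    pmat F σ * pmat F σ⁻¹ = 1 := by
  rw [← pmat_mul, mul_inv_cancel, pmat_one]

theorem pmat_inv_mul {n : ℕ} (F : Type*) [Semiring F] (σ : Equiv.Perm (Fin n)) :
    pmat F σ⁻¹ * pmat F σ = 1 := by
  rw [← pmat_mul, inv_mul_cancel, pmat_one]

theorem isUnit_det_pmat {n : ℕ} (F : Type*) [CommRing F] (σ : Equiv.Perm (Fin n)) :
    IsUnit (pmat F σ).det :=
  IsUnit.of_mul_eq_one _ (by rw [← Matrix.det_mul, pmat_mul_inv, Matrix.det_one])

/-- If `σ` preserves the labelling `a` then its permutation matrix is block triangular for `a`. -/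
theorem pmat_blockTriangular {n : ℕ} (F : Type*) [Zero F] [One F] (a : Fin n → ℕ)
    (σ : Equiv.Perm (Fin n)) (h : ∀ i, a (σ i) = a i) : (pmat F σ).BlockTriangular a := by
  intro i j hij
  rw [pmat_apply, if_neg]
  rintro rfl
  rw [h] at hij
  exact lt_irrefl _ hij

/-- The rank invariant: the rank of the submatrix of `g` with rows `{i | s ≤ a i}` and columns
`{j | b j ≤ t}`. -/
noncomputable def rkInv {n : ℕ} {F : Type*} [Field F] (a b : Fin n → ℕ)
    (g : Matrix (Fin n) (Fin n) F) (s t : ℕ) : ℕ :=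
  (g.submatrix (fun i : {i : Fin n // s ≤ a i} => i.1) (fun j : {j : Fin n // b j ≤ t} => j.1)).rank

/-- The counting invariant of a permutation: the number of `j` with `s ≤ a (σ j)` and `b j ≤ t`. -/
def cntInv {n : ℕ} (a b : Fin n → ℕ) (σ : Equiv.Perm (Fin n)) (s t : ℕ) : ℕ :=
  (Finset.univ.filter fun j : Fin n => s ≤ a (σ j) ∧ b j ≤ t).card

/-- The generating-function ring: integer polynomials in two sets of `n` variables, as a monoid
algebra over pairs of exponent vectors. -/
abbrev GF (n : ℕ) : Type := AddMonoidAlgebra ℤ ((Fin n → ℕ) × (Fin n → ℕ))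

/-- The monomial `x^u y^v`. -/
noncomputable def mon {n : ℕ} (u v : Fin n → ℕ) : GF n := AddMonoidAlgebra.single (u, v) 1

/-- The variable `x_i`. -/
noncomputable def gx {n : ℕ} (i : Fin n) : GF n := mon (Pi.single i 1) 0

/-- The variable `y_j`. -/
noncomputable def gy {n : ℕ} (j : Fin n) : GF n := mon 0 (Pi.single j 1)

theorem mon_mul {n : ℕ} (u v u' v' : Fin n → ℕ) : mon u v * mon u' v' = mon (u + u') (v + v') := by
  unfold mon
  rw [AddMonoidAlgebra.single_mul_single, one_mul]
  rfl

theorem mon_zero {n : ℕ} : mon (0 : Fin n → ℕ) 0 = 1 := rfl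

theorem mon_apply {n : ℕ} (u v u' v' : Fin n → ℕ) :
    (mon u v).coeff (u', v') = if u = u' ∧ v = v' then 1 else 0 := by
  unfold mon
  rw [AddMonoidAlgebra.coeff_single, Finsupp.single_apply]
  simp only [Prod.mk.injEq]

/-- The number of `n × n` matrices of naturals with row sums `α` and column sums `β`. -/
noncomputable def margCount {n : ℕ} (α β : Fin n → ℕ) : ℕ :=
  Nat.card {M : Fin n → Fin n → ℕ // (∀ i, ∑ j, M i j = α i) ∧ (∀ j, ∑ i, M i j = β j)}

end Cfsg.Agent.H95.Flag
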