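import Cfsg.Agent.H95.Basic

set_option autoImplicit false

namespace Cfsg.Agent.H95

open Cfsg Cfsg.Geo
open scoped MatrixGroups Matrix

section Herm

variable {n : ℕ} {F : Type*} [Field F] [Fintype F] {q : ℕ}

/-- Over a field with `q²` elements, `x ↦ x^q` is a ring homomorphism. -/
lemma exists_frob (hF : Fintype.card F = q ^ 2) : ∃ φ : F →+* F, ∀ x, φ x = x ^ q := by
  obtain ⟨p, hp⟩ := CharP.exists F
  haveI := hp
  obtain ⟨k, hpp, hk⟩ := FiniteField.card F p
  haveI : Fact p.Prime := ⟨hpp⟩
  have hdvd : q ∣ p ^ (k : ℕ) := by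
    rw [← hk, hF]
    exact Dvd.intro_left (q ^ 1) (by ring)
  obtain ⟨j, -, hj⟩ := (Nat.dvd_prime_pow hpp).mp hdvd
  refine ⟨iterateFrobenius F p j, fun x => ?_⟩
  rw [iterateFrobenius_def, hj]

lemma frob_add (hF : Fintype.card F = q ^ 2) (a b : F) : (a + b) ^ q = a ^ q + b ^ q := by
  obtain ⟨φ, hφ⟩ := exists_frob hF
  rw [← hφ, ← hφ, ← hφ, map_add]

lemma frob_sum (hF : Fintype.card F = q ^ 2) {α : Type*} (s : Finset α) (a : α → F) :
    (∑ i ∈ s, a i) ^ q = ∑ i ∈ s, (a i) ^ q := by
  obtain ⟨φ, hφ⟩ := exists_frob hF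
  rw [← hφ, map_sum]
  simp [hφ]

lemma frob_frob (hF : Fintype.card F = q ^ 2) (a : F) : (a ^ q) ^ q = a := by
  rw [← pow_mul, ← sq, ← hF, FiniteField.pow_card]

omit [Fintype F] in
lemma hermForm_add_left (u u' v : Fin n → F) :
    hermForm n F q (u + u') v = hermForm n F q u v + hermForm n F q u' v := by
  unfold hermForm
  rw [← Finset.sum_add_distrib]
  apply Finset.sum_congr rfl
  intro i _
  simp only [Pi.add_apply]
  ring

omit [Fintype F] in
lemma hermForm_smul_left (c : F) (u v : Fin n → F) :
    hermForm n F q (c • u) v = c * hermForm n F q u v := by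
  unfold hermForm
  rw [Finset.mul_sum]
  apply Finset.sum_congr rfl
  intro i _
  simp only [Pi.smul_apply, smul_eq_mul]
  ring

omit [Fintype F] in
lemma hermForm_smul_right (c : F) (u v : Fin n → F) :
    hermForm n F q u (c • v) = c ^ q * hermForm n F q u v := by
  unfold hermForm
  rw [Finset.mul_sum]
  apply Finset.sum_congr rfl
  intro i _
  simp only [Pi.smul_apply, smul_eq_mul]
  ring

lemma hermForm_add_right (hF : Fintype.card F = q ^ 2) (u v v' : Fin n → F) :
    hermForm n F q u (v + v') = hermForm n F q u v + hermForm n F q u v' := by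
  unfold hermForm
  rw [← Finset.sum_add_distrib]
  apply Finset.sum_congr rfl
  intro i _
  simp only [Pi.add_apply]
  rw [frob_add hF]
  ring

lemma hermForm_herm (hF : Fintype.card F = q ^ 2) (u v : Fin n → F) :
    hermForm n F q v u = (hermForm n F q u v) ^ q := by
  unfold hermForm
  rw [frob_sum hF]
  apply Finset.sum_congr rfl
  intro i _
  rw [mul_pow, frob_frob hF]
  ring

omit [Fintype F] in
lemma hermForm_zero_left (v : Fin n → F) : hermForm n F q 0 v = 0 := by
  have := hermForm_smul_left (q := q) (0 : F) 0 v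
  simpa using this

omit [Fintype F] in
lemma hermForm_sum_left {α : Type*} (s : Finset α) (u : α → Fin n → F) (v : Fin n → F) :
    hermForm n F q (∑ i ∈ s, u i) v = ∑ i ∈ s, hermForm n F q (u i) v := by
  classical
  induction s using Finset.induction_on with
  | empty => simp [hermForm_zero_left]
  | insert a s ha ih => rw [Finset.sum_insert ha, Finset.sum_insert ha, hermForm_add_left, ih]

/-- The linear functional `x ↦ hermForm x v`. -/
noncomputable def hermL (q : ℕ) (v : Fin n → F) : (Fin n → F) →ₗ[F] F where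
  toFun x := hermForm n F q x v
  map_add' x y := hermForm_add_left x y v
  map_smul' c x := by simp [hermForm_smul_left]

omit [Fintype F] in
@[simp] lemma hermL_apply (v x : Fin n → F) : hermL q v x = hermForm n F q x v := rfl

omit [Fintype F] in
lemma mem_GU_iff (g : GL (Fin n) F) :
    g ∈ GU n F q ↔ ∀ u v, hermForm n F q ((g : Matrix _ _ F) *ᵥ u) ((g : Matrix _ _ F) *ᵥ v)
      = hermForm n F q u v := Iff.rfl

/-- The unitary transvection `x ↦ x + c h(x, w) w` as an element of `GL`, for isotropic `w`. -/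
noncomputable def unitTransv (q : ℕ) (w : Fin n → F) (c : F) (hw : hermForm n F q w w = 0) :
    GL (Fin n) F :=
  glOf (LinearEquiv.transvection (f := c • hermL q w) (v := w) (by simp [hw]))

omit [Fintype F] in
lemma unitTransv_mulVec (w : Fin n → F) (c : F) (hw : hermForm n F q w w = 0) (x : Fin n → F) :
    ((unitTransv q w c hw : GL _ F) : Matrix _ _ F) *ᵥ x = x + (c * hermForm n F q x w) • w := by
  rw [unitTransv, glOf_mulVec, LinearEquiv.transvection.apply]
  simp

omit [Fintype F] in
lemma unitTransv_mem_specialLinear (w : Fin n → F) (c : F) (hw : hermForm n F q w w = 0) :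
    unitTransv q w c hw ∈ specialLinear (Fin n) F :=
  glOf_mem_specialLinear _ (by simp)

lemma unitTransv_mem_GU (hF : Fintype.card F = q ^ 2) (w : Fin n → F) (c : F)
    (hw : hermForm n F q w w = 0) (hc : c + c ^ q = 0) : unitTransv q w c hw ∈ GU n F q := by
  rw [mem_GU_iff]
  intro x y
  rw [unitTransv_mulVec, unitTransv_mulVec]
  simp only [hermForm_add_left, hermForm_add_right hF, hermForm_smul_left, hermForm_smul_right, hw]
  rw [hermForm_herm hF y w, mul_pow]
  linear_combination (hermForm n F q x w * (hermForm n F q y w) ^ q) * hc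

end Herm

end Cfsg.Agent.H95
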