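import Cfsg.Agent.H95.PairSU
import Cfsg.Agent.H17.GUDet

set_option autoImplicit false
set_option linter.unusedSectionVars false
set_option linter.unusedVariables false

/-! Helper lemmas (helper95): geometry of non-degenerate subspaces for the hermitian form,
Witt-type moves and quasi-reflections, used for the maximality of the stabiliser of a
non-degenerate subspace in `SU_n(q)`. -/

namespace Cfsg.Agent.H95

open Cfsg Cfsg.Geo Module
open scoped MatrixGroups Matrix

section NDU

variable {n : ℕ} {F : Type*} [Field F] [Fintype F] {q : ℕ}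

/-- The orthogonal complement of a subspace for the hermitian form. -/
def hermPerp (q : ℕ) (W : Submodule F (Fin n → F)) : Submodule F (Fin n → F) where
  carrier := {y | ∀ x ∈ W, hermForm n F q y x = 0}
  add_mem' := by
    intro a b ha hb x hx
    rw [hermForm_add_left, ha x hx, hb x hx, add_zero]
  zero_mem' := by
    intro x hx
    exact hermForm_zero_left x
  smul_mem' := by
    intro c a ha x hx
    rw [hermForm_smul_left, ha x hx, mul_zero]

omit [Fintype F] in
lemma mem_hermPerp (W : Submodule F (Fin n → F)) (y : Fin n → F) :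
    y ∈ hermPerp q W ↔ ∀ x ∈ W, hermForm n F q y x = 0 := Iff.rfl

lemma herm_self_frob (hF : Fintype.card F = q ^ 2) (x : Fin n → F) :
    (hermForm n F q x x) ^ q = hermForm n F q x x := (hermForm_herm hF x x).symm

lemma herm_zero_right' (hF : Fintype.card F = q ^ 2) (x : Fin n → F) :
    hermForm n F q x 0 = 0 := herm_zero_symm hF (hermForm_zero_left x)

lemma norm_surj (hF : Fintype.card F = q ^ 2) (c : F) (hc : c ^ q = c) (hc0 : c ≠ 0) :
    ∃ t : F, t ^ (q + 1) = c := by
  obtain ⟨t, ht⟩ := H17.exists_norm_eq (H17.frobHom hF) (H17.frobHom_ne_id hF)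
    (H17.frobHom_invol hF) c hc0 (by rw [H17.frobHom_apply, hc])
  rw [H17.frobHom_apply] at ht
  exact ⟨t, by rw [pow_succ, mul_comm, ht]⟩

lemma exists_trace_one (hF : Fintype.card F = q ^ 2) : ∃ t : F, t + t ^ q = 1 := by
  obtain ⟨t, ht⟩ := H17.exists_trace_eq (H17.frobHom hF) (H17.frobHom_ne_id hF)
    (H17.frobHom_invol hF) 1 (by rw [H17.frobHom_apply, one_pow])
  rw [H17.frobHom_apply] at ht
  exact ⟨t, ht⟩

lemma exists_not_fixed (hF : Fintype.card F = q ^ 2) : ∃ θ : F, θ ^ q ≠ θ := by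
  by_contra hcon
  push Not at hcon
  exact H17.frobHom_ne_id hF (RingHom.ext hcon)

/-- A subspace of dimension at least two contains a non-zero isotropic vector. -/
theorem iso_exists (hF : Fintype.card F = q ^ 2) (S : Submodule F (Fin n → F))
    (hS : 2 ≤ finrank F S) : ∃ x ∈ S, x ≠ 0 ∧ hermForm n F q x x = 0 := by
  have hq := H17.two_le_of_card_sq hF
  by_contra hcon
  push Not at hcon
  obtain ⟨x, hxS, hx0⟩ : ∃ x ∈ S, x ≠ 0 := by
    have : S ≠ ⊥ := by
      intro h
      rw [h, finrank_bot] at hS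
      omega
    exact Submodule.exists_mem_ne_zero_of_ne_bot this
  have h1 := finrank_inf_ker_ge S (hermL q x)
  obtain ⟨y, hyS, hy0⟩ : ∃ y ∈ S ⊓ LinearMap.ker (hermL q x), y ≠ 0 := by
    have : S ⊓ LinearMap.ker (hermL q x) ≠ ⊥ := by
      intro h
      rw [h, finrank_bot] at h1
      omega
    exact Submodule.exists_mem_ne_zero_of_ne_bot this
  have hyx : hermForm n F q y x = 0 := LinearMap.mem_ker.mp hyS.2
  have hxx := hcon x hxS hx0
  have hyy := hcon y hyS.1 hy0
  have hr : (-(hermForm n F q y y) / hermForm n F q x x) ^ q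
      = -(hermForm n F q y y) / hermForm n F q x x := by
    rw [div_pow, H17.frob_neg hF, herm_self_frob hF, herm_self_frob hF]
  obtain ⟨l, hl⟩ := norm_surj hF _ hr (div_ne_zero (neg_ne_zero.mpr hyy) hxx)
  have hl0 : l ≠ 0 := by
    rintro rfl
    rw [zero_pow (by omega)] at hl
    exact (div_ne_zero (neg_ne_zero.mpr hyy) hxx) hl.symm
  apply hcon (y + l • x) (S.add_mem hyS.1 (S.smul_mem _ hxS))
  · intro h0
    have : hermForm n F q (y + l • x) x = 0 := by rw [h0, hermForm_zero_left]
    rw [hermForm_add_left, hermForm_smul_left, hyx, zero_add] at this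
    rcases mul_eq_zero.mp this with h | h
    · exact hl0 h
    · exact hxx h
  · simp only [hermForm_add_left, hermForm_add_right hF, hermForm_smul_left, hermForm_smul_right]
    rw [hyx, herm_zero_symm hF hyx]
    have h2 : l ^ (q + 1) * hermForm n F q x x = -(hermForm n F q y y) := by
      rw [hl]
      field_simp
    rw [pow_succ] at h2
    linear_combination h2

/-- In a non-degenerate subspace, a vector pairing to one with a given non-zero vector. -/
lemma nd_one_left (hF : Fintype.card F = q ^ 2) (Y : Submodule F (Fin n → F))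
    (hY : ∀ y ∈ Y, y ≠ 0 → ∃ x ∈ Y, hermForm n F q x y ≠ 0) (y : Fin n → F) (hy : y ∈ Y)
    (hy0 : y ≠ 0) : ∃ x ∈ Y, hermForm n F q x y = 1 := by
  obtain ⟨x, hx, hxy⟩ := hY y hy hy0
  refine ⟨(hermForm n F q x y)⁻¹ • x, Y.smul_mem _ hx, ?_⟩
  rw [hermForm_smul_left, inv_mul_cancel₀ hxy]

lemma nd_one_right (hF : Fintype.card F = q ^ 2) (Y : Submodule F (Fin n → F))
    (hY : ∀ y ∈ Y, y ≠ 0 → ∃ x ∈ Y, hermForm n F q x y ≠ 0) (y : Fin n → F) (hy : y ∈ Y)
    (hy0 : y ≠ 0) : ∃ x ∈ Y, hermForm n F q y x = 1 := by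
  obtain ⟨x, hx, hxy⟩ := nd_one_left hF Y hY y hy hy0
  refine ⟨x, hx, ?_⟩
  rw [hermForm_herm hF x y, hxy, one_pow]

/-- In a non-degenerate subspace `Y`: if `e` is not a multiple of `b`, some vector of `Y` is
orthogonal to `b` but not to `e`. -/
theorem perp_avoid (hF : Fintype.card F = q ^ 2) (Y : Submodule F (Fin n → F))
    (hY : ∀ y ∈ Y, y ≠ 0 → ∃ x ∈ Y, hermForm n F q x y ≠ 0) (b e : Fin n → F) (hb : b ∈ Y)
    (he : e ∈ Y) (hne : e ∉ Submodule.span F {b}) :
    ∃ x ∈ Y, hermForm n F q x b = 0 ∧ hermForm n F q x e ≠ 0 := by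
  have he0 : e ≠ 0 := by
    rintro rfl
    exact hne (Submodule.zero_mem _)
  by_cases hb0 : b = 0
  · obtain ⟨x, hx, hxe⟩ := hY e he he0
    exact ⟨x, hx, by rw [hb0, herm_zero_right' hF], hxe⟩
  obtain ⟨y₀, hy₀, hy₀b⟩ := nd_one_left hF Y hY b hb hb0
  by_contra hcon
  push Not at hcon
  apply hne
  have hkey : ∀ x ∈ Y, hermForm n F q x e = hermForm n F q x b * hermForm n F q y₀ e := by
    intro x hx
    have h1 := hcon (x - hermForm n F q x b • y₀) (Y.sub_mem hx (Y.smul_mem _ hy₀))
      (by rw [hermForm_sub_left', hermForm_smul_left, hy₀b, mul_one, sub_self])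
    rw [hermForm_sub_left', hermForm_smul_left] at h1
    linear_combination h1
  have h2 : e - (hermForm n F q y₀ e) ^ q • b = 0 := by
    by_contra h3
    obtain ⟨x, hx, hx3⟩ := hY _ (Y.sub_mem he (Y.smul_mem _ hb)) h3
    apply hx3
    rw [hermForm_sub_right' hF, hermForm_smul_right, frob_frob hF, hkey x hx]
    ring
  rw [sub_eq_zero] at h2
  rw [h2]
  exact Submodule.smul_mem _ _ (Submodule.mem_span_singleton_self b)

/-- A hyperbolic pair of a non-degenerate subspace orthogonal to a given vector. -/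
theorem hyp_pair_perp (hF : Fintype.card F = q ^ 2) (Y : Submodule F (Fin n → F))
    (hY : ∀ y ∈ Y, y ≠ 0 → ∃ x ∈ Y, hermForm n F q x y ≠ 0) (hd : 4 ≤ finrank F Y)
    (b : Fin n → F) (hb : b ∈ Y) :
    ∃ e f : Fin n → F, e ∈ Y ∧ f ∈ Y ∧ hermForm n F q e e = 0 ∧ hermForm n F q f f = 0 ∧
      hermForm n F q e b = 0 ∧ hermForm n F q f b = 0 ∧ hermForm n F q f e = 1 := by
  obtain ⟨y₀, hy₀, hy₀b⟩ : ∃ y₀ ∈ Y, b ≠ 0 → hermForm n F q b y₀ = 1 := by
    by_cases hb0 : b = 0
    · exact ⟨0, Y.zero_mem, fun h => absurd hb0 h⟩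
    · obtain ⟨y₀, hy₀, h⟩ := nd_one_right hF Y hY b hb hb0
      exact ⟨y₀, hy₀, fun _ => h⟩
  have h1 := finrank_inf_ker_ge Y (hermL q b)
  have h2 := finrank_inf_ker_ge (Y ⊓ LinearMap.ker (hermL q b)) (hermL q y₀)
  obtain ⟨e, heS, he0, hee⟩ := iso_exists hF
    (Y ⊓ LinearMap.ker (hermL q b) ⊓ LinearMap.ker (hermL q y₀)) (by omega)
  have heY : e ∈ Y := heS.1.1
  have heb : hermForm n F q e b = 0 := LinearMap.mem_ker.mp heS.1.2
  have hey₀ : hermForm n F q e y₀ = 0 := LinearMap.mem_ker.mp heS.2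
  have hne : e ∉ Submodule.span F {b} := by
    intro h
    obtain ⟨κ, rfl⟩ := Submodule.mem_span_singleton.mp h
    by_cases hb0 : b = 0
    · apply he0
      rw [hb0, smul_zero]
    · rw [hermForm_smul_left, hy₀b hb0, mul_one] at hey₀
      apply he0
      rw [hey₀, zero_smul]
  obtain ⟨x, hx, hxb, hxe⟩ := perp_avoid hF Y hY b e hb heY hne
  have hex : hermForm n F q e x ≠ 0 := by
    intro h
    exact hxe (herm_zero_symm hF h)
  obtain ⟨l, hl⟩ := exists_isotropic_add hF hee hex
  have hfe : hermForm n F q (x + l • e) e = hermForm n F q x e := by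
    rw [hermForm_add_left, hermForm_smul_left, hee, mul_zero, add_zero]
  refine ⟨e, (hermForm n F q x e)⁻¹ • (x + l • e), heY,
    Y.smul_mem _ (Y.add_mem hx (Y.smul_mem _ heY)), hee, ?_, heb, ?_, ?_⟩
  · rw [hermForm_smul_left, hermForm_smul_right, hl, mul_zero, mul_zero]
  · rw [hermForm_smul_left, hermForm_add_left, hermForm_smul_left, hxb, heb, mul_zero, add_zero,
      mul_zero]
  · rw [hermForm_smul_left, hfe, inv_mul_cancel₀ hxe]

/-- A vector of prescribed norm of a non-degenerate subspace orthogonal to a given vector. -/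
theorem norm_perp (hF : Fintype.card F = q ^ 2) (Y : Submodule F (Fin n → F))
    (hY : ∀ y ∈ Y, y ≠ 0 → ∃ x ∈ Y, hermForm n F q x y ≠ 0) (hd : 4 ≤ finrank F Y)
    (b : Fin n → F) (hb : b ∈ Y) (t : F) (ht : t ^ q = t) :
    ∃ c ∈ Y, c ≠ 0 ∧ hermForm n F q c c = t ∧ hermForm n F q c b = 0 := by
  have hq := H17.two_le_of_card_sq hF
  obtain ⟨e, f, he, hf, hee, hff, heb, hfb, hfe⟩ := hyp_pair_perp hF Y hY hd b hb
  have hef : hermForm n F q e f = 1 := by rw [hermForm_herm hF f e, hfe, one_pow]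
  by_cases ht0 : t = 0
  · refine ⟨e, he, ?_, by rw [hee, ht0], heb⟩
    rintro rfl
    rw [herm_zero_right' hF] at hfe
    exact zero_ne_one hfe
  obtain ⟨τ, hτ⟩ := exists_trace_one hF
  obtain ⟨l, hl⟩ := norm_surj hF t ht ht0
  have hcc : hermForm n F q (e + τ • f) (e + τ • f) = 1 := by
    simp only [hermForm_add_left, hermForm_add_right hF, hermForm_smul_left, hermForm_smul_right,
      hee, hff, hef, hfe]
    linear_combination hτ
  have hll : hermForm n F q (l • (e + τ • f)) (l • (e + τ • f)) = t := by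
    rw [hermForm_smul_left, hermForm_smul_right, hcc, mul_one, ← hl, pow_succ, mul_comm]
  refine ⟨l • (e + τ • f), Y.smul_mem _ (Y.add_mem he (Y.smul_mem _ hf)), ?_, hll, ?_⟩
  · intro h0
    rw [h0, hermForm_zero_left] at hll
    exact ht0 hll.symm
  · rw [hermForm_smul_left, hermForm_add_left, hermForm_smul_left, heb, hfb]
    ring

/-- A non-zero isotropic vector of a subspace orthogonal to two given vectors. -/
theorem iso_perp_two (hF : Fintype.card F = q ^ 2) (Y : Submodule F (Fin n → F))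
    (hd : 4 ≤ finrank F Y) (b b' : Fin n → F) :
    ∃ c ∈ Y, c ≠ 0 ∧ hermForm n F q c c = 0 ∧ hermForm n F q c b = 0 ∧
      hermForm n F q c b' = 0 := by
  have h1 := finrank_inf_ker_ge Y (hermL q b)
  have h2 := finrank_inf_ker_ge (Y ⊓ LinearMap.ker (hermL q b)) (hermL q b')
  obtain ⟨c, hcS, hc0, hcc⟩ := iso_exists hF
    (Y ⊓ LinearMap.ker (hermL q b) ⊓ LinearMap.ker (hermL q b')) (by omega)
  exact ⟨c, hcS.1.1, hc0, hcc, LinearMap.mem_ker.mp hcS.1.2, LinearMap.mem_ker.mp hcS.2⟩

/-- The isotropic vectors of a non-degenerate subspace span it. -/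
theorem iso_span (hF : Fintype.card F = q ^ 2) (Y : Submodule F (Fin n → F))
    (hY : ∀ y ∈ Y, y ≠ 0 → ∃ x ∈ Y, hermForm n F q x y ≠ 0) (hd : 4 ≤ finrank F Y)
    (y : Fin n → F) (hy : y ∈ Y) :
    y ∈ Submodule.span F {s : Fin n → F | s ∈ Y ∧ hermForm n F q s s = 0} := by
  obtain ⟨e, f, he, hf, hee, hff, -, -, hfe⟩ := hyp_pair_perp hF Y hY hd 0 Y.zero_mem
  have heS : e ∈ Submodule.span F {s : Fin n → F | s ∈ Y ∧ hermForm n F q s s = 0} :=
    Submodule.subset_span ⟨he, hee⟩
  have hfS : f ∈ Submodule.span F {s : Fin n → F | s ∈ Y ∧ hermForm n F q s s = 0} :=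
    Submodule.subset_span ⟨hf, hff⟩
  have hef : hermForm n F q e f = 1 := by rw [hermForm_herm hF f e, hfe, one_pow]
  have key : ∀ z ∈ Y, hermForm n F q e z ≠ 0 →
      z ∈ Submodule.span F {s : Fin n → F | s ∈ Y ∧ hermForm n F q s s = 0} := by
    intro z hz hez
    obtain ⟨l, hl⟩ := exists_isotropic_add hF hee hez
    have h1 : z + l • e ∈ Submodule.span F {s : Fin n → F | s ∈ Y ∧ hermForm n F q s s = 0} :=
      Submodule.subset_span ⟨Y.add_mem hz (Y.smul_mem _ he), hl⟩
    have h2 := Submodule.sub_mem _ h1 (Submodule.smul_mem _ l heS)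
    rwa [add_sub_cancel_right] at h2
  by_cases hey : hermForm n F q e y = 0
  · have h1 := key (y + f) (Y.add_mem hy hf) (by
      rw [hermForm_add_right hF, hey, hef, zero_add]
      exact one_ne_zero)
    have h2 := Submodule.sub_mem _ h1 hfS
    rwa [add_sub_cancel_right] at h2
  · exact key y hy hey

/-- The dimension of the orthogonal complement. -/
theorem finrank_hermPerp_ge (hF : Fintype.card F = q ^ 2) (W : Submodule F (Fin n → F)) :
    n ≤ finrank F W + finrank F (hermPerp q W) := by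
  classical
  let b := Module.finBasis F W
  let L : (Fin n → F) →ₗ[F] (Fin (finrank F W) → F) :=
    LinearMap.pi (fun i => hermL q (b i : Fin n → F))
  have hker : LinearMap.ker L ≤ hermPerp q W := by
    intro y hy x hx
    have hyi : ∀ i, hermForm n F q y (b i : Fin n → F) = 0 := by
      intro i
      have := congrFun (LinearMap.mem_ker.mp hy) i
      simpa [L] using this
    have hx' : x = ∑ i, (b.repr ⟨x, hx⟩ i) • (b i : Fin n → F) := by
      have h1 := b.sum_repr ⟨x, hx⟩
      have h2 := congrArg Subtype.val h1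
      rw [Submodule.coe_sum] at h2
      simp only [Submodule.coe_smul] at h2
      exact h2.symm
    rw [hx', H17.hermForm_sum_right hF n]
    apply Finset.sum_eq_zero
    intro i _
    rw [hyi i, mul_zero]
  have h1 := LinearMap.finrank_range_add_finrank_ker L
  have h2 := Submodule.finrank_le (LinearMap.range L)
  have h3 := Submodule.finrank_mono hker
  rw [Module.finrank_pi, Fintype.card_fin] at h1
  rw [Module.finrank_pi, Fintype.card_fin] at h2
  omega

end NDU

end Cfsg.Agent.H95
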