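import Cfsg.Agent.H95.PairGeo
import Cfsg.Agent.H95.SUMax

set_option autoImplicit false
set_option linter.unusedSectionVars false
set_option linter.unusedVariables false

/-! Helper lemmas (helper95): in `SU_n(q)`, `n = 2k`, the stabiliser of a pair of complementary
maximal totally isotropic subspaces is maximal (core argument). -/

namespace Cfsg.Agent.H95

open Cfsg Cfsg.Geo Module
open scoped MatrixGroups Matrix

section PairSU

variable {n : ℕ} {F : Type*} [Field F] [Fintype F] {q : ℕ}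

/-- The map `x ↦ x + h(x,a) y - h(x,y) a + b h(x,a) a`. -/
def uS (q : ℕ) (a y : Fin n → F) (b : F) (x : Fin n → F) : Fin n → F :=
  x + (hermForm n F q x a • y + (-hermForm n F q x y) • a + (b * hermForm n F q x a) • a)

lemma herm_zero_symm (hF : Fintype.card F = q ^ 2) {u v : Fin n → F}
    (h : hermForm n F q u v = 0) : hermForm n F q v u = 0 := by
  have hq := H17.two_le_of_card_sq hF
  rw [hermForm_herm hF u v, h, zero_pow (by omega)]

lemma hermForm_sub_right' (hF : Fintype.card F = q ^ 2) (u v v' : Fin n → F) :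
    hermForm n F q u (v - v') = hermForm n F q u v - hermForm n F q u v' := by
  have := hermForm_add_right hF u (v - v') v'
  rw [sub_add_cancel] at this
  rw [this]; ring

omit [Fintype F] in
lemma hermForm_sub_left' (u u' v : Fin n → F) :
    hermForm n F q (u - u') v = hermForm n F q u v - hermForm n F q u' v := by
  have := hermForm_add_left (q := q) (u - u') u' v
  rw [sub_add_cancel] at this
  rw [this]; ring

lemma uS_comp (hF : Fintype.card F = q ^ 2) (a y₁ y₂ : Fin n → F) (b₁ b₂ : F) (x : Fin n → F)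
    (haa : hermForm n F q a a = 0) (h1 : hermForm n F q y₁ a = 0)
    (h2 : hermForm n F q y₂ a = 0) :
    uS q a y₁ b₁ (uS q a y₂ b₂ x) = uS q a (y₁ + y₂) (b₁ + b₂ - hermForm n F q y₂ y₁) x := by
  have h1' : hermForm n F q a y₁ = 0 := herm_zero_symm hF h1
  unfold uS
  simp only [hermForm_add_left, hermForm_smul_left, hermForm_add_right hF, haa, h1', h2,
    mul_zero, add_zero]
  module

lemma uS_transv (hF : Fintype.card F = q ^ 2) (a z : Fin n → F) (b c : F) (x : Fin n → F)
    (haa : hermForm n F q a a = 0) (hza : hermForm n F q z a = 0) :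
    uS q a z b (x + (c * hermForm n F q x a) • a) = uS q a z (b + c) x := by
  have haz : hermForm n F q a z = 0 := herm_zero_symm hF hza
  unfold uS
  simp only [hermForm_add_left, hermForm_smul_left, haa, haz, mul_zero, add_zero]
  module

/-- `y` is a direction at the isotropic vector `a` for `M`. -/
def uDir (q : ℕ) (M : Subgroup (GL (Fin n) F)) (a y : Fin n → F) : Prop :=
  hermForm n F q a a = 0 ∧ hermForm n F q y a = 0 ∧ ∀ t : F, ∃ b : F, ∃ g ∈ M, ∀ x,
    (g : Matrix (Fin n) (Fin n) F) *ᵥ x = uS q a (t • y) b x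

lemma uDir_add (hF : Fintype.card F = q ^ 2) {M : Subgroup (GL (Fin n) F)}
    {a y₁ y₂ : Fin n → F} (h1 : uDir q M a y₁) (h2 : uDir q M a y₂) :
    uDir q M a (y₁ + y₂) := by
  refine ⟨h1.1, by rw [hermForm_add_left, h1.2.1, h2.2.1, add_zero], fun t => ?_⟩
  obtain ⟨b₁, g₁, hg₁, e₁⟩ := h1.2.2 t
  obtain ⟨b₂, g₂, hg₂, e₂⟩ := h2.2.2 t
  refine ⟨b₁ + b₂ - hermForm n F q (t • y₂) (t • y₁), g₁ * g₂, M.mul_mem hg₁ hg₂, fun x => ?_⟩
  rw [Units.val_mul, ← Matrix.mulVec_mulVec, e₂, e₁, smul_add]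
  exact uS_comp hF a _ _ b₁ b₂ x h1.1 (by rw [hermForm_smul_left, h1.2.1, mul_zero])
    (by rw [hermForm_smul_left, h2.2.1, mul_zero])

omit [Fintype F] in
lemma uDir_smul {M : Subgroup (GL (Fin n) F)} {a y : Fin n → F} (r : F)
    (h : uDir q M a y) : uDir q M a (r • y) := by
  refine ⟨h.1, by rw [hermForm_smul_left, h.2.1, mul_zero], fun t => ?_⟩
  obtain ⟨b, g, hg, e⟩ := h.2.2 (t * r)
  exact ⟨b, g, hg, fun x => by rw [e, smul_smul]⟩

lemma uDir_sub (hF : Fintype.card F = q ^ 2) {M : Subgroup (GL (Fin n) F)}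
    {a y₁ y₂ : Fin n → F} (h1 : uDir q M a y₁) (h2 : uDir q M a y₂) :
    uDir q M a (y₁ - y₂) := by
  have := uDir_add hF h1 (uDir_smul (-1) h2)
  rwa [neg_one_smul, ← sub_eq_add_neg] at this

omit [Fintype F] in
lemma uDir_conj {M : Subgroup (GL (Fin n) F)} {h : GL (Fin n) F}
    (hhM : h ∈ M) (hh : h ∈ GU n F q) {a y : Fin n → F} (hd : uDir q M a y) :
    uDir q M ((h : Matrix (Fin n) (Fin n) F) *ᵥ a) ((h : Matrix (Fin n) (Fin n) F) *ᵥ y) := by
  refine ⟨(hh a a).trans hd.1, (hh y a).trans hd.2.1, fun t => ?_⟩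
  obtain ⟨b, g, hg, e⟩ := hd.2.2 t
  refine ⟨b, h * g * h⁻¹, M.mul_mem (M.mul_mem hhM hg) (M.inv_mem hhM), fun x => ?_⟩
  rw [Units.val_mul, Units.val_mul, ← Matrix.mulVec_mulVec, ← Matrix.mulVec_mulVec, e]
  unfold uS
  simp only [Matrix.mulVec_add, Matrix.mulVec_smul, GU_inv_form hh]
  rw [Matrix.mulVec_mulVec, ← Units.val_mul, mul_inv_cancel, Units.val_one, Matrix.one_mulVec]

/-- A non-zero element of trace zero. -/
lemma exists_trace_zero_ne (hF : Fintype.card F = q ^ 2) : ∃ ε : F, ε ≠ 0 ∧ ε + ε ^ q = 0 := by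
  obtain ⟨z, hz⟩ : ∃ z : F, z ^ q ≠ z := by
    by_contra hcon
    push Not at hcon
    apply H17.frobHom_ne_id hF
    ext z
    rw [H17.frobHom_apply, hcon z]
    rfl
  refine ⟨z - z ^ q, sub_ne_zero.mpr (Ne.symm hz), ?_⟩
  rw [H17.frob_sub hF, frob_frob hF]
  ring

lemma trace_inv (hF : Fintype.card F = q ^ 2) {z : F} (hz : z + z ^ q = 0) :
    z⁻¹ + (z⁻¹) ^ q = 0 := by
  have h1 : z ^ q = -z := by linear_combination hz
  rw [inv_pow, h1, inv_neg]
  ring

/-- Two directions at `a` with non-zero form value give all transvections at `a`. -/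
lemma uCenters_of_uDir (hF : Fintype.card F = q ^ 2) {M : Subgroup (GL (Fin n) F)}
    {a y y' : Fin n → F} (hy : uDir q M a y) (hy' : uDir q M a y')
    (hne : hermForm n F q y y' ≠ 0) : a ∈ uCenters q M := by
  refine ⟨hy.1, fun c hc => ?_⟩
  obtain ⟨μ, hμ⟩ := H17.exists_trace_neg hF (-1) (by rw [H17.frob_neg hF, one_pow])
  obtain ⟨t, ht⟩ : ∃ t : F, t * hermForm n F q y y' = c * μ :=
    ⟨c * μ / hermForm n F q y y', by field_simp⟩
  obtain ⟨b₁, g₁, hg₁, e₁⟩ := hy.2.2 t
  obtain ⟨b₂, g₂, hg₂, e₂⟩ := hy'.2.2 1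
  have hya : hermForm n F q (t • y) a = 0 := by rw [hermForm_smul_left, hy.2.1, mul_zero]
  have hy'a : hermForm n F q ((1 : F) • y') a = 0 := by
    rw [hermForm_smul_left, hy'.2.1, mul_zero]
  have key : g₁ * g₂ = g₂ * g₁ * unitTransv q a c hy.1 := by
    apply Units.ext
    apply H17.matrix_ext_mulVec
    intro x
    have L : ((g₁ * g₂ : GL (Fin n) F) : Matrix (Fin n) (Fin n) F) *ᵥ x
        = uS q a (t • y + (1 : F) • y')
          (b₁ + b₂ - hermForm n F q ((1 : F) • y') (t • y)) x := by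
      rw [Units.val_mul, ← Matrix.mulVec_mulVec, e₂, e₁]
      exact uS_comp hF a _ _ b₁ b₂ x hy.1 hya hy'a
    have R : ((g₂ * g₁ * unitTransv q a c hy.1 : GL (Fin n) F) :
        Matrix (Fin n) (Fin n) F) *ᵥ x
        = uS q a ((1 : F) • y' + t • y)
          (b₂ + (b₁ + c) - hermForm n F q (t • y) ((1 : F) • y')) x := by
      rw [Units.val_mul, Units.val_mul, ← Matrix.mulVec_mulVec, ← Matrix.mulVec_mulVec,
        unitTransv_mulVec, e₁, e₂, uS_transv hF a _ b₁ c x hy.1 hya]
      exact uS_comp hF a _ _ b₂ (b₁ + c) x hy.1 hy'a hya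
    rw [L, R, add_comm ((1 : F) • y') (t • y)]
    congr 1
    simp only [hermForm_smul_left, hermForm_smul_right, one_pow, one_mul]
    rw [hermForm_herm hF y y']
    have e : t ^ q * hermForm n F q y y' ^ q = (c * μ) ^ q := by rw [← mul_pow, ht]
    have hcq : c ^ q = -c := by linear_combination hc
    rw [e, ht, mul_pow, hcq]
    linear_combination c * hμ
  have e3 : unitTransv q a c hy.1 = (g₂ * g₁)⁻¹ * (g₁ * g₂) := by
    rw [key]
    group
  rw [e3]
  exact M.mul_mem (M.inv_mem (M.mul_mem hg₂ hg₁)) (M.mul_mem hg₁ hg₂)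

lemma herm_hsub (hF : Fintype.card F = q ^ 2) : ∀ v w e : Fin n → F,
    hermL q (v - w) e = hermL q v e - hermL q w e := by
  intro v w e
  rw [hermL_apply, hermL_apply, hermL_apply, hermForm_sub_right' hF]

lemma herm_hsm (hF : Fintype.card F = q ^ 2) : ∀ (c : F) (w : Fin n → F), ∃ c' : F,
    ∀ e : Fin n → F, hermL q (c' • w) e = c * hermL q w e :=
  fun c w => ⟨c ^ q, fun e => by
    rw [hermL_apply, hermL_apply, hermForm_smul_right, frob_frob hF]⟩

lemma herm_hND (hF : Fintype.card F = q ^ 2) (P P' : Submodule F (Fin n → F))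
    (hP : IsTotallySingularFor (hermForm n F q) P) (hsup : P ⊔ P' = ⊤) :
    ∀ w ∈ P, (∀ e' ∈ P', hermL q w e' = 0) → w = 0 := by
  intro w hw h
  apply H17.hermForm_nd_left hF n w
  intro y
  obtain ⟨p, hp, p', hp', rfl⟩ := Submodule.mem_sup.mp
    (show y ∈ P ⊔ P' by rw [hsup]; exact Submodule.mem_top)
  have h1 := h p' hp'
  rw [hermL_apply] at h1
  rw [hermForm_add_left, hP p hp w hw, h1, add_zero]

lemma pairU_exists0 (hF : Fintype.card F = q ^ 2) (P P' : Submodule F (Fin n → F))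
    (hP : IsTotallySingularFor (hermForm n F q) P) (hsup : P ⊔ P' = ⊤)
    (a : Fin n → F) (ha : a ∈ P) (ha0 : a ≠ 0) :
    ∃ c' ∈ P', hermForm n F q c' a ≠ 0 := by
  by_contra hcon
  push Not at hcon
  exact ha0 (herm_hND hF P P' hP hsup a ha (fun e' he' => by rw [hermL_apply]; exact hcon e' he'))

lemma pairU_exists1 (hF : Fintype.card F = q ^ 2) (P P' : Submodule F (Fin n → F))
    (hP : IsTotallySingularFor (hermForm n F q) P) (hsup : P ⊔ P' = ⊤)
    (s z : Fin n → F) (hs : s ∈ P) (hz : z ∈ P) (hzs : z ∉ Submodule.span F {s}) :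
    ∃ e' ∈ P', hermForm n F q e' s = 0 ∧ hermForm n F q e' z ≠ 0 :=
  pair_exists1 (fun v => hermL q v) P P' (herm_hsub hF) (herm_hsm hF) (herm_hND hF P P' hP hsup)
    s z hs hz hzs

lemma pairU_existsV (hF : Fintype.card F = q ^ 2) (P P' : Submodule F (Fin n → F))
    (hP : IsTotallySingularFor (hermForm n F q) P)
    (hP' : IsTotallySingularFor (hermForm n F q) P')
    (hsup : P ⊔ P' = ⊤) (a z : Fin n → F) (ha : a ∈ P)
    (hz : z ∉ P' ⊔ Submodule.span F {a}) :
    ∃ b' ∈ P', hermForm n F q b' a = 0 ∧ hermForm n F q b' z ≠ 0 :=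
  pair_existsV (fun v => hermL q v) P P' (herm_hsub hF) (herm_hsm hF) (herm_hND hF P P' hP hsup)
    (fun u hu e he => hP' e he u hu) hsup a z ha hz

/-- Producing a transvection centre in `P`. -/
theorem pairU_full (hF : Fintype.card F = q ^ 2) {k : ℕ} (hk : 5 ≤ k) (hn : n = 2 * k)
    (P P' : Submodule F (Fin n → F))
    (hP : IsTotallySingularFor (hermForm n F q) P)
    (hP' : IsTotallySingularFor (hermForm n F q) P')
    (dP : finrank F P = k) (dP' : finrank F P' = k) (hPP' : P ⊓ P' = ⊥)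
    (M : Subgroup (GL (Fin n) F)) (hMU : M ≤ GU n F q)
    (hE : ∀ p ∈ P, ∀ p' ∈ P', hermForm n F q p' p = 0 → uDir q M p p')
    (x x' : Fin n → F) (hxx' : uDir q M x x') (hxP' : x ∉ P')
    (hx' : x' ∉ P' ⊔ Submodule.span F {x}) :
    ∃ a ∈ P, a ≠ 0 ∧ a ∈ uCenters q M := by
  have hV : finrank F (Fin n → F) = 2 * k := by rw [Module.finrank_fin_fun, hn]
  have hsup : P ⊔ P' = ⊤ := sup_eq_top_of_inf_bot hV P P' dP dP' hPP'
  obtain ⟨a, haP, ha0, hxa, hx'a, hind⟩ := pairgeo_two hk hV P P' dP dP' hPP' x x' hxP' hx'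
    (hermL q x) (hermL q x')
  rw [hermL_apply] at hxa hx'a
  have hxna : x ∉ P' ⊔ Submodule.span F {a} := by
    intro h
    have := hind 1 0 (by rw [one_smul, zero_smul, add_zero]; exact h)
    exact one_ne_zero this.1
  obtain ⟨b', hb'P', hb'a, hb'x⟩ := pairU_existsV hF P P' hP hP' hsup a x haP hxna
  obtain ⟨b, τ, hτM, hτ⟩ := hxx'.2.2 1
  have hτa : (τ : Matrix (Fin n) (Fin n) F) *ᵥ a = a := by
    rw [hτ]
    unfold uS
    rw [hermForm_smul_right, hxa, hx'a]
    simp
  obtain ⟨d, hd⟩ : ∃ d, d = hermForm n F q b' x • x' +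
      (b * hermForm n F q b' x - hermForm n F q b' x') • x := ⟨_, rfl⟩
  have hτb : (τ : Matrix (Fin n) (Fin n) F) *ᵥ b' = b' + d := by
    rw [hτ, hd]
    unfold uS
    rw [hermForm_smul_right, one_pow, one_mul, one_smul]
    module
  have h1 : uDir q M a b' := hE a haP b' hb'P' hb'a
  have h2' := uDir_conj hτM (hMU hτM) h1
  rw [hτa, hτb] at h2'
  have h3 : uDir q M a d := by
    have := uDir_sub hF h2' h1
    rwa [add_sub_cancel_left] at this
  have hdn : d ∉ P' ⊔ Submodule.span F {a} := by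
    intro h
    have h' := hind (b * hermForm n F q b' x - hermForm n F q b' x') (hermForm n F q b' x) (by
      have e : (b * hermForm n F q b' x - hermForm n F q b' x') • x + hermForm n F q b' x • x'
          = d := by
        rw [hd, add_comm]
      rw [e]; exact h)
    exact hb'x h'.2
  obtain ⟨y', hy'P', hy'a, hy'd⟩ := pairU_existsV hF P P' hP hP' hsup a d haP hdn
  have h4 : uDir q M a y' := hE a haP y' hy'P' hy'a
  refine ⟨a, haP, ha0, uCenters_of_uDir hF h3 h4 ?_⟩
  rw [hermForm_herm hF y' d]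
  exact pow_ne_zero _ hy'd

/-- A transvection centre in `P` spreads to all of `P`. -/
lemma uCenters_spread (hF : Fintype.card F = q ^ 2) (P P' : Submodule F (Fin n → F))
    (hP : IsTotallySingularFor (hermForm n F q) P) (hsup : P ⊔ P' = ⊤)
    (M : Subgroup (GL (Fin n) F)) (hMU : M ≤ GU n F q)
    (hE : ∀ p ∈ P, ∀ p' ∈ P', hermForm n F q p' p = 0 → uDir q M p p')
    (a : Fin n → F) (haP : a ∈ P) (ha0 : a ≠ 0) (haC : a ∈ uCenters q M) :
    ∀ p ∈ P, p ∈ uCenters q M := by
  intro p hp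
  by_cases hcase : a ∈ Submodule.span F {p - a}
  · obtain ⟨t, ht⟩ := Submodule.mem_span_singleton.mp hcase
    have ht0 : t ≠ 0 := by
      rintro rfl
      rw [zero_smul] at ht
      exact ha0 ht.symm
    have h1 : t⁻¹ • a = p - a := by
      conv_lhs => rw [← ht]
      rw [smul_smul, inv_mul_cancel₀ ht0, one_smul]
    have e : p = (1 + t⁻¹) • a := by
      rw [add_smul, one_smul, h1]
      abel
    rw [e]
    exact uCenters_smul hF haC _
  · obtain ⟨e', he'P', he's, he'a⟩ := pairU_exists1 hF P P' hP hsup (p - a) a (P.sub_mem hp haP)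
      haP hcase
    have hae' : hermForm n F q a e' ≠ 0 := by
      rw [hermForm_herm hF e' a]
      exact pow_ne_zero _ he'a
    obtain ⟨c', hc'⟩ : ∃ c', c' = (-(hermForm n F q a e')⁻¹) • (p - a) := ⟨_, rfl⟩
    have hc'P : c' ∈ P := by rw [hc']; exact P.smul_mem _ (P.sub_mem hp haP)
    have he'c' : hermForm n F q e' c' = 0 := by
      rw [hc', hermForm_smul_right, he's, mul_zero]
    obtain ⟨b₀, g, hgM, hg⟩ := (hE c' hc'P e' he'P' he'c').2.2 1
    have hga : (g : Matrix (Fin n) (Fin n) F) *ᵥ a = p := by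
      rw [hg]
      unfold uS
      rw [hP a haP c' hc'P, hermForm_smul_right, one_pow, one_mul, hc']
      have e1 : (-hermForm n F q a e') • ((-(hermForm n F q a e')⁻¹) • (p - a)) = p - a := by
        rw [smul_smul, neg_mul_neg, mul_inv_cancel₀ hae', one_smul]
      rw [e1]
      simp
    rw [← hga]
    exact uCenters_mulVec hgM (hMU hgM) haC

/-- From a transvection centre in `P` and an element of `M` mapping `P` into `P'`. -/
theorem pairU_finish (hF : Fintype.card F = q ^ 2) (hn3 : 3 ≤ n) (h32 : ¬ (n = 3 ∧ q = 2))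
    (P P' : Submodule F (Fin n → F))
    (hP : IsTotallySingularFor (hermForm n F q) P)
    (hP' : IsTotallySingularFor (hermForm n F q) P') (hsup : P ⊔ P' = ⊤)
    (M : Subgroup (GL (Fin n) F)) (hMU : M ≤ GU n F q)
    (hE : ∀ p ∈ P, ∀ p' ∈ P', hermForm n F q p' p = 0 → uDir q M p p')
    (hE' : ∀ p' ∈ P', ∀ p ∈ P, hermForm n F q p p' = 0 → uDir q M p' p)
    (s : GL (Fin n) F) (hsM : s ∈ M)
    (hsP : ∀ x ∈ P, (s : Matrix (Fin n) (Fin n) F) *ᵥ x ∈ P')
    (a : Fin n → F) (haP : a ∈ P) (ha0 : a ≠ 0) (haC : a ∈ uCenters q M) :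
    GU n F q ⊓ specialLinear (Fin n) F ≤ M := by
  have hsup' : P' ⊔ P = ⊤ := by rw [sup_comm]; exact hsup
  have hPall := uCenters_spread hF P P' hP hsup M hMU hE a haP ha0 haC
  have ha₂0 : (s : Matrix (Fin n) (Fin n) F) *ᵥ a ≠ 0 := by
    intro h
    apply ha0
    apply mulVec_injective s
    simp only
    rw [h, Matrix.mulVec_zero]
  have hP'all := uCenters_spread hF P' P hP' hsup' M hMU hE' _ (hsP a haP) ha₂0
    (uCenters_mulVec hsM (hMU hsM) haC)
  have hsub : ∀ p ∈ P, ∀ p' ∈ P', hermForm n F q p p' ≠ 0 →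
      hermForm n F q (p + p') (p + p') = 0 → p + p' ∈ uCenters q M := by
    intro p hp p' hp' hne hiso
    have hz : hermForm n F q p p' + hermForm n F q p p' ^ q = 0 := by
      have h1 := hiso
      rw [hermForm_add_left, hermForm_add_right hF, hermForm_add_right hF, hP p hp p hp,
        hP' p' hp' p' hp', hermForm_herm hF p p'] at h1
      linear_combination h1
    have := uCenters_transv hF (hP'all p' hp') (hPall p hp) (hermForm n F q p p')⁻¹
      (trace_inv hF hz)
    rwa [inv_mul_cancel₀ hne, one_smul] at this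
  apply suGL_le_of_transv hF hn3 h32
  intro v c hv hc
  suffices hvC : v ∈ uCenters q M from uCenters_of_mem hvC c hv hc
  obtain ⟨p, hp, p', hp', rfl⟩ := Submodule.mem_sup.mp
    (show v ∈ P ⊔ P' by rw [hsup]; exact Submodule.mem_top)
  by_cases h : hermForm n F q p p' = 0
  · by_cases hp'0 : p' = 0
    · rw [hp'0, add_zero]
      exact hPall p hp
    · obtain ⟨r₀, hr₀, hr₀p'⟩ := pairU_exists0 hF P' P hP' hsup' p' hp' hp'0
      obtain ⟨ε, hε0, hε⟩ := exists_trace_zero_ne hF
      obtain ⟨r, hrd⟩ : ∃ r, r = (ε / hermForm n F q r₀ p') • r₀ := ⟨_, rfl⟩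
      have hr : r ∈ P := by rw [hrd]; exact P.smul_mem _ hr₀
      have hrp' : hermForm n F q r p' = ε := by
        rw [hrd, hermForm_smul_left]
        field_simp
      have hiso_u : hermForm n F q (r + p') (r + p') = 0 := by
        rw [hermForm_add_left, hermForm_add_right hF, hermForm_add_right hF, hP r hr r hr,
          hP' p' hp' p' hp', hermForm_herm hF r p', hrp']
        linear_combination hε
      have hu := hsub r hr p' hp' (by rw [hrp']; exact hε0) hiso_u
      have hw := hPall (p - r) (P.sub_mem hp hr)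
      have hB : hermForm n F q (p - r) (r + p') = -ε := by
        rw [hermForm_sub_left', hermForm_add_right hF, hermForm_add_right hF, hP p hp r hr, h,
          hP r hr r hr, hrp']
        ring
      have hnε : (-ε) + (-ε) ^ q = 0 := by
        rw [H17.frob_neg hF]
        linear_combination -hε
      have := uCenters_transv hF hu hw (-ε)⁻¹ (trace_inv hF hnε)
      rw [hB, inv_mul_cancel₀ (neg_ne_zero.mpr hε0), one_smul] at this
      have e : p - r + (r + p') = p + p' := by abel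
      rw [e] at this
      exact this
  · exact hsub p hp p' hp' h hv

/-- Core of the maximality of the stabiliser of a pair of complementary maximal totally
isotropic subspaces in the special unitary group. -/
theorem pairU_core (hF : Fintype.card F = q ^ 2) {k : ℕ} (hk : 5 ≤ k) (hn : n = 2 * k)
    (U U' : Submodule F (Fin n → F))
    (hU : IsTotallySingularFor (hermForm n F q) U)
    (hU' : IsTotallySingularFor (hermForm n F q) U')
    (dU : finrank F U = k) (dU' : finrank F U' = k) (hUU' : U ⊓ U' = ⊥)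
    (M : Subgroup (GL (Fin n) F)) (hMU : M ≤ GU n F q)
    (hE : ∀ p ∈ U, ∀ p' ∈ U', hermForm n F q p' p = 0 → uDir q M p p')
    (hE' : ∀ p' ∈ U', ∀ p ∈ U, hermForm n F q p p' = 0 → uDir q M p' p)
    (s : GL (Fin n) F) (hsM : s ∈ M)
    (hsU : ∀ x ∈ U, (s : Matrix (Fin n) (Fin n) F) *ᵥ x ∈ U')
    (hsU' : ∀ x ∈ U', (s : Matrix (Fin n) (Fin n) F) *ᵥ x ∈ U)
    (x : Fin n → F) (hxU : x ∉ U) (hxU' : x ∉ U')
    (X' : Submodule F (Fin n → F)) (dX' : finrank F X' = k)
    (hX' : ∀ x' ∈ X', hermForm n F q x' x = 0 → uDir q M x x') :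
    GU n F q ⊓ specialLinear (Fin n) F ≤ M := by
  have hV : finrank F (Fin n → F) = 2 * k := by rw [Module.finrank_fin_fun, hn]
  have hsup : U ⊔ U' = ⊤ := sup_eq_top_of_inf_bot hV U U' dU dU' hUU'
  have hsup' : U' ⊔ U = ⊤ := by rw [sup_comm]; exact hsup
  have hU'U : U' ⊓ U = ⊥ := by rw [inf_comm]; exact hUU'
  have hn3 : 3 ≤ n := by omega
  have h32 : ¬ (n = 3 ∧ q = 2) := by omega
  obtain ⟨x', hx'X', hxx', hcases⟩ := pairgeo_one (by omega) hV U U' X' dU dU' dX' hUU' x hxU hxU'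
    (hermL q x)
  rw [hermL_apply] at hxx'
  have hdir : uDir q M x x' := hX' x' hx'X' hxx'
  rcases hcases with hc | hc
  · obtain ⟨a, haU, ha0, haC⟩ := pairU_full hF hk hn U U' hU hU' dU dU' hUU' M hMU hE x x' hdir
      hxU' hc
    exact pairU_finish hF hn3 h32 U U' hU hU' hsup M hMU hE hE' s hsM hsU a haU ha0 haC
  · obtain ⟨a, haU, ha0, haC⟩ := pairU_full hF hk hn U' U hU' hU dU' dU hU'U M hMU hE' x x' hdir
      hxU hc
    exact pairU_finish hF hn3 h32 U' U hU' hU hsup' M hMU hE' hE s hsM hsU' a haU ha0 haC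

end PairSU

end Cfsg.Agent.H95
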