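import Cfsg.Agent.H95.Frame3

set_option autoImplicit false
set_option linter.unusedSectionVars false

namespace Cfsg.Agent.H95

open Cfsg Cfsg.Geo
open scoped MatrixGroups Matrix

section Quad

variable {ι : Type} [Fintype ι] [DecidableEq ι] {F : Type*} [Field F] {Q : (ι → F) → F}

lemma q_add (Q : (ι → F) → F) (x y : ι → F) :
    Q (x + y) = Q x + Q y + QuadraticMap.polar Q x y := by
  unfold QuadraticMap.polar
  ring

lemma polar_symm (Q : (ι → F) → F) (x y : ι → F) :
    QuadraticMap.polar Q x y = QuadraticMap.polar Q y x :=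
  QuadraticMap.polar_comm Q x y

lemma q_zero (hQ : IsNondegenerateQuadraticForm Q) : Q 0 = 0 := by
  have := hQ.smul 0 0
  simpa using this

lemma polar_self (hQ : IsNondegenerateQuadraticForm Q) (x : ι → F) :
    QuadraticMap.polar Q x x = 2 * Q x := by
  have h1 : x + x = (2 : F) • x := (two_smul F x).symm
  unfold QuadraticMap.polar
  rw [h1, hQ.smul]
  ring

lemma q_add_smul (hQ : IsNondegenerateQuadraticForm Q) (x v : ι → F) (c : F) :
    Q (x + c • v) = Q x + c ^ 2 * Q v + c * QuadraticMap.polar Q x v := by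
  rw [q_add Q x (c • v), hQ.smul, hQ.polar_bilinear.smul_right]

lemma q_neg (hQ : IsNondegenerateQuadraticForm Q) (x : ι → F) : Q (-x) = Q x := by
  have := hQ.smul (-1) x
  simpa using this

lemma q_sub (hQ : IsNondegenerateQuadraticForm Q) (x y : ι → F) :
    Q (x - y) = Q x + Q y - QuadraticMap.polar Q x y := by
  have := q_add_smul hQ x y (-1)
  rw [neg_one_smul, ← sub_eq_add_neg] at this
  rw [this]
  ring

lemma mem_isometryGroup_iff (Q : (ι → F) → F) (g : GL ι F) :
    g ∈ isometryGroup F Q ↔ ∀ x, Q ((g : Matrix ι ι F) *ᵥ x) = Q x := by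
  constructor
  · intro h x
    exact h x x
  · intro h x _
    exact h x

lemma polar_isometry {g : GL ι F} (hg : g ∈ isometryGroup F Q) (x y : ι → F) :
    QuadraticMap.polar Q ((g : Matrix ι ι F) *ᵥ x) ((g : Matrix ι ι F) *ᵥ y) =
      QuadraticMap.polar Q x y := by
  rw [mem_isometryGroup_iff] at hg
  unfold QuadraticMap.polar
  rw [← Matrix.mulVec_add, hg, hg, hg]

lemma omegaGL_le (Q : (ι → F) → F) : omegaGL Q ≤ isometryGroup F Q := by
  unfold omegaGL
  exact Subgroup.map_subtype_le _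

lemma commutator_mem_omegaGL {r s : GL ι F} (hr : r ∈ isometryGroup F Q)
    (hs : s ∈ isometryGroup F Q) : r * s * r⁻¹ * s⁻¹ ∈ omegaGL Q := by
  unfold omegaGL
  refine ⟨(⟨r, hr⟩ : isometryGroup F Q) * ⟨s, hs⟩ * (⟨r, hr⟩ : isometryGroup F Q)⁻¹ *
    (⟨s, hs⟩ : isometryGroup F Q)⁻¹, ?_, ?_⟩
  · exact Subgroup.commutator_mem_commutator (g₁ := (⟨r, hr⟩ : isometryGroup F Q))
      (g₂ := (⟨s, hs⟩ : isometryGroup F Q)) (Subgroup.mem_top _) (Subgroup.mem_top _)
  · simp

/-- The reflection along `v` as a linear map. -/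
noncomputable def reflLin (Q : (ι → F) → F) (hQ : IsNondegenerateQuadraticForm Q) (v : ι → F) :
    (ι → F) →ₗ[F] (ι → F) where
  toFun x := x - (QuadraticMap.polar Q x v / Q v) • v
  map_add' x y := by
    rw [hQ.polar_bilinear.add_left, add_div, add_smul]
    abel
  map_smul' c x := by
    rw [hQ.polar_bilinear.smul_left, RingHom.id_apply, smul_sub, smul_smul, mul_div_assoc]

lemma reflLin_apply (hQ : IsNondegenerateQuadraticForm Q) (v x : ι → F) :
    reflLin Q hQ v x = x - (QuadraticMap.polar Q x v / Q v) • v := rfl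

lemma reflLin_involutive (hQ : IsNondegenerateQuadraticForm Q) {v : ι → F} (hv : Q v ≠ 0) :
    Function.Involutive (reflLin Q hQ v) := by
  intro x
  rw [reflLin_apply, reflLin_apply, bil_sub_left hQ.polar_bilinear, hQ.polar_bilinear.smul_left,
    polar_self hQ]
  have : (QuadraticMap.polar Q x v - QuadraticMap.polar Q x v / Q v * (2 * Q v)) / Q v =
      - (QuadraticMap.polar Q x v / Q v) := by
    field_simp
    ring
  rw [this, neg_smul]
  abel

/-- The reflection along a non-singular vector, as an element of `GL`. -/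
noncomputable def reflGL (Q : (ι → F) → F) (hQ : IsNondegenerateQuadraticForm Q) (v : ι → F)
    (hv : Q v ≠ 0) : GL ι F :=
  glOf (LinearEquiv.ofInvolutive (reflLin Q hQ v) (reflLin_involutive hQ hv))

lemma reflGL_mulVec (hQ : IsNondegenerateQuadraticForm Q) (v : ι → F) (hv : Q v ≠ 0) (x : ι → F) :
    ((reflGL Q hQ v hv : GL ι F) : Matrix ι ι F) *ᵥ x = x - (QuadraticMap.polar Q x v / Q v) • v := by
  rw [reflGL, glOf_mulVec]
  rfl

lemma reflGL_inv (hQ : IsNondegenerateQuadraticForm Q) (v : ι → F) (hv : Q v ≠ 0) :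
    (reflGL Q hQ v hv)⁻¹ = reflGL Q hQ v hv := by
  rw [inv_eq_iff_mul_eq_one]
  apply Units.ext
  apply Matrix.toLin'.injective
  apply LinearMap.ext
  intro x
  rw [Units.val_mul, Matrix.toLin'_mul, LinearMap.comp_apply, Matrix.toLin'_apply,
    Matrix.toLin'_apply, reflGL_mulVec, reflGL_mulVec]
  have := reflLin_involutive hQ hv x
  rw [reflLin_apply, reflLin_apply] at this
  rw [this]
  simp

lemma reflGL_mem (hQ : IsNondegenerateQuadraticForm Q) (v : ι → F) (hv : Q v ≠ 0) :
    reflGL Q hQ v hv ∈ isometryGroup F Q := by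
  rw [mem_isometryGroup_iff]
  intro x
  rw [reflGL_mulVec, sub_eq_add_neg, ← neg_smul, q_add_smul hQ]
  field_simp
  ring

/-- A reflection fixes the vectors orthogonal to its centre. -/
lemma reflGL_fix (hQ : IsNondegenerateQuadraticForm Q) (v : ι → F) (hv : Q v ≠ 0) {x : ι → F}
    (hx : QuadraticMap.polar Q x v = 0) :
    ((reflGL Q hQ v hv : GL ι F) : Matrix ι ι F) *ᵥ x = x := by
  rw [reflGL_mulVec, hx, zero_div, zero_smul, sub_zero]

/-- The commutator of two reflections. -/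
noncomputable def reflComm (Q : (ι → F) → F) (hQ : IsNondegenerateQuadraticForm Q) (a b : ι → F)
    (ha : Q a ≠ 0) (hb : Q b ≠ 0) : GL ι F :=
  reflGL Q hQ a ha * reflGL Q hQ b hb * (reflGL Q hQ a ha)⁻¹ * (reflGL Q hQ b hb)⁻¹

lemma reflComm_mem (hQ : IsNondegenerateQuadraticForm Q) (a b : ι → F)
    (ha : Q a ≠ 0) (hb : Q b ≠ 0) : reflComm Q hQ a b ha hb ∈ omegaGL Q :=
  commutator_mem_omegaGL (reflGL_mem hQ a ha) (reflGL_mem hQ b hb)

lemma reflComm_mulVec (hQ : IsNondegenerateQuadraticForm Q) (a b : ι → F)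
    (ha : Q a ≠ 0) (hb : Q b ≠ 0) (x : ι → F) :
    ((reflComm Q hQ a b ha hb : GL ι F) : Matrix ι ι F) *ᵥ x =
      ((reflGL Q hQ a ha : GL ι F) : Matrix ι ι F) *ᵥ (((reflGL Q hQ b hb : GL ι F) : Matrix ι ι F) *ᵥ
        (((reflGL Q hQ a ha : GL ι F) : Matrix ι ι F) *ᵥ
          (((reflGL Q hQ b hb : GL ι F) : Matrix ι ι F) *ᵥ x))) := by
  rw [reflComm, reflGL_inv, reflGL_inv, Units.val_mul, Units.val_mul, Units.val_mul,
    ← Matrix.mulVec_mulVec, ← Matrix.mulVec_mulVec, ← Matrix.mulVec_mulVec]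

/-- The reflection along `a - b` swaps `a` and `b` when they are orthogonal of the same norm. -/
lemma refl_swap_left (hQ : IsNondegenerateQuadraticForm Q) {a b : ι → F} (hab : Q a = Q b)
    (horth : QuadraticMap.polar Q a b = 0) (h : Q (a - b) ≠ 0) :
    ((reflGL Q hQ (a - b) h : GL ι F) : Matrix ι ι F) *ᵥ a = b := by
  rw [reflGL_mulVec, bil_sub_right hQ.polar_bilinear, polar_self hQ, horth, sub_zero]
  have h' : Q (a - b) = 2 * Q a := by
    rw [q_sub hQ, horth, ← hab]; ring
  rw [h', div_self (by rw [← h']; exact h), one_smul]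
  abel

lemma refl_swap_right (hQ : IsNondegenerateQuadraticForm Q) {a b : ι → F} (hab : Q a = Q b)
    (horth : QuadraticMap.polar Q a b = 0) (h : Q (a - b) ≠ 0) :
    ((reflGL Q hQ (a - b) h : GL ι F) : Matrix ι ι F) *ᵥ b = a := by
  rw [reflGL_mulVec, bil_sub_right hQ.polar_bilinear, polar_self hQ, polar_symm Q b a, horth,
    zero_sub]
  have h' : Q (a - b) = 2 * Q b := by
    rw [q_sub hQ, horth, hab]; ring
  have h0 : 2 * Q b ≠ 0 := by rw [← h']; exact h
  rw [h', neg_div, div_self h0, neg_one_smul]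
  abel

lemma refl_sub_fix (hQ : IsNondegenerateQuadraticForm Q) {a b x : ι → F} (h : Q (a - b) ≠ 0)
    (hxa : QuadraticMap.polar Q x a = 0) (hxb : QuadraticMap.polar Q x b = 0) :
    ((reflGL Q hQ (a - b) h : GL ι F) : Matrix ι ι F) *ᵥ x = x := by
  apply reflGL_fix
  rw [bil_sub_right hQ.polar_bilinear, hxa, hxb, sub_zero]

/-- The `3`-cycle on three mutually orthogonal vectors of the same norm, in characteristic not two:
an element of `Ω` with `a ↦ c`, `b ↦ a`, `c ↦ b` fixing the vectors orthogonal to `a, b, c`. -/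
lemma exists_three_cycle (hQ : IsNondegenerateQuadraticForm Q) (h2 : (2 : F) ≠ 0) {a b c : ι → F}
    (ha : Q a ≠ 0) (hab : Q a = Q b) (hbc : Q b = Q c)
    (oab : QuadraticMap.polar Q a b = 0) (oac : QuadraticMap.polar Q a c = 0)
    (obc : QuadraticMap.polar Q b c = 0) :
    ∃ g : GL ι F, g ∈ omegaGL Q ∧ (g : Matrix ι ι F) *ᵥ a = c ∧ (g : Matrix ι ι F) *ᵥ b = a ∧
      (g : Matrix ι ι F) *ᵥ c = b ∧
      ∀ x, QuadraticMap.polar Q x a = 0 → QuadraticMap.polar Q x b = 0 →
        QuadraticMap.polar Q x c = 0 → (g : Matrix ι ι F) *ᵥ x = x := by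
  have h1 : Q (a - b) ≠ 0 := by
    rw [q_sub hQ, oab, ← hab]
    have : Q a + Q a - 0 = 2 * Q a := by ring
    rw [this]
    exact mul_ne_zero h2 ha
  have h2' : Q (b - c) ≠ 0 := by
    rw [q_sub hQ, obc, ← hbc, ← hab]
    have : Q a + Q a - 0 = 2 * Q a := by ring
    rw [this]
    exact mul_ne_zero h2 ha
  have oba := (polar_symm Q b a).trans oab
  have oca := (polar_symm Q c a).trans oac
  have ocb := (polar_symm Q c b).trans obc
  refine ⟨reflComm Q hQ (a - b) (b - c) h1 h2', reflComm_mem hQ _ _ h1 h2', ?_, ?_, ?_, ?_⟩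
  · rw [reflComm_mulVec, refl_sub_fix hQ h2' oab oac, refl_swap_left hQ hab oab h1,
      refl_swap_left hQ hbc obc h2', refl_sub_fix hQ h1 oca ocb]
  · rw [reflComm_mulVec, refl_swap_left hQ hbc obc h2', refl_sub_fix hQ h1 oca ocb,
      refl_swap_right hQ hbc obc h2', refl_swap_right hQ hab oab h1]
  · rw [reflComm_mulVec, refl_swap_right hQ hbc obc h2', refl_swap_right hQ hab oab h1,
      refl_sub_fix hQ h2' oab oac, refl_swap_left hQ hab oab h1]
  · intro x hxa hxb hxc
    rw [reflComm_mulVec, refl_sub_fix hQ h2' hxb hxc, refl_sub_fix hQ h1 hxa hxb,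
      refl_sub_fix hQ h2' hxb hxc, refl_sub_fix hQ h1 hxa hxb]

end Quad

end Cfsg.Agent.H95
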