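import Cfsg.Agent.H95.OhMain
import Cfsg.Agent.H86.OtSplit
import Cfsg.Agent.H60.OtTrick
import Cfsg.Agent.H60.OtModc
import Cfsg.Agent.H14.TiStepOdd
import Cfsg.Agent.H14.TiBuild
import Cfsg.Agent.H72.TiPeel
import Cfsg.Agent.H3.TiPrim
import Cfsg.Agent.H3.TiCompDvd
import Cfsg.Agent.H3.TiIrrSub
import Cfsg.Agent.H3.TiCycSet
import Cfsg.Agent.H3.TiPair
import Cfsg.Agent.H3.TiStepEven
import Cfsg.Agent.H32.TiAnti
import Cfsg.Agent.H16.TiHypClose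
import Cfsg.Agent.H16.TiCompNd
import Cfsg.Agent.H42.SpdEx
import Cfsg.Agent.H18.OhOrtho
import Cfsg.Agent.H62.OhDisc
import Cfsg.Agent.H3.OhSubDisc
import Cfsg.Agent.H40.OhBoth
import Cfsg.Agent.H60.OhTypeOdd
import Cfsg.Agent.H48.OhTypeEven
import Cfsg.Agent.H73.OhRestrict
import Cfsg.Agent.H60.OhTrick2
import Cfsg.Agent.H60.OhBack
import Cfsg.Agent.H54.OhUnipAbs
import Cfsg.Agent.H98.OhBridge
import Cfsg.Agent.H24.OhExist
import Cfsg.Agent.H25.OhCnt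
import Cfsg.Agent.H73.OhArBack
import Cfsg.Agent.H73.OhArFwd
import Cfsg.Agent.H40.OhZeros
import Cfsg.Agent.H11.OhFwd
import Cfsg.Agent.H11.OhExW
import Cfsg.Agent.H73.OhSumType
import Cfsg.Agent.H18.OhInv
import Cfsg.Agent.H98.OhIso
import Cfsg.Agent.H48.OhOrbTrans
import Cfsg.Agent.H28.OhCntOrb
import Cfsg.Agent.H4.OhUnipEx
import Cfsg.Agent.H14.OtTransport

/-!
# S5992 / S5993: the pieces plugged in
-/

set_option autoImplicit false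

namespace Cfsg.Agent.H95.Oh

open Cfsg.Agent.H45 Cfsg.Agent.H42.Spd Cfsg.Agent.H42.Ti Cfsg.Agent.H14.Ot Module

universe u v

theorem fin_split : StOSplit.{u, v} := Cfsg.Agent.H86.Ot.oSplit

theorem fin_trick : StOTrick.{u, v} := Cfsg.Agent.H60.Ot.oTrick fin_split

theorem fin_omodc : StOModc.{u, v} :=
  Cfsg.Agent.H60.Ot.oModc fin_trick fin_split Cfsg.Agent.H14.Ti.spdModc

theorem fin_build : StTiBuild.{u, v} := by
  have hPrim := Cfsg.Agent.H3.Ti.tiPrim.{u, v} Cfsg.Agent.H3.Ti.cycSet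
  have hHypClose := Cfsg.Agent.H16.Ti.tiHypClose.{u, v} Cfsg.Agent.H3.Ti.tiCompDvd
    Cfsg.Agent.H3.Ti.tiIrrSub
  have hPair := Cfsg.Agent.H3.Ti.tiPair.{u, v} Cfsg.Agent.H3.Ti.tiCompDvd
    Cfsg.Agent.H3.Ti.tiIrrSub hHypClose Cfsg.Agent.H32.Ti.tiAnti
  have hStepEven := Cfsg.Agent.H3.Ti.tiStepEven.{u, v} Cfsg.Agent.H3.Ti.cycSet hPrim
    Cfsg.Agent.H3.Ti.tiCompDvd Cfsg.Agent.H16.Ti.tiCompNd hPair
  exact Cfsg.Agent.H14.Ti.tiBuild Cfsg.Agent.H72.Ti.tiPeel Cfsg.Agent.H14.Ti.tiStepOdd hStepEven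

theorem fin_ortho : StOrtho.{u, v} := Cfsg.Agent.H18.Oh.ortho

theorem fin_disc : StDisc.{u, v} := Cfsg.Agent.H62.Oh.disc

theorem fin_subdisc : StSubDisc.{u, v} := Cfsg.Agent.H3.Oh.subDisc fin_ortho

theorem fin_both : StBoth.{u, v} := Cfsg.Agent.H40.Oh.both fin_disc fin_subdisc

theorem fin_typeodd : StTypeOdd.{u, v} :=
  Cfsg.Agent.H60.Oh.typeOdd fin_trick fin_build Cfsg.Agent.H14.Ti.spdModc

theorem fin_restrict : StRestrict.{u, v} := Cfsg.Agent.H73.Oh.restrict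

theorem fin_trick2 : StTrick2.{u, v} := Cfsg.Agent.H60.Oh.trick2 fin_split

theorem fin_back : StBack.{u, v} :=
  Cfsg.Agent.H60.Oh.back fin_split fin_trick2 Cfsg.Agent.H14.Ti.spdSub

theorem fin_unipabs : StUnipAbs.{u, v} := Cfsg.Agent.H54.Oh.unipAbs

theorem fin_bridge : StBridge.{u} := Cfsg.Agent.H98.Oh.bridge

theorem fin_zeros : StZeros.{u, v} := Cfsg.Agent.H40.Oh.zeros fin_ortho fin_disc

theorem fin_typeeven : StTypeEven.{u, v} := Cfsg.Agent.H48.Oh.typeEven fin_zeros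

theorem fin_fwd : StFwd.{u, v} :=
  Cfsg.Agent.H11.Oh.fwd fin_restrict fin_split fin_omodc fin_typeodd fin_typeeven

theorem fin_sumtype : StSumType.{u, v} := Cfsg.Agent.H73.Oh.sumType fin_ortho fin_disc

theorem fin_exw : StExW.{u, v} :=
  Cfsg.Agent.H11.Oh.exW fin_split fin_back fin_fwd fin_both fin_sumtype

theorem fin_inv : StInv.{u, v} := Cfsg.Agent.H18.Oh.inv fin_ortho fin_disc fin_subdisc

theorem fin_iso : StIso.{u, v} := Cfsg.Agent.H98.Oh.iso fin_ortho fin_disc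

theorem fin_orbtrans : StOrbTrans.{u} := Cfsg.Agent.H48.Oh.orbTrans fin_bridge fin_iso

theorem fin_cntorb : StCntOrb.{u} :=
  Cfsg.Agent.H28.Oh.cntOrb fin_bridge fin_orbtrans fin_both fin_split fin_omodc

theorem fin_cnt : Cfsg.Agent.H95.Oh.StCnt.{u} :=
  Cfsg.Agent.H25.Oh.cnt fin_bridge fin_fwd fin_cntorb

theorem fin_exist : StExist.{u} :=
  Cfsg.Agent.H24.Oh.exist Cfsg.Agent.H14.Ot.oTransport Cfsg.Agent.H42.Spd.ex

theorem fin_unipex : StUnipEx.{u} := Cfsg.Agent.H4.Oh.unipEx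

/-- S5992 (hyperbolic `m`-spaces). -/
theorem fin_S5992 {F : Type u} [Field F] [Fintype F] {p : ℕ} [Fact p.Prime] [CharP F p] {q : ℕ}
    (hq : Fintype.card F = q) (hqodd : Odd q)
    (d m : ℕ) (hm : 2 ≤ m) (hme : Even m) (hmn : m ≤ 2 * d)
    (r : ℕ) [Fact r.Prime] (hrp : r ≠ p)
    (hrΩ : r ∣ Nat.card {W : Submodule F (Unit ⊕ (Fin d ⊕ Fin d) → F) //
      Module.finrank F ↥W = m ∧
      Cfsg.Geo.IsNondegenerateOn (QuadraticMap.polar (Cfsg.quadFormOdd d F)) W ∧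
      Cfsg.Geo.IsPlusTypeOn (Cfsg.quadFormOdd d F) W})
    (i c : ℕ) (hi : i = orderOf (q : ZMod r)) (hc : c = if Even i then i else 2 * i) :
    (∀ x : Matrix.GeneralLinearGroup (Unit ⊕ (Fin d ⊕ Fin d)) F,
      x ∈ Cfsg.Geo.omegaGL (Cfsg.quadFormOdd d F) → orderOf x = r →
      ∃ W : Submodule F (Unit ⊕ (Fin d ⊕ Fin d) → F),
        (Module.finrank F ↥W = m ∧
          Cfsg.Geo.IsNondegenerateOn (QuadraticMap.polar (Cfsg.quadFormOdd d F)) W ∧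
          Cfsg.Geo.IsPlusTypeOn (Cfsg.quadFormOdd d F) W) ∧
        W.map (Matrix.toLin'
          (x : Matrix (Unit ⊕ (Fin d ⊕ Fin d)) (Unit ⊕ (Fin d ⊕ Fin d)) F)) ≤ W) ↔
    (r = 2 ∨
     (2 < r ∧ Odd i ∧ c ≤ m ∧ (m % c = 0 ∨ (0 < m % c ∧ m % c < (2 * d + 1) % c))) ∨
     (2 < r ∧ Even i ∧ i ≤ m ∧ m % c < (2 * d + 1) % c ∧ (0 < m % c ∨ Even (m / i)))) :=
  oh_S5992 fin_bridge fin_omodc fin_exw fin_fwd fin_inv fin_exist fin_cnt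
    Cfsg.Agent.H73.Oh.arBackH Cfsg.Agent.H73.Oh.arFwdH hq hqodd d m hm hme hmn r hrp hrΩ i c hi hc

/-- S5993 (elliptic `m`-spaces). -/
theorem fin_S5993 {F : Type u} [Field F] [Fintype F] {p : ℕ} [Fact p.Prime] [CharP F p] {q : ℕ}
    (hq : Fintype.card F = q) (hqodd : Odd q)
    (d m : ℕ) (hd : 3 ≤ d) (hm : 2 ≤ m) (hme : Even m) (hmn : m ≤ 2 * d)
    (r : ℕ) [Fact r.Prime]
    (hrΩ : r ∣ Nat.card {W : Submodule F (Unit ⊕ (Fin d ⊕ Fin d) → F) //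
      Module.finrank F ↥W = m ∧
      Cfsg.Geo.IsNondegenerateOn (QuadraticMap.polar (Cfsg.quadFormOdd d F)) W ∧
      ¬ Cfsg.Geo.IsPlusTypeOn (Cfsg.quadFormOdd d F) W})
    (i c : ℕ) (hi : i = orderOf (q : ZMod r)) (hc : c = if Even i then i else 2 * i) :
    (∀ x : Matrix.GeneralLinearGroup (Unit ⊕ (Fin d ⊕ Fin d)) F,
      x ∈ Cfsg.Geo.omegaGL (Cfsg.quadFormOdd d F) → orderOf x = r →
      ∃ W : Submodule F (Unit ⊕ (Fin d ⊕ Fin d) → F),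
        (Module.finrank F ↥W = m ∧
          Cfsg.Geo.IsNondegenerateOn (QuadraticMap.polar (Cfsg.quadFormOdd d F)) W ∧
          ¬ Cfsg.Geo.IsPlusTypeOn (Cfsg.quadFormOdd d F) W) ∧
        W.map (Matrix.toLin'
          (x : Matrix (Unit ⊕ (Fin d ⊕ Fin d)) (Unit ⊕ (Fin d ⊕ Fin d)) F)) ≤ W) ↔
    (r = 2 ∨
     (r ≠ p ∧ 2 < r ∧ Odd i ∧ c ≤ m ∧ 0 < m % c ∧ m % c < (2 * d + 1) % c) ∨
     (r ≠ p ∧ 2 < r ∧ Even i ∧ i ≤ m ∧ m % c < (2 * d + 1) % c ∧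
       (0 < m % c ∨ Odd (m / i)))) :=
  oh_S5993 fin_bridge fin_omodc fin_exw fin_fwd fin_inv fin_exist fin_cnt fin_unipabs fin_unipex
    Cfsg.Agent.H73.Oh.arBackE Cfsg.Agent.H73.Oh.arFwdE hq hqodd d m hd hm hme hmn r hrΩ i c hi hc

end Cfsg.Agent.H95.Oh
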