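import Cfsg.Agent.H95.PairSU
import Cfsg.Agent.H95.SpDecomp

set_option autoImplicit false
set_option linter.unusedSectionVars false
set_option linter.unusedVariables false

/-! Helper lemmas (helper95): dual bases of complementary totally isotropic subspaces for the
hermitian form, an element of `SU` interchanging them, and the maximality of the stabiliser
of the pair in `SU_2k(q)`. -/

namespace Cfsg.Agent.H95

open Cfsg Cfsg.Geo Module
open scoped MatrixGroups Matrix

section PairSU2

variable {n : ℕ} {F : Type*} [Field F] [Fintype F] {q : ℕ}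

theorem exists_dual_families_u (hF : Fintype.card F = q ^ 2) (U U' : Submodule F (Fin n → F))
    (hU : IsTotallySingularFor (hermForm n F q) U)
    (hU' : IsTotallySingularFor (hermForm n F q) U')
    (κ : Type) [Fintype κ] [DecidableEq κ]
    (dU : finrank F U = Fintype.card κ) (dU' : finrank F U' = Fintype.card κ)
    (hsup : U ⊔ U' = ⊤) :
    ∃ e f : κ → Fin n → F, (∀ i, e i ∈ U) ∧ (∀ i, f i ∈ U') ∧
      (∀ i j, hermForm n F q (e i) (f j) = if i = j then 1 else 0) ∧
      (∀ i j, hermForm n F q (f i) (e j) = if i = j then 1 else 0) ∧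
      (∀ x ∈ U, x = ∑ i, hermForm n F q x (f i) • e i) ∧
      (∀ x ∈ U', x = ∑ i, hermForm n F q x (e i) • f i) := by
  classical
  have hq := H17.two_le_of_card_sq hF
  obtain ⟨b⟩ : Nonempty (Basis κ F U) :=
    ⟨(Module.finBasisOfFinrankEq F U dU).reindex (Fintype.equivFin κ).symm⟩
  obtain ⟨Φ, hΦ⟩ : ∃ Φ : U' →ₗ[F] (κ → F), ∀ u' i, Φ u' i =
      hermForm n F q (u' : Fin n → F) (b i : Fin n → F) :=
    ⟨{ toFun := fun u' i => hermForm n F q (u' : Fin n → F) (b i : Fin n → F)
       map_add' := fun u v => by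
        funext i
        simp [hermForm_add_left]
       map_smul' := fun c u => by
        funext i
        simp [hermForm_smul_left] }, fun u' i => rfl⟩
  have hrepr : ∀ (u : Fin n → F) (hu : u ∈ U),
      u = ∑ i, b.repr ⟨u, hu⟩ i • (b i : Fin n → F) := by
    intro u hu
    have h1 := b.sum_repr ⟨u, hu⟩
    have h2 := congrArg (Subtype.val) h1
    rw [Submodule.coe_sum] at h2
    simp only [Submodule.coe_smul] at h2
    exact h2.symm
  have hpolsum : ∀ (c : κ → F) (w : κ → Fin n → F) (y : Fin n → F),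
      hermForm n F q (∑ i, c i • w i) y = ∑ i, c i * hermForm n F q (w i) y := by
    intro c w y
    rw [hermForm_sum_left]
    apply Finset.sum_congr rfl
    intro i _
    rw [hermForm_smul_left]
  have hinj : Function.Injective Φ := by
    rw [← LinearMap.ker_eq_bot, LinearMap.ker_eq_bot']
    intro u' hu'
    have h1 : ∀ i, hermForm n F q (u' : Fin n → F) (b i : Fin n → F) = 0 := by
      intro i
      rw [← hΦ, hu']
      rfl
    have h2 : ∀ u ∈ U, hermForm n F q u (u' : Fin n → F) = 0 := by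
      intro u hu
      rw [hrepr u hu, hpolsum]
      apply Finset.sum_eq_zero
      intro i _
      rw [herm_zero_symm hF (h1 i), mul_zero]
    apply Subtype.ext
    change (u' : Fin n → F) = 0
    apply H17.hermForm_nd_left hF n
    intro y
    obtain ⟨p, hp, p', hp', rfl⟩ := Submodule.mem_sup.mp
      (show y ∈ U ⊔ U' by rw [hsup]; exact Submodule.mem_top)
    rw [hermForm_add_left, h2 p hp, hU' p' hp' _ u'.2, add_zero]
  have hsurj : Function.Surjective Φ := by
    apply (LinearMap.injective_iff_surjective_of_finrank_eq_finrank ?_).mp hinj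
    rw [dU', Module.finrank_fintype_fun_eq_card]
  choose f' hf' using fun j : κ => hsurj (Pi.single j 1)
  have hdual' : ∀ i j, hermForm n F q (f' i : Fin n → F) (b j : Fin n → F) =
      if i = j then 1 else 0 := by
    intro i j
    rw [← hΦ, hf', Pi.single_apply]
    by_cases hij : i = j
    · rw [if_pos hij, if_pos hij.symm]
    · rw [if_neg hij, if_neg (Ne.symm hij)]
  have hdual : ∀ i j, hermForm n F q (b i : Fin n → F) (f' j : Fin n → F) =
      if i = j then 1 else 0 := by
    intro i j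
    rw [hermForm_herm hF (f' j : Fin n → F) (b i : Fin n → F), hdual' j i]
    by_cases hij : i = j
    · rw [if_pos hij, if_pos hij.symm, one_pow]
    · rw [if_neg hij, if_neg (Ne.symm hij), zero_pow (by omega)]
  refine ⟨fun i => (b i : Fin n → F), fun j => (f' j : Fin n → F),
    fun i => (b i).2, fun j => (f' j).2, hdual, hdual', ?_, ?_⟩
  · intro x hx
    have e2 : ∀ j, hermForm n F q x (f' j : Fin n → F) = b.repr ⟨x, hx⟩ j := by
      intro j
      conv_lhs => rw [hrepr x hx]
      rw [hpolsum, Finset.sum_eq_single j]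
      · rw [hdual j j, if_pos rfl, mul_one]
      · intro i _ hij
        rw [hdual i j, if_neg hij, mul_zero]
      · intro h
        exact absurd (Finset.mem_univ j) h
    conv_lhs => rw [hrepr x hx]
    exact Finset.sum_congr rfl (fun j _ => by rw [e2 j])
  · intro x hx
    have h1 : (⟨x, hx⟩ : U') = ∑ j, hermForm n F q x (b j : Fin n → F) • f' j := by
      apply hinj
      rw [map_sum]
      funext i
      rw [hΦ, Finset.sum_apply]
      simp only [map_smul, hf', Pi.smul_apply, Pi.single_apply, smul_eq_mul, mul_ite, mul_one,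
        mul_zero]
      rw [Finset.sum_ite_eq]
      simp
    have h2 := congrArg (Subtype.val) h1
    rw [Submodule.coe_sum] at h2
    simp only [Submodule.coe_smul] at h2
    exact h2

omit [Fintype F] in
lemma uW_mulVec (e f x : Fin n → F) (c c' : F) (hcc' : c * c' = -1)
    (hee : hermForm n F q e e = 0) (hff : hermForm n F q f f = 0)
    (hef : hermForm n F q e f = 1) (hfe : hermForm n F q f e = 1) :
    ((unitTransv q e c hee * unitTransv q f c' hff * unitTransv q e c hee : GL (Fin n) F) :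
      Matrix (Fin n) (Fin n) F) *ᵥ x
      = x + hermForm n F q x f • (c' • f - e) + hermForm n F q x e • (c • e - f) := by
  have s1 : hermForm n F q (x + (c * hermForm n F q x e) • e) f
      = hermForm n F q x f + c * hermForm n F q x e := by
    rw [hermForm_add_left, hermForm_smul_left, hef, mul_one]
  have s2 : hermForm n F q (x + (c * hermForm n F q x e) • e
      + (c' * (hermForm n F q x f + c * hermForm n F q x e)) • f) e
      = c' * hermForm n F q x f := by
    rw [hermForm_add_left, hermForm_add_left, hermForm_smul_left, hermForm_smul_left, hee, hfe]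
    linear_combination hermForm n F q x e * hcc'
  have e1 : c * (c' * hermForm n F q x f) = -hermForm n F q x f := by
    linear_combination hermForm n F q x f * hcc'
  have e2 : c' * (hermForm n F q x f + c * hermForm n F q x e)
      = c' * hermForm n F q x f - hermForm n F q x e := by
    linear_combination hermForm n F q x e * hcc'
  rw [Units.val_mul, Units.val_mul, ← Matrix.mulVec_mulVec, ← Matrix.mulVec_mulVec,
    unitTransv_mulVec e c hee x,
    unitTransv_mulVec f c' hff (x + (c * hermForm n F q x e) • e), s1,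
    unitTransv_mulVec e c hee, s2, e1, e2]
  module

theorem exists_prod_u (hF : Fintype.card F = q ^ 2) {κ : Type} [DecidableEq κ]
    (e f : κ → Fin n → F) (c c' : F) (hcc' : c * c' = -1) (hc : c + c ^ q = 0)
    (hc' : c' + c' ^ q = 0)
    (hdual : ∀ i j, hermForm n F q (e i) (f j) = if i = j then 1 else 0)
    (hdual' : ∀ i j, hermForm n F q (f i) (e j) = if i = j then 1 else 0)
    (hee : ∀ i j, hermForm n F q (e i) (e j) = 0) (hff : ∀ i j, hermForm n F q (f i) (f j) = 0)
    (S : Finset κ) :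
    ∃ g ∈ GU n F q ⊓ specialLinear (Fin n) F, ∀ x,
      (g : Matrix (Fin n) (Fin n) F) *ᵥ x = x + ∑ j ∈ S,
        (hermForm n F q x (f j) • (c' • f j - e j) + hermForm n F q x (e j) • (c • e j - f j)) := by
  induction S using Finset.induction_on with
  | empty =>
    exact ⟨1, Subgroup.one_mem _, fun x => by simp⟩
  | insert j S hj ih =>
    obtain ⟨g, hg, hgx⟩ := ih
    have hT1 : unitTransv q (e j) c (hee j j) ∈ GU n F q ⊓ specialLinear (Fin n) F :=
      ⟨unitTransv_mem_GU hF _ _ _ hc, unitTransv_mem_specialLinear _ _ _⟩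
    have hT2 : unitTransv q (f j) c' (hff j j) ∈ GU n F q ⊓ specialLinear (Fin n) F :=
      ⟨unitTransv_mem_GU hF _ _ _ hc', unitTransv_mem_specialLinear _ _ _⟩
    refine ⟨g * (unitTransv q (e j) c (hee j j) * unitTransv q (f j) c' (hff j j) *
      unitTransv q (e j) c (hee j j)),
      Subgroup.mul_mem _ hg (Subgroup.mul_mem _ (Subgroup.mul_mem _ hT1 hT2) hT1), fun x => ?_⟩
    rw [Units.val_mul, ← Matrix.mulVec_mulVec, uW_mulVec _ _ _ c c' hcc' (hee j j) (hff j j)
      (by rw [hdual, if_pos rfl]) (by rw [hdual', if_pos rfl]), hgx, Finset.sum_insert hj]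
    have hsum : ∀ i ∈ S,
        hermForm n F q (x + hermForm n F q x (f j) • (c' • f j - e j)
          + hermForm n F q x (e j) • (c • e j - f j)) (f i) • (c' • f i - e i)
        + hermForm n F q (x + hermForm n F q x (f j) • (c' • f j - e j)
          + hermForm n F q x (e j) • (c • e j - f j)) (e i) • (c • e i - f i)
        = hermForm n F q x (f i) • (c' • f i - e i)
          + hermForm n F q x (e i) • (c • e i - f i) := by
      intro i hi
      have hij : i ≠ j := fun h => hj (h ▸ hi)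
      have h1 : hermForm n F q (f j) (e i) = 0 := by
        rw [hdual', if_neg (Ne.symm hij)]
      have h2 : hermForm n F q (e j) (f i) = 0 := by
        rw [hdual, if_neg (Ne.symm hij)]
      simp only [hermForm_add_left, hermForm_smul_left, hermForm_sub_left', hff, hee, h1, h2,
        sub_zero, add_zero, mul_zero]
    rw [Finset.sum_congr rfl hsum]
    abel

/-- An element of `SU` interchanging two complementary maximal totally isotropic subspaces. -/
theorem exists_swap_u (hF : Fintype.card F = q ^ 2) (U U' : Submodule F (Fin n → F))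
    (hU : IsTotallySingularFor (hermForm n F q) U)
    (hU' : IsTotallySingularFor (hermForm n F q) U') {k : ℕ}
    (dU : finrank F U = k) (dU' : finrank F U' = k) (hsup : U ⊔ U' = ⊤) :
    ∃ s ∈ GU n F q ⊓ specialLinear (Fin n) F,
      (∀ x ∈ U, (s : Matrix (Fin n) (Fin n) F) *ᵥ x ∈ U') ∧
      (∀ x ∈ U', (s : Matrix (Fin n) (Fin n) F) *ᵥ x ∈ U) := by
  classical
  obtain ⟨e, f, heU, hfU', hdual, hdual', hexpU, hexpU'⟩ := exists_dual_families_u hF U U' hU hU'
    (Fin k) (by rw [dU]; simp) (by rw [dU']; simp) hsup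
  obtain ⟨ε, hε0, hε⟩ := exists_trace_zero_ne hF
  have hε' : (-ε⁻¹) + (-ε⁻¹) ^ q = 0 := by
    rw [H17.frob_neg hF]
    linear_combination -(trace_inv hF hε)
  obtain ⟨s, hs, hsx⟩ := exists_prod_u hF e f ε (-ε⁻¹)
    (by rw [mul_neg, mul_inv_cancel₀ hε0]) hε hε' hdual hdual'
    (fun i j => hU _ (heU i) _ (heU j)) (fun i j => hU' _ (hfU' i) _ (hfU' j)) Finset.univ
  refine ⟨s, hs, ?_, ?_⟩
  · intro x hx
    have h1 : ∀ i, hermForm n F q x (e i) = 0 := fun i => hU x hx _ (heU i)
    have h3 : x + ∑ i, hermForm n F q x (f i) • ((-ε⁻¹) • f i - e i)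
        = (x - ∑ i, hermForm n F q x (f i) • e i)
          + ∑ i, hermForm n F q x (f i) • (-ε⁻¹) • f i := by
      simp only [smul_sub, Finset.sum_sub_distrib]
      abel
    have h2 : (s : Matrix (Fin n) (Fin n) F) *ᵥ x
        = ∑ i, hermForm n F q x (f i) • (-ε⁻¹) • f i := by
      rw [hsx]
      simp only [h1, zero_smul, add_zero]
      rw [h3, sub_eq_zero.mpr (hexpU x hx), zero_add]
    rw [h2]
    exact Submodule.sum_mem _ (fun i _ => U'.smul_mem _ (U'.smul_mem _ (hfU' i)))
  · intro x hx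
    have h1 : ∀ i, hermForm n F q x (f i) = 0 := fun i => hU' x hx _ (hfU' i)
    have h3 : x + ∑ i, hermForm n F q x (e i) • (ε • e i - f i)
        = (x - ∑ i, hermForm n F q x (e i) • f i)
          + ∑ i, hermForm n F q x (e i) • ε • e i := by
      simp only [smul_sub, Finset.sum_sub_distrib]
      abel
    have h2 : (s : Matrix (Fin n) (Fin n) F) *ᵥ x
        = ∑ i, hermForm n F q x (e i) • ε • e i := by
      rw [hsx]
      simp only [h1, zero_smul, zero_add]
      rw [h3, sub_eq_zero.mpr (hexpU' x hx), zero_add]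
    rw [h2]
    exact Submodule.sum_mem _ (fun i _ => U.smul_mem _ (U.smul_mem _ (heU i)))

lemma uDir_of_stab (hF : Fintype.card F = q ^ 2) (P P' : Submodule F (Fin n → F))
    (hP : IsTotallySingularFor (hermForm n F q) P)
    (hP' : IsTotallySingularFor (hermForm n F q) P')
    (M : Subgroup (GL (Fin n) F))
    (hmem : ∀ k : GL (Fin n) F, k ∈ GU n F q ⊓ specialLinear (Fin n) F →
      (∀ x ∈ P, (k : Matrix (Fin n) (Fin n) F) *ᵥ x ∈ P) →
      (∀ x ∈ P', (k : Matrix (Fin n) (Fin n) F) *ᵥ x ∈ P') → k ∈ M) :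
    ∀ p ∈ P, ∀ p' ∈ P', hermForm n F q p' p = 0 → uDir q M p p' := by
  intro p hp p' hp' hpp'
  have hq := H17.two_le_of_card_sq hF
  refine ⟨hP p hp p hp, hpp', fun t => ?_⟩
  obtain ⟨E, hE, hEz⟩ := exists_eichler hF p (t • p') 0 (hP p hp p hp)
    (by rw [hermForm_smul_left, hpp', mul_zero])
    (by rw [zero_pow (by omega), hP' _ (P'.smul_mem t hp') _ (P'.smul_mem t hp')]; ring)
  refine ⟨0, E, hmem E hE ?_ ?_, fun x => hEz x⟩
  · intro x hx
    rw [hEz, hP x hx p hp]
    simp only [zero_smul, mul_zero, add_zero, zero_add]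
    exact P.add_mem hx (P.smul_mem _ hp)
  · intro x hx
    rw [hEz, hP' x hx _ (P'.smul_mem t hp')]
    simp only [neg_zero, zero_smul, add_zero, zero_mul]
    exact P'.add_mem hx (P'.smul_mem _ (P'.smul_mem _ hp'))

/-- In `SU_2k(q)`, `k ≥ 5`, the stabiliser of a pair of complementary maximal totally isotropic
subspaces is a maximal subgroup. -/
theorem pairU_isMaximalIn (hF : Fintype.card F = q ^ 2) {k : ℕ} (hk : 5 ≤ k) (hn : n = 2 * k)
    (D : Fin 2 → Submodule F (Fin n → F)) (hD : IsMDecomposition k D)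
    (hts : ∀ i, IsTotallySingularFor (hermForm n F q) (D i)) :
    IsMaximalIn (GU n F q ⊓ specialLinear (Fin n) F)
      (decompositionStabilizer D ⊓ (GU n F q ⊓ specialLinear (Fin n) F)) := by
  classical
  have hV : finrank F (Fin n → F) = 2 * k := by rw [Module.finrank_fin_fun, hn]
  have hdim : ∀ i, finrank F (D i) = k := hD.finrank_eq
  have h01 : (0 : Fin 2) ≠ 1 := by decide
  have hdisj : D 0 ⊓ D 1 = ⊥ := (hD.indep.pairwiseDisjoint h01).eq_bot
  have hsup : D 0 ⊔ D 1 = ⊤ := sup_eq_top_of_inf_bot hV (D 0) (D 1) (hdim 0) (hdim 1) hdisj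
  have hfin2 : ∀ i : Fin 2, i = 0 ∨ i = 1 := by decide
  refine ⟨lt_of_le_of_ne inf_le_right ?_, ?_⟩
  · intro hEq
    have hne : D 0 ≠ ⊥ := by
      intro h
      have := hdim 0
      rw [h, finrank_bot] at this
      omega
    obtain ⟨a, ha, ha0⟩ := Submodule.exists_mem_ne_zero_of_ne_bot hne
    obtain ⟨b', hb', hb'a⟩ := pairU_exists0 hF (D 0) (D 1) (hts 0) hsup a ha ha0
    obtain ⟨ε, hε0, hε⟩ := exists_trace_zero_ne hF
    have hT : unitTransv q a ε (hts 0 a ha a ha) ∈
        decompositionStabilizer D ⊓ (GU n F q ⊓ specialLinear (Fin n) F) := by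
      rw [hEq]
      exact ⟨unitTransv_mem_GU hF _ _ _ hε, unitTransv_mem_specialLinear _ _ _⟩
    obtain ⟨σ, hσ⟩ := hT.1
    have h1 : ((unitTransv q a ε (hts 0 a ha a ha) : GL (Fin n) F) :
        Matrix (Fin n) (Fin n) F) *ᵥ b' ∈ D (σ 1) := by
      rw [← hσ 1]
      exact ⟨b', hb', by rw [Matrix.toLin'_apply]⟩
    rw [unitTransv_mulVec] at h1
    have hc0 : ε * hermForm n F q b' a ≠ 0 := mul_ne_zero hε0 hb'a
    rcases hfin2 (σ 1) with h | h
    · rw [h] at h1
      have h3 : b' ∈ D 0 := by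
        have := (D 0).sub_mem h1 ((D 0).smul_mem (ε * hermForm n F q b' a) ha)
        rwa [add_sub_cancel_right] at this
      have hb0 : b' ∈ D 0 ⊓ D 1 := ⟨h3, hb'⟩
      rw [hdisj] at hb0
      rw [(Submodule.mem_bot F).mp hb0, hermForm_zero_left] at hb'a
      exact hb'a rfl
    · rw [h] at h1
      have h3 : (ε * hermForm n F q b' a) • a ∈ D 1 := by
        have := (D 1).sub_mem h1 hb'
        rwa [add_sub_cancel_left] at this
      have ha1 : a ∈ D 1 := by
        have := (D 1).smul_mem (ε * hermForm n F q b' a)⁻¹ h3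
        rwa [smul_smul, inv_mul_cancel₀ hc0, one_smul] at this
      have h4 : a ∈ D 0 ⊓ D 1 := ⟨ha, ha1⟩
      rw [hdisj] at h4
      exact ha0 ((Submodule.mem_bot F).mp h4)
  · intro M hHM hMΩ
    by_cases hMH : M = decompositionStabilizer D ⊓ (GU n F q ⊓ specialLinear (Fin n) F)
    · exact Or.inl hMH
    right
    apply le_antisymm hMΩ
    obtain ⟨g, hgM, hgH⟩ : ∃ g ∈ M, g ∉ decompositionStabilizer D ⊓
        (GU n F q ⊓ specialLinear (Fin n) F) := by
      by_contra hcon
      push Not at hcon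
      exact hMH (le_antisymm hcon hHM)
    have hMU : M ≤ GU n F q := fun k hk => (hMΩ hk).1
    have hgU : g ∈ GU n F q := hMU hgM
    have hmemM : ∀ k : GL (Fin n) F, k ∈ GU n F q ⊓ specialLinear (Fin n) F →
        (∀ i, ∃ i', ∀ x ∈ D i, (k : Matrix (Fin n) (Fin n) F) *ᵥ x ∈ D i') → k ∈ M :=
      fun k hk hstab => hHM ⟨mem_decompositionStabilizer_of_forall hD _ hstab, hk⟩
    have hE : ∀ p ∈ D 0, ∀ p' ∈ D 1, hermForm n F q p' p = 0 → uDir q M p p' :=
      uDir_of_stab hF (D 0) (D 1) (hts 0) (hts 1) M (fun k hk h0 h1 => hmemM k hk (by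
        rw [Fin.forall_fin_two]
        exact ⟨⟨0, h0⟩, ⟨1, h1⟩⟩))
    have hE' : ∀ p ∈ D 1, ∀ p' ∈ D 0, hermForm n F q p' p = 0 → uDir q M p p' :=
      uDir_of_stab hF (D 1) (D 0) (hts 1) (hts 0) M (fun k hk h1 h0 => hmemM k hk (by
        rw [Fin.forall_fin_two]
        exact ⟨⟨0, h0⟩, ⟨1, h1⟩⟩))
    obtain ⟨s, hs, hsU, hsU'⟩ := exists_swap_u hF (D 0) (D 1) (hts 0) (hts 1) (hdim 0) (hdim 1)
      hsup
    have hsM : s ∈ M := hmemM s hs (by
      rw [Fin.forall_fin_two]
      exact ⟨⟨1, hsU⟩, ⟨0, hsU'⟩⟩)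
    have hgns : ¬ ∀ i, ∃ i', ∀ x ∈ D i, (g : Matrix (Fin n) (Fin n) F) *ᵥ x ∈ D i' :=
      fun h => hgH ⟨mem_decompositionStabilizer_of_forall hD _ h, hMΩ hgM⟩
    push Not at hgns
    obtain ⟨i, hi⟩ := hgns
    obtain ⟨x₀, hx₀, hgx₀⟩ := hi 0
    obtain ⟨x₁, hx₁, hgx₁⟩ := hi 1
    obtain ⟨a₀, ha₀, h0, h1⟩ : ∃ a₀ ∈ D i,
        (g : Matrix (Fin n) (Fin n) F) *ᵥ a₀ ∉ D 0 ∧
        (g : Matrix (Fin n) (Fin n) F) *ᵥ a₀ ∉ D 1 := by
      by_cases c1 : (g : Matrix (Fin n) (Fin n) F) *ᵥ x₀ ∈ D 1
      · by_cases c2 : (g : Matrix (Fin n) (Fin n) F) *ᵥ x₁ ∈ D 0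
        · refine ⟨x₀ + x₁, (D i).add_mem hx₀ hx₁, ?_, ?_⟩
          · rw [Matrix.mulVec_add]
            intro h
            exact hgx₀ (((D 0).add_mem_iff_left c2).mp h)
          · rw [Matrix.mulVec_add]
            intro h
            exact hgx₁ (((D 1).add_mem_iff_right c1).mp h)
        · exact ⟨x₁, hx₁, c2, hgx₁⟩
      · exact ⟨x₀, hx₀, hgx₀, c1⟩
    have hEi : ∃ i' : Fin 2, ∀ p ∈ D i, ∀ p' ∈ D i', hermForm n F q p' p = 0 →
        uDir q M p p' := by
      rcases hfin2 i with rfl | rfl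
      · exact ⟨1, hE⟩
      · exact ⟨0, hE'⟩
    obtain ⟨i', hEi⟩ := hEi
    have hginj : Function.Injective (Matrix.toLin' (g : Matrix (Fin n) (Fin n) F)) := by
      intro v w hvw
      simp only [Matrix.toLin'_apply] at hvw
      exact mulVec_injective g hvw
    exact pairU_core hF hk hn (D 0) (D 1) (hts 0) (hts 1) (hdim 0) (hdim 1) hdisj M hMU hE
      (fun p' hp' p hp h => hE' p' hp' p hp h)
      s hsM hsU hsU' ((g : Matrix (Fin n) (Fin n) F) *ᵥ a₀) h0 h1
      ((D i').map (Matrix.toLin' (g : Matrix (Fin n) (Fin n) F)))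
      ((LinearEquiv.finrank_eq (Submodule.equivMapOfInjective _ hginj (D i'))).symm.trans
        (hdim i'))
      (by
        rintro _ ⟨b₀, hb₀, rfl⟩ hpol
        rw [Matrix.toLin'_apply] at hpol ⊢
        have h' : hermForm n F q b₀ a₀ = 0 := by
          rw [← hgU b₀ a₀]
          exact hpol
        exact uDir_conj hgM hgU (hEi a₀ ha₀ b₀ hb₀ h'))

end PairSU2

end Cfsg.Agent.H95
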