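import Cfsg.Agent.H48.EpDefs
import Cfsg.Agent.H95.OhFin

/-!
# EP-STRUCT in odd characteristic (helper48's S5974 project), from the closed S5992 pieces
-/

set_option autoImplicit false

namespace Cfsg.Agent.H95.Ep

open Cfsg.Agent.H45 Cfsg.Agent.H42.Spd Cfsg.Agent.H42.Ti Cfsg.Agent.H14.Ot Cfsg.Agent.H95.Oh
  Cfsg.Agent.H48.Ep Module

universe u v

section

variable {F : Type u} [Field F] {V : Type v} [AddCommGroup V] [Module F V]

theorem so_cc_even [Fintype F] (r : ℕ) : Even (cc F r) := by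
  unfold cc
  split_ifs with h
  · exact h
  · exact even_two_mul _

theorem so_cc_pos [Fintype F] (r : ℕ) (hr : r.Prime) (hrF : (r : F) ≠ 0) : 0 < cc F r := by
  have h := Cfsg.Agent.H60.Ot.ot_ii_pos (F := F) r hr hrF
  have h' : cc F r = if Even (ii F r) then ii F r else 2 * ii F r := rfl
  rw [h']
  split_ifs <;> omega

theorem so_plus_iff (Q : QuadraticForm F V) (h2 : (2 : F) ≠ 0) (W : Submodule F V) :
    QPlus Q W ↔ Plus (QuadraticMap.polarBilin Q) W := by
  constructor
  · rintro ⟨U, hUW, hU, hfin⟩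
    refine ⟨U, hUW, ?_, hfin⟩
    intro u hu v hv
    show QuadraticMap.polar Q u v = 0
    unfold QuadraticMap.polar
    rw [hU _ (U.add_mem hu hv), hU u hu, hU v hv]
    simp
  · rintro ⟨U, hUW, hU, hfin⟩
    refine ⟨U, hUW, ?_, hfin⟩
    intro u hu
    have h := hU u hu u hu
    have h' : QuadraticMap.polar Q u u = 2 * Q u := by
      unfold QuadraticMap.polar
      have : u + u = (2 : F) • u := (two_smul F u).symm
      rw [this, QuadraticMap.map_smul]
      simp only [smul_eq_mul]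
      ring
    have h'' : (2 : F) * Q u = 0 := by rw [← h']; exact h
    rcases mul_eq_zero.mp h'' with h0 | h0
    · exact absurd h0 h2
    · exact h0

end

theorem so_logic {PK PW plV X YA Yj YAj : Prop} (hK : PK ↔ (plV ↔ (X ∨ YA)))
    (hW : PW ↔ (X ∨ Yj)) (h6 : YAj ↔ (YA ↔ Yj)) : (PK ↔ PW) ↔ (plV ↔ (X ∨ YAj)) := by
  by_cases hX : X <;> by_cases hA : YA <;> by_cases hj : Yj <;> by_cases hV : plV <;> simp_all

theorem so_logic2 {PT PK PW plV Z : Prop} (hsum : PT ↔ (PK ↔ PW)) (htype : PW ↔ Z)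
    (h1 : plV ↔ PT) : PK ↔ (plV ↔ Z) := by
  by_cases hK : PK <;> by_cases hW : PW <;> by_cases hV : plV <;> simp_all

set_option maxHeartbeats 1000000 in
/-- The body of `Cfsg.Agent.H48.Ep.StStruct` in odd characteristic. -/
theorem structOdd (F : Type u) [Field F] [Fintype F] (V : Type v) [AddCommGroup V] [Module F V]
    [FiniteDimensional F V] (Q : QuadraticForm F V) (T : Module.End F V) (r : ℕ) (plV : Prop)
    (h2 : (2 : F) ≠ 0)
    (hr : r.Prime) (hr2 : r ≠ 2) (hrF : (r : F) ≠ 0) (hQ : QNd Q ⊤) (hiso : ∀ v, Q (T v) = Q v)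
    (hpow : T ^ r = 1) (hev : Even (Module.finrank F V)) (hplV : QPlus Q ⊤ ↔ plV) :
    QNd Q (LinearMap.ker (T - 1)) ∧
    ∃ A : ℕ, Module.finrank F V = kk T ⊤ + cc F r * A ∧
      (kk T ⊤ = 0 → (plV ↔ (Odd (ii F r) ∨ Even A))) ∧
      (∀ (j e : ℕ) (pl : Prop), j ≤ A → e ≤ kk T ⊤ → Even e →
        (e = 0 → (pl ↔ (Odd (ii F r) ∨ Even j))) →
        (e = kk T ⊤ → e ≠ 0 → (pl ↔ (plV ↔ (Odd (ii F r) ∨ Even (A - j))))) →
        ∃ W : Submodule F V, W ∈ T.invtSubmodule ∧ QNd Q W ∧
          Module.finrank F W = cc F r * j + e ∧ (QPlus Q W ↔ pl)) ∧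
      (∀ (W : Submodule F V) (pl : Prop), W ∈ T.invtSubmodule → QNd Q W →
        Even (Module.finrank F W) → (QPlus Q W ↔ pl) →
        ∃ j : ℕ, j ≤ A ∧ Module.finrank F W = cc F r * j + kk T W ∧ kk T W ≤ kk T ⊤ ∧
          (kk T W = 0 → (pl ↔ (Odd (ii F r) ∨ Even j))) ∧
          (kk T W = kk T ⊤ → kk T W ≠ 0 →
            (pl ↔ (plV ↔ (Odd (ii F r) ∨ Even (A - j)))))) := by
  classical
  -- the bilinear form
  obtain ⟨B, hB⟩ : ∃ B : V →ₗ[F] V →ₗ[F] F, B = QuadraticMap.polarBilin Q := ⟨_, rfl⟩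
  have hBapp : ∀ x y, B x y = QuadraticMap.polar Q x y := by
    intro x y; rw [hB]; rfl
  have hsymm : ∀ x y, B x y = B y x := by
    intro x y; rw [hBapp, hBapp, QuadraticMap.polar_comm]
  have hQ' : (⊤ : Submodule F V) ⊓ perp B ⊤ = ⊥ := by rw [hB]; exact hQ
  have hnd : ∀ x, (∀ y, B x y = 0) → x = 0 := by
    intro x hx
    have hx' : x ∈ (⊤ : Submodule F V) ⊓ perp B ⊤ :=
      ⟨Submodule.mem_top, fun u _ => by rw [hsymm]; exact hx u⟩
    rw [hQ'] at hx'
    exact (Submodule.mem_bot F).mp hx'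
  have hisoB : ∀ x y, B (T x) (T y) = B x y := by
    intro x y
    rw [hBapp, hBapp]
    unfold QuadraticMap.polar
    rw [← map_add, hiso, hiso, hiso]
  have hctx : OCtx r B T := ⟨hr, hr2, hrF, h2, hsymm, hnd, hisoB, hpow⟩
  have hPl : ∀ W : Submodule F V, QPlus Q W ↔ Plus B W := by
    intro W; rw [hB]; exact so_plus_iff Q h2 W
  have hNd : ∀ W : Submodule F V, QNd Q W ↔ W ⊓ perp B W = ⊥ := by
    intro W; rw [hB]; rfl
  have hcpos : 0 < cc F r := so_cc_pos r hr hrF
  have hceven : Even (cc F r) := so_cc_even r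
  -- the splitting
  obtain ⟨hKR, hKRtop, hsplit⟩ := fin_split.{u, v} F V r T hrF hpow
  set K : Submodule F V := LinearMap.ker (T - 1) with hK
  set R : Submodule F V := LinearMap.range (T - 1) with hR
  have hKfix : ∀ k ∈ K, T k = k := by
    intro k hk
    have : (T - 1) k = 0 := LinearMap.mem_ker.mp hk
    simpa [sub_eq_zero] using this
  have hUK : ∀ u ∈ R, ∀ k ∈ K, B u k = 0 := by
    rintro u ⟨w, rfl⟩ k hk
    have h1 : (T - 1) w = T w - w := by simp
    rw [h1, map_sub, LinearMap.sub_apply]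
    nth_rewrite 1 [← hKfix k hk]
    rw [hisoB, sub_self]
  have hRperp : R ≤ perp B K := by
    intro u hu k hk
    rw [hsymm]
    exact hUK u hu k hk
  have hKnd : K ⊓ perp B K = ⊥ := Cfsg.Agent.H60.Ot.ker_nondeg B T hsymm hnd hKRtop hUK
  have hKinv : K ∈ T.invtSubmodule := by
    rw [Module.End.mem_invtSubmodule]
    intro k hk
    rw [Submodule.mem_comap, hKfix k hk]
    exact hk
  have hkkK : kk T ⊤ = Module.finrank F K := by
    unfold kk; rw [top_inf_eq]
  -- the number of blocks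
  obtain ⟨A, hA⟩ := fin_omodc.{u, v} F V r B T hctx
  have hKeven : Even (Module.finrank F K) := by
    rw [← hkkK]
    have h1 : Even (cc F r * A) := hceven.mul_right A
    rw [hA] at hev
    exact (Nat.even_add.mp hev).mpr h1
  -- a fixed-point-free invariant nondegenerate subspace lies in `R` and has a known type
  have hfree : ∀ (W₁ : Submodule F V) (j : ℕ), W₁ ∈ T.invtSubmodule → W₁ ⊓ perp B W₁ = ⊥ →
      W₁ ⊓ K = ⊥ → Module.finrank F W₁ = cc F r * j →
      W₁ ≤ perp B K ∧ (Plus B W₁ ↔ (Odd (ii F r) ∨ Even j)) := by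
    intro W₁ j hinv hnd₁ hK₁ hfin
    constructor
    · have h1 := hsplit W₁ hinv
      rw [hK₁, bot_sup_eq] at h1
      exact (inf_eq_left.mp h1).trans hRperp
    · obtain ⟨j', h1, -, h3⟩ := fin_fwd.{u, v} F V r B T hctx W₁ hinv hnd₁
      have hkk0 : kk T W₁ = 0 := by
        unfold kk; rw [hK₁]; simp
      rw [hkk0, zero_add, hfin] at h1
      have hjj : j = j' := Nat.eq_of_mul_eq_mul_left hcpos h1
      rw [hjj]
      exact h3 hkk0
  -- the type of `K`
  have hKtype : Plus B K ↔ (plV ↔ (Odd (ii F r) ∨ Even A)) := by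
    obtain ⟨WA, hinv, hnd₁, hK₁, hfin⟩ := fin_back.{u, v} F V r B T hctx A (le_of_eq hA.symm)
    obtain ⟨hperp, htype⟩ := hfree WA A hinv hnd₁ hK₁ hfin
    obtain ⟨-, hfinsum, hsum⟩ := fin_sumtype.{u, v} F V B h2 hsymm K WA hKnd hnd₁ hperp hKeven
      (by rw [hfin]; exact hceven.mul_right A)
    have htop : K ⊔ WA = ⊤ := by
      apply Submodule.eq_top_of_finrank_eq
      rw [hfinsum, hfin, ← hkkK, ← hA]
    rw [htop] at hsum
    have h1 : plV ↔ Plus B ⊤ := hplV.symm.trans (hPl ⊤)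
    exact so_logic2 hsum htype h1
  refine ⟨(hNd K).mpr hKnd, A, hA, ?_, ?_, ?_⟩
  · -- `K = 0`
    intro h0
    obtain ⟨j', h1, -, h3⟩ := fin_fwd.{u, v} F V r B T hctx ⊤ (Module.End.invtSubmodule.top_mem T)
      hQ'
    rw [h0, zero_add, finrank_top, hA, h0, zero_add] at h1
    have hjj : A = j' := Nat.eq_of_mul_eq_mul_left hcpos h1
    rw [hjj]
    exact (hplV.symm.trans (hPl ⊤)).trans (h3 h0)
  · -- existence
    intro j e pl hjA hek hee h0 hfull
    have hjle : kk T ⊤ + cc F r * j ≤ Module.finrank F V := by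
      rw [hA]
      exact Nat.add_le_add_left (Nat.mul_le_mul_left _ hjA) _
    by_cases hlt : e + 1 ≤ kk T ⊤
    · obtain ⟨W, h1, h2', h3, h4⟩ := fin_exw.{u, v} F V r B T hctx j e pl hjle hee hlt h0
      exact ⟨W, h1, (hNd W).mpr h2', h3, (hPl W).trans h4⟩
    · have hek' : e = kk T ⊤ := by omega
      obtain ⟨W₁, hinv, hnd₁, hK₁, hfin⟩ := fin_back.{u, v} F V r B T hctx j hjle
      obtain ⟨hperp, htype⟩ := hfree W₁ j hinv hnd₁ hK₁ hfin
      by_cases he0 : e = 0
      · refine ⟨W₁, hinv, (hNd W₁).mpr hnd₁, by rw [hfin, he0, add_zero], ?_⟩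
        exact ((hPl W₁).trans htype).trans (h0 he0).symm
      · obtain ⟨hndsum, hfinsum, hsum⟩ := fin_sumtype.{u, v} F V B h2 hsymm K W₁ hKnd hnd₁ hperp
          hKeven (by rw [hfin]; exact hceven.mul_right j)
        refine ⟨K ⊔ W₁, ?_, (hNd _).mpr hndsum, ?_, ?_⟩
        · exact Module.End.invtSubmodule.sup_mem hKinv hinv
        · rw [hfinsum, hfin, ← hkkK, ← hek', add_comm]
        · have h5 := hfull hek' he0
          have h6 : Even (A - j) ↔ (Even A ↔ Even j) := Nat.even_sub hjA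
          exact ((hPl _).trans hsum).trans ((so_logic hKtype htype h6).trans h5.symm)
  · -- the shape of an invariant nondegenerate subspace
    intro W pl hWinv hWnd hWev hWpl
    have hWnd' := (hNd W).mp hWnd
    obtain ⟨j, h1, h2', h3⟩ := fin_fwd.{u, v} F V r B T hctx W hWinv hWnd'
    have hjA : j ≤ A := by
      rw [hA] at h2'
      exact Nat.le_of_mul_le_mul_left (Nat.le_of_add_le_add_left h2') hcpos
    have hkkle : kk T W ≤ kk T ⊤ := by
      unfold kk
      exact Submodule.finrank_mono (inf_le_inf_right _ le_top)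
    refine ⟨j, hjA, by rw [h1, add_comm], hkkle, ?_, ?_⟩
    · intro h0
      exact (hWpl.symm.trans (hPl W)).trans (h3 h0)
    · intro hfull hne
      -- `K ≤ W`
      have hKW : W ⊓ K = K := by
        apply Submodule.eq_of_le_of_finrank_eq inf_le_right
        have : kk T W = Module.finrank F ↥(W ⊓ K) := rfl
        rw [← this, hfull, hkkK]
      have hKleW : K ≤ W := by rw [← hKW]; exact inf_le_left
      have hRinv : R ∈ T.invtSubmodule := by
        rw [Module.End.mem_invtSubmodule]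
        rintro u ⟨w, rfl⟩
        rw [Submodule.mem_comap]
        refine ⟨T w, ?_⟩
        simp [map_sub]
      have hW₁inv : W ⊓ R ∈ T.invtSubmodule := Module.End.invtSubmodule.inf_mem hWinv hRinv
      have hWsplit : K ⊔ (W ⊓ R) = W := by
        have := hsplit W hWinv
        rw [hKW] at this
        exact this
      have hW₁perp : W ⊓ R ≤ perp B K := inf_le_right.trans hRperp
      have hW₁nd : (W ⊓ R) ⊓ perp B (W ⊓ R) = ⊥ := by
        rw [eq_bot_iff]
        intro x hx
        obtain ⟨hx1, hx2⟩ := hx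
        have hxW : x ∈ W ⊓ perp B W := by
          refine ⟨hx1.1, ?_⟩
          intro u hu
          rw [← hWsplit] at hu
          obtain ⟨k, hk, w, hw, rfl⟩ := Submodule.mem_sup.mp hu
          rw [map_add, LinearMap.add_apply, hx2 w hw, add_zero]
          exact hW₁perp hx1 k hk
        rw [hWnd'] at hxW
        exact hxW
      have hW₁K : (W ⊓ R) ⊓ K = ⊥ := by
        rw [eq_bot_iff]
        intro x hx
        have : x ∈ K ⊓ R := ⟨hx.2, hx.1.2⟩
        rw [hKR] at this
        exact this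
      obtain ⟨j'', h1'', -, h3''⟩ := fin_fwd.{u, v} F V r B T hctx (W ⊓ R) hW₁inv hW₁nd
      have hkk0 : kk T (W ⊓ R) = 0 := by
        unfold kk; rw [hW₁K]; simp
      rw [hkk0, zero_add] at h1''
      obtain ⟨-, hfinsum, hsum⟩ := fin_sumtype.{u, v} F V B h2 hsymm K (W ⊓ R) hKnd hW₁nd hW₁perp
        hKeven (by rw [h1'']; exact hceven.mul_right j'')
      rw [hWsplit] at hfinsum hsum
      have hjj : j = j'' := by
        have h4 : kk T W = Module.finrank F K := by rw [hfull, hkkK]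
        rw [h1, h4, h1''] at hfinsum
        exact Nat.eq_of_mul_eq_mul_left hcpos (Nat.add_left_cancel hfinsum)
      have htype₁ := h3'' hkk0
      rw [← hjj] at htype₁
      have h6 : Even (A - j) ↔ (Even A ↔ Even j) := Nat.even_sub hjA
      have h7 : pl ↔ Plus B W := hWpl.symm.trans (hPl W)
      exact (h7.trans hsum).trans (so_logic hKtype htype₁ h6)

end Cfsg.Agent.H95.Ep
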