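import Cfsg.Agent.H48.EpDefs2
import Cfsg.Agent.H95.EpStructOdd

/-!
# EP-STRUCT-ODD (helper95, for helper48's S5974): exact shape

`Cfsg.Agent.H48.Ep.StStructOdd` is `Cfsg.Agent.H95.Ep.structOdd` with the arguments reordered.
-/

set_option autoImplicit false

namespace Cfsg.Agent.H95.Ep

open Cfsg.Agent.H45 Cfsg.Agent.H42.Spd Cfsg.Agent.H42.Ti Cfsg.Agent.H48.Ep Module

universe u v

theorem structOdd' : Cfsg.Agent.H48.Ep.StStructOdd.{u, v} := by
  intro F _ _ V _ _ _ Q T r plV h2 hr hr2 hrF hQ hiso hpow hev hplV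
  exact structOdd F V Q T r plV h2 hr hr2 hrF hQ hiso hpow hev hplV

example : Cfsg.Agent.H48.Ep.StStructOdd.{u, v} := structOdd'

end Cfsg.Agent.H95.Ep
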