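import Cfsg.Agent.H95.Basic

set_option autoImplicit false

namespace Cfsg.Agent.H95

open Cfsg Cfsg.Geo
open scoped MatrixGroups Matrix

section Frame3

variable {F : Type*} [Field F] [Fintype F]

lemma three_eq_zero_of_card_three (hq : Fintype.card F = 3) : (3 : F) = 0 := by
  have := FiniteField.cast_card_eq_zero F
  rw [hq] at this
  exact_mod_cast this

lemma trichotomy_of_card_three (hq : Fintype.card F = 3) (a : F) : a = 0 ∨ a = 1 ∨ a = -1 := by
  have h := FiniteField.pow_card a
  rw [hq] at h
  have h' : a * ((a - 1) * (a + 1)) = 0 := by linear_combination h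
  rcases mul_eq_zero.mp h' with h0 | h1
  · exact Or.inl h0
  · rcases mul_eq_zero.mp h1 with h1 | h1
    · exact Or.inr (Or.inl (sub_eq_zero.mp h1))
    · exact Or.inr (Or.inr (eq_neg_of_add_eq_zero_left h1))

lemma two_ne_zero_of_card_three (hq : Fintype.card F = 3) : (2 : F) ≠ 0 := by
  intro h2
  have h3 := three_eq_zero_of_card_three hq
  have : (1 : F) = 0 := by linear_combination h3 - h2
  exact one_ne_zero this

lemma one_ne_neg_one_of_card_three (hq : Fintype.card F = 3) : (1 : F) ≠ -1 := by
  intro h
  apply two_ne_zero_of_card_three hq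
  linear_combination h

variable {V : Type*} [AddCommGroup V] [Module F V]

/-- Expansion in an orthogonal frame of common norm `d`, and the vectors of norm `d`. -/
lemma frame3_aux (hq : Fintype.card F = 3) (hV : Module.finrank F V = 3)
    (B : LinearMap.BilinForm F V) (ν : Fin 3 → V) (d : F) (hd : d ≠ 0)
    (hν : ∀ i j, B (ν i) (ν j) = if i = j then d else 0) :
    (∀ v, v = ∑ i, (d⁻¹ * B v (ν i)) • ν i) ∧ (∀ v, B v v = d → ∃ i, v = ν i ∨ v = -ν i) := by
  have h3 := three_eq_zero_of_card_three hq
  have htri := trichotomy_of_card_three hq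
  have : FiniteDimensional F V := Module.finite_of_finrank_pos (by omega)
  have hli : LinearIndependent F ν := by
    apply LinearMap.BilinForm.linearIndependent_of_iIsOrtho (B := B)
    · intro i j hij
      change B (ν i) (ν j) = 0
      rw [hν, if_neg hij]
    · intro i
      rw [hν, if_pos rfl]
      exact hd
  have hspan : Submodule.span F (Set.range ν) = ⊤ :=
    hli.span_eq_top_of_card_eq_finrank' (by simp [hV])
  have hexp : ∀ v, v = ∑ i, (d⁻¹ * B v (ν i)) • ν i := by
    intro v
    have hv : v ∈ Submodule.span F (Set.range ν) := by rw [hspan]; trivial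
    obtain ⟨c, hc⟩ := (Submodule.mem_span_range_iff_exists_fun F).mp hv
    have hB : ∀ j, B v (ν j) = c j * d := by
      intro j
      rw [← hc]
      simp only [map_sum, map_smul, LinearMap.sum_apply, LinearMap.smul_apply, smul_eq_mul, hν]
      rw [Finset.sum_eq_single j]
      · simp
      · intro i _ hij
        rw [if_neg hij, mul_zero]
      · intro h; exact absurd (Finset.mem_univ j) h
    conv_lhs => rw [← hc]
    apply Finset.sum_congr rfl
    intro i _
    rw [hB i]
    congr 1
    field_simp
  refine ⟨hexp, ?_⟩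
  intro v hv
  have hv' := hexp v
  rw [Fin.sum_univ_three] at hv'
  set c0 := d⁻¹ * B v (ν 0) with hc0
  set c1 := d⁻¹ * B v (ν 1) with hc1
  set c2 := d⁻¹ * B v (ν 2) with hc2
  have hnorm : B v v = (c0 * c0 + c1 * c1 + c2 * c2) * d := by
    conv_lhs => rw [hv']
    simp only [map_add, map_smul, LinearMap.add_apply, LinearMap.smul_apply, smul_eq_mul, hν]
    simp
    ring
  rw [hv] at hnorm
  have hsum : c0 * c0 + c1 * c1 + c2 * c2 = 1 := by
    have : (c0 * c0 + c1 * c1 + c2 * c2 - 1) * d = 0 := by linear_combination -hnorm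
    rcases mul_eq_zero.mp this with h | h
    · exact sub_eq_zero.mp h
    · exact absurd h hd
  have h10 : (1 : F) ≠ 0 := one_ne_zero
  rcases htri c0 with h0 | h0 | h0 <;> rcases htri c1 with h1 | h1 | h1 <;>
    rcases htri c2 with h2 | h2 | h2 <;> rw [h0, h1, h2] at hsum hv'
  all_goals first
    | exact ⟨0, Or.inl (by simpa using hv')⟩
    | exact ⟨0, Or.inr (by simpa using hv')⟩
    | exact ⟨1, Or.inl (by simpa using hv')⟩
    | exact ⟨1, Or.inr (by simpa using hv')⟩
    | exact ⟨2, Or.inl (by simpa using hv')⟩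
    | exact ⟨2, Or.inr (by simpa using hv')⟩
    | (exfalso; apply h10; linear_combination hsum)
    | (exfalso; apply h10; linear_combination -hsum)
    | (exfalso; apply h10; linear_combination 2 * hsum - h3)

lemma frame3_of_two (hq : Fintype.card F = 3) (B : LinearMap.BilinForm F V) (hs : B.IsSymm)
    (x y z : V) (a a' : F) (ha : a ≠ 0) (ha' : a' ≠ 0)
    (hxx : B x x = a) (hyy : B y y = a) (hzz : B z z = a') (hxy : B x y = 0) (hxz : B x z = 0)
    (hyz : B y z = 0) :
    ∃ (d : F) (ν : Fin 3 → V), d ≠ 0 ∧ ∀ i j, B (ν i) (ν j) = if i = j then d else 0 := by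
  have h3 := three_eq_zero_of_card_three hq
  have hyx : B y x = 0 := by rw [hs.eq, hxy]
  have hzx : B z x = 0 := by rw [hs.eq, hxz]
  have hzy : B z y = 0 := by rw [hs.eq, hyz]
  by_cases h : a' = a
  · refine ⟨a, ![x, y, z], ha, ?_⟩
    intro i j
    fin_cases i <;> fin_cases j <;> simp [hxx, hyy, hzz, hxy, hxz, hyz, hyx, hzx, hzy, h]
  · have h' : a' = -a := by
      rcases trichotomy_of_card_three hq a with h0 | h1 | h1
      · exact absurd h0 ha
      · rcases trichotomy_of_card_three hq a' with h0' | h1' | h1'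
        · exact absurd h0' ha'
        · exact absurd (h1'.trans h1.symm) h
        · rw [h1', h1]
      · rcases trichotomy_of_card_three hq a' with h0' | h1' | h1'
        · exact absurd h0' ha'
        · rw [h1', h1, neg_neg]
        · exact absurd (h1'.trans h1.symm) h
    have h2a : a + a = -a := by linear_combination a * h3
    refine ⟨-a, ![x + y, x - y, z], neg_ne_zero.mpr ha, ?_⟩
    intro i j
    fin_cases i <;> fin_cases j <;>
      simp [hxx, hyy, hzz, hxy, hxz, hyz, hyx, hzx, hzy, h', h2a]

/-- A nondegenerate symmetric bilinear form on a 3-dimensional space over the field with three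
elements has an orthogonal frame of common norm `d`; the vectors of norm `d` are the frame vectors
and their negatives. -/
theorem frame3 (hq : Fintype.card F = 3) (hV : Module.finrank F V = 3)
    (B : LinearMap.BilinForm F V) (hs : B.IsSymm) (hn : B.Nondegenerate) :
    ∃ (d : F) (ν : Fin 3 → V), d ≠ 0 ∧ (∀ i j, B (ν i) (ν j) = if i = j then d else 0) ∧
      (∀ v, v = ∑ i, (d⁻¹ * B v (ν i)) • ν i) ∧ (∀ v, B v v = d → ∃ i, v = ν i ∨ v = -ν i) := by
  have : FiniteDimensional F V := Module.finite_of_finrank_pos (by omega)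
  have h20 := two_ne_zero_of_card_three hq
  have : Invertible (2 : F) := invertibleOfNonzero h20
  obtain ⟨v, hv⟩ := LinearMap.BilinForm.exists_orthogonal_basis (LinearMap.BilinForm.isSymm_iff.mp hs)
  have hnz : ∀ i, B (v i) (v i) ≠ 0 := fun i =>
    LinearMap.BilinForm.iIsOrtho.not_isOrtho_basis_self_of_nondegenerate hv hn i
  have hort : ∀ i j, i ≠ j → B (v i) (v j) = 0 := fun i j hij => hv hij
  set i0 : Fin (Module.finrank F V) := ⟨0, by omega⟩ with hi0
  set i1 : Fin (Module.finrank F V) := ⟨1, by omega⟩ with hi1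
  set i2 : Fin (Module.finrank F V) := ⟨2, by omega⟩ with hi2
  have h01 : i0 ≠ i1 := by simp [hi0, hi1, Fin.ext_iff]
  have h02 : i0 ≠ i2 := by simp [hi0, hi2, Fin.ext_iff]
  have h12 : i1 ≠ i2 := by simp [hi1, hi2, Fin.ext_iff]
  have key : ∃ (d : F) (ν : Fin 3 → V), d ≠ 0 ∧ ∀ i j, B (ν i) (ν j) = if i = j then d else 0 := by
    by_cases e01 : B (v i0) (v i0) = B (v i1) (v i1)
    · exact frame3_of_two hq B hs (v i0) (v i1) (v i2) _ _ (hnz i0) (hnz i2) rfl e01.symm rfl
        (hort _ _ h01) (hort _ _ h02) (hort _ _ h12)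
    · by_cases e02 : B (v i0) (v i0) = B (v i2) (v i2)
      · exact frame3_of_two hq B hs (v i0) (v i2) (v i1) _ _ (hnz i0) (hnz i1) rfl e02.symm rfl
          (hort _ _ h02) (hort _ _ h01) (hort _ _ h12.symm)
      · have e12 : B (v i1) (v i1) = B (v i2) (v i2) := by
          rcases trichotomy_of_card_three hq (B (v i0) (v i0)) with h0 | h0 | h0 <;>
          rcases trichotomy_of_card_three hq (B (v i1) (v i1)) with h1 | h1 | h1 <;>
          rcases trichotomy_of_card_three hq (B (v i2) (v i2)) with h2 | h2 | h2 <;>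
          first
            | exact absurd h0 (hnz i0)
            | exact absurd h1 (hnz i1)
            | exact absurd h2 (hnz i2)
            | exact absurd (h0.trans h1.symm) e01
            | exact absurd (h0.trans h2.symm) e02
            | exact h1.trans h2.symm
        exact frame3_of_two hq B hs (v i1) (v i2) (v i0) _ _ (hnz i1) (hnz i0) rfl e12.symm rfl
          (hort _ _ h12) (hort _ _ h01.symm) (hort _ _ h02.symm)
  obtain ⟨d, ν, hd, hν⟩ := key
  exact ⟨d, ν, hd, hν, frame3_aux hq hV B ν d hd hν⟩

end Frame3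

section FunForm

variable {F : Type*} [Field F] {ι : Type} [Fintype ι] [DecidableEq ι]

/-- The bilinear form attached to a bilinear two-argument function. -/
def bilOf (f : (ι → F) → (ι → F) → F) (hb : IsBilinearForm f) : LinearMap.BilinForm F (ι → F) :=
  LinearMap.mk₂ F f hb.add_left hb.smul_left hb.add_right hb.smul_right

@[simp] lemma bilOf_apply (f : (ι → F) → (ι → F) → F) (hb : IsBilinearForm f) (x y : ι → F) :
    bilOf f hb x y = f x y := rfl

lemma bil_zero_left {f : (ι → F) → (ι → F) → F} (hb : IsBilinearForm f) (y : ι → F) : f 0 y = 0 := by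
  have := hb.smul_left 0 0 y
  simpa using this

lemma bil_zero_right {f : (ι → F) → (ι → F) → F} (hb : IsBilinearForm f) (y : ι → F) : f y 0 = 0 := by
  have := hb.smul_right 0 y 0
  simpa using this

lemma bil_neg_left {f : (ι → F) → (ι → F) → F} (hb : IsBilinearForm f) (x y : ι → F) :
    f (-x) y = - f x y := by
  have := hb.smul_left (-1) x y
  simpa using this

lemma bil_neg_right {f : (ι → F) → (ι → F) → F} (hb : IsBilinearForm f) (x y : ι → F) :
    f x (-y) = - f x y := by
  have := hb.smul_right (-1) x y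
  simpa using this

lemma bil_sub_left {f : (ι → F) → (ι → F) → F} (hb : IsBilinearForm f) (x x' y : ι → F) :
    f (x - x') y = f x y - f x' y := by
  rw [sub_eq_add_neg, hb.add_left, bil_neg_left hb, sub_eq_add_neg]

lemma bil_sub_right {f : (ι → F) → (ι → F) → F} (hb : IsBilinearForm f) (x y y' : ι → F) :
    f x (y - y') = f x y - f x y' := by
  rw [sub_eq_add_neg, hb.add_right, bil_neg_right hb, sub_eq_add_neg]

lemma bil_sum_left {f : (ι → F) → (ι → F) → F} (hb : IsBilinearForm f) {α : Type*} (s : Finset α)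
    (g : α → (ι → F)) (y : ι → F) : f (∑ a ∈ s, g a) y = ∑ a ∈ s, f (g a) y := by
  classical
  induction s using Finset.induction_on with
  | empty => simp [bil_zero_left hb]
  | insert a s ha ih => rw [Finset.sum_insert ha, Finset.sum_insert ha, hb.add_left, ih]

lemma bil_sum_right {f : (ι → F) → (ι → F) → F} (hb : IsBilinearForm f) {α : Type*} (s : Finset α)
    (g : α → (ι → F)) (y : ι → F) : f y (∑ a ∈ s, g a) = ∑ a ∈ s, f y (g a) := by
  classical
  induction s using Finset.induction_on with
  | empty => simp [bil_zero_right hb]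
  | insert a s ha ih => rw [Finset.sum_insert ha, Finset.sum_insert ha, hb.add_right, ih]

variable [Fintype F]

/-- Frames in a 3-dimensional subspace carrying a nondegenerate symmetric form, over the field
with three elements. -/
theorem frame3_on (hq : Fintype.card F = 3) (f : (ι → F) → (ι → F) → F) (hb : IsBilinearForm f)
    (hsymm : ∀ u v, f u v = f v u) (W : Submodule F (ι → F)) (hW : IsNondegenerateOn f W)
    (hdim : Module.finrank F W = 3) :
    ∃ (d : F) (ν : Fin 3 → (ι → F)), d ≠ 0 ∧ (∀ i, ν i ∈ W) ∧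
      (∀ i j, f (ν i) (ν j) = if i = j then d else 0) ∧
      (∀ v ∈ W, v = ∑ i, (d⁻¹ * f v (ν i)) • ν i) ∧
      (∀ v ∈ W, f v v = d → ∃ i, v = ν i ∨ v = -ν i) := by
  set B : LinearMap.BilinForm F W := (bilOf f hb).restrict W with hB
  have hBapp : ∀ x y : W, B x y = f x y := fun x y => rfl
  have hs : B.IsSymm := ⟨fun x y => by rw [hBapp, hBapp, hsymm]⟩
  have hn : B.Nondegenerate := by
    constructor
    · intro x hx
      by_contra hne
      have hne' : (x : ι → F) ≠ 0 := fun h => hne (Subtype.ext h)
      obtain ⟨y, hy, hxy⟩ := (hW x x.2 hne').2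
      exact hxy (hx ⟨y, hy⟩)
    · intro x hx
      by_contra hne
      have hne' : (x : ι → F) ≠ 0 := fun h => hne (Subtype.ext h)
      obtain ⟨y, hy, hxy⟩ := (hW x x.2 hne').1
      exact hxy (hx ⟨y, hy⟩)
  obtain ⟨d, ν, hd, hν, hexp, hnorm⟩ := frame3 hq hdim B hs hn
  refine ⟨d, fun i => (ν i : ι → F), hd, fun i => (ν i).2, ?_, ?_, ?_⟩
  · intro i j
    exact hν i j
  · intro v hv
    have := congrArg Subtype.val (hexp ⟨v, hv⟩)
    simpa [hBapp] using this
  · intro v hv hvv
    obtain ⟨i, hi | hi⟩ := hnorm ⟨v, hv⟩ hvv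
    · exact ⟨i, Or.inl (congrArg Subtype.val hi)⟩
    · exact ⟨i, Or.inr (by simpa using congrArg Subtype.val hi)⟩

/-- Frames for a nondegenerate symmetric form on `F^3`, `F` the field with three elements. -/
theorem frame3_fun (hq : Fintype.card F = 3) (f : (Fin 3 → F) → (Fin 3 → F) → F)
    (hf : IsSymmetricForm f) :
    ∃ (d : F) (ν : Fin 3 → (Fin 3 → F)), d ≠ 0 ∧
      (∀ i j, f (ν i) (ν j) = if i = j then d else 0) ∧
      (∀ v, v = ∑ i, (d⁻¹ * f v (ν i)) • ν i) ∧
      (∀ v, f v v = d → ∃ i, v = ν i ∨ v = -ν i) := by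
  have hW : IsNondegenerateOn f (⊤ : Submodule F (Fin 3 → F)) := by
    intro w _ hw
    obtain ⟨⟨x, hx⟩, ⟨y, hy⟩⟩ := hf.nondegenerate w hw
    exact ⟨⟨x, trivial, hx⟩, ⟨y, trivial, hy⟩⟩
  have hdim : Module.finrank F (⊤ : Submodule F (Fin 3 → F)) = 3 := by
    rw [finrank_top]
    simp
  obtain ⟨d, ν, hd, -, hν, hexp, hnorm⟩ := frame3_on hq f hf.bilinear hf.symm ⊤ hW hdim
  exact ⟨d, ν, hd, hν, fun v => hexp v trivial, fun v => hnorm v trivial⟩

omit [Fintype ι] [DecidableEq ι] [Fintype F] in
/-- The value of a bilinear form on two combinations of a frame. -/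
lemma form_frame3 {f : (ι → F) → (ι → F) → F} (hb : IsBilinearForm f) {ν : Fin 3 → (ι → F)} {d : F}
    (hν : ∀ i j, f (ν i) (ν j) = if i = j then d else 0) (cx cy : Fin 3 → F) :
    f (∑ j, cx j • ν j) (∑ j, cy j • ν j) = (∑ j, cx j * cy j) * d := by
  simp only [Fin.sum_univ_three, hb.add_left, hb.add_right, hb.smul_left, hb.smul_right, hν]
  simp
  ring

/-- Over the field with three elements, three mutually orthogonal vectors in the span of a frame
of norm `d` cannot all have norm `-d`. -/
lemma no_neg_frame3 (hq : Fintype.card F = 3) {f : (ι → F) → (ι → F) → F} (hb : IsBilinearForm f)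
    {ν : Fin 3 → (ι → F)} {d : F} (hd : d ≠ 0)
    (hν : ∀ i j, f (ν i) (ν j) = if i = j then d else 0)
    (w : Fin 3 → (ι → F)) (hw : ∀ i, w i = ∑ j, (d⁻¹ * f (w i) (ν j)) • ν j)
    (hww : ∀ i j, f (w i) (w j) = if i = j then -d else 0) : False := by
  set C : Matrix (Fin 3) (Fin 3) F := fun i j => d⁻¹ * f (w i) (ν j) with hC
  have hCC : C * C.transpose = -1 := by
    ext i k
    rw [Matrix.mul_apply]
    simp only [Matrix.transpose_apply, Matrix.neg_apply, Matrix.one_apply]
    have h1 := hww i k
    rw [hw i, hw k, form_frame3 hb hν] at h1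
    have h2 : (∑ j, C i j * C k j) * d = if i = k then -d else 0 := by
      rw [← h1]
    by_cases hik : i = k
    · rw [if_pos hik] at h2 ⊢
      have : (∑ j, C i j * C k j + 1) * d = 0 := by linear_combination h2
      rcases mul_eq_zero.mp this with h | h
      · linear_combination h
      · exact absurd h hd
    · rw [if_neg hik] at h2 ⊢
      rcases mul_eq_zero.mp h2 with h | h
      · rw [h]; simp
      · exact absurd h hd
  have hdet := congrArg Matrix.det hCC
  rw [Matrix.det_mul, Matrix.det_transpose, Matrix.det_neg, Matrix.det_one] at hdet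
  simp only [Fintype.card_fin] at hdet
  have h3 := three_eq_zero_of_card_three hq
  have h20 := two_ne_zero_of_card_three hq
  rcases trichotomy_of_card_three hq C.det with h | h | h <;> rw [h] at hdet
  · apply h20; linear_combination 2 * hdet
  · apply h20; linear_combination hdet
  · apply h20; linear_combination hdet

end FunForm

section Frame3b

variable {F : Type*} [Field F] [Fintype F] {V : Type*} [AddCommGroup V] [Module F V]

/-- From three mutually orthogonal anisotropic vectors, three mutually orthogonal vectors of a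
common non-zero norm (over the field with three elements). -/
lemma frame3_of_orth (hq : Fintype.card F = 3) (B : LinearMap.BilinForm F V) (hs : B.IsSymm)
    (x y z : V) (hx : B x x ≠ 0) (hy : B y y ≠ 0) (hz : B z z ≠ 0)
    (hxy : B x y = 0) (hxz : B x z = 0) (hyz : B y z = 0) :
    ∃ (d : F) (ν : Fin 3 → V), d ≠ 0 ∧ ∀ i j, B (ν i) (ν j) = if i = j then d else 0 := by
  have hyx : B y x = 0 := by rw [hs.eq, hxy]
  have hzx : B z x = 0 := by rw [hs.eq, hxz]
  have hzy : B z y = 0 := by rw [hs.eq, hyz]
  by_cases e01 : B x x = B y y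
  · exact frame3_of_two hq B hs x y z _ _ hx hz rfl e01.symm rfl hxy hxz hyz
  · by_cases e02 : B x x = B z z
    · exact frame3_of_two hq B hs x z y _ _ hx hy rfl e02.symm rfl hxz hxy hzy
    · have e12 : B y y = B z z := by
        rcases trichotomy_of_card_three hq (B x x) with h0 | h0 | h0 <;>
        rcases trichotomy_of_card_three hq (B y y) with h1 | h1 | h1 <;>
        rcases trichotomy_of_card_three hq (B z z) with h2 | h2 | h2 <;>
        first
          | exact absurd h0 hx
          | exact absurd h1 hy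
          | exact absurd h2 hz
          | exact absurd (h0.trans h1.symm) e01
          | exact absurd (h0.trans h2.symm) e02
          | exact h1.trans h2.symm
      exact frame3_of_two hq B hs y z x _ _ hy hx rfl e12.symm rfl hyz hyx hzx

end Frame3b

end Cfsg.Agent.H95
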