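import Cfsg.Agent.H95.Frame
import Cfsg.Agent.H95.Frame3

set_option autoImplicit false
set_option linter.unusedSectionVars false

namespace Cfsg.Agent.H95

open Cfsg Cfsg.Geo
open scoped MatrixGroups Matrix

section PlaneLemmas

variable {ι : Type} [Fintype ι] [DecidableEq ι] {F : Type*} [Field F] {Q : (ι → F) → F}

/-- A non-zero non-degenerate subspace contains a non-singular vector (characteristic not two). -/
lemma exists_nonsingular (hQ : IsNondegenerateQuadraticForm Q) (P : Submodule F (ι → F))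
    (hP0 : P ≠ ⊥) (hP : IsNondegenerateOn (QuadraticMap.polar Q) P) :
    ∃ v ∈ P, Q v ≠ 0 := by
  obtain ⟨x, hxP, hx0⟩ := (Submodule.ne_bot_iff P).mp hP0
  by_cases hQx : Q x = 0
  · obtain ⟨⟨y, hyP, hy⟩, -⟩ := hP x hxP hx0
    by_cases hQy : Q y = 0
    · refine ⟨y + x, P.add_mem hyP hxP, ?_⟩
      rw [q_add Q, hQx, hQy, zero_add, zero_add]
      exact hy
    · exact ⟨y, hyP, hQy⟩
  · exact ⟨x, hxP, hQx⟩

/-- Completing a non-singular vector of a non-degenerate plane to an orthogonal basis. -/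
lemma plane_complete (hQ : IsNondegenerateQuadraticForm Q) (h2 : (2 : F) ≠ 0)
    (P : Submodule F (ι → F)) (hdim : Module.finrank F P = 2)
    (hP : IsNondegenerateOn (QuadraticMap.polar Q) P) {v : ι → F} (hv : v ∈ P) (hQv : Q v ≠ 0) :
    ∃ w ∈ P, Q w ≠ 0 ∧ QuadraticMap.polar Q v w = 0 ∧ ∀ x ∈ P, ∃ α β : F, x = α • v + β • w := by
  have hb := hQ.polar_bilinear
  have hvv : QuadraticMap.polar Q v v ≠ 0 := by
    rw [polar_self hQ]; exact mul_ne_zero h2 hQv
  have hv0 : v ≠ 0 := by
    rintro rfl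
    exact hQv (q_zero hQ)
  -- a vector of P outside the line of v
  have hlt : ¬ (P ≤ Submodule.span F {v}) := by
    intro hle
    have h1 := Submodule.finrank_mono hle
    have h2' : Module.finrank F (Submodule.span F {v}) = 1 := finrank_span_singleton hv0
    omega
  obtain ⟨x, hxP, hx⟩ := SetLike.not_le_iff_exists.mp hlt
  set c := QuadraticMap.polar Q x v / QuadraticMap.polar Q v v with hc
  set w := x - c • v with hw
  have hwP : w ∈ P := P.sub_mem hxP (P.smul_mem c hv)
  have hwv : QuadraticMap.polar Q w v = 0 := by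
    rw [hw, bil_sub_left hb, hb.smul_left, hc]
    field_simp
    ring
  have hvw := (polar_symm Q v w).trans hwv
  have hw0 : w ≠ 0 := by
    intro h
    apply hx
    have : x = c • v := sub_eq_zero.mp h
    rw [this]
    exact Submodule.smul_mem _ _ (Submodule.mem_span_singleton_self v)
  have hli : ∀ s t : F, s • v + t • w = 0 → s = 0 ∧ t = 0 := by
    intro s t hst
    have hs : s = 0 := by
      have := congrArg (fun z => QuadraticMap.polar Q z v) hst
      simp only [hb.add_left, hb.smul_left, hwv, bil_zero_left hb, mul_zero, add_zero] at this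
      exact (mul_eq_zero.mp this).resolve_right hvv
    refine ⟨hs, ?_⟩
    rw [hs, zero_smul, zero_add] at hst
    exact (smul_eq_zero.mp hst).resolve_right hw0
  have hexp : ∀ x ∈ P, ∃ α β : F, x = α • v + β • w := fun x hx =>
    mem_pair_of_finrank_two P hdim hv hwP hli hx
  refine ⟨w, hwP, ?_, hvw, hexp⟩
  intro hQw
  obtain ⟨⟨y, hyP, hy⟩, -⟩ := hP w hwP hw0
  obtain ⟨α, β, rfl⟩ := hexp y hyP
  apply hy
  rw [hb.add_left, hb.smul_left, hb.smul_left, hvw, polar_self hQ, hQw]
  ring

variable [Fintype F]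

/-- A non-degenerate plane over the field with three elements contains a vector of norm one. -/
lemma plane_exists_one (hq : Fintype.card F = 3) (hQ : IsNondegenerateQuadraticForm Q)
    (P : Submodule F (ι → F)) (hdim : Module.finrank F P = 2)
    (hP : IsNondegenerateOn (QuadraticMap.polar Q) P) : ∃ v ∈ P, Q v = 1 := by
  have h3 := three_eq_zero_of_card_three hq
  have h2 := two_ne_zero_of_card_three hq
  have hP0 : P ≠ ⊥ := by
    intro h
    rw [h, finrank_bot] at hdim
    omega
  obtain ⟨v, hv, hQv⟩ := exists_nonsingular hQ P hP0 hP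
  obtain ⟨w, hw, hQw, hvw, -⟩ := plane_complete hQ h2 P hdim hP hv hQv
  rcases trichotomy_of_card_three hq (Q v) with h | h | h
  · exact absurd h hQv
  · exact ⟨v, hv, h⟩
  · rcases trichotomy_of_card_three hq (Q w) with h' | h' | h'
    · exact absurd h' hQw
    · exact ⟨w, hw, h'⟩
    · refine ⟨v + w, P.add_mem hv hw, ?_⟩
      rw [q_add Q, h, h', hvw]
      linear_combination -h3

/-- Two vectors of norm one in a non-degenerate plane over the field with three elements are
equal, opposite or orthogonal. -/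
lemma plane_norm_one (hq : Fintype.card F = 3) (hQ : IsNondegenerateQuadraticForm Q)
    (P : Submodule F (ι → F)) (hdim : Module.finrank F P = 2)
    (hP : IsNondegenerateOn (QuadraticMap.polar Q) P) {v v' : ι → F} (hv : v ∈ P) (hv' : v' ∈ P)
    (hQv : Q v = 1) (hQv' : Q v' = 1) :
    v' = v ∨ v' = -v ∨ QuadraticMap.polar Q v v' = 0 := by
  have h3 := three_eq_zero_of_card_three hq
  have h2 := two_ne_zero_of_card_three hq
  have hb := hQ.polar_bilinear
  obtain ⟨w, hw, hQw, hvw, hexp⟩ := plane_complete hQ h2 P hdim hP hv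
    (by rw [hQv]; exact one_ne_zero)
  obtain ⟨α, β, rfl⟩ := hexp v' hv'
  rw [q_add Q, hQ.smul, hQ.smul, hb.smul_left, hb.smul_right, hvw, hQv] at hQv'
  rcases trichotomy_of_card_three hq α with h | h | h
  · right; right
    rw [h, zero_smul, zero_add, hb.smul_right, hvw, mul_zero]
  · have hβ : β = 0 := by
      rw [h] at hQv'
      have : β ^ 2 * Q w = 0 := by linear_combination hQv'
      rcases mul_eq_zero.mp this with h' | h'
      · exact pow_eq_zero_iff (two_ne_zero) |>.mp h'
      · exact absurd h' hQw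
    left
    rw [h, hβ, one_smul, zero_smul, add_zero]
  · have hβ : β = 0 := by
      rw [h] at hQv'
      have : β ^ 2 * Q w = 0 := by linear_combination hQv'
      rcases mul_eq_zero.mp this with h' | h'
      · exact pow_eq_zero_iff (two_ne_zero) |>.mp h'
      · exact absurd h' hQw
    right; left
    rw [h, hβ, neg_one_smul, zero_smul, add_zero]

end PlaneLemmas

section Decomp2

variable {ι : Type} [Fintype ι] [DecidableEq ι] {F : Type*} [Field F] [Fintype F]
  {Q : (ι → F) → F}

/-- Over the field with three elements, the stabiliser in `Ω` of an orthogonal decomposition into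
at least six non-degenerate planes is not maximal. -/
theorem decomp2_not_max_three (hq : Fintype.card F = 3) (hQ : IsNondegenerateQuadraticForm Q)
    {t : ℕ} (D : Fin t → Submodule F (ι → F)) (hD : IsOrthogonalMDecomposition Q 2 D)
    (ht : 6 ≤ t) :
    ∃ K : Subgroup (GL ι F), decompositionStabilizer D ⊓ omegaGL Q < K ∧ K < omegaGL Q := by
  classical
  have h3 := three_eq_zero_of_card_three hq
  have h2 := two_ne_zero_of_card_three hq
  have hb := hQ.polar_bilinear
  have hdimD := hD.decomp.decomp.finrank_eq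
  have hndD := hD.decomp.nondegenerate
  have hort : ∀ i j, i ≠ j → ∀ u ∈ D i, ∀ v ∈ D j, QuadraticMap.polar Q u v = 0 :=
    hD.decomp.orthogonal
  have hex := fun i => plane_exists_one hq hQ (D i) (hdimD i) (hndD i)
  choose v hvD hQv using hex
  set S : Set (ι → F) := {x | ∃ i, x ∈ D i ∧ Q x = 1} with hS
  have hvS : ∀ i, v i ∈ S := fun i => ⟨i, hvD i, hQv i⟩
  have hnegS : ∀ x ∈ S, -x ∈ S := by
    rintro x ⟨i, hxD, hxQ⟩
    exact ⟨i, (D i).neg_mem hxD, by rw [q_neg hQ, hxQ]⟩
  have hSS : ∀ x ∈ S, ∀ x' ∈ S, x' = x ∨ x' = -x ∨ QuadraticMap.polar Q x x' = 0 := by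
    rintro x ⟨i, hxD, hxQ⟩ x' ⟨j, hx'D, hx'Q⟩
    by_cases hij : i = j
    · subst hij
      exact plane_norm_one hq hQ (D i) (hdimD i) (hndD i) hxD hx'D hxQ hx'Q
    · right; right
      exact hort i j hij x hxD x' hx'D
  have hvv : ∀ i j, i ≠ j → QuadraticMap.polar Q (v i) (v j) = 0 := fun i j hij =>
    hort i j hij _ (hvD i) _ (hvD j)
  have hQne : ∀ i, Q (v i) ≠ 0 := fun i => by rw [hQv]; exact one_ne_zero
  set j0 : Fin t := ⟨0, by omega⟩ with hj0
  set j1 : Fin t := ⟨1, by omega⟩ with hj1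
  set j2 : Fin t := ⟨2, by omega⟩ with hj2
  set j3 : Fin t := ⟨3, by omega⟩ with hj3
  set j4 : Fin t := ⟨4, by omega⟩ with hj4
  set j5 : Fin t := ⟨5, by omega⟩ with hj5
  have hne : ∀ a b : ℕ, ∀ (ha : a < t) (hb : b < t), a ≠ b → (⟨a, ha⟩ : Fin t) ≠ ⟨b, hb⟩ := by
    intro a b ha hb hab h
    exact hab (Fin.mk.inj_iff.mp h)
  have hlt : stabilizing (glToMat ι F) S ⊓ omegaGL Q < omegaGL Q := by
    refine frameSet_lt hQ h2 S hSS (r := 4) (by push_cast; linear_combination h3) (by norm_num)
      (v j0) (v j1) ![v j2, v j3, v j4, v j5] (hvS _) ?_ (hQne _) (by rw [hQv, hQv])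
      ?_ ?_ ?_ ?_ ?_
    · intro i; fin_cases i <;> exact hvS _
    · intro i; fin_cases i <;> simp [hQv]
    · exact hvv _ _ (hne _ _ _ _ (by norm_num))
    · intro i; fin_cases i <;> exact hvv _ _ (hne _ _ _ _ (by norm_num))
    · intro i; fin_cases i <;> exact hvv _ _ (hne _ _ _ _ (by norm_num))
    · intro i j hij
      fin_cases i <;> fin_cases j <;>
        first
          | exact absurd rfl hij
          | exact hvv _ _ (hne _ _ _ _ (by norm_num))
  refine ⟨stabilizing (glToMat ι F) S ⊓ omegaGL Q, lt_of_le_of_ne ?_ ?_, hlt⟩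
  · refine le_inf ?_ inf_le_right
    apply le_stabilizing_of_forall
    rintro g ⟨⟨σ, hσ⟩, hgΩ⟩ x ⟨i, hxD, hxQ⟩
    have hgI := (mem_isometryGroup_iff Q g).mp (omegaGL_le Q hgΩ)
    refine ⟨σ i, ?_, by rw [hgI, hxQ]⟩
    rw [← hσ i]
    exact ⟨x, hxD, by rw [Matrix.toLin'_apply]⟩
  · intro hEq
    have h01 : j0 ≠ j1 := hne _ _ _ _ (by norm_num)
    have h02 : j0 ≠ j2 := hne _ _ _ _ (by norm_num)
    have h12 : j1 ≠ j2 := hne _ _ _ _ (by norm_num)
    obtain ⟨g₁, hg₁K, hg₁a, -, -, hg₁fix⟩ := frameSet_three_cycle hQ h2 S hSS hnegS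
      (a := v j0) (b := v j1) (c := v j2) (hvS _) (hvS _) (hvS _) (hQne _)
      (by rw [hQv, hQv]) (by rw [hQv, hQv]) (hvv _ _ h01) (hvv _ _ h02) (hvv _ _ h12)
    rw [← hEq] at hg₁K
    obtain ⟨σ, hσ⟩ := hg₁K.1
    obtain ⟨w, hwD, hQw, hvw, -⟩ := plane_complete hQ h2 (D j0) (hdimD j0) (hndD j0) (hvD j0)
      (hQne j0)
    have hfix : (g₁ : Matrix ι ι F) *ᵥ w = w :=
      hg₁fix w ((polar_symm Q w (v j0)).trans hvw) (hort j0 j1 h01 _ hwD _ (hvD j1))
        (hort j0 j2 h02 _ hwD _ (hvD j2))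
    have hm1 : w ∈ D (σ j0) := by
      rw [← hσ j0]
      exact ⟨w, hwD, by rw [Matrix.toLin'_apply, hfix]⟩
    have hm2 : v j2 ∈ D (σ j0) := by
      rw [← hσ j0]
      exact ⟨v j0, hvD _, by rw [Matrix.toLin'_apply, hg₁a]⟩
    by_cases hs : σ j0 = j0
    · rw [hs] at hm2
      have := hort j0 j2 h02 _ hm2 _ (hvD j2)
      rw [polar_self hQ, hQv] at this
      apply h2
      linear_combination this
    · have := hort (σ j0) j0 hs _ hm1 _ hwD
      rw [polar_self hQ] at this
      exact (mul_ne_zero h2 hQw) this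

end Decomp2

section Count

variable {ι : Type} [Fintype ι] [DecidableEq ι] {F : Type*} [Field F]

/-- The dimension count for a decomposition into subspaces of equal dimension. -/
lemma card_eq_mul_of_decomp {t k : ℕ} {D : Fin t → Submodule F (ι → F)}
    (hD : IsMDecomposition k D) : Fintype.card ι = t * k := by
  classical
  have hI : DirectSum.IsInternal D :=
    DirectSum.isInternal_submodule_of_iSupIndep_of_iSup_eq_top hD.indep hD.iSup_eq_top
  let bD : ∀ i, Module.Basis (Fin k) F (D i) := fun i =>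
    Module.finBasisOfFinrankEq F (D i) (hD.finrank_eq i)
  have h1 := Module.finrank_eq_card_basis (hI.collectedBasis bD)
  simpa using h1

end Count

end Cfsg.Agent.H95
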