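import Cfsg.Agent.H95.Frame
import Cfsg.Agent.H95.Frame3

set_option autoImplicit false
set_option linter.unusedSectionVars false

namespace Cfsg.Agent.H95

open Cfsg Cfsg.Geo
open scoped MatrixGroups Matrix

section Decomp3

variable {ι : Type} [Fintype ι] [DecidableEq ι] {F : Type*} [Field F] [Fintype F]
  {Q : (ι → F) → F}

/-- Over the field with three elements, the stabiliser in `Ω` of an orthogonal decomposition into
pairwise isometric non-degenerate `3`-spaces is not maximal. -/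
theorem decomp3_not_max (hq : Fintype.card F = 3) (hQ : IsNondegenerateQuadraticForm Q) {t : ℕ}
    (D : Fin t → Submodule F (ι → F)) (hD : IsOrthogonalMDecomposition Q 3 D) :
    ∃ K : Subgroup (GL ι F), decompositionStabilizer D ⊓ omegaGL Q < K ∧ K < omegaGL Q := by
  classical
  have h3 := three_eq_zero_of_card_three hq
  have h2 := two_ne_zero_of_card_three hq
  have htri := trichotomy_of_card_three hq
  have hb := hQ.polar_bilinear
  have hfr := fun i => frame3_on hq (QuadraticMap.polar Q) hb (polar_symm Q) (D i)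
    (hD.decomp.nondegenerate i) (hD.decomp.decomp.finrank_eq i)
  choose d ν hd hνD hν hexp hnorm using hfr
  have hdd : ∀ i j, d i = d j := by
    intro i j
    by_contra hne
    have hneg : d i = - d j := by
      rcases htri (d i) with h | h | h
      · exact absurd h (hd i)
      · rcases htri (d j) with h' | h' | h'
        · exact absurd h' (hd j)
        · exact absurd (h.trans h'.symm) hne
        · rw [h, h', neg_neg]
      · rcases htri (d j) with h' | h' | h'
        · exact absurd h' (hd j)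
        · rw [h, h']
        · exact absurd (h.trans h'.symm) hne
    obtain ⟨e, he⟩ := hD.isometric i j
    have hpol : ∀ x y : D i, QuadraticMap.polar Q ((e x : D j) : ι → F) ((e y : D j) : ι → F) =
        QuadraticMap.polar Q (x : ι → F) (y : ι → F) := by
      intro x y
      unfold QuadraticMap.polar
      rw [← he x, ← he y]
      have := he (x + y)
      rw [map_add] at this
      rw [← Submodule.coe_add, this]
      rfl
    exact no_neg_frame3 hq hb (hd j) (hν j)
      (fun k => ((e ⟨ν i k, hνD i k⟩ : D j) : ι → F))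
      (fun k => hexp j _ (Submodule.coe_mem _))
      (fun k l => by
        rw [hpol]
        simp only
        rw [hν i, hneg])
  have ht := hD.decomp.decomp.two_le
  set i₀ : Fin t := ⟨0, by omega⟩ with hi₀
  set i₁ : Fin t := ⟨1, by omega⟩ with hi₁
  have h01 : i₀ ≠ i₁ := by simp [hi₀, hi₁, Fin.ext_iff]
  set d₀ := d i₀ with hd₀def
  have hd₀ : ∀ i, d i = d₀ := fun i => hdd i i₀
  have hd₀ne : d₀ ≠ 0 := hd i₀
  have hort : ∀ i j, i ≠ j → ∀ u ∈ D i, ∀ v ∈ D j, QuadraticMap.polar Q u v = 0 :=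
    hD.decomp.orthogonal
  have hN : ∀ i k j l, QuadraticMap.polar Q (ν i k) (ν j l) = if i = j ∧ k = l then d₀ else 0 := by
    intro i k j l
    by_cases hij : i = j
    · subst hij
      rw [hν i, hd₀]
      simp
    · rw [hort i j hij _ (hνD i k) _ (hνD j l), if_neg (fun h => hij h.1)]
  have hQν : ∀ i k, Q (ν i k) = -d₀ := by
    intro i k
    have := hN i k i k
    rw [polar_self hQ, if_pos ⟨rfl, rfl⟩] at this
    linear_combination 2 * this - (Q (ν i k) - d₀) * h3
  set S : Set (ι → F) := {v | ∃ i, v ∈ D i ∧ Q v = -d₀} with hS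
  have hSchar : ∀ v ∈ S, ∃ i k, v = ν i k ∨ v = -ν i k := by
    rintro v ⟨i, hvD, hvQ⟩
    have : QuadraticMap.polar Q v v = d i := by
      rw [polar_self hQ, hvQ, hd₀]
      linear_combination -d₀ * h3
    obtain ⟨k, hk⟩ := hnorm i v hvD this
    exact ⟨i, k, hk⟩
  have hνS : ∀ i k, ν i k ∈ S := fun i k => ⟨i, hνD i k, hQν i k⟩
  have hnegS : ∀ v ∈ S, -v ∈ S := by
    rintro v ⟨i, hvD, hvQ⟩
    exact ⟨i, (D i).neg_mem hvD, by rw [q_neg hQ, hvQ]⟩
  have hSS : ∀ v ∈ S, ∀ v' ∈ S, v' = v ∨ v' = -v ∨ QuadraticMap.polar Q v v' = 0 := by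
    intro v hv v' hv'
    obtain ⟨i, k, hvk⟩ := hSchar v hv
    obtain ⟨j, l, hvl⟩ := hSchar v' hv'
    by_cases h : i = j ∧ k = l
    · obtain ⟨rfl, rfl⟩ := h
      rcases hvk with rfl | rfl <;> rcases hvl with rfl | rfl
      · left; rfl
      · right; left; rfl
      · right; left; rw [neg_neg]
      · left; rfl
    · right; right
      have := hN i k j l
      rw [if_neg h] at this
      rcases hvk with rfl | rfl <;> rcases hvl with rfl | rfl
      · exact this
      · rw [bil_neg_right hb, this, neg_zero]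
      · rw [bil_neg_left hb, this, neg_zero]
      · rw [bil_neg_left hb, bil_neg_right hb, this]; simp
  have hQne : Q (ν i₀ 0) ≠ 0 := by rw [hQν]; exact neg_ne_zero.mpr hd₀ne
  have hlt : stabilizing (glToMat ι F) S ⊓ omegaGL Q < omegaGL Q := by
    refine frameSet_lt hQ h2 S hSS (r := 4) (by push_cast; linear_combination h3) (by norm_num)
      (ν i₀ 0) (ν i₁ 2) ![ν i₀ 1, ν i₀ 2, ν i₁ 0, ν i₁ 1] (hνS _ _) ?_ hQne (by rw [hQν, hQν])
      ?_ ?_ ?_ ?_ ?_
    · intro i; fin_cases i <;> exact hνS _ _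
    · intro i; fin_cases i <;> simp [hQν]
    · rw [hN]; simp [h01]
    · intro i; fin_cases i <;> simp [hN, h01]
    · intro i; fin_cases i <;> simp [hN, h01, h01.symm]
    · intro i j hij; fin_cases i <;> fin_cases j <;> simp [hN, h01, h01.symm] at hij ⊢
  refine ⟨stabilizing (glToMat ι F) S ⊓ omegaGL Q, lt_of_le_of_ne ?_ ?_, hlt⟩
  · refine le_inf ?_ inf_le_right
    apply le_stabilizing_of_forall
    rintro g ⟨⟨σ, hσ⟩, hgΩ⟩ v ⟨i, hvD, hvQ⟩
    have hgI := (mem_isometryGroup_iff Q g).mp (omegaGL_le Q hgΩ)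
    refine ⟨σ i, ?_, by rw [hgI, hvQ]⟩
    rw [← hσ i]
    exact ⟨v, hvD, by rw [Matrix.toLin'_apply]⟩
  · intro hEq
    obtain ⟨g₁, hg₁K, hg₁a, hg₁b, hg₁c, hg₁fix⟩ := frameSet_three_cycle hQ h2 S hSS hnegS
      (a := ν i₀ 0) (b := ν i₀ 1) (c := ν i₁ 0) (hνS _ _) (hνS _ _) (hνS _ _) hQne
      (by rw [hQν, hQν]) (by rw [hQν, hQν]) (by rw [hN]; simp) (by rw [hN]; simp [h01])
      (by rw [hN]; simp [h01])
    rw [← hEq] at hg₁K
    obtain ⟨σ, hσ⟩ := hg₁K.1
    have hfix : (g₁ : Matrix ι ι F) *ᵥ ν i₀ 2 = ν i₀ 2 :=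
      hg₁fix _ (by rw [hN]; simp) (by rw [hN]; simp) (by rw [hN]; simp [h01])
    have hm1 : ν i₀ 2 ∈ D (σ i₀) := by
      rw [← hσ i₀]
      exact ⟨ν i₀ 2, hνD _ _, by rw [Matrix.toLin'_apply, hfix]⟩
    have hm2 : ν i₁ 0 ∈ D (σ i₀) := by
      rw [← hσ i₀]
      exact ⟨ν i₀ 0, hνD _ _, by rw [Matrix.toLin'_apply, hg₁a]⟩
    by_cases hs : σ i₀ = i₀
    · rw [hs] at hm2
      have := hort i₀ i₁ h01 _ hm2 _ (hνD i₁ 0)
      rw [hN, if_pos ⟨rfl, rfl⟩] at this
      exact hd₀ne this
    · have := hort (σ i₀) i₀ hs _ hm1 _ (hνD i₀ 2)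
      rw [hN, if_pos ⟨rfl, rfl⟩] at this
      exact hd₀ne this

end Decomp3

end Cfsg.Agent.H95
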