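import Cfsg.Agent.H95.QF
import Cfsg.Agent.H49.Siegel
import Cfsg.Agent.H49.MapSub
import Cfsg.Agent.H49.TwoFam

set_option autoImplicit false

namespace Cfsg.Agent.H95

open Cfsg Cfsg.Geo
open scoped MatrixGroups Matrix commutatorElement

section Siegel

variable {ι : Type} [Fintype ι] [DecidableEq ι] {F : Type*} [Field F]

/-- A long root element is a commutator of two long root elements (any characteristic), given
auxiliary singular vectors. -/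
theorem siegelG_mem_commutator (Q : QuadraticForm F (ι → F)) (u₁ v₁ u₂ v₂ : ι → F)
    (hu₁ : Q u₁ = 0) (hv₁ : Q v₁ = 0) (hu₂ : Q u₂ = 0) (hv₂ : Q v₂ = 0)
    (h11 : QuadraticMap.polar (⇑Q) u₁ v₁ = 0) (h22 : QuadraticMap.polar (⇑Q) u₂ v₂ = 0)
    (huu : QuadraticMap.polar (⇑Q) u₁ u₂ = 0) (huv : QuadraticMap.polar (⇑Q) u₁ v₂ = 0)
    (hvu : QuadraticMap.polar (⇑Q) v₁ u₂ = 1) (hvv : QuadraticMap.polar (⇑Q) v₁ v₂ = 0) (c : F) :
    H49.siegelG Q u₁ v₂ hu₁ hv₂ huv c ∈ commutator ↥(Cfsg.isometryGroup F (⇑Q)) := by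
  obtain ⟨A, hA⟩ : ∃ A, A = H49.siegelG Q u₁ v₁ hu₁ hv₁ h11 1 := ⟨_, rfl⟩
  obtain ⟨B, hB⟩ : ∃ B, B = H49.siegelG Q u₂ v₂ hu₂ hv₂ h22 (-c) := ⟨_, rfl⟩
  obtain ⟨X, hX⟩ : ∃ X, X = H49.siegelG Q u₁ v₂ hu₁ hv₂ huv c := ⟨_, rfl⟩
  have hu₁u₁ : QuadraticMap.polar (⇑Q) u₁ u₁ = 0 := by
    rw [QuadraticMap.polar_self, hu₁, smul_zero]
  have hv₂v₂ : QuadraticMap.polar (⇑Q) v₂ v₂ = 0 := by
    rw [QuadraticMap.polar_self, hv₂, smul_zero]
  have h11' : QuadraticMap.polar (⇑Q) v₁ u₁ = 0 := by rw [QuadraticMap.polar_comm]; exact h11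
  have h22' : QuadraticMap.polar (⇑Q) v₂ u₂ = 0 := by rw [QuadraticMap.polar_comm]; exact h22
  have huu' : QuadraticMap.polar (⇑Q) u₂ u₁ = 0 := by rw [QuadraticMap.polar_comm]; exact huu
  have huv' : QuadraticMap.polar (⇑Q) v₂ u₁ = 0 := by rw [QuadraticMap.polar_comm]; exact huv
  have hvu' : QuadraticMap.polar (⇑Q) u₂ v₁ = 1 := by rw [QuadraticMap.polar_comm]; exact hvu
  have hvv' : QuadraticMap.polar (⇑Q) v₂ v₁ = 0 := by rw [QuadraticMap.polar_comm]; exact hvv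
  have key : X * B * A = A * B := by
    apply Subtype.ext
    apply Units.ext
    apply H49.matrix_ext_mulVec
    intro x
    show (((X : GL ι F) : Matrix ι ι F) * ((B : GL ι F) : Matrix ι ι F) *
      ((A : GL ι F) : Matrix ι ι F)) *ᵥ x =
      (((A : GL ι F) : Matrix ι ι F) * ((B : GL ι F) : Matrix ι ι F)) *ᵥ x
    rw [← Matrix.mulVec_mulVec, ← Matrix.mulVec_mulVec, ← Matrix.mulVec_mulVec, hA, hB, hX]
    simp only [H49.siegelG_mulVec, QuadraticMap.polar_add_right, QuadraticMap.polar_smul_right,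
      QuadraticMap.polar_sub_right, hu₁u₁, hv₂v₂, h11, h22, huu, huv, hvu, hvv, h11', h22', huu',
      huv', hvu', hvv', smul_eq_mul]
    module
  have hX' : X = ⁅A, B⁆ := by
    rw [commutatorElement_def, ← key]
    group
  rw [← hX, hX']
  exact Subgroup.commutator_mem_commutator (Subgroup.mem_top A) (Subgroup.mem_top B)

variable {Q : (ι → F) → F}

/-- Long root elements in `Ω`, as elements of `GL`. -/
theorem exists_siegel (hQ : IsNondegenerateQuadraticForm Q) (u₁ v₁ u₂ v₂ : ι → F)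
    (hu₁ : Q u₁ = 0) (hv₁ : Q v₁ = 0) (hu₂ : Q u₂ = 0) (hv₂ : Q v₂ = 0)
    (h11 : QuadraticMap.polar Q u₁ v₁ = 0) (h22 : QuadraticMap.polar Q u₂ v₂ = 0)
    (huu : QuadraticMap.polar Q u₁ u₂ = 0) (huv : QuadraticMap.polar Q u₁ v₂ = 0)
    (hvu : QuadraticMap.polar Q v₁ u₂ = 1) (hvv : QuadraticMap.polar Q v₁ v₂ = 0) (c : F) :
    ∃ g : GL ι F, g ∈ omegaGL Q ∧ ∀ x, (g : Matrix ι ι F) *ᵥ x =
      x + c • (QuadraticMap.polar Q u₁ x • v₂ - QuadraticMap.polar Q v₂ x • u₁) := by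
  have hmem := siegelG_mem_commutator (toQF Q hQ) u₁ v₁ u₂ v₂ hu₁ hv₁ hu₂ hv₂ h11 h22 huu huv
    hvu hvv c
  refine ⟨((H49.siegelG (toQF Q hQ) u₁ v₂ hu₁ hv₂ huv c : ↥(isometryGroup F Q)) : GL ι F),
    ⟨_, hmem, rfl⟩, fun x => ?_⟩
  exact H49.siegelG_mulVec (toQF Q hQ) u₁ v₂ hu₁ hv₂ huv c x

/-- For two complementary maximal totally singular subspaces `U`, `W`, some element of `Ω` fixes
`U` pointwise and does not stabilise `W`. -/
theorem exists_fix_move [Fintype F] (hQ : IsNondegenerateQuadraticForm Q) {k : ℕ}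
    (hV : Module.finrank F (ι → F) = 2 * k) (hk : 3 ≤ k) (U W : Submodule F (ι → F))
    (hU : ∀ u ∈ U, Q u = 0) (hW : ∀ w ∈ W, Q w = 0) (dU : Module.finrank F U = k)
    (dW : Module.finrank F W = k) (hUW : U ⊓ W = ⊥) :
    ∃ g : GL ι F, g ∈ omegaGL Q ∧ (∀ x ∈ U, (g : Matrix ι ι F) *ᵥ x = x) ∧
      ∃ x ∈ W, (g : Matrix ι ι F) *ᵥ x ∉ W := by
  classical
  have hb := hQ.polar_bilinear
  have hUts : H49.IsTS (toQF Q hQ) U := hU
  have hWts : H49.IsTS (toQF Q hQ) W := hW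
  have hUp : ∀ a ∈ U, ∀ b ∈ U, QuadraticMap.polar Q a b = 0 := fun a ha b hb' =>
    hUts.polar ha hb'
  obtain ⟨e₁, he₁, e₂, he₂, f₁, hf₁, f₂, hf₂, h11, h22, h12, h21⟩ :=
    H49.exists_dual_pairs (toQF_nondeg hQ) hV hUts hWts dU dW (by
      rw [hUW, finrank_bot]; omega)
  change QuadraticMap.polar Q e₁ f₁ = 1 at h11
  change QuadraticMap.polar Q e₂ f₂ = 1 at h22
  change QuadraticMap.polar Q e₁ f₂ = 0 at h12
  change QuadraticMap.polar Q e₂ f₁ = 0 at h21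
  obtain ⟨y, hyU, hy⟩ : ∃ y ∈ U, y ∉ Submodule.span F ((({e₁, e₂} : Finset (ι → F)) : Set (ι → F))) := by
    by_contra hcon
    push Not at hcon
    have hle : U ≤ Submodule.span F ((({e₁, e₂} : Finset (ι → F)) : Set (ι → F))) := hcon
    have h1 := Submodule.finrank_mono hle
    have h2 : Module.finrank F (Submodule.span F ((({e₁, e₂} : Finset (ι → F)) : Set (ι → F)))) ≤
        ({e₁, e₂} : Finset (ι → F)).card := finrank_span_finset_le_card _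
    have h3 : ({e₁, e₂} : Finset (ι → F)).card ≤ 2 := Finset.card_le_two
    omega
  obtain ⟨v₂, hv₂⟩ : ∃ v₂, v₂ = y - QuadraticMap.polar Q y f₂ • e₂ := ⟨_, rfl⟩
  have hv₂U : v₂ ∈ U := by rw [hv₂]; exact U.sub_mem hyU (U.smul_mem _ he₂)
  have hvu : QuadraticMap.polar Q f₂ e₂ = 1 := by rw [polar_symm Q]; exact h22
  have hvv : QuadraticMap.polar Q f₂ v₂ = 0 := by
    rw [hv₂, bil_sub_right hb, hb.smul_right, hvu, mul_one, polar_symm Q y f₂, sub_self]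
  obtain ⟨g, hgΩ, hg⟩ := exists_siegel hQ e₁ f₂ e₂ v₂ (hU e₁ he₁) (hW f₂ hf₂) (hU e₂ he₂)
    (hU v₂ hv₂U) h12 (hUp e₂ he₂ v₂ hv₂U) (hUp e₁ he₁ e₂ he₂) (hUp e₁ he₁ v₂ hv₂U) hvu hvv 1
  refine ⟨g, hgΩ, ?_, f₁, hf₁, ?_⟩
  · intro x hx
    rw [hg, hUp e₁ he₁ x hx, hUp v₂ hv₂U x hx]
    simp
  · intro hmem
    rw [hg, h11, one_smul, one_smul] at hmem
    have h1 : v₂ - QuadraticMap.polar Q v₂ f₁ • e₁ ∈ W := by
      have := W.sub_mem hmem hf₁
      rwa [add_sub_cancel_left] at this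
    have h2 : v₂ - QuadraticMap.polar Q v₂ f₁ • e₁ ∈ U :=
      U.sub_mem hv₂U (U.smul_mem _ he₁)
    have h3 : v₂ - QuadraticMap.polar Q v₂ f₁ • e₁ ∈ U ⊓ W := ⟨h2, h1⟩
    rw [hUW, Submodule.mem_bot, hv₂] at h3
    apply hy
    have h4 : y = QuadraticMap.polar Q y f₂ • e₂ +
        QuadraticMap.polar Q (y - QuadraticMap.polar Q y f₂ • e₂) f₁ • e₁ := by
      rw [sub_eq_zero] at h3
      rw [← h3]
      abel
    rw [h4]
    apply Submodule.add_mem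
    · exact Submodule.smul_mem _ _ (Submodule.subset_span (by simp))
    · exact Submodule.smul_mem _ _ (Submodule.subset_span (by simp))

end Siegel

end Cfsg.Agent.H95
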