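import Cfsg.Agent.H95.DecompFour
import Cfsg.Agent.H95.Siegel

set_option autoImplicit false
set_option linter.unusedSectionVars false
set_option linter.unusedVariables false
set_option linter.unusedSimpArgs false

/-! Helper lemmas (helper95): the non-maximality of the stabiliser in `Ω` of an orthogonal
decomposition into plus-type spaces of dimension four over the field with two elements (each
block is the orthogonal sum of two anisotropic planes in a unique way). -/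

namespace Cfsg.Agent.H95

open Cfsg Cfsg.Geo
open scoped MatrixGroups Matrix

section Decomp4

variable {ι : Type} [Fintype ι] [DecidableEq ι] {F : Type*} [Field F] {Q : (ι → F) → F}

/-- In a non-degenerate subspace `Y`: if `e` is not a multiple of `b`, some vector of `Y` is
orthogonal to `b` but not to `e`. -/
theorem polar_perp_avoid (hQ : IsNondegenerateQuadraticForm Q) (Y : Submodule F (ι → F))
    (hY : IsNondegenerateOn (QuadraticMap.polar Q) Y) (b e : ι → F) (hb : b ∈ Y) (he : e ∈ Y)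
    (hne : e ∉ Submodule.span F {b}) :
    ∃ x ∈ Y, QuadraticMap.polar Q x b = 0 ∧ QuadraticMap.polar Q x e ≠ 0 := by
  have hbil := hQ.polar_bilinear
  have he0 : e ≠ 0 := by
    rintro rfl
    exact hne (Submodule.zero_mem _)
  by_cases hb0 : b = 0
  · obtain ⟨⟨x, hx, hxe⟩, -⟩ := hY e he he0
    exact ⟨x, hx, by rw [hb0, bil_zero_right hbil], hxe⟩
  obtain ⟨⟨y₀, hy₀, hy₀b⟩, -⟩ := hY b hb hb0
  by_contra hcon
  push Not at hcon
  apply hne
  have hkey : ∀ x ∈ Y, QuadraticMap.polar Q x e =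
      QuadraticMap.polar Q x b * (QuadraticMap.polar Q y₀ b)⁻¹ * QuadraticMap.polar Q y₀ e := by
    intro x hx
    have h1 := hcon (x - (QuadraticMap.polar Q x b * (QuadraticMap.polar Q y₀ b)⁻¹) • y₀)
      (Y.sub_mem hx (Y.smul_mem _ hy₀))
      (by rw [bil_sub_left hbil, hbil.smul_left, mul_assoc, inv_mul_cancel₀ hy₀b, mul_one,
        sub_self])
    rw [bil_sub_left hbil, hbil.smul_left] at h1
    linear_combination h1
  have h2 : e - ((QuadraticMap.polar Q y₀ b)⁻¹ * QuadraticMap.polar Q y₀ e) • b = 0 := by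
    by_contra h3
    obtain ⟨⟨x, hx, hx3⟩, -⟩ := hY _ (Y.sub_mem he (Y.smul_mem _ hb)) h3
    apply hx3
    rw [bil_sub_right hbil, hbil.smul_right, hkey x hx]
    ring
  rw [sub_eq_zero] at h2
  rw [h2]
  exact Submodule.smul_mem _ _ (Submodule.mem_span_singleton_self b)

/-- Four independent vectors of a four-dimensional subspace span it. -/
lemma mem_quad_of_finrank_four {V : Type*} [AddCommGroup V] [Module F V] (W : Submodule F V)
    (hfin : Module.finrank F W = 4) {v₁ v₂ v₃ v₄ : V} (h₁ : v₁ ∈ W) (h₂ : v₂ ∈ W) (h₃ : v₃ ∈ W)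
    (h₄ : v₄ ∈ W)
    (hli : ∀ c₁ c₂ c₃ c₄ : F, c₁ • v₁ + c₂ • v₂ + c₃ • v₃ + c₄ • v₄ = 0 →
      c₁ = 0 ∧ c₂ = 0 ∧ c₃ = 0 ∧ c₄ = 0) {x : V} (hx : x ∈ W) :
    ∃ c₁ c₂ c₃ c₄ : F, x = c₁ • v₁ + c₂ • v₂ + c₃ • v₃ + c₄ • v₄ := by
  have : FiniteDimensional F W := Module.finite_of_finrank_pos (by rw [hfin]; norm_num)
  have hli' : LinearIndependent F ![(⟨v₁, h₁⟩ : W), ⟨v₂, h₂⟩, ⟨v₃, h₃⟩, ⟨v₄, h₄⟩] := by
    rw [Fintype.linearIndependent_iff]
    intro g hg
    rw [Fin.sum_univ_four] at hg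
    have hg' := congrArg Subtype.val hg
    simp at hg'
    obtain ⟨h0, h1, h2, h3⟩ := hli _ _ _ _ hg'
    intro i
    fin_cases i
    · exact h0
    · exact h1
    · exact h2
    · exact h3
  have hspan : Submodule.span F (Set.range ![(⟨v₁, h₁⟩ : W), ⟨v₂, h₂⟩, ⟨v₃, h₃⟩, ⟨v₄, h₄⟩]) = ⊤ :=
    hli'.span_eq_top_of_card_eq_finrank' (by simp [hfin])
  have hx' : (⟨x, hx⟩ : W) ∈
      Submodule.span F (Set.range ![(⟨v₁, h₁⟩ : W), ⟨v₂, h₂⟩, ⟨v₃, h₃⟩, ⟨v₄, h₄⟩]) := by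
    rw [hspan]; trivial
  obtain ⟨c, hc⟩ := (Submodule.mem_span_range_iff_exists_fun F).mp hx'
  rw [Fin.sum_univ_four] at hc
  refine ⟨c 0, c 1, c 2, c 3, ?_⟩
  have := congrArg Subtype.val hc
  simpa using this.symm

variable [Fintype F]

/-- The structure of a four-dimensional plus-type space over the field with two elements: an
anisotropic plane `⟨a, b⟩` such that every non-singular vector lies in it or is orthogonal to
it, together with some auxiliary vectors. -/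
theorem plus4_block (hq : Fintype.card F = 2) (hQ : IsNondegenerateQuadraticForm Q)
    (W : Submodule F (ι → F)) (hdim : Module.finrank F W = 4)
    (hW : IsNondegenerateOn (QuadraticMap.polar Q) W) (hplus : IsPlusTypeOn Q W) :
    ∃ a b p r y w : ι → F, a ∈ W ∧ b ∈ W ∧ p ∈ W ∧ r ∈ W ∧ y ∈ W ∧ w ∈ W ∧
      Q a = 1 ∧ Q b = 1 ∧ QuadraticMap.polar Q a b = 1 ∧
      Q p = 0 ∧ Q r = 0 ∧ QuadraticMap.polar Q p r = 1 ∧ QuadraticMap.polar Q p a = 1 ∧
      QuadraticMap.polar Q y a = 0 ∧ QuadraticMap.polar Q y b = 0 ∧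
      QuadraticMap.polar Q y w = 1 ∧
      ∀ x ∈ W, Q x = 1 → (x = a ∨ x = b ∨ x = a + b) ∨
        (QuadraticMap.polar Q x a = 0 ∧ QuadraticMap.polar Q x b = 0) := by
  classical
  have h2 := two_eq_zero_of_card_two hq
  have h01 := eq_zero_or_one_of_card_two hq
  have h11 : (1 : F) + 1 = 0 := by linear_combination h2
  have hb := hQ.polar_bilinear
  obtain ⟨T, hTW, hTs, hTd⟩ := hplus
  have hT2 : Module.finrank F T = 2 := by omega
  have hTne : T ≠ ⊥ := by
    intro h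
    rw [h, finrank_bot] at hT2
    omega
  obtain ⟨e₁, he₁T, he₁0⟩ := (Submodule.ne_bot_iff T).mp hTne
  obtain ⟨e₂, he₂T, he₂⟩ : ∃ e₂ ∈ T, e₂ ∉ Submodule.span F {e₁} := by
    by_contra hcon
    push Not at hcon
    have hle : T ≤ Submodule.span F {e₁} := hcon
    have h1 := Submodule.finrank_mono hle
    rw [finrank_span_singleton he₁0] at h1
    omega
  have he₁' : e₁ ∉ Submodule.span F {e₂} := by
    intro hmem
    obtain ⟨c, hc⟩ := Submodule.mem_span_singleton.mp hmem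
    apply he₂
    have hc0 : c ≠ 0 := by
      rintro rfl
      rw [zero_smul] at hc
      exact he₁0 hc.symm
    have : e₂ = c⁻¹ • e₁ := by rw [← hc, smul_smul, inv_mul_cancel₀ hc0, one_smul]
    rw [this]
    exact Submodule.smul_mem _ _ (Submodule.mem_span_singleton_self e₁)
  have he₁W := hTW he₁T
  have he₂W := hTW he₂T
  have hQe₁ : Q e₁ = 0 := hTs e₁ he₁T
  have hQe₂ : Q e₂ = 0 := hTs e₂ he₂T
  have hQe₁₂ : Q (e₁ + e₂) = 0 := hTs _ (T.add_mem he₁T he₂T)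
  have P12 : QuadraticMap.polar Q e₁ e₂ = 0 := by
    have := q_add Q e₁ e₂
    rw [hQe₁₂, hQe₁, hQe₂] at this
    linear_combination -this
  have P21 : QuadraticMap.polar Q e₂ e₁ = 0 := (polar_symm Q e₂ e₁).trans P12
  have P11 : QuadraticMap.polar Q e₁ e₁ = 0 := by rw [polar_self hQ, hQe₁, mul_zero]
  have P22 : QuadraticMap.polar Q e₂ e₂ = 0 := by rw [polar_self hQ, hQe₂, mul_zero]
  -- the vector `f₁`
  obtain ⟨w₁, hw₁W, hw₁e₂, hw₁e₁⟩ := polar_perp_avoid hQ W hW e₂ e₁ he₂W he₁W he₁'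
  have hw₁e₁' : QuadraticMap.polar Q w₁ e₁ = 1 := (h01 _).resolve_left hw₁e₁
  obtain ⟨f₁, hf₁def⟩ : ∃ f₁, f₁ = w₁ + Q w₁ • e₁ := ⟨_, rfl⟩
  have hf₁W : f₁ ∈ W := by rw [hf₁def]; exact W.add_mem hw₁W (W.smul_mem _ he₁W)
  have hQf₁ : Q f₁ = 0 := by
    rw [hf₁def, q_add Q, hQ.smul, hQe₁, hb.smul_right, hw₁e₁']
    linear_combination (Q w₁) * h2
  have Pf₁e₁ : QuadraticMap.polar Q f₁ e₁ = 1 := by
    rw [hf₁def, hb.add_left, hb.smul_left, P11, hw₁e₁']; ring
  have Pf₁e₂ : QuadraticMap.polar Q f₁ e₂ = 0 := by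
    rw [hf₁def, hb.add_left, hb.smul_left, P12, hw₁e₂]; ring
  have Pe₁f₁ : QuadraticMap.polar Q e₁ f₁ = 1 := (polar_symm Q e₁ f₁).trans Pf₁e₁
  have Pe₂f₁ : QuadraticMap.polar Q e₂ f₁ = 0 := (polar_symm Q e₂ f₁).trans Pf₁e₂
  have Pf₁f₁ : QuadraticMap.polar Q f₁ f₁ = 0 := by rw [polar_self hQ, hQf₁, mul_zero]
  -- the vector `f₂`
  obtain ⟨w₂, hw₂W, hw₂e₁, hw₂e₂⟩ := polar_perp_avoid hQ W hW e₁ e₂ he₁W he₂W he₂
  have hw₂e₂' : QuadraticMap.polar Q w₂ e₂ = 1 := (h01 _).resolve_left hw₂e₂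
  obtain ⟨w₃, hw₃def⟩ : ∃ w₃, w₃ = w₂ + QuadraticMap.polar Q w₂ f₁ • e₁ := ⟨_, rfl⟩
  have hw₃W : w₃ ∈ W := by rw [hw₃def]; exact W.add_mem hw₂W (W.smul_mem _ he₁W)
  have hw₃e₁ : QuadraticMap.polar Q w₃ e₁ = 0 := by
    rw [hw₃def, hb.add_left, hb.smul_left, P11, hw₂e₁]; ring
  have hw₃e₂ : QuadraticMap.polar Q w₃ e₂ = 1 := by
    rw [hw₃def, hb.add_left, hb.smul_left, P12, hw₂e₂']; ring
  have hw₃f₁ : QuadraticMap.polar Q w₃ f₁ = 0 := by
    rw [hw₃def, hb.add_left, hb.smul_left, Pe₁f₁]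
    linear_combination (QuadraticMap.polar Q w₂ f₁) * h2
  obtain ⟨f₂, hf₂def⟩ : ∃ f₂, f₂ = w₃ + Q w₃ • e₂ := ⟨_, rfl⟩
  have hf₂W : f₂ ∈ W := by rw [hf₂def]; exact W.add_mem hw₃W (W.smul_mem _ he₂W)
  have hQf₂ : Q f₂ = 0 := by
    rw [hf₂def, q_add Q, hQ.smul, hQe₂, hb.smul_right, hw₃e₂]
    linear_combination (Q w₃) * h2
  have Pf₂e₁ : QuadraticMap.polar Q f₂ e₁ = 0 := by
    rw [hf₂def, hb.add_left, hb.smul_left, P21, hw₃e₁]; ring
  have Pf₂e₂ : QuadraticMap.polar Q f₂ e₂ = 1 := by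
    rw [hf₂def, hb.add_left, hb.smul_left, P22, hw₃e₂]; ring
  have Pf₂f₁ : QuadraticMap.polar Q f₂ f₁ = 0 := by
    rw [hf₂def, hb.add_left, hb.smul_left, Pe₂f₁, hw₃f₁]; ring
  have Pe₁f₂ : QuadraticMap.polar Q e₁ f₂ = 0 := (polar_symm Q e₁ f₂).trans Pf₂e₁
  have Pe₂f₂ : QuadraticMap.polar Q e₂ f₂ = 1 := (polar_symm Q e₂ f₂).trans Pf₂e₂
  have Pf₁f₂ : QuadraticMap.polar Q f₁ f₂ = 0 := (polar_symm Q f₁ f₂).trans Pf₂f₁
  have Pf₂f₂ : QuadraticMap.polar Q f₂ f₂ = 0 := by rw [polar_self hQ, hQf₂, mul_zero]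
  have hli : ∀ c₁ c₂ c₃ c₄ : F, c₁ • e₁ + c₂ • f₁ + c₃ • e₂ + c₄ • f₂ = 0 →
      c₁ = 0 ∧ c₂ = 0 ∧ c₃ = 0 ∧ c₄ = 0 := by
    intro c₁ c₂ c₃ c₄ hc
    have k1 := congrArg (fun z => QuadraticMap.polar Q z f₁) hc
    have k2 := congrArg (fun z => QuadraticMap.polar Q z e₁) hc
    have k3 := congrArg (fun z => QuadraticMap.polar Q z f₂) hc
    have k4 := congrArg (fun z => QuadraticMap.polar Q z e₂) hc
    simp only [hb.add_left, hb.smul_left, P11, P12, P21, P22, Pf₁e₁, Pf₁e₂, Pe₁f₁, Pe₂f₁, Pf₁f₁,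
      Pf₂e₁, Pf₂e₂, Pf₂f₁, Pe₁f₂, Pe₂f₂, Pf₁f₂, Pf₂f₂, bil_zero_left hb] at k1 k2 k3 k4
    exact ⟨by linear_combination k1, by linear_combination k2, by linear_combination k3,
      by linear_combination k4⟩
  have hn : ∀ α β γ δ : F, Q (α • e₁ + β • f₁ + γ • e₂ + δ • f₂) = α * β + γ * δ := by
    intro α β γ δ
    simp only [q_add Q, hQ.smul, hb.add_left, hb.smul_left, hb.smul_right, hQe₁, hQe₂, hQf₁,
      hQf₂, P11, P12, P21, P22, Pf₁e₁, Pf₁e₂, Pe₁f₁, Pe₂f₁, Pf₁f₁, Pf₂e₁, Pf₂e₂, Pf₂f₁, Pe₁f₂,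
      Pe₂f₂, Pf₁f₂, Pf₂f₂]
    ring
  obtain ⟨a, ha⟩ : ∃ a, a = e₁ + f₁ + e₂ := ⟨_, rfl⟩
  obtain ⟨b, hbdef⟩ : ∃ b, b = e₁ + f₁ + f₂ := ⟨_, rfl⟩
  have hsum : a + b = e₂ + f₂ := by
    have h : a + b = e₂ + f₂ + (2 : F) • (e₁ + f₁) := by rw [ha, hbdef]; module
    rw [h, h2, zero_smul, add_zero]
  have hpa : ∀ α β γ δ : F,
      QuadraticMap.polar Q (α • e₁ + β • f₁ + γ • e₂ + δ • f₂) a = α + β + δ := by
    intro α β γ δ
    rw [ha]
    simp only [hb.add_left, hb.add_right, hb.smul_left, P11, P12, P21, P22, Pf₁e₁, Pf₁e₂, Pe₁f₁,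
      Pe₂f₁, Pf₁f₁, Pf₂e₁, Pf₂e₂, Pf₂f₁, Pe₁f₂, Pe₂f₂, Pf₁f₂, Pf₂f₂]
    ring
  have hpb : ∀ α β γ δ : F,
      QuadraticMap.polar Q (α • e₁ + β • f₁ + γ • e₂ + δ • f₂) b = α + β + γ := by
    intro α β γ δ
    rw [hbdef]
    simp only [hb.add_left, hb.add_right, hb.smul_left, P11, P12, P21, P22, Pf₁e₁, Pf₁e₂, Pe₁f₁,
      Pe₂f₁, Pf₁f₁, Pf₂e₁, Pf₂e₂, Pf₂f₁, Pe₁f₂, Pe₂f₂, Pf₁f₂, Pf₂f₂]
    ring
  have haW : a ∈ W := by rw [ha]; exact W.add_mem (W.add_mem he₁W hf₁W) he₂W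
  have hbW : b ∈ W := by rw [hbdef]; exact W.add_mem (W.add_mem he₁W hf₁W) hf₂W
  refine ⟨a, b, e₁, f₁, e₁ + f₁, e₁, haW, hbW, he₁W, hf₁W, W.add_mem he₁W hf₁W, he₁W, ?_, ?_,
    ?_, hQe₁, hQf₁, Pe₁f₁, ?_, ?_, ?_, ?_, ?_⟩
  · have := hn 1 1 1 0
    rw [one_smul, one_smul, one_smul, zero_smul, add_zero] at this
    rw [ha, this]; ring
  · have := hn 1 1 0 1
    rw [one_smul, one_smul, one_smul, zero_smul, add_zero] at this
    rw [hbdef, this]; ring
  · have := hpb 1 1 1 0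
    rw [one_smul, one_smul, one_smul, zero_smul, add_zero, ← ha] at this
    rw [this]
    linear_combination h2
  · rw [ha]
    simp only [hb.add_right, P11, P12, Pe₁f₁]
    ring
  · have := hpa 1 1 0 0
    rw [one_smul, one_smul, zero_smul, zero_smul, add_zero, add_zero] at this
    rw [this]
    linear_combination h2
  · have := hpb 1 1 0 0
    rw [one_smul, one_smul, zero_smul, zero_smul, add_zero, add_zero] at this
    rw [this]
    linear_combination h2
  · rw [hb.add_left, P11, Pf₁e₁]; ring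
  · intro x hx hQx
    obtain ⟨α, β, γ, δ, rfl⟩ := mem_quad_of_finrank_four W hdim he₁W hf₁W he₂W hf₂W hli hx
    rw [hn] at hQx
    rw [hpa, hpb]
    rcases h01 α with rfl | rfl <;> rcases h01 β with rfl | rfl <;>
      rcases h01 γ with rfl | rfl <;> rcases h01 δ with rfl | rfl <;>
      first
      | (exfalso; simp [h11, h2] at hQx; done)
      | (left; left; rw [ha]; simp; done)
      | (left; right; left; rw [hbdef]; simp; done)
      | (left; right; right; rw [hsum]; simp; done)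
      | (right; simp [h11, h2]; done)

/-- Over the field with two elements, the stabiliser in `Ω` of an orthogonal decomposition into
at least three plus-type spaces of dimension four is not maximal (it preserves the finer
decomposition into anisotropic planes). -/
theorem decomp4_not_max_two (hq : Fintype.card F = 2) (hQ : IsNondegenerateQuadraticForm Q)
    {t : ℕ} (D : Fin t → Submodule F (ι → F)) (hD : IsOrthogonalMDecomposition Q 4 D)
    (hplus : ∀ i, IsPlusTypeOn Q (D i)) (ht : 3 ≤ t) :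
    ∃ K : Subgroup (GL ι F), decompositionStabilizer D ⊓ omegaGL Q < K ∧ K < omegaGL Q := by
  classical
  have h2 := two_eq_zero_of_card_two hq
  have h11 : (1 : F) + 1 = 0 := by linear_combination h2
  have hb := hQ.polar_bilinear
  have hdimD := hD.decomp.decomp.finrank_eq
  have hndD := hD.decomp.nondegenerate
  have hort : ∀ i j, i ≠ j → ∀ u ∈ D i, ∀ v ∈ D j, QuadraticMap.polar Q u v = 0 :=
    hD.decomp.orthogonal
  have hex := fun i => plus4_block hq hQ (D i) (hdimD i) (hndD i) (hplus i)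
  choose a b p r y w ha hbD hp hr hy hw hQa hQb hab hQp hQr hpr hpa hya hyb hyw hkey using hex
  have hneg : ∀ z : ι → F, -z = z := by
    intro z
    have h : z + z = (2 : F) • z := by module
    rw [h2, zero_smul] at h
    exact neg_eq_of_add_eq_zero_left h
  have hdbl : ∀ z z' : ι → F, z + (z + z') = z' := by
    intro z z'
    have h : z + (z + z') = z' + (2 : F) • z := by module
    rw [h, h2, zero_smul, add_zero]
  have hba : ∀ i, QuadraticMap.polar Q (b i) (a i) = 1 := fun i =>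
    (polar_symm Q (b i) (a i)).trans (hab i)
  have haa : ∀ i, QuadraticMap.polar Q (a i) (a i) = 0 := fun i => by
    rw [polar_self hQ, h2, zero_mul]
  have hbb : ∀ i, QuadraticMap.polar Q (b i) (b i) = 0 := fun i => by
    rw [polar_self hQ, h2, zero_mul]
  have hQab : ∀ i, Q (a i + b i) = 1 := fun i => by
    rw [q_add Q, hQa, hQb, hab]
    linear_combination h2
  set S : Set (ι → F) := {x | ∃ i, x ∈ D i ∧ Q x = 1} with hS
  obtain ⟨j0, j1, j2, h01, h02, h12⟩ : ∃ j0 j1 j2 : Fin t, j0 ≠ j1 ∧ j0 ≠ j2 ∧ j1 ≠ j2 := by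
    refine ⟨⟨0, by omega⟩, ⟨1, by omega⟩, ⟨2, by omega⟩, ?_, ?_, ?_⟩ <;> simp [Fin.ext_iff]
  have n10 := h01.symm
  have n20 := h02.symm
  have n21 := h12.symm
  refine ⟨stabilizing (glToMat ι F) S ⊓ omegaGL Q, lt_of_le_of_ne ?_ ?_,
    lt_of_le_of_ne inf_le_right ?_⟩
  · refine le_inf ?_ inf_le_right
    apply le_stabilizing_of_forall
    rintro g hg x ⟨i, hxi, hQx⟩
    obtain ⟨⟨σ, hσ⟩, hgΩ⟩ := hg
    have hgI := (mem_isometryGroup_iff Q g).mp (omegaGL_le Q hgΩ)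
    refine ⟨σ i, ?_, by rw [hgI, hQx]⟩
    rw [← hσ i]
    exact ⟨x, hxi, by rw [Matrix.toLin'_apply]⟩
  · -- an element preserving S but not the decomposition
    intro hEq
    have hQu₁ : Q (a j0 + a j1) = 0 := by
      rw [q_add Q, hQa, hQa, hort j0 j1 h01 _ (ha j0) _ (ha j1)]
      linear_combination h2
    have hQv₂ : Q (b j0 + b j1) = 0 := by
      rw [q_add Q, hQb, hQb, hort j0 j1 h01 _ (hbD j0) _ (hbD j1)]
      linear_combination h2
    have c11 : QuadraticMap.polar Q (a j0 + a j1) (p j2) = 0 := by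
      rw [hb.add_left, hort j0 j2 h02 _ (ha j0) _ (hp j2), hort j1 j2 h12 _ (ha j1) _ (hp j2)]
      ring
    have c22 : QuadraticMap.polar Q (r j2) (b j0 + b j1) = 0 := by
      rw [hb.add_right, hort j2 j0 n20 _ (hr j2) _ (hbD j0),
        hort j2 j1 n21 _ (hr j2) _ (hbD j1)]
      ring
    have cuu : QuadraticMap.polar Q (a j0 + a j1) (r j2) = 0 := by
      rw [hb.add_left, hort j0 j2 h02 _ (ha j0) _ (hr j2), hort j1 j2 h12 _ (ha j1) _ (hr j2)]
      ring
    have cuv : QuadraticMap.polar Q (a j0 + a j1) (b j0 + b j1) = 0 := by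
      rw [hb.add_left, hb.add_right, hb.add_right, hab, hab,
        hort j0 j1 h01 _ (ha j0) _ (hbD j1), hort j1 j0 n10 _ (ha j1) _ (hbD j0)]
      linear_combination h2
    have cvv : QuadraticMap.polar Q (p j2) (b j0 + b j1) = 0 := by
      rw [hb.add_right, hort j2 j0 n20 _ (hp j2) _ (hbD j0),
        hort j2 j1 n21 _ (hp j2) _ (hbD j1)]
      ring
    obtain ⟨g, hgΩ, hg⟩ := exists_siegel hQ (a j0 + a j1) (p j2) (r j2) (b j0 + b j1) hQu₁
      (hQp j2) (hQr j2) hQv₂ c11 c22 cuu cuv (hpr j2) cvv 1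
    have hg' : ∀ x, (g : Matrix ι ι F) *ᵥ x = x +
        QuadraticMap.polar Q x (a j0 + a j1) • (b j0 + b j1) +
        QuadraticMap.polar Q x (b j0 + b j1) • (a j0 + a j1) := by
      intro x
      rw [hg, one_smul, sub_eq_add_neg, hneg, polar_symm Q (a j0 + a j1) x,
        polar_symm Q (b j0 + b j1) x, add_assoc]
    have hmove : ∀ j j', j ≠ j' → ∀ x ∈ D j, Q x = 1 →
        x + QuadraticMap.polar Q x (a j + a j') • (b j + b j') +
        QuadraticMap.polar Q x (b j + b j') • (a j + a j') ∈ S := by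
      intro j j' hjj' x hx hQx
      have e1 : QuadraticMap.polar Q x (a j + a j') = QuadraticMap.polar Q x (a j) := by
        rw [hb.add_right, hort j j' hjj' x hx _ (ha j'), add_zero]
      have e2 : QuadraticMap.polar Q x (b j + b j') = QuadraticMap.polar Q x (b j) := by
        rw [hb.add_right, hort j j' hjj' x hx _ (hbD j'), add_zero]
      rw [e1, e2]
      rcases hkey j x hx hQx with (rfl | rfl | rfl) | ⟨hxa, hxb⟩
      · rw [haa, hab, zero_smul, one_smul, add_zero, hdbl]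
        exact ⟨j', ha j', hQa j'⟩
      · rw [hba, hbb, zero_smul, one_smul, add_zero, hdbl]
        exact ⟨j', hbD j', hQb j'⟩
      · rw [hb.add_left, hb.add_left, haa, hab, hba, hbb, zero_add, add_zero, one_smul, one_smul]
        have h : a j + b j + (b j + b j') + (a j + a j') = a j' + b j' + (2 : F) • (a j + b j) := by
          module
        rw [h, h2, zero_smul, add_zero]
        exact ⟨j', (D j').add_mem (ha j') (hbD j'), hQab j'⟩
      · rw [hxa, hxb, zero_smul, zero_smul, add_zero, add_zero]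
        exact ⟨j, hx, hQx⟩
    have hgK : g ∈ stabilizing (glToMat ι F) S ⊓ omegaGL Q := by
      refine ⟨mem_stabilizing_of_forall _ _ ?_, hgΩ⟩
      rintro x ⟨i, hxi, hQx⟩
      rw [hg']
      by_cases hi0 : i = j0
      · rw [hi0] at hxi
        exact hmove j0 j1 h01 x hxi hQx
      by_cases hi1 : i = j1
      · rw [hi1] at hxi
        have := hmove j1 j0 n10 x hxi hQx
        rwa [add_comm (a j1) (a j0), add_comm (b j1) (b j0)] at this
      · rw [hb.add_right, hb.add_right, hort i j0 hi0 x hxi _ (ha j0),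
          hort i j1 hi1 x hxi _ (ha j1), hort i j0 hi0 x hxi _ (hbD j0),
          hort i j1 hi1 x hxi _ (hbD j1), add_zero, zero_smul, zero_smul, add_zero, add_zero]
        exact ⟨i, hxi, hQx⟩
    rw [← hEq] at hgK
    obtain ⟨σ, hσ⟩ := hgK.1
    have hz : (g : Matrix ι ι F) *ᵥ a j0 ∈ D (σ j0) := by
      rw [← hσ j0]
      exact ⟨a j0, ha j0, by rw [Matrix.toLin'_apply]⟩
    have hz' : (g : Matrix ι ι F) *ᵥ y j0 ∈ D (σ j0) := by
      rw [← hσ j0]
      exact ⟨y j0, hy j0, by rw [Matrix.toLin'_apply]⟩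
    have e1 : (g : Matrix ι ι F) *ᵥ a j0 = a j1 := by
      rw [hg', hb.add_right, hb.add_right, haa, hab, hort j0 j1 h01 _ (ha j0) _ (ha j1),
        hort j0 j1 h01 _ (ha j0) _ (hbD j1), add_zero, add_zero, zero_smul, one_smul, add_zero,
        hdbl]
    have e2 : (g : Matrix ι ι F) *ᵥ y j0 = y j0 := by
      rw [hg', hb.add_right, hb.add_right, hya, hyb, hort j0 j1 h01 _ (hy j0) _ (ha j1),
        hort j0 j1 h01 _ (hy j0) _ (hbD j1), add_zero, zero_smul, zero_smul, add_zero, add_zero]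
    rw [e1] at hz
    rw [e2] at hz'
    have hs : σ j0 = j1 := by
      by_contra hs
      have := hort (σ j0) j1 hs _ hz _ (hbD j1)
      rw [hab] at this
      exact one_ne_zero this
    rw [hs] at hz'
    have := hort j1 j0 n10 _ hz' _ (hw j0)
    rw [hyw] at this
    exact one_ne_zero this
  · -- an element of Ω not preserving S
    intro hEq
    obtain ⟨g, hgΩ, hg⟩ := exists_siegel hQ (p j0) (p j2) (r j2) (p j1) (hQp j0) (hQp j2)
      (hQr j2) (hQp j1) (hort j0 j2 h02 _ (hp j0) _ (hp j2)) (hort j2 j1 n21 _ (hr j2) _ (hp j1))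
      (hort j0 j2 h02 _ (hp j0) _ (hr j2)) (hort j0 j1 h01 _ (hp j0) _ (hp j1)) (hpr j2)
      (hort j2 j1 n21 _ (hp j2) _ (hp j1)) 1
    rw [← hEq] at hgΩ
    have h1 := ((mem_stabilizing_iff _ _).mp hgΩ.1 (a j0)).mp ⟨j0, ha j0, hQa j0⟩
    rw [hg, hpa, hort j1 j0 n10 _ (hp j1) _ (ha j0), one_smul, one_smul, zero_smul, sub_zero]
      at h1
    obtain ⟨i, hi, -⟩ := h1
    have hi0 : i = j0 := by
      by_contra hi0
      have := hort i j0 hi0 _ hi _ (hbD j0)
      rw [hb.add_left, hab, hort j1 j0 n10 _ (hp j1) _ (hbD j0), add_zero] at this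
      exact one_ne_zero this
    rw [hi0] at hi
    have := hort j0 j1 h01 _ hi _ (hr j1)
    rw [hb.add_left, hpr, hort j0 j1 h01 _ (ha j0) _ (hr j1), zero_add] at this
    exact one_ne_zero this

end Decomp4

end Cfsg.Agent.H95
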