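import Cfsg.Agent.H95.Decomp

set_option autoImplicit false

namespace Cfsg.Agent.H95

open Cfsg Cfsg.Geo
open scoped MatrixGroups Matrix DirectSum

section

variable {ι : Type} [Fintype ι] [DecidableEq ι] {F : Type*} [Field F] {t : ℕ}
  {D : Fin t → Submodule F (ι → F)}

/-- The final assembly: an intermediate subgroup between the decomposition stabiliser in `G` and `G`. -/
lemma exists_between_of_wt' (hI : DirectSum.IsInternal D) (G : Subgroup (GL ι F)) (g₁ g₂ : GL ι F)
    (hg₁SL : g₁ ∈ G) (hg₁wt : g₁ ∈ wtGroup hI) (x₁ : ι → F)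
    (hx₁ : wt hI ((g₁ : Matrix ι ι F) *ᵥ x₁) ≠ wt hI x₁)
    (hg₂SL : g₂ ∈ G) (hg₂ : g₂ ∉ wtGroup hI) :
    ∃ K : Subgroup (GL ι F), decompositionStabilizer D ⊓ G < K ∧ K < G := by
  refine ⟨wtGroup hI ⊓ G, ?_, ?_⟩
  · refine lt_of_le_of_ne (inf_le_inf_right _ (decompositionStabilizer_le_wtGroup hI)) ?_
    intro h
    have : g₁ ∈ decompositionStabilizer D ⊓ G := by
      rw [h]; exact ⟨hg₁wt, hg₁SL⟩
    exact hx₁ (wt_of_mem_decompositionStabilizer hI this.1 x₁)
  · refine lt_of_le_of_ne inf_le_right ?_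
    intro h
    have : g₂ ∈ wtGroup hI ⊓ G := by
      rw [h]; exact hg₂SL
    exact hg₂ this.1

lemma exists_between_of_wt (hI : DirectSum.IsInternal D) (g₁ g₂ : GL ι F)
    (hg₁SL : g₁ ∈ specialLinear ι F) (hg₁wt : g₁ ∈ wtGroup hI) (x₁ : ι → F)
    (hx₁ : wt hI ((g₁ : Matrix ι ι F) *ᵥ x₁) ≠ wt hI x₁)
    (hg₂SL : g₂ ∈ specialLinear ι F) (hg₂ : g₂ ∉ wtGroup hI) :
    ∃ K : Subgroup (GL ι F), decompositionStabilizer D ⊓ specialLinear ι F < K ∧
      K < specialLinear ι F :=
  exists_between_of_wt' hI _ g₁ g₂ hg₁SL hg₁wt x₁ hx₁ hg₂SL hg₂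

lemma exists_dual_eq_one {V : Type*} [AddCommGroup V] [Module F V] {v : V} (hv : v ≠ 0) :
    ∃ ψ : V →ₗ[F] F, ψ v = 1 := by
  have hv' : v ∉ (⊥ : Submodule F V) := by simpa using hv
  obtain ⟨f, hf, -⟩ := Submodule.exists_le_ker_of_notMem hv'
  refine ⟨(f v)⁻¹ • f, ?_⟩
  simp [hf]

/-- A transvection in `SL` that does not preserve the weight modulo the characteristic. -/
lemma exists_not_mem_wtGroup (hI : DirectSum.IsInternal D) {i j : Fin t} (hij : i ≠ j)
    {v w : ι → F} (hv : v ∈ D i) (hv0 : v ≠ 0) (hw : w ∈ D j) (hw0 : w ≠ 0) :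
    ∃ g : GL ι F, g ∈ specialLinear ι F ∧ g ∉ wtGroup hI := by
  obtain ⟨ψ, hψ⟩ := exists_dual_eq_one (F := F) hv0
  set a : (ι → F) →ₗ[F] F := ψ ∘ₗ comp hI i with ha
  have haw : a w = 0 := by
    rw [ha, LinearMap.comp_apply, comp_of_mem_ne hI hw (fun h => hij h.symm), map_zero]
  have hav : a v = 1 := by
    rw [ha, LinearMap.comp_apply, comp_of_mem hI hv, hψ]
  refine ⟨glOf (LinearEquiv.transvection haw), glOf_mem_specialLinear _ (by simp), ?_⟩
  intro h
  have h1 := h v
  rw [glOf_mulVec, LinearEquiv.transvection.apply, hav, one_smul,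
    wt_add_of_mem hI hij hv hv0 hw hw0, wt_of_mem hI hv hv0] at h1
  have h2 : (1 : F) = 0 := by
    have : ((2 : ℕ) : F) = ((1 : ℕ) : F) := h1
    push_cast at this
    linear_combination this
  exact one_ne_zero h2

lemma sum_eq_of_fix {α : Type*} [Fintype α] [DecidableEq α] (S : Finset α) (A B : α → F)
    (h1 : ∀ k, k ∉ S → A k = B k) (h2 : ∑ k ∈ S, A k = ∑ k ∈ S, B k) :
    ∑ k, A k = ∑ k, B k := by
  rw [← Finset.sum_add_sum_compl S A, ← Finset.sum_add_sum_compl S B, h2]
  congr 1
  apply Finset.sum_congr rfl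
  intro k hk
  exact h1 k (Finset.mem_compl.mp hk)

lemma wt_cast_eq {m : ℕ} (hI : DirectSum.IsInternal D) (bD : ∀ i, Module.Basis (Fin m) F (D i))
    (x : ι → F) (Φ : Fin t → F) (h0 : ∀ i, (∀ j, coord hI bD i j x = 0) → Φ i = 0)
    (h1 : ∀ i, ¬ (∀ j, coord hI bD i j x = 0) → Φ i = 1) :
    ((wt hI x : ℕ) : F) = ∑ i, Φ i := by
  classical
  rw [wt_def, Finset.natCast_card_filter]
  apply Finset.sum_congr rfl
  intro i _
  by_cases h : comp hI i x = 0
  · rw [if_neg (not_not.mpr h), h0 i ((comp_eq_zero_iff hI bD i x).mp h)]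
  · rw [if_pos h, h1 i (fun h' => h ((comp_eq_zero_iff hI bD i x).mpr h'))]

end

section m1

variable {ι : Type} [Fintype ι] [DecidableEq ι] {F : Type*} [Field F] [Fintype F] {t : ℕ}
  {D : Fin t → Submodule F (ι → F)}

lemma wt_cast_eq_one (hI : DirectSum.IsInternal D) (bD : ∀ i, Module.Basis (Fin 1) F (D i))
    (x : ι → F) :
    ((wt hI x : ℕ) : F) = ∑ i, (coord hI bD i 0 x) ^ (Fintype.card F - 1) := by
  apply wt_cast_eq hI bD
  · intro i h
    rw [h 0, zero_pow]
    have := Fintype.one_lt_card (α := F)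
    omega
  · intro i h
    apply FiniteField.pow_card_sub_one_eq_one
    intro h'
    apply h
    intro j
    rw [Subsingleton.elim j 0]
    exact h'

omit [Fintype ι] [DecidableEq ι] [Fintype F] in
lemma coord_basis_one (hI : DirectSum.IsInternal D) (bD : ∀ i, Module.Basis (Fin 1) F (D i))
    (k k' : Fin t) :
    coord hI bD k 0 ((bD k' 0 : D k') : ι → F) = if k = k' then 1 else 0 := by
  rw [coord_basis]
  simp

/-- `q = 2`, `m = 1`. -/
lemma case_two_one (hI : DirectSum.IsInternal D) (bD : ∀ i, Module.Basis (Fin 1) F (D i))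
    (hq : Fintype.card F = 2) (i1 i2 i3 : Fin t) (h12 : i1 ≠ i2) (h13 : i1 ≠ i3) (h23 : i2 ≠ i3) :
    ∃ (g : GL ι F) (x : ι → F), g ∈ specialLinear ι F ∧ g ∈ wtGroup hI ∧
      wt hI ((g : Matrix ι ι F) *ᵥ x) ≠ wt hI x := by
  classical
  have h2 : (2 : F) = 0 := by
    have := FiniteField.cast_card_eq_zero F
    rw [hq] at this
    exact_mod_cast this
  set c : Fin t → (ι → F) →ₗ[F] F := fun k => coord hI bD k 0 with hc
  set v : Fin t → (ι → F) := fun k => ((bD k 0 : D k) : ι → F) with hv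
  have hcv : ∀ k k', c k (v k') = if k = k' then 1 else 0 := coord_basis_one hI bD
  have hvm : ∀ k, v k ∈ D k := fun k => Submodule.coe_mem _
  have hv0 : ∀ k, v k ≠ 0 := by
    intro k h
    have := hcv k k
    rw [h, map_zero] at this
    simp at this
  have hw : c i1 (v i2 + v i3) = 0 := by
    rw [map_add, hcv, hcv, if_neg h12, if_neg h13, add_zero]
  refine ⟨glOf (LinearEquiv.transvection hw), v i1, glOf_mem_specialLinear _ (by simp), ?_, ?_⟩
  · intro x
    rw [wt_cast_eq_one hI bD, wt_cast_eq_one hI bD, hq]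
    simp only [glOf_mulVec, LinearEquiv.transvection.apply, Nat.add_one_sub_one, pow_one, map_add,
      map_smul, smul_eq_mul]
    change ∑ k, (c k x + c i1 x * (c k (v i2) + c k (v i3))) = ∑ k, c k x
    simp only [hcv, Finset.sum_add_distrib, ← Finset.mul_sum, Finset.sum_ite_eq', Finset.mem_univ,
      if_true]
    linear_combination c i1 x * h2
  · rw [glOf_mulVec, LinearEquiv.transvection.apply, hcv, if_pos rfl, one_smul,
      wt_of_mem hI (hvm i1) (hv0 i1)]
    have h3 : v i1 + (v i2 + v i3) = ∑ j ∈ ({i1, i2, i3} : Finset (Fin t)), v j := by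
      rw [Finset.sum_insert (by simp [h12, h13]), Finset.sum_pair h23]
    rw [h3, wt_sum_finset hI _ v hvm (fun j _ => hv0 j)]
    rw [Finset.card_insert_of_notMem (by simp [h12, h13]), Finset.card_pair h23]
    norm_num

/-- `q = 3`, `m = 1`. -/
lemma case_three_one (hI : DirectSum.IsInternal D) (bD : ∀ i, Module.Basis (Fin 1) F (D i))
    (hq : Fintype.card F = 3) (i1 i2 i3 i4 : Fin t) (h12 : i1 ≠ i2) (h13 : i1 ≠ i3) (h14 : i1 ≠ i4)
    (h23 : i2 ≠ i3) (h24 : i2 ≠ i4) (h34 : i3 ≠ i4) :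
    ∃ (g : GL ι F) (x : ι → F), g ∈ specialLinear ι F ∧ g ∈ wtGroup hI ∧
      wt hI ((g : Matrix ι ι F) *ᵥ x) ≠ wt hI x := by
  classical
  have h3 : (3 : F) = 0 := by
    have := FiniteField.cast_card_eq_zero F
    rw [hq] at this
    exact_mod_cast this
  set c : Fin t → (ι → F) →ₗ[F] F := fun k => coord hI bD k 0 with hc
  set v : Fin t → (ι → F) := fun k => ((bD k 0 : D k) : ι → F) with hv
  have hcv : ∀ k k', c k (v k') = if k = k' then 1 else 0 := coord_basis_one hI bD
  have hvm : ∀ k, v k ∈ D k := fun k => Submodule.coe_mem _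
  have hv0 : ∀ k, v k ≠ 0 := by
    intro k h
    have := hcv k k
    rw [h, map_zero] at this
    simp at this
  set u : ι → F := v i1 + v i2 + v i3 with hu
  have hne : ∀ a b : Fin t, a ≠ b → ((if a = b then (1 : F) else 0) = 0) := fun a b h => if_neg h
  have hT2 : c i4 u = 0 := by
    simp only [hu, map_add, hcv, hne _ _ h14.symm, hne _ _ h24.symm, hne _ _ h34.symm, add_zero]
  have hT1 : (-(c i1 + c i2 + c i3)) (v i4 - u) = 0 := by
    simp only [hu, map_add, map_sub, LinearMap.neg_apply, LinearMap.add_apply, hcv, if_true,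
      hne _ _ h12, hne _ _ h13, hne _ _ h14, hne _ _ h23, hne _ _ h24, hne _ _ h34,
      hne _ _ h12.symm, hne _ _ h13.symm, hne _ _ h23.symm]
    linear_combination h3
  set g : GL ι F := glOf (LinearEquiv.transvection hT1) * glOf (LinearEquiv.transvection hT2) with hg
  have hgx : ∀ x, (g : Matrix ι ι F) *ᵥ x =
      (x + c i4 x • u) + (-(c i1 + c i2 + c i3)) (x + c i4 x • u) • (v i4 - u) := by
    intro x
    rw [hg, Units.val_mul, ← Matrix.mulVec_mulVec, glOf_mulVec, glOf_mulVec,
      LinearEquiv.transvection.apply, LinearEquiv.transvection.apply]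
  refine ⟨g, v i4, ?_, ?_, ?_⟩
  · exact Subgroup.mul_mem _ (glOf_mem_specialLinear _ (by simp)) (glOf_mem_specialLinear _ (by simp))
  · intro x
    rw [wt_cast_eq_one hI bD, wt_cast_eq_one hI bD, hq, hgx]
    change ∑ k, (c k _) ^ 2 = ∑ k, (c k x) ^ 2
    apply sum_eq_of_fix ({i1, i2, i3, i4} : Finset (Fin t))
    · intro k hk
      simp only [Finset.mem_insert, Finset.mem_singleton, not_or] at hk
      obtain ⟨hk1, hk2, hk3, hk4⟩ := hk
      simp only [hu, map_add, map_sub, map_smul, smul_eq_mul, hcv, hne _ _ hk1, hne _ _ hk2,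
        hne _ _ hk3, hne _ _ hk4, add_zero, mul_zero, sub_zero]
    · rw [Finset.sum_insert (by simp [h12, h13, h14]), Finset.sum_insert (by simp [h23, h24]),
        Finset.sum_pair h34, Finset.sum_insert (by simp [h12, h13, h14]),
        Finset.sum_insert (by simp [h23, h24]), Finset.sum_pair h34]
      simp only [hu, map_add, map_sub, map_smul, smul_eq_mul, hcv,
        LinearMap.neg_apply, LinearMap.add_apply, if_true,
        hne _ _ h12, hne _ _ h13, hne _ _ h14, hne _ _ h23, hne _ _ h24, hne _ _ h34,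
        hne _ _ h12.symm, hne _ _ h13.symm, hne _ _ h14.symm, hne _ _ h23.symm, hne _ _ h24.symm,
        hne _ _ h34.symm]
      linear_combination (2 * (c i1 x + c i2 x + c i3 x + 3 * c i4 x) ^ 2 - (c i4 x) ^ 2) * h3
  · rw [hgx]
    have e1 : c i4 (v i4) = 1 := by rw [hcv, if_pos rfl]
    have e2 : (-(c i1 + c i2 + c i3)) (v i4 + (1 : F) • u) = 0 := by
      simp only [hu, map_add, map_smul, LinearMap.neg_apply, LinearMap.add_apply, hcv, if_true,
        hne _ _ h12, hne _ _ h13, hne _ _ h14, hne _ _ h23, hne _ _ h24, hne _ _ h34,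
        hne _ _ h12.symm, hne _ _ h13.symm, hne _ _ h23.symm, smul_eq_mul]
      linear_combination -h3
    rw [e1, e2, zero_smul, add_zero, one_smul, wt_of_mem hI (hvm i4) (hv0 i4)]
    have h4 : v i4 + u = ∑ j ∈ ({i1, i2, i3, i4} : Finset (Fin t)), v j := by
      rw [Finset.sum_insert (by simp [h12, h13, h14]), Finset.sum_insert (by simp [h23, h24]),
        Finset.sum_pair h34, hu]
      abel
    rw [h4, wt_sum_finset hI _ v hvm (fun j _ => hv0 j)]
    rw [Finset.card_insert_of_notMem (by simp [h12, h13, h14]),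
      Finset.card_insert_of_notMem (by simp [h23, h24]), Finset.card_pair h34]
    norm_num

/-- `q = 4`, `m = 1`. -/
lemma case_four_one (hI : DirectSum.IsInternal D) (bD : ∀ i, Module.Basis (Fin 1) F (D i))
    (hq : Fintype.card F = 4) (i1 i2 i3 i4 : Fin t) (h12 : i1 ≠ i2) (h13 : i1 ≠ i3) (h14 : i1 ≠ i4)
    (h23 : i2 ≠ i3) (h24 : i2 ≠ i4) (h34 : i3 ≠ i4) :
    ∃ (g : GL ι F) (x : ι → F), g ∈ specialLinear ι F ∧ g ∈ wtGroup hI ∧
      wt hI ((g : Matrix ι ι F) *ᵥ x) ≠ wt hI x := by
  classical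
  have h2 : (2 : F) = 0 := by
    have := FiniteField.cast_card_eq_zero F
    rw [hq] at this
    have h4 : (2 : F) * 2 = 0 := by
      have h' : ((4 : ℕ) : F) = 0 := this
      push_cast at h'
      linear_combination h'
    exact mul_self_eq_zero.mp h4
  set c : Fin t → (ι → F) →ₗ[F] F := fun k => coord hI bD k 0 with hc
  set v : Fin t → (ι → F) := fun k => ((bD k 0 : D k) : ι → F) with hv
  have hcv : ∀ k k', c k (v k') = if k = k' then 1 else 0 := coord_basis_one hI bD
  have hvm : ∀ k, v k ∈ D k := fun k => Submodule.coe_mem _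
  have hv0 : ∀ k, v k ≠ 0 := by
    intro k h
    have := hcv k k
    rw [h, map_zero] at this
    simp at this
  set u : ι → F := v i1 + v i2 + v i3 + v i4 with hu
  have hne : ∀ a b : Fin t, a ≠ b → ((if a = b then (1 : F) else 0) = 0) := fun a b h => if_neg h
  have hT : (c i1 + c i2 + c i3 + c i4) u = 0 := by
    simp only [hu, map_add, LinearMap.add_apply, hcv, if_true,
      hne _ _ h12, hne _ _ h13, hne _ _ h14, hne _ _ h23, hne _ _ h24, hne _ _ h34,
      hne _ _ h12.symm, hne _ _ h13.symm, hne _ _ h14.symm, hne _ _ h23.symm, hne _ _ h24.symm,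
      hne _ _ h34.symm]
    linear_combination 2 * h2
  set g : GL ι F := glOf (LinearEquiv.transvection hT) with hg
  have hgx : ∀ x, (g : Matrix ι ι F) *ᵥ x = x + (c i1 + c i2 + c i3 + c i4) x • u := by
    intro x
    rw [hg, glOf_mulVec, LinearEquiv.transvection.apply]
  refine ⟨g, v i1, glOf_mem_specialLinear _ (by simp), ?_, ?_⟩
  · intro x
    rw [wt_cast_eq_one hI bD, wt_cast_eq_one hI bD, hq, hgx]
    change ∑ k, (c k _) ^ 3 = ∑ k, (c k x) ^ 3
    apply sum_eq_of_fix ({i1, i2, i3, i4} : Finset (Fin t))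
    · intro k hk
      simp only [Finset.mem_insert, Finset.mem_singleton, not_or] at hk
      obtain ⟨hk1, hk2, hk3, hk4⟩ := hk
      simp only [hu, map_add, map_smul, smul_eq_mul, hcv, hne _ _ hk1, hne _ _ hk2,
        hne _ _ hk3, hne _ _ hk4, add_zero, mul_zero]
    · rw [Finset.sum_insert (by simp [h12, h13, h14]), Finset.sum_insert (by simp [h23, h24]),
        Finset.sum_pair h34, Finset.sum_insert (by simp [h12, h13, h14]),
        Finset.sum_insert (by simp [h23, h24]), Finset.sum_pair h34]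
      simp only [hu, map_add, map_smul, smul_eq_mul, hcv,
        LinearMap.add_apply, if_true,
        hne _ _ h12, hne _ _ h13, hne _ _ h14, hne _ _ h23, hne _ _ h24, hne _ _ h34,
        hne _ _ h12.symm, hne _ _ h13.symm, hne _ _ h14.symm, hne _ _ h23.symm, hne _ _ h24.symm,
        hne _ _ h34.symm]
      linear_combination (5 * (c i1 x + c i2 x + c i3 x + c i4 x) ^ 3 -
        3 * (c i1 x + c i2 x + c i3 x + c i4 x) * (c i1 x * c i2 x + c i1 x * c i3 x + c i1 x * c i4 x
          + c i2 x * c i3 x + c i2 x * c i4 x + c i3 x * c i4 x)) * h2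
  · rw [hgx]
    have e0 : (c i1 + c i2 + c i3 + c i4) (v i1) = 1 := by
      simp only [LinearMap.add_apply, hcv, if_true, hne _ _ h12.symm, hne _ _ h13.symm,
        hne _ _ h14.symm, add_zero]
    have e1 : v i1 + v i1 = 0 := by
      rw [← two_smul F, h2, zero_smul]
    rw [e0, one_smul, wt_of_mem hI (hvm i1) (hv0 i1)]
    have h4 : v i1 + u = ∑ j ∈ ({i2, i3, i4} : Finset (Fin t)), v j := by
      rw [Finset.sum_insert (by simp [h23, h24]), Finset.sum_pair h34, hu]
      calc v i1 + (v i1 + v i2 + v i3 + v i4) = (v i1 + v i1) + (v i2 + (v i3 + v i4)) := by abel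
        _ = v i2 + (v i3 + v i4) := by rw [e1, zero_add]
    rw [h4, wt_sum_finset hI _ v hvm (fun j _ => hv0 j)]
    rw [Finset.card_insert_of_notMem (by simp [h23, h24]), Finset.card_pair h34]
    norm_num

end m1

section m2

variable {ι : Type} [Fintype ι] [DecidableEq ι] {F : Type*} [Field F] [Fintype F] {t : ℕ}
  {D : Fin t → Submodule F (ι → F)}

omit [Fintype ι] [DecidableEq ι] in
lemma eq_zero_or_one_of_card_two (hq : Fintype.card F = 2) (a : F) : a = 0 ∨ a = 1 := by
  have h := FiniteField.pow_card a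
  rw [hq] at h
  have h' : a * (a - 1) = 0 := by linear_combination h
  rcases mul_eq_zero.mp h' with h0 | h1
  · exact Or.inl h0
  · exact Or.inr (sub_eq_zero.mp h1)

omit [Fintype ι] [DecidableEq ι] in
lemma two_eq_zero_of_card_two (hq : Fintype.card F = 2) : (2 : F) = 0 := by
  have := FiniteField.cast_card_eq_zero F
  rw [hq] at this
  exact_mod_cast this

lemma wt_cast_eq_two (hI : DirectSum.IsInternal D) (bD : ∀ i, Module.Basis (Fin 2) F (D i))
    (hq : Fintype.card F = 2) (x : ι → F) :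
    ((wt hI x : ℕ) : F) = ∑ i, (coord hI bD i 0 x + coord hI bD i 0 x * coord hI bD i 1 x
      + coord hI bD i 1 x) := by
  have h2 := two_eq_zero_of_card_two hq
  apply wt_cast_eq hI bD
  · intro i h
    rw [h 0, h 1]; ring
  · intro i h
    rcases eq_zero_or_one_of_card_two hq (coord hI bD i 0 x) with ha | ha <;>
    rcases eq_zero_or_one_of_card_two hq (coord hI bD i 1 x) with hb | hb
    · exfalso
      apply h
      intro j
      fin_cases j
      · exact ha
      · exact hb
    · rw [ha, hb]; ring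
    · rw [ha, hb]; ring
    · rw [ha, hb]; linear_combination h2

/-- `q = 2`, `m = 2`: the transvection `x ↦ x + (b₁ + b₂ + b₃)(x) (e₁ + e₂ + e₃)`. -/
lemma case_two_two_aux (hI : DirectSum.IsInternal D) (bD : ∀ i, Module.Basis (Fin 2) F (D i))
    (hq : Fintype.card F = 2) (i1 i2 i3 : Fin t) (h12 : i1 ≠ i2) (h13 : i1 ≠ i3) (h23 : i2 ≠ i3)
    (g : GL ι F)
    (hgx : ∀ x, (g : Matrix ι ι F) *ᵥ x = x +
      (coord hI bD i1 1 + coord hI bD i2 1 + coord hI bD i3 1) x •
        (((bD i1 0 : D i1) : ι → F) + ((bD i2 0 : D i2) : ι → F) + ((bD i3 0 : D i3) : ι → F))) :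
    g ∈ wtGroup hI ∧
      wt hI ((g : Matrix ι ι F) *ᵥ ((bD i1 1 : D i1) : ι → F)) ≠ wt hI ((bD i1 1 : D i1) : ι → F) := by
  classical
  have h2 := two_eq_zero_of_card_two hq
  set a : Fin t → (ι → F) →ₗ[F] F := fun k => coord hI bD k 0 with ha
  set b : Fin t → (ι → F) →ₗ[F] F := fun k => coord hI bD k 1 with hb
  set e : Fin t → (ι → F) := fun k => ((bD k 0 : D k) : ι → F) with he
  set f : Fin t → (ι → F) := fun k => ((bD k 1 : D k) : ι → F) with hf
  have hae : ∀ k k', a k (e k') = if k = k' then 1 else 0 := by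
    intro k k'; rw [ha, he]; simp only; rw [coord_basis]; simp
  have haf : ∀ k k', a k (f k') = 0 := by
    intro k k'; rw [ha, hf]; simp only; rw [coord_basis]; simp
  have hbe : ∀ k k', b k (e k') = 0 := by
    intro k k'; rw [hb, he]; simp only; rw [coord_basis]; simp
  have hbf : ∀ k k', b k (f k') = if k = k' then 1 else 0 := by
    intro k k'; rw [hb, hf]; simp only; rw [coord_basis]; simp
  have hem : ∀ k, e k ∈ D k := fun k => Submodule.coe_mem _
  have hfm : ∀ k, f k ∈ D k := fun k => Submodule.coe_mem _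
  have hne : ∀ a b : Fin t, a ≠ b → ((if a = b then (1 : F) else 0) = 0) := fun a b h => if_neg h
  set u : ι → F := e i1 + e i2 + e i3 with hu
  change ∀ x, (g : Matrix ι ι F) *ᵥ x = x + (b i1 + b i2 + b i3) x • u at hgx
  change g ∈ wtGroup hI ∧ wt hI ((g : Matrix ι ι F) *ᵥ f i1) ≠ wt hI (f i1)
  refine ⟨?_, ?_⟩
  · intro x
    rw [wt_cast_eq_two hI bD hq, wt_cast_eq_two hI bD hq, hgx]
    change ∑ k, (a k _ + a k _ * b k _ + b k _) = ∑ k, (a k x + a k x * b k x + b k x)
    apply sum_eq_of_fix ({i1, i2, i3} : Finset (Fin t))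
    · intro k hk
      simp only [Finset.mem_insert, Finset.mem_singleton, not_or] at hk
      obtain ⟨hk1, hk2, hk3⟩ := hk
      simp only [hu, map_add, map_smul, smul_eq_mul, hae, hbe, hne _ _ hk1, hne _ _ hk2,
        hne _ _ hk3, add_zero, mul_zero]
    · rw [Finset.sum_insert (by simp [h12, h13]), Finset.sum_pair h23,
        Finset.sum_insert (by simp [h12, h13]), Finset.sum_pair h23]
      simp only [hu, map_add, map_smul, smul_eq_mul, hae, hbe,
        LinearMap.add_apply, if_true,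
        hne _ _ h12, hne _ _ h13, hne _ _ h23,
        hne _ _ h12.symm, hne _ _ h13.symm, hne _ _ h23.symm]
      have hμ : (b i1 x + b i2 x + b i3 x) ^ 2 = b i1 x + b i2 x + b i3 x := by
        have := FiniteField.pow_card (b i1 x + b i2 x + b i3 x)
        rwa [hq] at this
      linear_combination hμ + 2 * (b i1 x + b i2 x + b i3 x) * h2
  · rw [hgx]
    have e0 : (b i1 + b i2 + b i3) (f i1) = 1 := by
      simp only [LinearMap.add_apply, hbf, if_true, hne _ _ h12.symm, hne _ _ h13.symm, add_zero]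
    have hf0 : f i1 ≠ 0 := by
      intro h
      have := hbf i1 i1
      rw [h, map_zero] at this
      simp at this
    rw [e0, one_smul, wt_of_mem hI (hfm i1) hf0]
    set y : Fin t → (ι → F) := fun j => if j = i1 then f j + e j else e j with hy
    have hym : ∀ j, y j ∈ D j := by
      intro j
      rw [hy]
      simp only
      split_ifs
      · exact (D j).add_mem (hfm j) (hem j)
      · exact hem j
    have hy0 : ∀ j, y j ≠ 0 := by
      intro j h
      have h1 : a j (y j) = 1 := by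
        rw [hy]
        simp only
        split_ifs
        · rw [map_add, haf, hae, if_pos rfl, zero_add]
        · rw [hae, if_pos rfl]
      rw [h, map_zero] at h1
      exact zero_ne_one h1
    have h4 : f i1 + u = ∑ j ∈ ({i1, i2, i3} : Finset (Fin t)), y j := by
      rw [Finset.sum_insert (by simp [h12, h13]), Finset.sum_pair h23, hu, hy]
      simp only [if_true, if_neg h12.symm, if_neg h13.symm]
      abel
    rw [h4, wt_sum_finset hI _ y hym (fun j _ => hy0 j)]
    rw [Finset.card_insert_of_notMem (by simp [h12, h13]), Finset.card_pair h23]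
    norm_num

/-- `q = 2`, `m = 2`. -/
lemma case_two_two (hI : DirectSum.IsInternal D) (bD : ∀ i, Module.Basis (Fin 2) F (D i))
    (hq : Fintype.card F = 2) (i1 i2 i3 : Fin t) (h12 : i1 ≠ i2) (h13 : i1 ≠ i3) (h23 : i2 ≠ i3) :
    ∃ (g : GL ι F) (x : ι → F), g ∈ specialLinear ι F ∧ g ∈ wtGroup hI ∧
      wt hI ((g : Matrix ι ι F) *ᵥ x) ≠ wt hI x := by
  have hT : (coord hI bD i1 1 + coord hI bD i2 1 + coord hI bD i3 1)
      (((bD i1 0 : D i1) : ι → F) + ((bD i2 0 : D i2) : ι → F) + ((bD i3 0 : D i3) : ι → F)) = 0 := by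
    simp only [map_add, LinearMap.add_apply, coord_basis]
    simp
  have := case_two_two_aux hI bD hq i1 i2 i3 h12 h13 h23 (glOf (LinearEquiv.transvection hT))
    (by intro x; rw [glOf_mulVec, LinearEquiv.transvection.apply])
  exact ⟨_, _, glOf_mem_specialLinear _ (by simp), this.1, this.2⟩

end m2

end Cfsg.Agent.H95
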