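import Cfsg.Agent.H95.QuadPlane
import Cfsg.Agent.H95.S5635a

set_option autoImplicit false
set_option linter.unusedSectionVars false

namespace Cfsg.Agent.H95

open Cfsg Cfsg.Geo
open scoped MatrixGroups Matrix

section NZ2

/-- A non-zero vector orthogonal to `k` given vectors, in dimension more than `k`. -/
lemma exists_orth_ne_zero {F V : Type*} [Field F] [AddCommGroup V] [Module F V]
    [FiniteDimensional F V] (B : LinearMap.BilinForm F V) {k : ℕ} (x : Fin k → V)
    (hk : k < Module.finrank F V) : ∃ z, z ≠ 0 ∧ ∀ i, B z (x i) = 0 := by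
  classical
  let φ : V →ₗ[F] (Fin k → F) := LinearMap.pi (fun i => B.flip (x i))
  have hker : LinearMap.ker φ ≠ ⊥ := by
    apply LinearMap.ker_ne_bot_of_finrank_lt
    rw [Module.finrank_pi]
    simpa using hk
  obtain ⟨z₀, hz₀, hz₀ne⟩ := (Submodule.ne_bot_iff _).mp hker
  refine ⟨z₀, hz₀ne, fun i => ?_⟩
  have := congrFun (LinearMap.mem_ker.mp hz₀) i
  exact this

end NZ2

section Plane2

variable {ι : Type} [Fintype ι] [DecidableEq ι] {F : Type*} [Field F] {Q : (ι → F) → F}

lemma exists_orth_ne_zero_quad (hQ : IsNondegenerateQuadraticForm Q) {k : ℕ}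
    (x : Fin k → (ι → F)) (hk : k < Fintype.card ι) :
    ∃ z, z ≠ 0 ∧ ∀ i, QuadraticMap.polar Q z (x i) = 0 :=
  exists_orth_ne_zero (bilOf (QuadraticMap.polar Q) hQ.polar_bilinear) x
    (by rw [Module.finrank_pi]; exact hk)

/-- Reflections in characteristic two. -/
lemma refl_two (hQ : IsNondegenerateQuadraticForm Q) (h2 : (2 : F) = 0) {v : ι → F} (hv : Q v = 1)
    (hv' : Q v ≠ 0) (x : ι → F) :
    ((reflGL Q hQ v hv' : GL ι F) : Matrix ι ι F) *ᵥ x = x + QuadraticMap.polar Q x v • v := by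
  rw [reflGL_mulVec, hv, div_one]
  have : QuadraticMap.polar Q x v • v + QuadraticMap.polar Q x v • v = 0 := by
    rw [← two_smul F, h2, zero_smul]
  rw [sub_eq_add_neg, neg_eq_of_add_eq_zero_left this]

variable [Fintype F]

/-- Over the field with two elements, the stabiliser in `Ω` of a hyperbolic plane is not maximal. -/
theorem plane_not_max_two (hq : Fintype.card F = 2) (hQ : IsNondegenerateQuadraticForm Q)
    (hdim : 5 ≤ Fintype.card ι) (W : Submodule F (ι → F)) (hdimW : Module.finrank F W = 2)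
    (hW : IsNondegenerateOn (QuadraticMap.polar Q) W) (hplus : IsPlusTypeOn Q W) :
    ∃ K : Subgroup (GL ι F), subspaceStabilizer W ⊓ omegaGL Q < K ∧ K < omegaGL Q := by
  classical
  have h2 := two_eq_zero_of_card_two hq
  have h01 := eq_zero_or_one_of_card_two hq
  have hb := hQ.polar_bilinear
  have hBself : ∀ x, QuadraticMap.polar Q x x = 0 := fun x => by rw [polar_self hQ, h2, zero_mul]
  have hadd : ∀ x : ι → F, x + x = 0 := fun x => by rw [← two_smul F, h2, zero_smul]
  obtain ⟨U, hUW, hUs, hUd⟩ := hplus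
  have hU1 : Module.finrank F U = 1 := by omega
  have hUne : U ≠ ⊥ := by
    intro h
    rw [h, finrank_bot] at hU1
    omega
  obtain ⟨e, heU, he0⟩ := (Submodule.ne_bot_iff U).mp hUne
  have hQe : Q e = 0 := hUs e heU
  have heW := hUW heU
  obtain ⟨⟨f', hf'W, hf'e⟩, -⟩ := hW e heW he0
  have hf'e1 : QuadraticMap.polar Q f' e = 1 := (h01 _).resolve_left hf'e
  set f := f' + Q f' • e with hf
  have hQf : Q f = 0 := by
    rw [hf, q_add_smul hQ, hQe, hf'e1]
    rcases h01 (Q f') with h | h <;> rw [h]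
    · ring
    · linear_combination h2
  have hfe : QuadraticMap.polar Q f e = 1 := by
    rw [hf, hb.add_left, hb.smul_left, hBself, hf'e1]; ring
  have hef : QuadraticMap.polar Q e f = 1 := (polar_symm Q e f).trans hfe
  have hfW : f ∈ W := W.add_mem hf'W (W.smul_mem _ heW)
  set u := e + f with hu
  have huW : u ∈ W := W.add_mem heW hfW
  have hQu : Q u = 1 := by rw [hu, q_add Q, hQe, hQf, hef]; ring
  have hQu0 : Q u ≠ 0 := by rw [hQu]; exact one_ne_zero
  have hli : ∀ s t : F, s • e + t • f = 0 → s = 0 ∧ t = 0 := by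
    intro s t hst
    constructor
    · have := congrArg (fun z => QuadraticMap.polar Q z f) hst
      simp only [hb.add_left, hb.smul_left, hBself, hef, bil_zero_left hb, mul_zero,
        add_zero, mul_one] at this
      exact this
    · have := congrArg (fun z => QuadraticMap.polar Q z e) hst
      simp only [hb.add_left, hb.smul_left, hBself, hfe, bil_zero_left hb, mul_zero,
        zero_add, mul_one] at this
      exact this
  have hexpW : ∀ x ∈ W, ∃ α β : F, x = α • e + β • f := fun x hx =>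
    mem_pair_of_finrank_two W hdimW heW hfW hli hx
  have hnorm1 : ∀ x ∈ W, Q x = 1 → x = u := by
    intro x hx hQx
    obtain ⟨α, β, rfl⟩ := hexpW x hx
    rw [q_add Q (α • e) (β • f), hQ.smul, hQ.smul, hb.smul_left, hb.smul_right, hef, hQe, hQf] at hQx
    rcases h01 α with h | h <;> rcases h01 β with h' | h' <;> rw [h, h'] at hQx ⊢
    · simp at hQx
    · simp at hQx
    · simp at hQx
    · rw [one_smul, one_smul]
  -- a vector of W orthogonal to e and f vanishes
  have hW0 : ∀ x ∈ W, QuadraticMap.polar Q x e = 0 → QuadraticMap.polar Q x f = 0 → x = 0 := by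
    intro x hx hxe hxf
    obtain ⟨α, β, rfl⟩ := hexpW x hx
    rw [hb.add_left, hb.smul_left, hb.smul_left, hBself, hfe] at hxe
    rw [hb.add_left, hb.smul_left, hb.smul_left, hBself, hef] at hxf
    have hα : α = 0 := by linear_combination hxf
    have hβ : β = 0 := by linear_combination hxe
    rw [hα, hβ, zero_smul, zero_smul, add_zero]
  -- a non-zero singular vector orthogonal to W
  obtain ⟨z, hz0, hQz, hze, hzf⟩ : ∃ z : ι → F, z ≠ 0 ∧ Q z = 0 ∧
      QuadraticMap.polar Q z e = 0 ∧ QuadraticMap.polar Q z f = 0 := by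
    obtain ⟨x₁, hx₁0, hx₁⟩ := exists_orth_ne_zero_quad hQ ![e, f] (by omega)
    have h1e : QuadraticMap.polar Q x₁ e = 0 := hx₁ 0
    have h1f : QuadraticMap.polar Q x₁ f = 0 := hx₁ 1
    by_cases hQ1 : Q x₁ = 0
    · exact ⟨x₁, hx₁0, hQ1, h1e, h1f⟩
    · obtain ⟨y, hy⟩ := (hQ.nondegenerate x₁ hx₁0).2
      obtain ⟨x₂, hx₂0, hx₂⟩ := exists_orth_ne_zero_quad hQ ![e, f, x₁, y] (by omega)
      have h2e : QuadraticMap.polar Q x₂ e = 0 := hx₂ 0
      have h2f : QuadraticMap.polar Q x₂ f = 0 := hx₂ 1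
      have h21 : QuadraticMap.polar Q x₂ x₁ = 0 := hx₂ 2
      have h2y : QuadraticMap.polar Q x₂ y = 0 := hx₂ 3
      by_cases hQ2 : Q x₂ = 0
      · exact ⟨x₂, hx₂0, hQ2, h2e, h2f⟩
      · refine ⟨x₁ + x₂, ?_, ?_, ?_, ?_⟩
        · intro h
          have h' : x₁ = x₂ := by
            have h3 : x₁ + x₂ + x₂ = x₂ := by rw [h, zero_add]
            rw [add_assoc, hadd, add_zero] at h3
            exact h3
          rw [h'] at hy
          exact hy h2y
        · rw [q_add Q, (h01 _).resolve_left hQ1, (h01 _).resolve_left hQ2, polar_symm Q x₁ x₂, h21]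
          linear_combination h2
        · rw [hb.add_left, h1e, h2e, add_zero]
        · rw [hb.add_left, h1f, h2f, add_zero]
  -- its partner
  obtain ⟨b, hQb, hzb, hbe, hbf⟩ : ∃ b : ι → F, Q b = 1 ∧ QuadraticMap.polar Q z b = 1 ∧
      QuadraticMap.polar Q b e = 0 ∧ QuadraticMap.polar Q b f = 0 := by
    obtain ⟨y, hy⟩ := (hQ.nondegenerate z hz0).2
    have hy1 : QuadraticMap.polar Q z y = 1 := (h01 _).resolve_left hy
    set y' := y + QuadraticMap.polar Q y f • e + QuadraticMap.polar Q y e • f with hy'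
    have hy'e : QuadraticMap.polar Q y' e = 0 := by
      rw [hy', hb.add_left, hb.add_left, hb.smul_left, hb.smul_left, hBself, hfe]
      linear_combination (QuadraticMap.polar Q y e) * h2
    have hy'f : QuadraticMap.polar Q y' f = 0 := by
      rw [hy', hb.add_left, hb.add_left, hb.smul_left, hb.smul_left, hBself, hef]
      linear_combination (QuadraticMap.polar Q y f) * h2
    have hzy' : QuadraticMap.polar Q z y' = 1 := by
      rw [hy', hb.add_right, hb.add_right, hb.smul_right, hb.smul_right, hze, hzf, hy1]; ring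
    by_cases hQy' : Q y' = 0
    · refine ⟨y' + z, ?_, ?_, ?_, ?_⟩
      · rw [q_add Q, hQy', hQz, polar_symm Q y' z, hzy']; ring
      · rw [hb.add_right, hzy', hBself]; ring
      · rw [hb.add_left, hy'e, hze]; ring
      · rw [hb.add_left, hy'f, hzf]; ring
    · exact ⟨y', (h01 _).resolve_left hQy', hzy', hy'e, hy'f⟩
  have hQb0 : Q b ≠ 0 := by rw [hQb]; exact one_ne_zero
  have heb := (polar_symm Q e b).trans hbe
  have hfb := (polar_symm Q f b).trans hbf
  have hez := (polar_symm Q e z).trans hze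
  have hfz := (polar_symm Q f z).trans hzf
  have hbz := (polar_symm Q b z).trans hzb
  -- first element
  set a := u + z with ha
  have hQa : Q a = 1 := by
    rw [ha, q_add Q, hQu, hQz, hu, hb.add_left, hez, hfz]; ring
  have hQa0 : Q a ≠ 0 := by rw [hQa]; exact one_ne_zero
  have hub : QuadraticMap.polar Q u b = 0 := by rw [hu, hb.add_left, heb, hfb]; ring
  have hua : QuadraticMap.polar Q u a = 0 := by
    rw [ha, hb.add_right, hBself, hu, hb.add_left, hez, hfz]; ring
  have hea : QuadraticMap.polar Q e a = 1 := by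
    rw [ha, hu, hb.add_right, hb.add_right, hBself, hef, hez]; ring
  have hab : QuadraticMap.polar Q a b = 1 := by
    rw [ha, hb.add_left, hub, hzb]; ring
  have hba := (polar_symm Q b a).trans hab
  have s1 : ((reflGL Q hQ b hQb0 : GL ι F) : Matrix ι ι F) *ᵥ u = u := by
    rw [refl_two hQ h2 hQb, hub, zero_smul, add_zero]
  have s2 : ((reflGL Q hQ a hQa0 : GL ι F) : Matrix ι ι F) *ᵥ u = u := by
    rw [refl_two hQ h2 hQa, hua, zero_smul, add_zero]
  have hg₁u : ((reflComm Q hQ a b hQa0 hQb0 : GL ι F) : Matrix ι ι F) *ᵥ u = u := by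
    rw [reflComm_mulVec, s1, s2, s1, s2]
  have s3 : ((reflGL Q hQ b hQb0 : GL ι F) : Matrix ι ι F) *ᵥ e = e := by
    rw [refl_two hQ h2 hQb, heb, zero_smul, add_zero]
  have s4 : ((reflGL Q hQ a hQa0 : GL ι F) : Matrix ι ι F) *ᵥ e = e + a := by
    rw [refl_two hQ h2 hQa, hea, one_smul]
  have s5 : ((reflGL Q hQ b hQb0 : GL ι F) : Matrix ι ι F) *ᵥ (e + a) = e + a + b := by
    rw [refl_two hQ h2 hQb, hb.add_left, heb, hab, zero_add, one_smul]
  have s6 : ((reflGL Q hQ a hQa0 : GL ι F) : Matrix ι ι F) *ᵥ (e + a + b) = e + a + b := by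
    rw [refl_two hQ h2 hQa, hb.add_left, hb.add_left, hea, hBself, hba]
    have : (1 : F) + 0 + 1 = 0 := by linear_combination h2
    rw [this, zero_smul, add_zero]
  have hg₁e : ((reflComm Q hQ a b hQa0 hQb0 : GL ι F) : Matrix ι ι F) *ᵥ e = e + a + b := by
    rw [reflComm_mulVec, s3, s4, s5, s6]
  -- second element
  set b' := e + b with hb'
  have hQb' : Q b' = 1 := by rw [hb', q_add Q, hQe, hQb, heb]; ring
  have hQb'0 : Q b' ≠ 0 := by rw [hQb']; exact one_ne_zero
  have hub' : QuadraticMap.polar Q u b' = 1 := by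
    rw [hb', hb.add_right, hub, hu, hb.add_left, hBself, hfe]; ring
  have hb'u := (polar_symm Q b' u).trans hub'
  have t1 : ((reflGL Q hQ b' hQb'0 : GL ι F) : Matrix ι ι F) *ᵥ u = u + b' := by
    rw [refl_two hQ h2 hQb', hub', one_smul]
  have t2 : ((reflGL Q hQ u hQu0 : GL ι F) : Matrix ι ι F) *ᵥ (u + b') = b' := by
    rw [refl_two hQ h2 hQu, hb.add_left, hBself, hb'u, zero_add, one_smul, add_comm u b', add_assoc,
      hadd, add_zero]
  have t3 : ((reflGL Q hQ b' hQb'0 : GL ι F) : Matrix ι ι F) *ᵥ b' = b' := by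
    rw [refl_two hQ h2 hQb', hBself, zero_smul, add_zero]
  have t4 : ((reflGL Q hQ u hQu0 : GL ι F) : Matrix ι ι F) *ᵥ b' = b' + u := by
    rw [refl_two hQ h2 hQu, hb'u, one_smul]
  have hg₂u : ((reflComm Q hQ u b' hQu0 hQb'0 : GL ι F) : Matrix ι ι F) *ᵥ u = b' + u := by
    rw [reflComm_mulVec, t1, t2, t3, t4]
  refine ⟨stabilizing (glToMat ι F) {u} ⊓ omegaGL Q, lt_of_le_of_ne ?_ ?_,
    lt_of_le_of_ne inf_le_right ?_⟩
  · refine le_inf ?_ inf_le_right
    apply le_stabilizing_of_forall
    rintro g ⟨hgW, hgΩ⟩ x hx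
    rw [Set.mem_singleton_iff] at hx ⊢
    have hgI := (mem_isometryGroup_iff Q g).mp (omegaGL_le Q hgΩ)
    have hgu : (g : Matrix ι ι F) *ᵥ u ∈ W := ((mem_subspaceStabilizer_iff g W).mp hgW u).mp huW
    rw [hx]
    exact hnorm1 _ hgu (by rw [hgI, hQu])
  · intro hEq
    have hg₁K : reflComm Q hQ a b hQa0 hQb0 ∈ stabilizing (glToMat ι F) {u} ⊓ omegaGL Q := by
      refine ⟨?_, reflComm_mem hQ a b hQa0 hQb0⟩
      apply mem_stabilizing_of_forall
      intro x hx
      rw [Set.mem_singleton_iff] at hx ⊢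
      rw [hx, hg₁u]
    rw [← hEq] at hg₁K
    have hmem := ((mem_subspaceStabilizer_iff _ W).mp hg₁K.1 e).mp heW
    rw [hg₁e] at hmem
    have hzbW : z + b ∈ W := by
      have h1 : e + a + b = f + (z + b) := by
        rw [ha, hu]
        have := hadd e
        calc e + (e + f + z) + b = (e + e) + f + (z + b) := by abel
          _ = f + (z + b) := by rw [this, zero_add]
      rw [h1] at hmem
      have := W.sub_mem hmem hfW
      simpa using this
    have h0 := hW0 _ hzbW (by rw [hb.add_left, hze, hbe, add_zero])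
      (by rw [hb.add_left, hzf, hbf, add_zero])
    have : QuadraticMap.polar Q z (z + b) = 0 := by rw [h0]; exact bil_zero_right hb z
    rw [hb.add_right, hBself, hzb, zero_add] at this
    exact one_ne_zero this
  · intro hEq
    have hg₂K : reflComm Q hQ u b' hQu0 hQb'0 ∈ stabilizing (glToMat ι F) {u} ⊓ omegaGL Q := by
      rw [hEq]; exact reflComm_mem hQ u b' hQu0 hQb'0
    have hmem := ((mem_stabilizing_iff _ {u}).mp hg₂K.1 u).mp rfl
    rw [hg₂u, Set.mem_singleton_iff] at hmem
    have hb'0 : b' = 0 := by simpa using hmem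
    rw [hb'0, q_zero hQ] at hQb'
    exact zero_ne_one hQb'

end Plane2

section ReflComm2

variable {ι : Type} [Fintype ι] [DecidableEq ι] {F : Type*} [Field F] {Q : (ι → F) → F}

/-- The commutator of two reflections in characteristic two. -/
lemma reflComm_two (hQ : IsNondegenerateQuadraticForm Q) (h2 : (2 : F) = 0) {a b : ι → F}
    (hQa : Q a = 1) (hQb : Q b = 1) (ha : Q a ≠ 0) (hb : Q b ≠ 0)
    (hab : QuadraticMap.polar Q a b = 1) (x : ι → F) :
    ((reflComm Q hQ a b ha hb : GL ι F) : Matrix ι ι F) *ᵥ x =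
      x + QuadraticMap.polar Q x a • a +
        (QuadraticMap.polar Q x a + QuadraticMap.polar Q x b) • b := by
  have hbl := hQ.polar_bilinear
  have hba := (polar_symm Q b a).trans hab
  have hBself : ∀ x, QuadraticMap.polar Q x x = 0 := fun x => by rw [polar_self hQ, h2, zero_mul]
  set α := QuadraticMap.polar Q x a with hα
  set β := QuadraticMap.polar Q x b with hβ
  have s1 : ((reflGL Q hQ b hb : GL ι F) : Matrix ι ι F) *ᵥ x = x + β • b := by
    rw [refl_two hQ h2 hQb]
  have s2 : ((reflGL Q hQ a ha : GL ι F) : Matrix ι ι F) *ᵥ (x + β • b) =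
      x + β • b + (α + β) • a := by
    rw [refl_two hQ h2 hQa, hbl.add_left, hbl.smul_left, hba, mul_one]
  have s3 : ((reflGL Q hQ b hb : GL ι F) : Matrix ι ι F) *ᵥ (x + β • b + (α + β) • a) =
      x + β • b + (α + β) • a + α • b := by
    rw [refl_two hQ h2 hQb, hbl.add_left, hbl.add_left, hbl.smul_left, hbl.smul_left, hBself, hab,
      ← hβ]
    congr 2
    linear_combination β * h2
  have s4 : ((reflGL Q hQ a ha : GL ι F) : Matrix ι ι F) *ᵥ (x + β • b + (α + β) • a + α • b) =
      x + β • b + (α + β) • a + α • b + β • a := by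
    rw [refl_two hQ h2 hQa, hbl.add_left, hbl.add_left, hbl.add_left, hbl.smul_left, hbl.smul_left,
      hbl.smul_left, hBself, hba, ← hα]
    congr 2
    linear_combination α * h2
  rw [reflComm_mulVec, s1, s2, s3, s4]
  funext i
  simp only [Pi.add_apply, Pi.smul_apply, smul_eq_mul]
  linear_combination (β * a i) * h2

end ReflComm2

end Cfsg.Agent.H95
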