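import Cfsg.Agent.H95.Decomp2
import Cfsg.Agent.H95.QuadPlane2

set_option autoImplicit false
set_option linter.unusedSectionVars false
set_option linter.unusedVariables false

/-! Helper lemmas (helper95): hyperbolic bases of plus-type planes, and the non-maximality of
the stabiliser in `Ω` of an orthogonal decomposition into plus-type planes over the field
with five elements. -/

namespace Cfsg.Agent.H95

open Cfsg Cfsg.Geo
open scoped MatrixGroups Matrix

section PlusPlane

variable {ι : Type} [Fintype ι] [DecidableEq ι] {F : Type*} [Field F] {Q : (ι → F) → F}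

/-- A hyperbolic basis of a non-degenerate plus-type plane. -/
lemma plus_plane_basis (hQ : IsNondegenerateQuadraticForm Q) (P : Submodule F (ι → F))
    (hdim : Module.finrank F P = 2) (hP : IsNondegenerateOn (QuadraticMap.polar Q) P)
    (hplus : IsPlusTypeOn Q P) :
    ∃ e f : ι → F, e ∈ P ∧ f ∈ P ∧ Q e = 0 ∧ Q f = 0 ∧ QuadraticMap.polar Q e f = 1 ∧
      ∀ x ∈ P, ∃ α β : F, x = α • e + β • f := by
  have hb := hQ.polar_bilinear
  obtain ⟨U, hUW, hUs, hUd⟩ := hplus
  have hU1 : Module.finrank F U = 1 := by omega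
  have hUne : U ≠ ⊥ := by
    intro h
    rw [h, finrank_bot] at hU1
    omega
  obtain ⟨e, heU, he0⟩ := (Submodule.ne_bot_iff U).mp hUne
  have hQe : Q e = 0 := hUs e heU
  have heP := hUW heU
  obtain ⟨⟨y, hyP, hye⟩, -⟩ := hP e heP he0
  obtain ⟨y', hy'def⟩ : ∃ y', y' = (QuadraticMap.polar Q y e)⁻¹ • y := ⟨_, rfl⟩
  have hy'P : y' ∈ P := by rw [hy'def]; exact P.smul_mem _ hyP
  have hy'e : QuadraticMap.polar Q y' e = 1 := by
    rw [hy'def, hb.smul_left, inv_mul_cancel₀ hye]
  have hee : QuadraticMap.polar Q e e = 0 := by rw [polar_self hQ, hQe, mul_zero]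
  obtain ⟨f, hfdef⟩ : ∃ f, f = y' - Q y' • e := ⟨_, rfl⟩
  have hfP : f ∈ P := by rw [hfdef]; exact P.sub_mem hy'P (P.smul_mem _ heP)
  have hQf : Q f = 0 := by
    rw [hfdef, q_sub hQ, hQ.smul, hQe, hb.smul_right, hy'e]
    ring
  have hef : QuadraticMap.polar Q e f = 1 := by
    rw [hfdef, bil_sub_right hb, hb.smul_right, hee, polar_symm Q e y', hy'e]
    ring
  have hfe : QuadraticMap.polar Q f e = 1 := (polar_symm Q f e).trans hef
  have hff : QuadraticMap.polar Q f f = 0 := by rw [polar_self hQ, hQf, mul_zero]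
  have hli : ∀ s t : F, s • e + t • f = 0 → s = 0 ∧ t = 0 := by
    intro s t hst
    have h1 := congrArg (fun z => QuadraticMap.polar Q z f) hst
    have h2 := congrArg (fun z => QuadraticMap.polar Q z e) hst
    simp only [hb.add_left, hb.smul_left, hef, hff, hee, hfe, bil_zero_left hb] at h1 h2
    exact ⟨by linear_combination h1, by linear_combination h2⟩
  exact ⟨e, f, heP, hfP, hQe, hQf, hef,
    fun x hx => mem_pair_of_finrank_two P hdim heP hfP hli hx⟩

variable [Fintype F]

lemma five_eq_zero_of_card_five (hq : Fintype.card F = 5) : (5 : F) = 0 := by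
  have := FiniteField.cast_card_eq_zero F
  rw [hq] at this
  exact_mod_cast this

lemma pow_four_of_card_five (hq : Fintype.card F = 5) {a : F} (ha : a ≠ 0) : a ^ 4 = 1 := by
  have h := FiniteField.pow_card a
  rw [hq] at h
  have h' : a * (a ^ 4 - 1) = 0 := by linear_combination h
  rcases mul_eq_zero.mp h' with h0 | h1
  · exact absurd h0 ha
  · linear_combination h1

/-- Two vectors of norm one in a plus-type plane over the field with five elements are equal,
opposite or orthogonal. -/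
lemma plane_norm_one_five (hq : Fintype.card F = 5) (hQ : IsNondegenerateQuadraticForm Q)
    (P : Submodule F (ι → F)) (hdim : Module.finrank F P = 2)
    (hP : IsNondegenerateOn (QuadraticMap.polar Q) P) (hplus : IsPlusTypeOn Q P)
    {v v' : ι → F} (hv : v ∈ P) (hv' : v' ∈ P) (hQv : Q v = 1) (hQv' : Q v' = 1) :
    v' = v ∨ v' = -v ∨ QuadraticMap.polar Q v v' = 0 := by
  have hb := hQ.polar_bilinear
  obtain ⟨e, f, he, hf, hQe, hQf, hef, hexp⟩ := plus_plane_basis hQ P hdim hP hplus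
  have hfe : QuadraticMap.polar Q f e = 1 := (polar_symm Q f e).trans hef
  have hee : QuadraticMap.polar Q e e = 0 := by rw [polar_self hQ, hQe, mul_zero]
  have hff : QuadraticMap.polar Q f f = 0 := by rw [polar_self hQ, hQf, mul_zero]
  obtain ⟨α, β, rfl⟩ := hexp v hv
  obtain ⟨α', β', rfl⟩ := hexp v' hv'
  have hn : ∀ a b : F, Q (a • e + b • f) = a * b := by
    intro a b
    rw [q_add Q, hQ.smul, hQ.smul, hQe, hQf, hb.smul_left, hb.smul_right, hef]
    ring
  rw [hn] at hQv hQv'
  have hpol : QuadraticMap.polar Q (α • e + β • f) (α' • e + β' • f) = α * β' + β * α' := by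
    simp only [hb.add_left, hb.add_right, hb.smul_left, hb.smul_right, hee, hff, hef, hfe]
    ring
  obtain ⟨ρ, hρ⟩ : ∃ ρ, ρ = α' * β := ⟨_, rfl⟩
  have h1 : α' = ρ * α := by rw [hρ]; linear_combination (-α') * hQv
  have h2 : β = ρ * β' := by rw [hρ]; linear_combination (-β) * hQv'
  have hρ0 : ρ ≠ 0 := by
    intro h0
    rw [h0, zero_mul] at h1
    rw [h1, zero_mul] at hQv'
    exact zero_ne_one hQv'
  have h4 := pow_four_of_card_five hq hρ0
  have h5 : (ρ - 1) * (ρ + 1) * (ρ ^ 2 + 1) = 0 := by linear_combination h4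
  rcases mul_eq_zero.mp h5 with h6 | h6
  · rcases mul_eq_zero.mp h6 with h7 | h7
    · left
      have hρ1 : ρ = 1 := sub_eq_zero.mp h7
      rw [hρ1, one_mul] at h1 h2
      rw [h1, h2]
    · right; left
      have hρ1 : ρ = -1 := eq_neg_of_add_eq_zero_left h7
      rw [hρ1] at h1 h2
      have h3 : β' = -β := by linear_combination h2
      rw [h1, h3]
      module
  · right; right
    rw [hpol, h1, h2]
    linear_combination (α * β') * h6

end PlusPlane

section Decomp5

variable {ι : Type} [Fintype ι] [DecidableEq ι] {F : Type*} [Field F] [Fintype F]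
  {Q : (ι → F) → F}

/-- Over the field with five elements, the stabiliser in `Ω` of an orthogonal decomposition into
at least seven plus-type planes is not maximal. -/
theorem decomp2_not_max_five (hq : Fintype.card F = 5) (hQ : IsNondegenerateQuadraticForm Q)
    {t : ℕ} (D : Fin t → Submodule F (ι → F)) (hD : IsOrthogonalMDecomposition Q 2 D)
    (hplus : ∀ i, IsPlusTypeOn Q (D i)) (ht : 7 ≤ t) :
    ∃ K : Subgroup (GL ι F), decompositionStabilizer D ⊓ omegaGL Q < K ∧ K < omegaGL Q := by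
  classical
  have h5 := five_eq_zero_of_card_five hq
  have h2 : (2 : F) ≠ 0 := by
    intro h
    have : (1 : F) = 0 := by linear_combination h5 - 2 * h
    exact one_ne_zero this
  have hb := hQ.polar_bilinear
  have hdimD := hD.decomp.decomp.finrank_eq
  have hndD := hD.decomp.nondegenerate
  have hort : ∀ i j, i ≠ j → ∀ u ∈ D i, ∀ v ∈ D j, QuadraticMap.polar Q u v = 0 :=
    hD.decomp.orthogonal
  have hex : ∀ i, ∃ v w : ι → F, v ∈ D i ∧ w ∈ D i ∧ Q v = 1 ∧ Q w = 1 ∧
      QuadraticMap.polar Q v w = 0 := by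
    intro i
    obtain ⟨e, f, he, hf, hQe, hQf, hef, -⟩ :=
      plus_plane_basis hQ (D i) (hdimD i) (hndD i) (hplus i)
    have hfe : QuadraticMap.polar Q f e = 1 := (polar_symm Q f e).trans hef
    have hee : QuadraticMap.polar Q e e = 0 := by rw [polar_self hQ, hQe, mul_zero]
    have hff : QuadraticMap.polar Q f f = 0 := by rw [polar_self hQ, hQf, mul_zero]
    have hn : ∀ a b : F, Q (a • e + b • f) = a * b := by
      intro a b
      rw [q_add Q, hQ.smul, hQ.smul, hQe, hQf, hb.smul_left, hb.smul_right, hef]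
      ring
    refine ⟨(1 : F) • e + (1 : F) • f, (2 : F) • e + (3 : F) • f,
      (D i).add_mem ((D i).smul_mem _ he) ((D i).smul_mem _ hf),
      (D i).add_mem ((D i).smul_mem _ he) ((D i).smul_mem _ hf), ?_, ?_, ?_⟩
    · rw [hn]; ring
    · rw [hn]; linear_combination h5
    · simp only [hb.add_left, hb.add_right, hb.smul_left, hb.smul_right, hee, hff, hef, hfe]
      linear_combination h5
  choose v w hvD hwD hQv hQw hvw using hex
  set S : Set (ι → F) := {x | ∃ i, x ∈ D i ∧ Q x = 1} with hS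
  have hvS : ∀ i, v i ∈ S := fun i => ⟨i, hvD i, hQv i⟩
  have hnegS : ∀ x ∈ S, -x ∈ S := by
    rintro x ⟨i, hxD, hxQ⟩
    exact ⟨i, (D i).neg_mem hxD, by rw [q_neg hQ, hxQ]⟩
  have hSS : ∀ x ∈ S, ∀ x' ∈ S, x' = x ∨ x' = -x ∨ QuadraticMap.polar Q x x' = 0 := by
    rintro x ⟨i, hxD, hxQ⟩ x' ⟨j, hx'D, hx'Q⟩
    by_cases hij : i = j
    · subst hij
      exact plane_norm_one_five hq hQ (D i) (hdimD i) (hndD i) (hplus i) hxD hx'D hxQ hx'Q
    · right; right
      exact hort i j hij x hxD x' hx'D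
  have hvv : ∀ i j, i ≠ j → QuadraticMap.polar Q (v i) (v j) = 0 := fun i j hij =>
    hort i j hij _ (hvD i) _ (hvD j)
  have hwv : ∀ i j, i ≠ j → QuadraticMap.polar Q (w i) (v j) = 0 := fun i j hij =>
    hort i j hij _ (hwD i) _ (hvD j)
  have hQne : ∀ i, Q (v i) ≠ 0 := fun i => by rw [hQv]; exact one_ne_zero
  set j0 : Fin t := ⟨0, by omega⟩ with hj0
  set j1 : Fin t := ⟨1, by omega⟩ with hj1
  set j2 : Fin t := ⟨2, by omega⟩ with hj2
  set j3 : Fin t := ⟨3, by omega⟩ with hj3
  set j4 : Fin t := ⟨4, by omega⟩ with hj4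
  set j5 : Fin t := ⟨5, by omega⟩ with hj5
  set j6 : Fin t := ⟨6, by omega⟩ with hj6
  have hne : ∀ a b : ℕ, ∀ (ha : a < t) (hb : b < t), a ≠ b → (⟨a, ha⟩ : Fin t) ≠ ⟨b, hb⟩ := by
    intro a b ha hb hab h
    exact hab (Fin.mk.inj_iff.mp h)
  have hlt : stabilizing (glToMat ι F) S ⊓ omegaGL Q < omegaGL Q := by
    refine frameSet_lt hQ h2 S hSS (r := 6) (by push_cast; linear_combination h5) (by norm_num)
      (v j0) (w j0) ![v j1, v j2, v j3, v j4, v j5, v j6] (hvS _) ?_ (hQne _)
      (by rw [hQv, hQw]) ?_ (hvw j0) ?_ ?_ ?_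
    · intro i; fin_cases i <;> exact hvS _
    · intro i; fin_cases i <;> simp [hQv]
    · intro i; fin_cases i <;> exact hvv _ _ (hne _ _ _ _ (by norm_num))
    · intro i; fin_cases i <;> exact hwv _ _ (hne _ _ _ _ (by norm_num))
    · intro i j hij
      fin_cases i <;> fin_cases j <;>
        first
          | exact absurd rfl hij
          | exact hvv _ _ (hne _ _ _ _ (by norm_num))
  refine ⟨stabilizing (glToMat ι F) S ⊓ omegaGL Q, lt_of_le_of_ne ?_ ?_, hlt⟩
  · refine le_inf ?_ inf_le_right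
    apply le_stabilizing_of_forall
    rintro g ⟨⟨σ, hσ⟩, hgΩ⟩ x ⟨i, hxD, hxQ⟩
    have hgI := (mem_isometryGroup_iff Q g).mp (omegaGL_le Q hgΩ)
    refine ⟨σ i, ?_, by rw [hgI, hxQ]⟩
    rw [← hσ i]
    exact ⟨x, hxD, by rw [Matrix.toLin'_apply]⟩
  · intro hEq
    have h01 : j0 ≠ j1 := hne _ _ _ _ (by norm_num)
    have h02 : j0 ≠ j2 := hne _ _ _ _ (by norm_num)
    have h12 : j1 ≠ j2 := hne _ _ _ _ (by norm_num)
    obtain ⟨g₁, hg₁K, hg₁a, -, -, hg₁fix⟩ := frameSet_three_cycle hQ h2 S hSS hnegS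
      (a := v j0) (b := v j1) (c := v j2) (hvS _) (hvS _) (hvS _) (hQne _)
      (by rw [hQv, hQv]) (by rw [hQv, hQv]) (hvv _ _ h01) (hvv _ _ h02) (hvv _ _ h12)
    rw [← hEq] at hg₁K
    obtain ⟨σ, hσ⟩ := hg₁K.1
    have hQw0 : Q (w j0) ≠ 0 := by rw [hQw]; exact one_ne_zero
    have hfix : (g₁ : Matrix ι ι F) *ᵥ w j0 = w j0 :=
      hg₁fix (w j0) ((polar_symm Q (w j0) (v j0)).trans (hvw j0)) (hwv j0 j1 h01)
        (hwv j0 j2 h02)
    have hm1 : w j0 ∈ D (σ j0) := by
      rw [← hσ j0]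
      exact ⟨w j0, hwD j0, by rw [Matrix.toLin'_apply, hfix]⟩
    have hm2 : v j2 ∈ D (σ j0) := by
      rw [← hσ j0]
      exact ⟨v j0, hvD _, by rw [Matrix.toLin'_apply, hg₁a]⟩
    by_cases hs : σ j0 = j0
    · rw [hs] at hm2
      have := hort j0 j2 h02 _ hm2 _ (hvD j2)
      rw [polar_self hQ, hQv] at this
      apply h2
      linear_combination this
    · have := hort (σ j0) j0 hs _ hm1 _ (hwD j0)
      rw [polar_self hQ] at this
      exact (mul_ne_zero h2 hQw0) this

end Decomp5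

end Cfsg.Agent.H95
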