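import Cfsg.Agent.H95.Decomp5
import Cfsg.Agent.H95.S5635a

set_option autoImplicit false
set_option linter.unusedSectionVars false
set_option linter.unusedVariables false
set_option linter.unusedSimpArgs false

/-! Helper lemmas (helper95): the non-maximality of the stabiliser in `Ω` of an orthogonal
decomposition into plus-type planes over the field with two elements. -/

namespace Cfsg.Agent.H95

open Cfsg Cfsg.Geo
open scoped MatrixGroups Matrix

section DecompEven

variable {ι : Type} [Fintype ι] [DecidableEq ι] {F : Type*} [Field F] [Fintype F]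
  {Q : (ι → F) → F}

/-- Over the field with two elements, the stabiliser in `Ω` of an orthogonal decomposition into
at least four plus-type planes is not maximal (it fixes the sum of the non-singular vectors of
the planes). -/
theorem decomp2_not_max_two (hq : Fintype.card F = 2) (hQ : IsNondegenerateQuadraticForm Q)
    {t : ℕ} (D : Fin t → Submodule F (ι → F)) (hD : IsOrthogonalMDecomposition Q 2 D)
    (hplus : ∀ i, IsPlusTypeOn Q (D i)) (ht : 4 ≤ t) :
    ∃ K : Subgroup (GL ι F), decompositionStabilizer D ⊓ omegaGL Q < K ∧ K < omegaGL Q := by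
  classical
  have h2 := two_eq_zero_of_card_two hq
  have h01 := eq_zero_or_one_of_card_two hq
  have hb := hQ.polar_bilinear
  have hdimD := hD.decomp.decomp.finrank_eq
  have hndD := hD.decomp.nondegenerate
  have hort : ∀ i j, i ≠ j → ∀ u ∈ D i, ∀ v ∈ D j, QuadraticMap.polar Q u v = 0 :=
    hD.decomp.orthogonal
  have hex := fun i => plus_plane_basis hQ (D i) (hdimD i) (hndD i) (hplus i)
  choose e f he hf hQe hQf hef hexp using hex
  have Pee : ∀ i j, QuadraticMap.polar Q (e i) (e j) = 0 := by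
    intro i j
    by_cases hij : i = j
    · subst hij; rw [polar_self hQ, hQe, mul_zero]
    · exact hort i j hij _ (he i) _ (he j)
  have Pff : ∀ i j, QuadraticMap.polar Q (f i) (f j) = 0 := by
    intro i j
    by_cases hij : i = j
    · subst hij; rw [polar_self hQ, hQf, mul_zero]
    · exact hort i j hij _ (hf i) _ (hf j)
  have Pef : ∀ i j, QuadraticMap.polar Q (e i) (f j) = if i = j then 1 else 0 := by
    intro i j
    by_cases hij : i = j
    · subst hij; rw [if_pos rfl, hef]
    · rw [if_neg hij]; exact hort i j hij _ (he i) _ (hf j)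
  have Pfe : ∀ i j, QuadraticMap.polar Q (f i) (e j) = if i = j then 1 else 0 := by
    intro i j
    rw [polar_symm Q (f i) (e j), Pef j i]
    by_cases hij : i = j
    · rw [if_pos hij, if_pos hij.symm]
    · rw [if_neg hij, if_neg (Ne.symm hij)]
  have hn : ∀ i (a b : F), Q (a • e i + b • f i) = a * b := by
    intro i a b
    rw [q_add Q, hQ.smul, hQ.smul, hQe, hQf, hb.smul_left, hb.smul_right, hef]
    ring
  obtain ⟨v, hvdef⟩ : ∃ v : Fin t → (ι → F), v = fun i => e i + f i := ⟨_, rfl⟩
  have hvi : ∀ i, v i = e i + f i := fun i => by rw [hvdef]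
  have hvD : ∀ i, v i ∈ D i := fun i => by rw [hvi]; exact (D i).add_mem (he i) (hf i)
  have hQv : ∀ i, Q (v i) = 1 := by
    intro i
    have := hn i 1 1
    rw [one_smul, one_smul, mul_one] at this
    rw [hvi, this]
  have Pve : ∀ i j, QuadraticMap.polar Q (v i) (e j) = if i = j then 1 else 0 := by
    intro i j
    rw [hvi, hb.add_left, Pee, Pfe, zero_add]
  have Pev : ∀ i j, QuadraticMap.polar Q (e i) (v j) = if i = j then 1 else 0 := by
    intro i j
    rw [hvi, hb.add_right, Pee, Pef, zero_add]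
  have Pvv : ∀ i j, QuadraticMap.polar Q (v i) (v j) = 0 := by
    intro i j
    by_cases hij : i = j
    · subst hij; rw [polar_self hQ, h2, zero_mul]
    · exact hort i j hij _ (hvD i) _ (hvD j)
  have huniq : ∀ i, ∀ x ∈ D i, Q x = 1 → x = v i := by
    intro i x hx hQx
    obtain ⟨α, β, rfl⟩ := hexp i x hx
    rw [hn] at hQx
    have hα : α = 1 := by
      rcases h01 α with h | h
      · rw [h, zero_mul] at hQx
        exact absurd hQx zero_ne_one
      · exact h
    have hβ : β = 1 := by
      rcases h01 β with h | h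
      · rw [h, mul_zero] at hQx
        exact absurd hQx zero_ne_one
      · exact h
    rw [hα, hβ, one_smul, one_smul, hvi]
  obtain ⟨v₀, hv₀⟩ : ∃ v₀, v₀ = ∑ i, v i := ⟨_, rfl⟩
  have hv0pol : ∀ j, ∀ x ∈ D j, QuadraticMap.polar Q v₀ x = QuadraticMap.polar Q (v j) x := by
    intro j x hx
    rw [hv₀, bil_sum_left hb, Finset.sum_eq_single j]
    · intro i _ hij
      exact hort i j hij _ (hvD i) _ hx
    · intro h
      exact absurd (Finset.mem_univ j) h
  have pv_e : ∀ j, QuadraticMap.polar Q v₀ (e j) = 1 := by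
    intro j
    rw [hv0pol j _ (he j), Pve, if_pos rfl]
  have pv_v : ∀ j, QuadraticMap.polar Q v₀ (v j) = 0 := by
    intro j
    rw [hv0pol j _ (hvD j), Pvv]
  obtain ⟨j0, j1, j2, j3, h01', h02, h03, h12, h13, h23⟩ : ∃ j0 j1 j2 j3 : Fin t,
      j0 ≠ j1 ∧ j0 ≠ j2 ∧ j0 ≠ j3 ∧ j1 ≠ j2 ∧ j1 ≠ j3 ∧ j2 ≠ j3 := by
    refine ⟨⟨0, by omega⟩, ⟨1, by omega⟩, ⟨2, by omega⟩, ⟨3, by omega⟩, ?_, ?_, ?_, ?_, ?_, ?_⟩ <;>
      simp [Fin.ext_iff]
  have n10 := h01'.symm
  have n20 := h02.symm
  have n30 := h03.symm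
  have n21 := h12.symm
  have n31 := h13.symm
  have n32 := h23.symm
  refine ⟨stabilizing (glToMat ι F) {v₀} ⊓ omegaGL Q, lt_of_le_of_ne ?_ ?_,
    lt_of_le_of_ne inf_le_right ?_⟩
  · -- the stabiliser of the decomposition fixes v₀
    refine le_inf ?_ inf_le_right
    apply le_stabilizing_of_forall
    rintro g ⟨⟨σ, hσ⟩, hgΩ⟩ x hx
    rw [Set.mem_singleton_iff] at hx
    rw [Set.mem_singleton_iff, hx]
    have hgI := (mem_isometryGroup_iff Q g).mp (omegaGL_le Q hgΩ)
    have hgv : ∀ i, (g : Matrix ι ι F) *ᵥ v i = v (σ i) := by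
      intro i
      apply huniq
      · rw [← hσ i]
        exact ⟨v i, hvD i, by rw [Matrix.toLin'_apply]⟩
      · rw [hgI, hQv]
    rw [hv₀, Matrix.mulVec_sum]
    simp only [hgv]
    exact Equiv.sum_comp σ v
  · -- an element fixing v₀ but not the decomposition
    intro hEq
    have hQa : Q (v j0 + e j1 + e j2) = 1 := by
      rw [q_add Q, q_add Q, hQv, hQe, hQe]
      simp [hb.add_left, Pve, Pee, h01', h02]
    have hQb : Q (v j1 + e j2 + e j3) = 1 := by
      rw [q_add Q, q_add Q, hQv, hQe, hQe]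
      simp [hb.add_left, Pve, Pee, h12, h13]
    have hab : QuadraticMap.polar Q (v j0 + e j1 + e j2) (v j1 + e j2 + e j3) = 1 := by
      simp [hb.add_left, hb.add_right, Pvv, Pve, Pev, Pee, h01', h02, h03, h12, h13, h23,
        n10, n20, n30, n21, n31, n32]
    have hne1 : Q (v j0 + e j1 + e j2) ≠ 0 := by rw [hQa]; exact one_ne_zero
    have hne2 : Q (v j1 + e j2 + e j3) ≠ 0 := by rw [hQb]; exact one_ne_zero
    have hg := reflComm_two hQ h2 hQa hQb hne1 hne2 hab
    have hgΩ := reflComm_mem hQ (v j0 + e j1 + e j2) (v j1 + e j2 + e j3) hne1 hne2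
    have hpa : QuadraticMap.polar Q v₀ (v j0 + e j1 + e j2) = 0 := by
      rw [hb.add_right, hb.add_right, pv_v, pv_e, pv_e]
      linear_combination h2
    have hpb : QuadraticMap.polar Q v₀ (v j1 + e j2 + e j3) = 0 := by
      rw [hb.add_right, hb.add_right, pv_v, pv_e, pv_e]
      linear_combination h2
    have hfix : ((reflComm Q hQ (v j0 + e j1 + e j2) (v j1 + e j2 + e j3) hne1 hne2 : GL ι F) :
        Matrix ι ι F) *ᵥ v₀ = v₀ := by
      rw [hg, hpa, hpb]
      simp
    have hK : reflComm Q hQ (v j0 + e j1 + e j2) (v j1 + e j2 + e j3) hne1 hne2 ∈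
        stabilizing (glToMat ι F) {v₀} ⊓ omegaGL Q := by
      refine ⟨mem_stabilizing_of_forall _ _ ?_, hgΩ⟩
      intro x hx
      rw [Set.mem_singleton_iff] at hx
      rw [Set.mem_singleton_iff, hx, hfix]
    rw [← hEq] at hK
    obtain ⟨σ, hσ⟩ := hK.1
    have hz : ((reflComm Q hQ (v j0 + e j1 + e j2) (v j1 + e j2 + e j3) hne1 hne2 : GL ι F) :
        Matrix ι ι F) *ᵥ e j0 ∈ D (σ j0) := by
      rw [← hσ j0]
      exact ⟨e j0, he j0, by rw [Matrix.toLin'_apply]⟩
    have hze : ((reflComm Q hQ (v j0 + e j1 + e j2) (v j1 + e j2 + e j3) hne1 hne2 : GL ι F) :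
        Matrix ι ι F) *ᵥ e j0 = e j0 + (v j0 + e j1 + e j2) + (v j1 + e j2 + e j3) := by
      rw [hg]
      simp [hb.add_right, Pev, Pee, h01', h02, h03, h12, h13, h23, n10, n20, n30, n21, n31, n32]
    rw [hze] at hz
    have hs0 : σ j0 = j0 := by
      by_contra hs
      have := hort (σ j0) j0 hs _ hz _ (he j0)
      simp [hb.add_left, Pee, Pve, h01', h02, h03, h12, h13, h23, n10, n20, n30, n21, n31,
        n32] at this
    have hs1 : σ j0 = j1 := by
      by_contra hs
      have := hort (σ j0) j1 hs _ hz _ (he j1)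
      simp [hb.add_left, Pee, Pve, h01', h02, h03, h12, h13, h23, n10, n20, n30, n21, n31,
        n32] at this
    exact h01' (hs0.symm.trans hs1)
  · -- an element of Ω moving v₀
    intro hEq
    have hQa : Q (v j0 + e j1) = 1 := by
      rw [q_add Q, hQv, hQe, Pve, if_neg h01']
      ring
    have hQb : Q (v j1) = 1 := hQv j1
    have hab : QuadraticMap.polar Q (v j0 + e j1) (v j1) = 1 := by
      rw [hb.add_left, Pvv, Pev, if_pos rfl, zero_add]
    have hne1 : Q (v j0 + e j1) ≠ 0 := by rw [hQa]; exact one_ne_zero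
    have hne2 : Q (v j1) ≠ 0 := by rw [hQb]; exact one_ne_zero
    have hg := reflComm_two hQ h2 hQa hQb hne1 hne2 hab
    have hgΩ := reflComm_mem hQ (v j0 + e j1) (v j1) hne1 hne2
    rw [← hEq] at hgΩ
    have h1 := ((mem_stabilizing_iff _ _).mp hgΩ.1 v₀).mp rfl
    rw [Set.mem_singleton_iff, hg, hb.add_right, pv_v, pv_e, pv_v] at h1
    have h3 : v j0 + e j1 + v j1 = 0 := by
      have h4 : v₀ + (0 + 1 : F) • (v j0 + e j1) + (0 + 1 + 0 : F) • v j1 - v₀ = 0 := by
        rw [h1, sub_self]
      rw [← h4]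
      module
    have h5 := congrArg (fun z => QuadraticMap.polar Q z (e j0)) h3
    simp [hb.add_left, Pee, Pve, bil_zero_left hb, h01', n10] at h5

end DecompEven

end Cfsg.Agent.H95
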