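import Cfsg.Agent.H95.DecompEven

set_option autoImplicit false
set_option linter.unusedSectionVars false
set_option linter.unusedVariables false
set_option linter.unusedSimpArgs false

/-! Helper lemmas (helper95): the non-maximality of the stabiliser in `Ω` of an orthogonal
decomposition into plus-type planes over the field with four elements (it preserves a form
of the space over the prime field). -/

namespace Cfsg.Agent.H95

open Cfsg Cfsg.Geo
open scoped MatrixGroups Matrix

section DecompFour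

variable {ι : Type} [Fintype ι] [DecidableEq ι] {F : Type*} [Field F] [Fintype F]
  {Q : (ι → F) → F}

/-- Over the field with four elements, the stabiliser in `Ω` of an orthogonal decomposition into
at least three plus-type planes is not maximal. -/
theorem decomp2_not_max_four (hq : Fintype.card F = 4) (hQ : IsNondegenerateQuadraticForm Q)
    {t : ℕ} (D : Fin t → Submodule F (ι → F)) (hD : IsOrthogonalMDecomposition Q 2 D)
    (hplus : ∀ i, IsPlusTypeOn Q (D i)) (ht : 3 ≤ t) :
    ∃ K : Subgroup (GL ι F), decompositionStabilizer D ⊓ omegaGL Q < K ∧ K < omegaGL Q := by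
  classical
  have h4 : (4 : F) = 0 := by
    have := FiniteField.cast_card_eq_zero F
    rw [hq] at this
    exact_mod_cast this
  have h2 : (2 : F) = 0 := by
    have : (2 : F) * 2 = 0 := by linear_combination h4
    exact mul_self_eq_zero.mp this
  obtain ⟨ω, hω0, hω1⟩ : ∃ ω : F, ω ≠ 0 ∧ ω ≠ 1 := by
    by_contra hcon
    push Not at hcon
    have hsub : (Finset.univ : Finset F) ⊆ {0, 1} := by
      intro a _
      by_cases ha : a = 0
      · simp [ha]
      · simp [hcon a ha]
    have h1 := Finset.card_le_card hsub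
    have h3 : ({0, 1} : Finset F).card ≤ 2 := Finset.card_le_two
    rw [Finset.card_univ, hq] at h1
    omega
  have hcube : ∀ a : F, a ≠ 0 → a ^ 3 = 1 := by
    intro a ha
    have h := FiniteField.pow_card a
    rw [hq] at h
    have h' : a * (a ^ 3 - 1) = 0 := by linear_combination h
    rcases mul_eq_zero.mp h' with h0 | h1
    · exact absurd h0 ha
    · linear_combination h1
  have hquad : ∀ a : F, a ≠ 0 → a = 1 ∨ a ^ 2 + a + 1 = 0 := by
    intro a ha
    have h3 := hcube a ha
    have : (a - 1) * (a ^ 2 + a + 1) = 0 := by linear_combination h3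
    rcases mul_eq_zero.mp this with h | h
    · left; exact sub_eq_zero.mp h
    · right; exact h
  have hω : ω ^ 2 + ω + 1 = 0 := (hquad ω hω0).resolve_left hω1
  have P2add : ∀ c d : F, (c = 0 ∨ c = 1) → (d = 0 ∨ d = 1) → (c + d = 0 ∨ c + d = 1) := by
    rintro c d (rfl | rfl) (rfl | rfl)
    · left; ring
    · right; ring
    · right; ring
    · left; linear_combination h2
  have P2mul : ∀ c d : F, (c = 0 ∨ c = 1) → (d = 0 ∨ d = 1) → (c * d = 0 ∨ c * d = 1) := by
    rintro c d (rfl | rfl) (rfl | rfl) <;> simp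
  have hb := hQ.polar_bilinear
  have hdimD := hD.decomp.decomp.finrank_eq
  have hndD := hD.decomp.nondegenerate
  have hort : ∀ i j, i ≠ j → ∀ u ∈ D i, ∀ v ∈ D j, QuadraticMap.polar Q u v = 0 :=
    hD.decomp.orthogonal
  have hex := fun i => plus_plane_basis hQ (D i) (hdimD i) (hndD i) (hplus i)
  choose e f he hf hQe hQf hef hexp using hex
  have Pee : ∀ i j, QuadraticMap.polar Q (e i) (e j) = 0 := by
    intro i j
    by_cases hij : i = j
    · subst hij; rw [polar_self hQ, hQe, mul_zero]
    · exact hort i j hij _ (he i) _ (he j)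
  have Pff : ∀ i j, QuadraticMap.polar Q (f i) (f j) = 0 := by
    intro i j
    by_cases hij : i = j
    · subst hij; rw [polar_self hQ, hQf, mul_zero]
    · exact hort i j hij _ (hf i) _ (hf j)
  have Pef : ∀ i j, QuadraticMap.polar Q (e i) (f j) = if i = j then 1 else 0 := by
    intro i j
    by_cases hij : i = j
    · subst hij; rw [if_pos rfl, hef]
    · rw [if_neg hij]; exact hort i j hij _ (he i) _ (hf j)
  have Pfe : ∀ i j, QuadraticMap.polar Q (f i) (e j) = if i = j then 1 else 0 := by
    intro i j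
    rw [polar_symm Q (f i) (e j), Pef j i]
    by_cases hij : i = j
    · rw [if_pos hij, if_pos hij.symm]
    · rw [if_neg hij, if_neg (Ne.symm hij)]
  have hn : ∀ i (a b : F), Q (a • e i + b • f i) = a * b := by
    intro i a b
    rw [q_add Q, hQ.smul, hQ.smul, hQe, hQf, hb.smul_left, hb.smul_right, hef]
    ring
  -- two norm-one vectors of a block pair to 0 or 1
  have hplane : ∀ i, ∀ w ∈ D i, ∀ w' ∈ D i, Q w = 1 → Q w' = 1 →
      (QuadraticMap.polar Q w w' = 0 ∨ QuadraticMap.polar Q w w' = 1) := by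
    intro i w hw w' hw' hQw hQw'
    obtain ⟨α, β, rfl⟩ := hexp i w hw
    obtain ⟨α', β', rfl⟩ := hexp i w' hw'
    rw [hn] at hQw hQw'
    have hpol : QuadraticMap.polar Q (α • e i + β • f i) (α' • e i + β' • f i)
        = α * β' + β * α' := by
      simp only [hb.add_left, hb.add_right, hb.smul_left, hb.smul_right, Pee, Pff, Pef, Pfe]
      simp
    obtain ⟨ρ, hρ⟩ : ∃ ρ, ρ = α' * β := ⟨_, rfl⟩
    have h1 : α' = ρ * α := by rw [hρ]; linear_combination (-α') * hQw
    have h2' : β = ρ * β' := by rw [hρ]; linear_combination (-β) * hQw'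
    have hρ0 : ρ ≠ 0 := by
      intro h0
      rw [h0, zero_mul] at h1
      rw [h1, zero_mul] at hQw'
      exact zero_ne_one hQw'
    rw [hpol]
    rcases hquad ρ hρ0 with h | h
    · left
      have hα : α' = α := by rw [h1, h]; ring
      have hβ : β = β' := by rw [h2', h]; ring
      rw [hα, hβ]
      linear_combination (α * β') * h2
    · right
      linear_combination (1 - (ρ - 1) * α * β') * h - h2 + (ρ ^ 2 + ρ) * hQw
        - ρ ^ 2 * α * h2' + β * h1
  set S : Set (ι → F) := {x | ∀ i, ∀ w ∈ D i, Q w = 1 →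
    (QuadraticMap.polar Q x w = 0 ∨ QuadraticMap.polar Q x w = 1)} with hS
  have hSblock : ∀ j, ∀ w ∈ D j, Q w = 1 → w ∈ S := by
    intro j w hw hQw i w' hw' hQw'
    by_cases hij : j = i
    · subst hij
      exact hplane j w hw w' hw' hQw hQw'
    · left
      exact hort j i hij w hw w' hw'
  have hSadd : ∀ x y, x ∈ S → y ∈ S → x + y ∈ S := by
    intro x y hx hy i w hw hQw
    rw [hb.add_left]
    exact P2add _ _ (hx i w hw hQw) (hy i w hw hQw)
  have hSsmul : ∀ (c : F) x, (c = 0 ∨ c = 1) → x ∈ S → c • x ∈ S := by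
    intro c x hc hx i w hw hQw
    rw [hb.smul_left]
    exact P2mul _ _ hc (hx i w hw hQw)
  obtain ⟨u, hudef⟩ : ∃ u : Fin t → (ι → F), u = fun i => e i + f i := ⟨_, rfl⟩
  obtain ⟨u', hu'def⟩ : ∃ u' : Fin t → (ι → F), u' = fun i => ω • e i + ω ^ 2 • f i := ⟨_, rfl⟩
  have hui : ∀ i, u i = e i + f i := fun i => by rw [hudef]
  have hu'i : ∀ i, u' i = ω • e i + ω ^ 2 • f i := fun i => by rw [hu'def]
  have huD : ∀ i, u i ∈ D i := fun i => by rw [hui]; exact (D i).add_mem (he i) (hf i)
  have hu'D : ∀ i, u' i ∈ D i := fun i => by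
    rw [hu'i]; exact (D i).add_mem ((D i).smul_mem _ (he i)) ((D i).smul_mem _ (hf i))
  have hQu : ∀ i, Q (u i) = 1 := by
    intro i
    have := hn i 1 1
    rw [one_smul, one_smul, mul_one] at this
    rw [hui, this]
  have hQu' : ∀ i, Q (u' i) = 1 := by
    intro i
    rw [hu'i, hn]
    linear_combination hcube ω hω0
  have Pue : ∀ i j, QuadraticMap.polar Q (u i) (e j) = if i = j then 1 else 0 := by
    intro i j
    rw [hui, hb.add_left, Pee, Pfe, zero_add]
  have Peu : ∀ i j, QuadraticMap.polar Q (e i) (u j) = if i = j then 1 else 0 := by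
    intro i j
    rw [hui, hb.add_right, Pee, Pef, zero_add]
  have Puu : ∀ i j, QuadraticMap.polar Q (u i) (u j) = 0 := by
    intro i j
    by_cases hij : i = j
    · subst hij; rw [polar_self hQ, h2, zero_mul]
    · exact hort i j hij _ (huD i) _ (huD j)
  have Pu'u' : ∀ i j, QuadraticMap.polar Q (u' i) (u' j) = 0 := by
    intro i j
    by_cases hij : i = j
    · subst hij; rw [polar_self hQ, h2, zero_mul]
    · exact hort i j hij _ (hu'D i) _ (hu'D j)
  have Pu'e : ∀ i j, QuadraticMap.polar Q (u' i) (e j) = if i = j then ω ^ 2 else 0 := by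
    intro i j
    rw [hu'i, hb.add_left, hb.smul_left, hb.smul_left, Pee, Pfe]
    by_cases hij : i = j
    · rw [if_pos hij, if_pos hij]; ring
    · rw [if_neg hij, if_neg hij]; ring
  have Peu' : ∀ i j, QuadraticMap.polar Q (e i) (u' j) = if i = j then ω ^ 2 else 0 := by
    intro i j
    rw [hu'i, hb.add_right, hb.smul_right, hb.smul_right, Pee, Pef]
    by_cases hij : i = j
    · rw [if_pos hij, if_pos hij]; ring
    · rw [if_neg hij, if_neg hij]; ring
  have Puu' : ∀ i j, QuadraticMap.polar Q (u i) (u' j) = if i = j then 1 else 0 := by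
    intro i j
    rw [hui, hu'i]
    simp only [hb.add_left, hb.add_right, hb.smul_right, Pee, Pff, Pef, Pfe]
    by_cases hij : i = j
    · simp only [if_pos hij]
      linear_combination hω - h2
    · simp only [if_neg hij]; ring
  have Pu'u : ∀ i j, QuadraticMap.polar Q (u' i) (u j) = if i = j then 1 else 0 := by
    intro i j
    rw [polar_symm Q (u' i) (u j), Puu' j i]
    by_cases hij : i = j
    · rw [if_pos hij, if_pos hij.symm]
    · rw [if_neg hij, if_neg (Ne.symm hij)]
  obtain ⟨j0, j1, j2, h01, h02, h12⟩ : ∃ j0 j1 j2 : Fin t, j0 ≠ j1 ∧ j0 ≠ j2 ∧ j1 ≠ j2 := by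
    refine ⟨⟨0, by omega⟩, ⟨1, by omega⟩, ⟨2, by omega⟩, ?_, ?_, ?_⟩ <;> simp [Fin.ext_iff]
  have n10 := h01.symm
  have n20 := h02.symm
  have n21 := h12.symm
  have hQb : Q (u' j0) = 1 := hQu' j0
  have hne2 : Q (u' j0) ≠ 0 := by rw [hQb]; exact one_ne_zero
  refine ⟨stabilizing (glToMat ι F) S ⊓ omegaGL Q, lt_of_le_of_ne ?_ ?_,
    lt_of_le_of_ne inf_le_right ?_⟩
  · refine le_inf ?_ inf_le_right
    apply le_stabilizing_of_forall
    intro g hg x hx i w hw hQw
    have hginv := (decompositionStabilizer D ⊓ omegaGL Q).inv_mem hg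
    obtain ⟨⟨σ, hσ⟩, hgΩ'⟩ := hginv
    have hgI := omegaGL_le Q hg.2
    have hgI' := (mem_isometryGroup_iff Q g⁻¹).mp (omegaGL_le Q hgΩ')
    have hw' : ((g⁻¹ : GL ι F) : Matrix ι ι F) *ᵥ w ∈ D (σ i) := by
      rw [← hσ i]
      exact ⟨w, hw, by rw [Matrix.toLin'_apply]⟩
    have hpol := polar_isometry hgI x (((g⁻¹ : GL ι F) : Matrix ι ι F) *ᵥ w)
    rw [Matrix.mulVec_mulVec, ← Units.val_mul, mul_inv_cancel, Units.val_one,
      Matrix.one_mulVec] at hpol
    rw [hpol]
    exact hx (σ i) _ hw' (by rw [hgI', hQw])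
  · -- an element preserving S but not the decomposition
    intro hEq
    have hQa : Q (u j0 + u j1 + u j2) = 1 := by
      rw [q_add Q, q_add Q, hQu, hQu, hQu, hb.add_left, Puu, Puu, Puu]
      linear_combination h2
    have hab : QuadraticMap.polar Q (u j0 + u j1 + u j2) (u' j0) = 1 := by
      rw [hb.add_left, hb.add_left, Puu', Puu', Puu', if_pos rfl, if_neg n10, if_neg n20]
      ring
    have hne1 : Q (u j0 + u j1 + u j2) ≠ 0 := by rw [hQa]; exact one_ne_zero
    have hg := reflComm_two hQ h2 hQa hQb hne1 hne2 hab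
    have hgΩ := reflComm_mem hQ (u j0 + u j1 + u j2) (u' j0) hne1 hne2
    have haS : u j0 + u j1 + u j2 ∈ S :=
      hSadd _ _ (hSadd _ _ (hSblock j0 _ (huD j0) (hQu j0)) (hSblock j1 _ (huD j1) (hQu j1)))
        (hSblock j2 _ (huD j2) (hQu j2))
    have hbS : u' j0 ∈ S := hSblock j0 _ (hu'D j0) (hQu' j0)
    have hK : reflComm Q hQ (u j0 + u j1 + u j2) (u' j0) hne1 hne2 ∈
        stabilizing (glToMat ι F) S ⊓ omegaGL Q := by
      refine ⟨mem_stabilizing_of_forall _ _ ?_, hgΩ⟩
      intro x hx
      rw [hg]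
      have hpa : QuadraticMap.polar Q x (u j0 + u j1 + u j2) = 0 ∨
          QuadraticMap.polar Q x (u j0 + u j1 + u j2) = 1 := by
        rw [hb.add_right, hb.add_right]
        exact P2add _ _ (P2add _ _ (hx j0 _ (huD j0) (hQu j0)) (hx j1 _ (huD j1) (hQu j1)))
          (hx j2 _ (huD j2) (hQu j2))
      have hpb := hx j0 _ (hu'D j0) (hQu' j0)
      exact hSadd _ _ (hSadd _ _ hx (hSsmul _ _ hpa haS)) (hSsmul _ _ (P2add _ _ hpa hpb) hbS)
    rw [← hEq] at hK
    obtain ⟨σ, hσ⟩ := hK.1
    have hz : ((reflComm Q hQ (u j0 + u j1 + u j2) (u' j0) hne1 hne2 : GL ι F) :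
        Matrix ι ι F) *ᵥ u' j1 ∈ D (σ j1) := by
      rw [← hσ j1]
      exact ⟨u' j1, hu'D j1, by rw [Matrix.toLin'_apply]⟩
    rw [hg] at hz
    have hs2 : σ j1 = j2 := by
      by_contra hs
      have := hort (σ j1) j2 hs _ hz _ (he j2)
      simp [hb.add_left, hb.add_right, hb.smul_left, Pu'u, Pu'u', Pue, Pu'e, h01, h02, h12,
        n10, n20, n21] at this
    have hs0 : σ j1 = j0 := by
      by_contra hs
      have := hort (σ j1) j0 hs _ hz _ (he j0)
      simp [hb.add_left, hb.add_right, hb.smul_left, Pu'u, Pu'u', Pue, Pu'e, h01, h02, h12,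
        n10, n20, n21] at this
      exact hω0 (by linear_combination hω - this)
    exact h02 (hs0.symm.trans hs2)
  · -- an element of Ω not preserving S
    intro hEq
    have hQa : Q (u j0 + e j1) = 1 := by
      rw [q_add Q, hQu, hQe, Pue, if_neg h01]
      ring
    have hab : QuadraticMap.polar Q (u j0 + e j1) (u' j0) = 1 := by
      rw [hb.add_left, Puu', Peu', if_pos rfl, if_neg n10]
      ring
    have hne1 : Q (u j0 + e j1) ≠ 0 := by rw [hQa]; exact one_ne_zero
    have hg := reflComm_two hQ h2 hQa hQb hne1 hne2 hab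
    have hgΩ := reflComm_mem hQ (u j0 + e j1) (u' j0) hne1 hne2
    rw [← hEq] at hgΩ
    have h1 := ((mem_stabilizing_iff _ _).mp hgΩ.1 (u j1)).mp (hSblock j1 _ (huD j1) (hQu j1))
    have h3 := h1 j1 (u' j1) (hu'D j1) (hQu' j1)
    rw [hg] at h3
    simp [hb.add_left, hb.add_right, hb.smul_left, Puu, Puu', Pue, Peu', Pu'u', h01, h02, h12,
      n10, n20, n21] at h3
    rcases h3 with h3 | h3
    · exact hω0 (by linear_combination hω - h3)
    · exact hω0 h3

end DecompFour

end Cfsg.Agent.H95
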