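import Cfsg.Agent.H95.TSMax

set_option autoImplicit false
set_option linter.unusedSectionVars false

/-! Helper lemmas (helper95): Eichler directions at a singular vector, singular spans, and the
maximality in `Ω(Q)` of the stabiliser of a non-singular point (any characteristic). -/

namespace Cfsg.Agent.H95

open Module Matrix Cfsg.Agent.H49

section
variable {ι : Type} [Fintype ι] [DecidableEq ι] {F : Type*} [Field F]

/-- A singular vector orthogonal to `X` outside `X`, by Chevalley–Warning (refined count). -/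
theorem exists_singular_orth_not_mem' [Finite F] (Q : QuadraticForm F (ι → F))
    (hQ : (QuadraticMap.polarBilin Q).Nondegenerate) (X : Submodule F (ι → F))
    (hd : finrank F X
      + finrank F ↥(X ⊓ LinearMap.BilinForm.orthogonal (QuadraticMap.polarBilin Q) X) + 3
        ≤ finrank F (ι → F)) :
    ∃ e : ι → F, Q e = 0 ∧ (∀ a ∈ X, QuadraticMap.polar (⇑Q) a e = 0) ∧ e ∉ X := by
  obtain ⟨q, hq⟩ := Submodule.exists_isCompl
    (X ⊓ LinearMap.BilinForm.orthogonal (QuadraticMap.polarBilin Q) X)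
  have h1 := Submodule.finrank_add_eq_of_isCompl hq
  have h2 := LinearMap.BilinForm.finrank_orthogonal hQ X
  have h3 := Submodule.finrank_sup_add_finrank_inf_eq q
    (LinearMap.BilinForm.orthogonal (QuadraticMap.polarBilin Q) X)
  have h4 := Submodule.finrank_le
    (q ⊔ LinearMap.BilinForm.orthogonal (QuadraticMap.polarBilin Q) X)
  have h5 := Submodule.finrank_le X
  obtain ⟨⟨c, hc⟩, hne, hQc⟩ := exists_singular_of_three_le
    (Q.comp (q ⊓ LinearMap.BilinForm.orthogonal (QuadraticMap.polarBilin Q) X).subtype)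
    (by omega)
  obtain ⟨hcq, hcO⟩ := Submodule.mem_inf.mp hc
  refine ⟨c, hQc, fun a ha => (LinearMap.BilinForm.mem_orthogonal_iff.mp hcO) a ha, ?_⟩
  intro hcX
  apply hne
  have : c ∈ (X ⊓ LinearMap.BilinForm.orthogonal (QuadraticMap.polarBilin Q) X) ⊓ q :=
    ⟨⟨hcX, hcO⟩, hcq⟩
  rw [hq.inf_eq_bot] at this
  exact Subtype.ext ((Submodule.mem_bot F).mp this)

/-- A hyperbolic pair orthogonal to `X` (refined count). -/
theorem exists_hyp_pair_orth' [Finite F] (Q : QuadraticForm F (ι → F))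
    (hQ : (QuadraticMap.polarBilin Q).Nondegenerate) (X : Submodule F (ι → F))
    (hd : finrank F X
      + finrank F ↥(X ⊓ LinearMap.BilinForm.orthogonal (QuadraticMap.polarBilin Q) X) + 3
        ≤ finrank F (ι → F)) :
    ∃ e e' : ι → F, Q e = 0 ∧ Q e' = 0 ∧ QuadraticMap.polar (⇑Q) e e' = 1 ∧
      (∀ a ∈ X, QuadraticMap.polar (⇑Q) a e = 0) ∧
      (∀ a ∈ X, QuadraticMap.polar (⇑Q) a e' = 0) := by
  obtain ⟨e, he, heX, hne⟩ := exists_singular_orth_not_mem' Q hQ X hd
  obtain ⟨e', he', he'X, hee⟩ := exists_partner_orth Q hQ X e he heX hne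
  exact ⟨e, e', he, he', hee, heX, he'X⟩

/-- A hyperbolic pair orthogonal to `X`. -/
theorem exists_hyp_pair_orth [Finite F] (Q : QuadraticForm F (ι → F))
    (hQ : (QuadraticMap.polarBilin Q).Nondegenerate) (X : Submodule F (ι → F))
    (hd : 2 * finrank F X + 3 ≤ finrank F (ι → F)) :
    ∃ e e' : ι → F, Q e = 0 ∧ Q e' = 0 ∧ QuadraticMap.polar (⇑Q) e e' = 1 ∧
      (∀ a ∈ X, QuadraticMap.polar (⇑Q) a e = 0) ∧
      (∀ a ∈ X, QuadraticMap.polar (⇑Q) a e' = 0) := by
  apply exists_hyp_pair_orth' Q hQ X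
  have := Submodule.finrank_mono (inf_le_left :
    X ⊓ LinearMap.BilinForm.orthogonal (QuadraticMap.polarBilin Q) X ≤ X)
  omega

/-- The Eichler map `E(u, y)`. -/
def eich (Q : QuadraticForm F (ι → F)) (u y x : ι → F) : ι → F :=
  x + QuadraticMap.polar (⇑Q) u x • y - QuadraticMap.polar (⇑Q) y x • u
    - (Q y * QuadraticMap.polar (⇑Q) u x) • u

theorem eich_comp (Q : QuadraticForm F (ι → F)) (u y₁ y₂ x : ι → F) (hu : Q u = 0)
    (h1 : QuadraticMap.polar (⇑Q) u y₁ = 0) (h2 : QuadraticMap.polar (⇑Q) u y₂ = 0) :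
    eich Q u y₁ (eich Q u y₂ x) = eich Q u (y₁ + y₂) x := by
  have huu : QuadraticMap.polar (⇑Q) u u = 0 := by rw [polar_self', hu, mul_zero]
  have h1' : QuadraticMap.polar (⇑Q) y₁ u = 0 := by rw [QuadraticMap.polar_comm]; exact h1
  unfold eich
  rw [Q_add' Q y₁ y₂]
  simp only [QuadraticMap.polar_add_right, QuadraticMap.polar_sub_right,
    QuadraticMap.polar_smul_right, QuadraticMap.polar_add_left, smul_eq_mul, huu, h1, h2, h1',
    mul_zero, sub_zero, add_zero]
  module

/-- `y` is an Eichler direction at `u` for `M`: every `E(u, c y)` is realised in `M`. -/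
def eichDir (Q : QuadraticForm F (ι → F)) (M : Subgroup ↥(Cfsg.isometryGroup F (⇑Q)))
    (u y : ι → F) : Prop :=
  QuadraticMap.polar (⇑Q) u y = 0 ∧ ∀ c : F, ∃ g ∈ M, ∀ x, act g x = eich Q u (c • y) x

theorem eichDir_of_siegel (Q : QuadraticForm F (ι → F))
    (M : Subgroup ↥(Cfsg.isometryGroup F (⇑Q))) (u z : ι → F) (hu : Q u = 0) (hz : Q z = 0)
    (huz : QuadraticMap.polar (⇑Q) u z = 0) (h : ∀ c : F, siegelG Q u z hu hz huz c ∈ M) :
    eichDir Q M u z := by
  refine ⟨huz, fun c => ⟨_, h c, fun x => ?_⟩⟩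
  rw [act_siegelG]
  unfold eich
  rw [QuadraticMap.map_smul, hz, QuadraticMap.polar_smul_left]
  simp only [smul_eq_mul, mul_zero, zero_mul, zero_smul, sub_zero]
  module

theorem eichDir_zero (Q : QuadraticForm F (ι → F))
    (M : Subgroup ↥(Cfsg.isometryGroup F (⇑Q))) (u : ι → F) : eichDir Q M u 0 := by
  refine ⟨QuadraticMap.polar_zero_right _ _, fun c => ⟨1, M.one_mem, fun x => ?_⟩⟩
  rw [act_one]
  unfold eich
  simp

theorem eichDir_add (Q : QuadraticForm F (ι → F))
    (M : Subgroup ↥(Cfsg.isometryGroup F (⇑Q))) (u y₁ y₂ : ι → F) (hu : Q u = 0)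
    (h1 : eichDir Q M u y₁) (h2 : eichDir Q M u y₂) : eichDir Q M u (y₁ + y₂) := by
  refine ⟨by rw [QuadraticMap.polar_add_right, h1.1, h2.1, add_zero], fun c => ?_⟩
  obtain ⟨g₁, hg₁, e₁⟩ := h1.2 c
  obtain ⟨g₂, hg₂, e₂⟩ := h2.2 c
  refine ⟨g₁ * g₂, M.mul_mem hg₁ hg₂, fun x => ?_⟩
  rw [act_mul, e₂, e₁, smul_add]
  exact eich_comp Q u _ _ x hu (by rw [QuadraticMap.polar_smul_right, h1.1, smul_zero])
    (by rw [QuadraticMap.polar_smul_right, h2.1, smul_zero])

theorem eichDir_smul (Q : QuadraticForm F (ι → F))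
    (M : Subgroup ↥(Cfsg.isometryGroup F (⇑Q))) (u y : ι → F) (a : F)
    (h : eichDir Q M u y) : eichDir Q M u (a • y) := by
  refine ⟨by rw [QuadraticMap.polar_smul_right, h.1, smul_zero], fun c => ?_⟩
  obtain ⟨g, hg, e⟩ := h.2 (c * a)
  exact ⟨g, hg, fun x => by rw [e, smul_smul]⟩

theorem eichDir_neg (Q : QuadraticForm F (ι → F))
    (M : Subgroup ↥(Cfsg.isometryGroup F (⇑Q))) (u y : ι → F)
    (h : eichDir Q M u y) : eichDir Q M u (-y) := by
  have := eichDir_smul Q M u y (-1) h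
  rwa [neg_one_smul] at this

theorem eichDir_sub (Q : QuadraticForm F (ι → F))
    (M : Subgroup ↥(Cfsg.isometryGroup F (⇑Q))) (u y₁ y₂ : ι → F) (hu : Q u = 0)
    (h1 : eichDir Q M u y₁) (h2 : eichDir Q M u y₂) : eichDir Q M u (y₁ - y₂) := by
  rw [sub_eq_add_neg]
  exact eichDir_add Q M u y₁ (-y₂) hu h1 (eichDir_neg Q M u y₂ h2)

theorem eichDir_span (Q : QuadraticForm F (ι → F))
    (M : Subgroup ↥(Cfsg.isometryGroup F (⇑Q))) (u : ι → F) (hu : Q u = 0)
    (G : Set (ι → F)) (hG : ∀ z ∈ G, eichDir Q M u z) :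
    ∀ y ∈ Submodule.span F G, eichDir Q M u y := by
  intro y hy
  induction hy using Submodule.span_induction with
  | mem z hz => exact hG z hz
  | zero => exact eichDir_zero Q M u
  | add a b _ _ ha hb => exact eichDir_add Q M u a b hu ha hb
  | smul a z _ hz => exact eichDir_smul Q M u z a hz

theorem siegel_mem_of_eichDir (Q : QuadraticForm F (ι → F))
    (M : Subgroup ↥(Cfsg.isometryGroup F (⇑Q))) (u z : ι → F) (hu : Q u = 0) (hz : Q z = 0)
    (h : eichDir Q M u z) (c : F) : siegelG Q u z hu hz h.1 c ∈ M := by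
  obtain ⟨g, hg, e⟩ := h.2 c
  have : g = siegelG Q u z hu hz h.1 c := by
    apply act_ext
    intro x
    rw [e, act_siegelG]
    unfold eich
    rw [QuadraticMap.map_smul, hz, QuadraticMap.polar_smul_left]
    simp only [smul_eq_mul, mul_zero, zero_mul, zero_smul, sub_zero]
    module
  rw [← this]
  exact hg

/-- A subspace containing a hyperbolic pair is spanned by its singular vectors. -/
theorem mem_span_singular (Q : QuadraticForm F (ι → F)) (A : Submodule F (ι → F))
    (e e' : ι → F) (heA : e ∈ A) (he'A : e' ∈ A) (he : Q e = 0) (he' : Q e' = 0)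
    (hee : QuadraticMap.polar (⇑Q) e e' = 1) (a : ι → F) (ha : a ∈ A) :
    a ∈ Submodule.span F {s : ι → F | s ∈ A ∧ Q s = 0} := by
  have hee' : QuadraticMap.polar (⇑Q) e' e = 1 := by rw [QuadraticMap.polar_comm]; exact hee
  have heez : QuadraticMap.polar (⇑Q) e e = 0 := by rw [polar_self', he, mul_zero]
  have he'ez : QuadraticMap.polar (⇑Q) e' e' = 0 := by rw [polar_self', he', mul_zero]
  obtain ⟨a₀, ha₀⟩ : ∃ a₀, a₀ = a - QuadraticMap.polar (⇑Q) a e' • e
      - QuadraticMap.polar (⇑Q) a e • e' := ⟨_, rfl⟩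
  have ha₀A : a₀ ∈ A := by
    rw [ha₀]
    exact A.sub_mem (A.sub_mem ha (A.smul_mem _ heA)) (A.smul_mem _ he'A)
  have h1 : QuadraticMap.polar (⇑Q) a₀ e = 0 := by
    rw [ha₀, QuadraticMap.polar_sub_left, QuadraticMap.polar_sub_left,
      QuadraticMap.polar_smul_left, QuadraticMap.polar_smul_left, heez, hee']
    simp
  have h2 : QuadraticMap.polar (⇑Q) a₀ e' = 0 := by
    rw [ha₀, QuadraticMap.polar_sub_left, QuadraticMap.polar_sub_left,
      QuadraticMap.polar_smul_left, QuadraticMap.polar_smul_left, hee, he'ez]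
    simp
  have hs : Q (a₀ + (e - Q a₀ • e')) = 0 := by
    rw [Q_add', Q_sub_smul, he, he', hee', QuadraticMap.polar_sub_right,
      QuadraticMap.polar_smul_right, h1, h2]
    simp
  have hsA : a₀ + (e - Q a₀ • e') ∈ A := A.add_mem ha₀A (A.sub_mem heA (A.smul_mem _ he'A))
  have hS : ∀ s : ι → F, s ∈ A → Q s = 0 →
      s ∈ Submodule.span F {s : ι → F | s ∈ A ∧ Q s = 0} :=
    fun s h1 h2 => Submodule.subset_span ⟨h1, h2⟩
  have e1 : a = (a₀ + (e - Q a₀ • e')) - e + Q a₀ • e' + QuadraticMap.polar (⇑Q) a e' • e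
      + QuadraticMap.polar (⇑Q) a e • e' := by
    rw [ha₀]; module
  rw [e1]
  exact Submodule.add_mem _ (Submodule.add_mem _ (Submodule.add_mem _ (Submodule.sub_mem _
    (hS _ hsA hs) (hS e heA he)) (Submodule.smul_mem _ _ (hS e' he'A he')))
    (Submodule.smul_mem _ _ (hS e heA he))) (Submodule.smul_mem _ _ (hS e' he'A he'))

/-- Every vector of a subspace containing a hyperbolic pair is an Eichler direction at `u` as
soon as its singular vectors are. -/
theorem eichDir_of_mem (Q : QuadraticForm F (ι → F))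
    (M : Subgroup ↥(Cfsg.isometryGroup F (⇑Q))) (u : ι → F) (hu : Q u = 0)
    (A : Submodule F (ι → F)) (e e' : ι → F) (heA : e ∈ A) (he'A : e' ∈ A) (he : Q e = 0)
    (he' : Q e' = 0) (hee : QuadraticMap.polar (⇑Q) e e' = 1)
    (hA : ∀ z ∈ A, Q z = 0 → eichDir Q M u z) (a : ι → F) (ha : a ∈ A) : eichDir Q M u a :=
  eichDir_span Q M u hu {s : ι → F | s ∈ A ∧ Q s = 0} (fun z hz => hA z hz.1 hz.2) a
    (mem_span_singular Q A e e' heA he'A he he' hee a ha)

/-- If every vector orthogonal to `u` is an Eichler direction, `u` is a full point. -/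
theorem mem_fullPts_of_eichDir (Q : QuadraticForm F (ι → F))
    (M : Subgroup ↥(Cfsg.isometryGroup F (⇑Q))) (u : ι → F) (hu : Q u = 0)
    (h : ∀ z : ι → F, QuadraticMap.polar (⇑Q) u z = 0 → eichDir Q M u z) :
    u ∈ fullPts Q M :=
  ⟨hu, fun v hv huv c => siegel_mem_of_eichDir Q M u v hu hv (h v huv) c⟩

end

end Cfsg.Agent.H95
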