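import Cfsg.Agent.H95.EpStructEven
import Cfsg.Agent.H95.EpStructOdd2
import Cfsg.Agent.H70.EpType0
import Cfsg.Agent.H70.EpQSum
import Cfsg.Agent.H40.EpQBoth2
import Cfsg.Agent.H11.TmQStruct
import Cfsg.Agent.H8.TmQTrick
import Cfsg.Agent.H18.TmComplPlus
import Cfsg.Agent.H28.TmTypeU
import Cfsg.Agent.H28.TmBlockMinus
import Cfsg.Agent.H3.TmMinusSum
import Cfsg.Agent.H19.TmAnisoStd
import Cfsg.Agent.H19.TmAnisoIso
import Cfsg.Agent.H86.OtSplit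
import Cfsg.Agent.H16.SpdBlock
import Cfsg.Agent.H67.SpdRel
import Cfsg.Agent.H77.SpdHyp
import Cfsg.Agent.H77.SpdFix
import Cfsg.Agent.H77.SpdCompl
import Cfsg.Agent.H18.SpdSum
import Cfsg.Agent.H24.SpdModc
import Cfsg.Agent.H24.SpdSub
import Cfsg.Agent.H51.SpdDecomp
import Cfsg.Agent.H3.TiPrim
import Cfsg.Agent.H3.TiCompDvd
import Cfsg.Agent.H3.TiIrrSub
import Cfsg.Agent.H3.TiCycSet
import Cfsg.Agent.H3.TiPair
import Cfsg.Agent.H3.TiStepEven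
import Cfsg.Agent.H3.TiUpper
import Cfsg.Agent.H72.TiHalf
import Cfsg.Agent.H72.TiPeel
import Cfsg.Agent.H32.TiAnti
import Cfsg.Agent.H14.TiStepOdd
import Cfsg.Agent.H14.TiBuild
import Cfsg.Agent.H16.TiHypClose
import Cfsg.Agent.H16.TiCompNd
import Cfsg.Agent.H60.TiUpperEven

/-!
# EP-STRUCT, closed (helper95): `Cfsg.Agent.H48.Ep.StStruct` without hypotheses

The generic structure theorem of helper48's S5974 project (shared by the twins S5988 and S5990),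
in all characteristics, with every piece plugged in.
-/

set_option autoImplicit false

namespace Cfsg.Agent.H95.Ep

universe u v

theorem es_modc : Cfsg.Agent.H42.Spd.StModc.{u, v} :=
  Cfsg.Agent.H24.Spd.modc (Cfsg.Agent.H67.Spd.blockRel Cfsg.Agent.H16.Spd.block)
    Cfsg.Agent.H77.Spd.fix Cfsg.Agent.H77.Spd.compl

theorem es_decomp : Cfsg.Agent.H42.Spd.StDecomp.{u, v} :=
  Cfsg.Agent.H51.Spd.decomp
    (Cfsg.Agent.H24.Spd.sub (Cfsg.Agent.H67.Spd.blockRel Cfsg.Agent.H16.Spd.block)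
      Cfsg.Agent.H77.Spd.hyp Cfsg.Agent.H77.Spd.fix Cfsg.Agent.H77.Spd.compl Cfsg.Agent.H18.Spd.sum)
    es_modc Cfsg.Agent.H77.Spd.compl

theorem es_qStruct : Cfsg.Agent.H77.Tm.StQStruct.{u, v} := by
  have hUpper := Cfsg.Agent.H3.Ti.tiUpper Cfsg.Agent.H72.Ti.tiHalf
  have hPrim := Cfsg.Agent.H3.Ti.tiPrim Cfsg.Agent.H3.Ti.cycSet
  have hUpperEven := Cfsg.Agent.H60.Ti.tiUpperEven Cfsg.Agent.H3.Ti.cycSet hPrim
    Cfsg.Agent.H3.Ti.tiCompDvd Cfsg.Agent.H16.Ti.tiCompNd Cfsg.Agent.H72.Ti.tiHalf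
  have hHypClose := Cfsg.Agent.H16.Ti.tiHypClose Cfsg.Agent.H3.Ti.tiCompDvd Cfsg.Agent.H3.Ti.tiIrrSub
  have hPair := Cfsg.Agent.H3.Ti.tiPair Cfsg.Agent.H3.Ti.tiCompDvd Cfsg.Agent.H3.Ti.tiIrrSub
    hHypClose Cfsg.Agent.H32.Ti.tiAnti
  have hStepEven := Cfsg.Agent.H3.Ti.tiStepEven Cfsg.Agent.H3.Ti.cycSet hPrim
    Cfsg.Agent.H3.Ti.tiCompDvd Cfsg.Agent.H16.Ti.tiCompNd hPair
  have hBuild := Cfsg.Agent.H14.Ti.tiBuild Cfsg.Agent.H72.Ti.tiPeel Cfsg.Agent.H14.Ti.tiStepOdd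
    hStepEven
  exact Cfsg.Agent.H11.Tm.qStruct Cfsg.Agent.H8.Tm.qTrick Cfsg.Agent.H86.Ot.oSplit es_modc hUpper
    hUpperEven Cfsg.Agent.H72.Ti.tiHalf hBuild

theorem es_minusSum : Cfsg.Agent.H77.Tm.StMinusSum.{u, v} :=
  Cfsg.Agent.H3.Tm.minusSum Cfsg.Agent.H19.Tm.anisoStd Cfsg.Agent.H19.Tm.anisoIso

theorem es_typeU : Cfsg.Agent.H77.Tm.StTypeU.{u, v} :=
  Cfsg.Agent.H28.Tm.typeU Cfsg.Agent.H8.Tm.qTrick es_decomp Cfsg.Agent.H28.Tm.blockMinus'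
    es_minusSum Cfsg.Agent.H18.Tm.complPlus

/-- EP-TYPE0, closed. -/
theorem fin_type0 : Cfsg.Agent.H48.Ep.StType0.{u, v} :=
  Cfsg.Agent.H70.Ep.type0 es_qStruct es_typeU

/-- EP-QSUM, closed. -/
theorem fin_qSum : Cfsg.Agent.H48.Ep.StQSum.{u, v} :=
  Cfsg.Agent.H70.Ep.qSum es_minusSum Cfsg.Agent.H18.Tm.complPlus

/-- EP-QBOTH2, closed. -/
theorem fin_qBoth2 : Cfsg.Agent.H48.Ep.StQBoth2.{u, v} :=
  Cfsg.Agent.H40.Ep.qBoth2 fin_qSum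

/-- EP-STRUCT-EVEN, closed. -/
theorem fin_structEven : Cfsg.Agent.H48.Ep.StStructEven.{u, v} :=
  structEven fin_type0 fin_qSum fin_qBoth2

/-- EP-STRUCT, closed: the generic structure theorem in all characteristics. -/
theorem struct : Cfsg.Agent.H48.Ep.StStruct.{u, v} :=
  Cfsg.Agent.H48.Ep.struct_of structOdd' fin_structEven

example : Cfsg.Agent.H48.Ep.StStruct.{u, v} := struct

end Cfsg.Agent.H95.Ep
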