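import Mathlib
import Cfsg.Agent.H95.FHDefs

/-!
# Feit–Higman (S1142), piece EXIST: every `mu p q n j` is an eigenvalue of `e f e` (helper95)
-/

set_option autoImplicit false

universe u

namespace Cfsg.Agent.H95.FH

open Matrix Polynomial

theorem alt_zero_eq {R : Type*} [Monoid R] (x y : R) : alt x y 0 = 1 := rfl

theorem alt_succ_eq {R : Type*} [Monoid R] (x y : R) (k : ℕ) :
    alt x y (k + 1) = x * alt y x k := rfl

theorem wt_succ (r s : ℝ) (m : ℕ) : wt r s (m + 1) = r * wt s r m := by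
  unfold wt
  have h1 : (m + 1 + 1) / 2 = m / 2 + 1 := by omega
  rw [h1, pow_succ]
  ring

theorem wt_zero (r s : ℝ) : wt r s 0 = 1 := by
  unfold wt; simp

/-- Scaling an alternating word. -/
theorem alt_smul {A : Type*} [Ring A] [Algebra ℝ A] (x y : A) (r s : ℝ) (m : ℕ) :
    alt (r • x) (s • y) m = wt r s m • alt x y m := by
  induction m generalizing x y r s with
  | zero => simp [alt_zero_eq, wt_zero]
  | succ m ih =>
    rw [alt_succ_eq, ih, wt_succ, alt_succ_eq]
    rw [smul_mul_smul_comm]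

/-- An alternating word acting on a common eigen-element. -/
theorem alt_mul_eigen {A : Type*} [Ring A] [Algebra ℝ A] (x y Z : A) (r s : ℝ)
    (hx : x * Z = r • Z) (hy : y * Z = s • Z) (m : ℕ) :
    alt x y m * Z = wt r s m • Z := by
  induction m generalizing x y r s with
  | zero => simp [alt_zero_eq, wt_zero]
  | succ m ih =>
    rw [alt_succ_eq, mul_assoc, ih y x s r hy hx, wt_succ, mul_smul_comm, hx, smul_smul]
    congr 1
    ring

theorem wt_pos {r s : ℝ} (hr : 0 < r) (hs : 0 < s) (m : ℕ) : 0 < wt r s m := by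
  unfold wt; positivity

section

variable {Ω : Type u} [Fintype Ω] [DecidableEq Ω]

theorem Fil_mono (a c : Matrix Ω Ω ℝ) {l l' : ℕ} (h : l ≤ l') : Fil a c l ≤ Fil a c l' := by
  apply Submodule.span_mono
  rintro X ⟨k, hk, hX⟩
  exact ⟨k, le_trans hk h, hX⟩

theorem alt_mem_Fil (a c : Matrix Ω Ω ℝ) (m : ℕ) : alt a c m ∈ Fil a c m :=
  Submodule.subset_span ⟨m, le_rfl, Or.inl rfl⟩

theorem alt_mem_Fil' (a c : Matrix Ω Ω ℝ) (m : ℕ) : alt c a m ∈ Fil a c m :=
  Submodule.subset_span ⟨m, le_rfl, Or.inr rfl⟩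

/-- the idempotent relations for `eP` -/
theorem eP_sq (a : Matrix Ω Ω ℝ) (p : ℕ)
    (hsq : a * a = (p : ℝ) • (1 : Matrix Ω Ω ℝ) + ((p : ℝ) - 1) • a) :
    eP a p * eP a p = eP a p := by
  have hp : ((p : ℝ) + 1) ≠ 0 := by positivity
  unfold eP
  rw [smul_mul_smul_comm]
  have : (a + 1) * (a + 1) = ((p : ℝ) + 1) • (a + 1) := by
    rw [add_mul, mul_add, mul_add, hsq]
    simp only [mul_one, one_mul, smul_add, add_smul, sub_smul, one_smul]
    abel
  rw [this, smul_smul]
  congr 1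
  field_simp

theorem eP_transpose (a : Matrix Ω Ω ℝ) (p : ℕ) (hs : aᵀ = a) : (eP a p)ᵀ = eP a p := by
  unfold eP
  rw [transpose_smul, transpose_add, hs, transpose_one]

/-- `e * alt e f (m+1) = alt e f (m+1)`. -/
theorem idem_mul_alt {A : Type*} [Monoid A] (e f : A) (he : e * e = e) (m : ℕ) :
    e * alt e f (m + 1) = alt e f (m + 1) := by
  rw [alt_succ_eq, ← mul_assoc, he]

/-- `(e f e)^k e = alt e f (2k+1)`. -/
theorem pow_mul_idem {A : Type*} [Monoid A] (e f : A) (he : e * e = e) (k : ℕ) :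
    (e * f * e) ^ k * e = alt e f (2 * k + 1) := by
  induction k with
  | zero => simp [alt_succ_eq, alt_zero_eq]
  | succ k ih =>
    rw [pow_succ', mul_assoc, ih]
    have h1 : 2 * (k + 1) + 1 = (2 * k + 1) + 1 + 1 := by ring
    rw [h1]
    show e * f * e * alt e f (2 * k + 1) = e * (f * alt e f (2 * k + 1))
    rw [mul_assoc (e * f), idem_mul_alt e f he, mul_assoc]

theorem eP_alt (a c : Matrix Ω Ω ℝ) (p q : ℕ) (m : ℕ) :
    alt (eP a p) (eP c q) m =
      wt ((p : ℝ) + 1)⁻¹ ((q : ℝ) + 1)⁻¹ m • alt (1 + a) (1 + c) m := by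
  unfold eP
  rw [alt_smul, add_comm a 1, add_comm c 1]

/-- The final contradiction: a monic relation among the words. -/
theorem final_contra (a c : Matrix Ω Ω ℝ) (n d δ : ℕ) (E : ℕ → Matrix Ω Ω ℝ)
    (A : Matrix Ω Ω ℝ) (w : ℝ) (coeff : ℕ → ℝ)
    (hn : 2 * d + δ = n) (_hδ : 1 ≤ δ)
    (hE : ∀ k, k < d → E k ∈ Fil a c (2 * k + δ))
    (htop : E d - w • A ∈ Fil a c (n - 1)) (hw : w ≠ 0) (hA : A ∉ Fil a c (n - 1))
    (hc : coeff d = 1) (hsum : ∑ k ∈ Finset.range (d + 1), coeff k • E k = 0) : False := by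
  rw [Finset.sum_range_succ, hc, one_smul] at hsum
  have h1 : ∑ k ∈ Finset.range d, coeff k • E k ∈ Fil a c (n - 1) := by
    apply Submodule.sum_mem
    intro k hk
    apply Submodule.smul_mem
    exact Fil_mono a c (by have := Finset.mem_range.mp hk; omega) (hE k (Finset.mem_range.mp hk))
  have h2 : E d ∈ Fil a c (n - 1) := by
    have : E d = - ∑ k ∈ Finset.range d, coeff k • E k := by
      rw [eq_neg_iff_add_eq_zero, add_comm]; exact hsum
    rw [this]; exact Submodule.neg_mem _ h1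
  have h3 : w • A ∈ Fil a c (n - 1) := by
    have : w • A = E d - (E d - w • A) := by abel
    rw [this]; exact Submodule.sub_mem _ h2 htop
  apply hA
  have : A = w⁻¹ • (w • A) := by rw [smul_smul, inv_mul_cancel₀ hw, one_smul]
  rw [this]; exact Submodule.smul_mem _ _ h3

end

/-- FH-EXIST -/
theorem exist (hRow : RowStmt.{u}) (hQ1 : Quant1Stmt.{u}) (hQ2 : Quant2Stmt)
    (hS2 : Spec2Stmt.{u}) (hLW : LWStmt.{u}) : ExistStmt.{u} := by
  intro Ω _ _ a c p q n H j₀ hj₀ hj₀n
  by_contra hcon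
  have hp1 : ((p : ℝ) + 1) ≠ 0 := by positivity
  have hq1 : ((q : ℝ) + 1) ≠ 0 := by positivity
  have hee : eP a p * eP a p = eP a p := eP_sq a p H.sq_a
  have hff : eP c q * eP c q = eP c q := eP_sq c q H.sq_c
  have heT : (eP a p)ᵀ = eP a p := eP_transpose a p H.symm_a
  have hfT : (eP c q)ᵀ = eP c q := eP_transpose c q H.symm_c
  have hD : DD a c p q = eP a p * eP c q * eP a p := rfl
  have hDT : (DD a c p q)ᵀ = DD a c p q := by
    rw [hD, transpose_mul, transpose_mul, heT, hfT, mul_assoc]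
  -- the eigenvalues
  have hodd := (hRow a c p q n H).1
  have heig : ∀ t : ℝ, (∃ v : Ω → ℝ, v ≠ 0 ∧ (DD a c p q).mulVec v = t • v) →
      t = 0 ∨ t = 1 ∨ ∃ j, 1 ≤ j ∧ 2 * j < n ∧ j ≠ j₀ ∧ t = mu p q n j := by
    rintro t ⟨v, hv, hvt⟩
    by_cases h0 : t = 0
    · exact Or.inl h0
    by_cases h1 : t = 1
    · exact Or.inr (Or.inl h1)
    right; right
    have hb := hQ1 a c p q n H v t hv hvt h0 h1
    obtain ⟨j, hj, hjn, hjt⟩ := hQ2 p q n t H.hn H.hp H.hq hodd h0 hb
    refine ⟨j, hj, hjn, ?_, hjt⟩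
    rintro rfl
    exact hcon ⟨v, hv, hjt ▸ hvt⟩
  -- the polynomial
  set J : Finset ℕ := (Finset.Ico 1 ((n + 1) / 2)).erase j₀ with hJ
  set Q' : ℝ[X] := (X - C 1) * ∏ j ∈ J, (X - C (mu p q n j)) with hQ'
  have hmonic : Q'.Monic := (monic_X_sub_C 1).mul (monic_prod_X_sub_C _ _)
  have hdeg : Q'.natDegree = (n + 1) / 2 - 1 := by
    rw [hQ', Monic.natDegree_mul (monic_X_sub_C 1) (monic_prod_X_sub_C _ _), natDegree_X_sub_C,
      natDegree_finsetProd_X_sub_C_eq_card, hJ, Finset.card_erase_of_mem, Nat.card_Ico]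
    · omega
    · rw [Finset.mem_Ico]; omega
  have hvan : aeval (DD a c p q) (X * Q') = 0 := by
    apply hS2 _ hDT
    intro t ht
    rcases heig t ht with h | h | ⟨j, hj, hjn, hjj, hjt⟩
    · simp [h]
    · simp [h, hQ']
    · rw [eval_mul, hQ', eval_mul, eval_prod]
      have : ∏ j ∈ J, eval t (X - C (mu p q n j)) = 0 := by
        apply Finset.prod_eq_zero (i := j)
        · rw [hJ, Finset.mem_erase, Finset.mem_Ico]
          exact ⟨hjj, hj, by omega⟩
        · simp [hjt]
      rw [this]; ring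
  set d := Q'.natDegree with hd
  have hcd : Q'.coeff d = 1 := hmonic.coeff_natDegree
  set Z := aeval (DD a c p q) Q' * eP a p with hZ
  have hZsum : Z = ∑ k ∈ Finset.range (d + 1), Q'.coeff k • alt (eP a p) (eP c q) (2 * k + 1) := by
    rw [hZ, aeval_eq_sum_range, Finset.sum_mul]
    apply Finset.sum_congr rfl
    intro k _
    rw [smul_mul_assoc, hD, pow_mul_idem _ _ hee]
  have hDZ : DD a c p q * Z = 0 := by
    rw [hZ, ← mul_assoc]
    have : DD a c p q * aeval (DD a c p q) Q' = aeval (DD a c p q) (X * Q') := by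
      rw [show (aeval (DD a c p q)) (X * Q') =
        aeval (DD a c p q) X * aeval (DD a c p q) Q' from map_mul _ _ _, aeval_X]
    rw [this, hvan, zero_mul]
  have heZ : eP a p * Z = Z := by
    rw [hZsum, Finset.mul_sum]
    apply Finset.sum_congr rfl
    intro k _
    rw [mul_smul_comm, idem_mul_alt _ _ hee]
  have hfZ : eP c q * Z = 0 := by
    have h1 : eP a p * (eP c q * Z) = 0 := by
      rw [← hDZ, hD, mul_assoc, mul_assoc, heZ]
    have h3 : Zᵀ * eP a p = Zᵀ := by
      calc Zᵀ * eP a p = Zᵀ * (eP a p)ᵀ := by rw [heT]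
        _ = (eP a p * Z)ᵀ := (transpose_mul _ _).symm
        _ = Zᵀ := by rw [heZ]
    have h2 : (eP c q * Z)ᵀ * (eP c q * Z) = 0 := by
      rw [transpose_mul, hfT, mul_assoc, ← mul_assoc (eP c q) (eP c q), hff, ← h3, mul_assoc, h1,
        mul_zero]
    have h4 := Matrix.conjTranspose_mul_self_eq_zero (A := eP c q * Z)
    rw [conjTranspose_eq_transpose_of_trivial] at h4
    exact h4.mp h2
  -- the words in `e`, `f`
  have hF1 : ∀ m, m ≤ n → alt (eP a p) (eP c q) m ∈ Fil a c m ∧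
      alt (eP c q) (eP a p) m ∈ Fil a c m := by
    intro m hm
    rw [eP_alt, eP_alt]
    rcases Nat.eq_zero_or_pos m with rfl | hm0
    · constructor
      · apply Submodule.smul_mem; exact alt_mem_Fil a c 0
      · apply Submodule.smul_mem; exact alt_mem_Fil a c 0
    · obtain ⟨h1, h2, -, -⟩ := hLW a c p q n H m hm0 hm
      constructor
      · apply Submodule.smul_mem
        have : alt (1 + a) (1 + c) m = (alt (1 + a) (1 + c) m - alt a c m) + alt a c m := by abel
        rw [this]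
        exact Submodule.add_mem _ (Fil_mono a c (Nat.sub_le m 1) h1) (alt_mem_Fil a c m)
      · apply Submodule.smul_mem
        have : alt (1 + c) (1 + a) m = (alt (1 + c) (1 + a) m - alt c a m) + alt c a m := by abel
        rw [this]
        exact Submodule.add_mem _ (Fil_mono a c (Nat.sub_le m 1) h2) (alt_mem_Fil' a c m)
  have hF2 : ∀ m, 1 ≤ m → m ≤ n →
      alt (eP a p) (eP c q) m - wt ((p : ℝ) + 1)⁻¹ ((q : ℝ) + 1)⁻¹ m • alt a c m ∈ Fil a c (m - 1) ∧
      alt (eP c q) (eP a p) m - wt ((q : ℝ) + 1)⁻¹ ((p : ℝ) + 1)⁻¹ m • alt c a m ∈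
        Fil a c (m - 1) := by
    intro m hm0 hm
    rw [eP_alt, eP_alt, ← smul_sub, ← smul_sub]
    obtain ⟨h1, h2, -, -⟩ := hLW a c p q n H m hm0 hm
    exact ⟨Submodule.smul_mem _ _ h1, Submodule.smul_mem _ _ h2⟩
  have hpinv : (0 : ℝ) < ((p : ℝ) + 1)⁻¹ := by positivity
  have hqinv : (0 : ℝ) < ((q : ℝ) + 1)⁻¹ := by positivity
  have hn3 : 3 ≤ n := by omega
  obtain ⟨-, -, hA1, hA2⟩ := hLW a c p q n H n (by omega) le_rfl
  rcases Nat.even_or_odd n with hev | hod
  · -- `n` even: use `f Z = 0`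
    have hnd : 2 * d + 2 = n := by
      obtain ⟨h, hh⟩ := hev
      omega
    have hsum : ∑ k ∈ Finset.range (d + 1), Q'.coeff k • alt (eP c q) (eP a p) (2 * k + 2) = 0 := by
      rw [← hfZ, hZsum, Finset.mul_sum]
      apply Finset.sum_congr rfl
      intro k _
      rw [mul_smul_comm]
      rfl
    refine final_contra a c n d 2 (fun k => alt (eP c q) (eP a p) (2 * k + 2)) (alt c a n)
      (wt ((q : ℝ) + 1)⁻¹ ((p : ℝ) + 1)⁻¹ n) Q'.coeff hnd (by norm_num) ?_ ?_
      (wt_pos hqinv hpinv n).ne' hA2 hcd hsum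
    · intro k hk
      exact (hF1 (2 * k + 2) (by omega)).2
    · have := (hF2 n (by omega) le_rfl).2
      show alt (eP c q) (eP a p) (2 * d + 2) - _ ∈ _
      rw [hnd]
      exact this
  · -- `n` odd: `Z = 0`
    have hnd : 2 * d + 1 = n := by
      obtain ⟨h, hh⟩ := hod
      omega
    have haZ : a * Z = (p : ℝ) • Z := by
      have h := heZ
      unfold eP at h
      rw [smul_mul_assoc, add_mul, one_mul] at h
      have h' : a * Z + Z = ((p : ℝ) + 1) • Z := by
        have := congrArg (fun M => ((p : ℝ) + 1) • M) h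
        simpa [smul_smul, mul_inv_cancel₀ hp1] using this
      rw [add_smul, one_smul] at h'
      exact add_right_cancel h'
    have hcZ : c * Z = (-1 : ℝ) • Z := by
      have h := hfZ
      unfold eP at h
      rw [smul_mul_assoc, add_mul, one_mul, smul_eq_zero] at h
      rcases h with h | h
      · exact absurd h (inv_ne_zero hq1)
      · rw [neg_one_smul]; exact eq_neg_of_add_eq_zero_left h
    have hb1 := alt_mul_eigen a c Z p (-1) haZ hcZ n
    have hb2 := alt_mul_eigen c a Z (-1) p hcZ haZ n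
    rw [H.braid, hb2] at hb1
    have hZ0 : Z = 0 := by
      have h5 : (wt (-1) p n - wt p (-1) n) • Z = 0 := by
        rw [sub_smul, hb1, sub_self]
      rw [smul_eq_zero] at h5
      rcases h5 with h5 | h5
      · exfalso
        rw [← hnd] at h5
        unfold wt at h5
        have e1 : (2 * d + 1 + 1) / 2 = d + 1 := by omega
        have e2 : (2 * d + 1) / 2 = d := by omega
        rw [e1, e2] at h5
        have h6 : ((-1 : ℝ)) ^ (d + 1) * (p : ℝ) ^ d - (p : ℝ) ^ (d + 1) * (-1) ^ d =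
            -((-1 : ℝ) ^ d * (p : ℝ) ^ d * ((p : ℝ) + 1)) := by ring
        rw [h6, neg_eq_zero] at h5
        have hp0 : (p : ℝ) ≠ 0 := by
          have := H.hp
          positivity
        have : ((-1 : ℝ)) ^ d * (p : ℝ) ^ d * ((p : ℝ) + 1) ≠ 0 := by
          apply mul_ne_zero (mul_ne_zero _ (pow_ne_zero _ hp0)) hp1
          exact pow_ne_zero _ (by norm_num)
        exact this h5
      · exact h5
    have hsum : ∑ k ∈ Finset.range (d + 1), Q'.coeff k • alt (eP a p) (eP c q) (2 * k + 1) = 0 := by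
      rw [← hZsum, hZ0]
    refine final_contra a c n d 1 (fun k => alt (eP a p) (eP c q) (2 * k + 1)) (alt a c n)
      (wt ((p : ℝ) + 1)⁻¹ ((q : ℝ) + 1)⁻¹ n) Q'.coeff hnd (by norm_num) ?_ ?_
      (wt_pos hpinv hqinv n).ne' hA1 hcd hsum
    · intro k hk
      exact (hF1 (2 * k + 1) (by omega)).1
    · have := (hF2 n (by omega) le_rfl).1
      show alt (eP a p) (eP c q) (2 * d + 1) - _ ∈ _
      rw [hnd]
      exact this

end Cfsg.Agent.H95.FH
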