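import Mathlib
import Cfsg.Agent.H95.FHDefs

/-!
# Feit–Higman for (B,N)-pairs of rank 2 (S1142): final assembly from the pieces (helper95)
-/

set_option autoImplicit false

universe u

namespace Cfsg.Agent.H95.FH

open Matrix

theorem angle_pos {n j : ℕ} (hj : 1 ≤ j) (hjn : 2 * j < n) :
    0 < 2 * Real.pi * j / n ∧ 2 * Real.pi * j / n < Real.pi := by
  have hn : (0 : ℝ) < n := by exact_mod_cast (by omega : 0 < n)
  have hj' : (0 : ℝ) < j := by exact_mod_cast (by omega : 0 < j)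
  have hjn' : (2 : ℝ) * j < n := by exact_mod_cast hjn
  have hpi := Real.pi_pos
  constructor
  · positivity
  · rw [div_lt_iff₀ hn]
    nlinarith

theorem cos_gt {n j : ℕ} (hj : 1 ≤ j) (hjn : 2 * j < n) :
    -1 < Real.cos (2 * Real.pi * j / n) := by
  obtain ⟨h1, h2⟩ := angle_pos hj hjn
  have := Real.cos_lt_cos_of_nonneg_of_le_pi (le_of_lt h1) le_rfl h2
  rwa [Real.cos_pi] at this

theorem mu_pos {p q n j : ℕ} (hp : 2 ≤ p) (hq : 2 ≤ q) (hj : 1 ≤ j) (hjn : 2 * j < n) :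
    0 < mu p q n j := by
  have hc := cos_gt hj hjn
  have hp' : (2 : ℝ) ≤ p := by exact_mod_cast hp
  have hq' : (2 : ℝ) ≤ q := by exact_mod_cast hq
  unfold mu
  apply div_pos _ (by positivity)
  set x := Real.sqrt ((p : ℝ) * q) with hx
  have hx0 : 0 ≤ x := Real.sqrt_nonneg _
  have hxx : x * x = (p : ℝ) * q := Real.mul_self_sqrt (by positivity)
  have h1 : 2 * x ≤ (p : ℝ) + q := by nlinarith [sq_nonneg ((p : ℝ) - q), sq_nonneg ((p : ℝ) + q - 2 * x)]
  have hxpos : 0 < x := by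
    rw [hx]; apply Real.sqrt_pos.mpr; positivity
  nlinarith

/-- The rationality statement: the closed forms are `N / m` with `m` a positive integer. -/
theorem rat (hRow : RowStmt.{u}) (hExist : ExistStmt.{u}) (hMult : MultStmt.{u})
    (hTE : TrigEvenStmt) (hTO : TrigOddStmt)
    {Ω : Type u} [Fintype Ω] [DecidableEq Ω] (a c : Matrix Ω Ω ℝ) (p q n : ℕ)
    (H : HeckeData Ω a c p q n) :
    (Odd n → p = q) ∧ ∀ j : ℕ, 1 ≤ j → 2 * j < n →
      ∃ m : ℕ, 0 < m ∧ (Fintype.card Ω : ℝ) = m * closed p q n j := by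
  have hodd := (hRow a c p q n H).1
  refine ⟨hodd, fun j hj hjn => ?_⟩
  obtain ⟨m, hm, hN⟩ := hMult a c p q n H (mu p q n j) (mu_pos H.hp H.hq hj hjn).ne'
    (hExist a c p q n H j hj hjn)
  refine ⟨m, hm, ?_⟩
  rw [hN]
  rcases Nat.even_or_odd n with he | ho
  · rw [hTE p q n j H.hn H.hp H.hq he hj hjn]
  · have hpq := hodd ho
    subst hpq
    rw [hTO p n j H.hn H.hp ho hj hjn]

/-- Feit–Higman from the pieces. -/
theorem main (hBN : BNStmt.{u}) (hRow : RowStmt.{u}) (hExist : ExistStmt.{u})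
    (hMult : MultStmt.{u}) (hTE : TrigEvenStmt) (hTO : TrigOddStmt) (hNE : NTEvenStmt)
    (hNO : NTOddStmt)
    {G : Type u} [Group G] [Finite G] (P : Cfsg.BNPair G) (h2 : P.rank = 2) :
    ((P.B ⊓ P.N).subgroupOf P.N).index ∈ ({4, 6, 8, 12, 16} : Set ℕ) := by
  obtain ⟨Ω, _, _, a, c, p, q, n, hidx, H⟩ := hBN P h2
  obtain ⟨hodd, hr⟩ := rat hRow hExist hMult hTE hTO a c p q n H
  rw [hidx]
  rcases Nat.even_or_odd n with he | ho
  · rcases hNE p q n (Fintype.card Ω) H.hn H.hp H.hq he hr with h | h | h | h <;> rw [h] <;> simp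
  · have hpq := hodd ho
    subst hpq
    have h := hNO p n (Fintype.card Ω) H.hn H.hp ho hr
    rw [h]; simp

end Cfsg.Agent.H95.FH
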