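import Mathlib
import Cfsg.Agent.H95.FHDefs
import Cfsg.Agent.H95.FHExist

/-!
# Feit–Higman (S1142), piece MULT: `N = m * Ssum` for an eigenvalue of multiplicity `m` (helper95)
-/

set_option autoImplicit false

universe u

namespace Cfsg.Agent.H95.FH

open Matrix Polynomial

section

variable {Ω : Type u} [Fintype Ω] [DecidableEq Ω]

theorem eP_mul (a : Matrix Ω Ω ℝ) (p : ℕ) (Z : Matrix Ω Ω ℝ) :
    a * Z = ((p : ℝ) + 1) • (eP a p * Z) - Z := by
  have hp : ((p : ℝ) + 1) ≠ 0 := by positivity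
  unfold eP
  rw [smul_mul_assoc, smul_smul, mul_inv_cancel₀ hp, one_smul, add_mul, one_mul,
    add_sub_cancel_right]

/-- `B` acts on the "plane" spanned by `π`, `g` through the 2×2 matrix `B₂` (columns). -/
def Rep (π g : Matrix Ω Ω ℝ) (B : Matrix Ω Ω ℝ) (B₂ : Matrix (Fin 2) (Fin 2) ℝ) : Prop :=
  B * π = B₂ 0 0 • π + B₂ 1 0 • g ∧ B * g = B₂ 0 1 • π + B₂ 1 1 • g

theorem Rep_one (π g : Matrix Ω Ω ℝ) : Rep π g 1 1 := by
  constructor <;> simp

theorem Rep_mul {π g X Y : Matrix Ω Ω ℝ} {X₂ Y₂ : Matrix (Fin 2) (Fin 2) ℝ}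
    (hX : Rep π g X X₂) (hY : Rep π g Y Y₂) : Rep π g (X * Y) (X₂ * Y₂) := by
  obtain ⟨hX1, hX2⟩ := hX
  obtain ⟨hY1, hY2⟩ := hY
  constructor
  · rw [mul_assoc, hY1, mul_add, mul_smul_comm, mul_smul_comm, hX1, hX2]
    simp only [Matrix.mul_apply, Fin.sum_univ_two]
    module
  · rw [mul_assoc, hY2, mul_add, mul_smul_comm, mul_smul_comm, hX1, hX2]
    simp only [Matrix.mul_apply, Fin.sum_univ_two]
    module

theorem Rep_alt {π g X Y : Matrix Ω Ω ℝ} {X₂ Y₂ : Matrix (Fin 2) (Fin 2) ℝ}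
    (hX : Rep π g X X₂) (hY : Rep π g Y Y₂) (k : ℕ) : Rep π g (alt X Y k) (alt X₂ Y₂ k) := by
  induction k generalizing X Y X₂ Y₂ with
  | zero => exact Rep_one π g
  | succ k ih => exact Rep_mul hX (ih hY hX)

end

/-- FH-MULT -/
theorem mult (hAlg : AlgStmt.{u}) (hExpand : ExpandStmt.{u}) (hSpec : SpecStmt.{u}) :
    MultStmt.{u} := by
  intro Ω _ _ a c p q n H μ hμ hev
  have hp1 : ((p : ℝ) + 1) ≠ 0 := by positivity
  have hq1 : ((q : ℝ) + 1) ≠ 0 := by positivity
  have hee : eP a p * eP a p = eP a p := eP_sq a p H.sq_a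
  have hff : eP c q * eP c q = eP c q := eP_sq c q H.sq_c
  have heT : (eP a p)ᵀ = eP a p := eP_transpose a p H.symm_a
  have hfT : (eP c q)ᵀ = eP c q := eP_transpose c q H.symm_c
  have hD : DD a c p q = eP a p * eP c q * eP a p := rfl
  have hDT : (DD a c p q)ᵀ = DD a c p q := by
    rw [hD, transpose_mul, transpose_mul, heT, hfT, mul_assoc]
  obtain ⟨L, hπT, hππ, hDπ, m, hm, htr⟩ := hSpec (DD a c p q) hDT μ hev
  obtain ⟨h1A, haA, hcA, hmulA⟩ := hAlg a c p q n H
  set π := aeval (DD a c p q) L with hπ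
  -- `π` lies in the algebra
  have heA : eP a p ∈ Alg a c n := Submodule.smul_mem _ _ (Submodule.add_mem _ haA h1A)
  have hfA : eP c q ∈ Alg a c n := Submodule.smul_mem _ _ (Submodule.add_mem _ hcA h1A)
  have hDA : DD a c p q ∈ Alg a c n := hmulA _ (hmulA _ heA _ hfA) _ heA
  have hpowA : ∀ k : ℕ, DD a c p q ^ k ∈ Alg a c n := by
    intro k
    induction k with
    | zero => rw [pow_zero]; exact h1A
    | succ k ih => rw [pow_succ]; exact hmulA _ ih _ hDA
  have hπA : π ∈ Alg a c n := by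
    rw [hπ, aeval_eq_sum_range]
    exact Submodule.sum_mem _ fun k _ => Submodule.smul_mem _ _ (hpowA k)
  -- relations
  have heD : eP a p * DD a c p q = DD a c p q := by
    rw [hD, ← mul_assoc, ← mul_assoc, hee]
  have hπ' : π = μ⁻¹ • (DD a c p q * π) := by
    rw [hDπ, smul_smul, inv_mul_cancel₀ hμ, one_smul]
  have heπ : eP a p * π = π := by
    calc eP a p * π = eP a p * (μ⁻¹ • (DD a c p q * π)) := by rw [← hπ']
      _ = μ⁻¹ • (eP a p * DD a c p q * π) := by rw [mul_smul_comm, mul_assoc]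
      _ = μ⁻¹ • (DD a c p q * π) := by rw [heD]
      _ = π := hπ'.symm
  have hπe : π * eP a p = π := by
    calc π * eP a p = πᵀ * (eP a p)ᵀ := by rw [hπT, heT]
      _ = (eP a p * π)ᵀ := (transpose_mul _ _).symm
      _ = π := by rw [heπ, hπT]
  have hefπ : eP a p * (eP c q * π) = μ • π := by
    rw [← hDπ, hD]
    conv_lhs => rw [← heπ]
    simp only [mul_assoc]
  set g := eP c q * π with hg
  have hfg : eP c q * g = g := by rw [hg, ← mul_assoc, hff]
  have hπg : π * g = μ • π := by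
    calc π * g = π * eP a p * g := by rw [hπe]
      _ = π * (eP a p * g) := mul_assoc _ _ _
      _ = μ • π := by rw [hefπ, mul_smul_comm, hππ]
  -- the four actions
  have hRa : Rep π g a (a2 p μ) := by
    constructor
    · rw [eP_mul a p π, heπ]
      simp only [a2, Matrix.of_apply, Matrix.cons_val_zero, Matrix.cons_val_one]
      simp
      module
    · rw [eP_mul a p g, hefπ]
      simp only [a2, Matrix.of_apply, Matrix.cons_val_zero, Matrix.cons_val_one]
      simp
      module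
  have hRc : Rep π g c (c2 q) := by
    constructor
    · rw [eP_mul c q π, ← hg]
      simp only [c2, Matrix.of_apply, Matrix.cons_val_zero, Matrix.cons_val_one]
      simp
      module
    · rw [eP_mul c q g, hfg]
      simp only [c2, Matrix.of_apply, Matrix.cons_val_zero, Matrix.cons_val_one]
      simp
      module
  -- sandwich
  have hsand : ∀ (B : Matrix Ω Ω ℝ) (B₂ : Matrix (Fin 2) (Fin 2) ℝ), Rep π g B B₂ →
      π * B * π = gam μ B₂ • π := by
    intro B B₂ hB
    rw [mul_assoc, hB.1, mul_add, mul_smul_comm, mul_smul_comm, hππ, hπg]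
    unfold gam
    module
  have htrace : ∀ (B : Matrix Ω Ω ℝ) (B₂ : Matrix (Fin 2) (Fin 2) ℝ), Rep π g B B₂ →
      (Bᵀ * π).trace = gam μ B₂ * m := by
    intro B B₂ hB
    calc (Bᵀ * π).trace = ((Bᵀ * π)ᵀ).trace := (trace_transpose _).symm
      _ = (π * B).trace := by rw [transpose_mul, transpose_transpose, hπT]
      _ = (π * (π * B)).trace := by rw [← mul_assoc, hππ]
      _ = (π * B * π).trace := by rw [trace_mul_comm, mul_assoc]
      _ = gam μ B₂ * m := by rw [hsand B B₂ hB, trace_smul, htr, smul_eq_mul]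
  have hN : (0 : ℝ) < Fintype.card Ω := by
    have := H.ne
    exact_mod_cast Fintype.card_pos
  have hExp := hExpand a c p q n H π hπA
  have hkey : π = ((m : ℝ) / Fintype.card Ω * Ssum p q n μ) • π := by
    have h1 : π * π * π = π * (∑ k ∈ Finset.range (n + 1),
          (((alt a c k)ᵀ * π).trace / ((Fintype.card Ω : ℝ) * wt p q k)) • alt a c k +
        ∑ l ∈ Finset.Ico 1 n,
          (((alt c a l)ᵀ * π).trace / ((Fintype.card Ω : ℝ) * wt q p l)) • alt c a l) * π := by
      rw [← hExp]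
    rw [hππ, hππ] at h1
    rw [mul_add, add_mul, Finset.mul_sum, Finset.mul_sum, Finset.sum_mul, Finset.sum_mul] at h1
    have e1 : ∀ k ∈ Finset.range (n + 1),
        π * (((alt a c k)ᵀ * π).trace / ((Fintype.card Ω : ℝ) * wt p q k)) • alt a c k * π =
        ((m : ℝ) / Fintype.card Ω * (gam μ (alt (a2 p μ) (c2 q) k) ^ 2 / wt p q k)) • π := by
      intro k _
      have hR := Rep_alt hRa hRc k
      rw [mul_smul_comm, smul_mul_assoc, hsand _ _ hR, htrace _ _ hR, smul_smul]
      congr 1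
      ring
    have e2 : ∀ l ∈ Finset.Ico 1 n,
        π * (((alt c a l)ᵀ * π).trace / ((Fintype.card Ω : ℝ) * wt q p l)) • alt c a l * π =
        ((m : ℝ) / Fintype.card Ω * (gam μ (alt (c2 q) (a2 p μ) l) ^ 2 / wt q p l)) • π := by
      intro l _
      have hR := Rep_alt hRc hRa l
      rw [mul_smul_comm, smul_mul_assoc, hsand _ _ hR, htrace _ _ hR, smul_smul]
      congr 1
      ring
    rw [Finset.sum_congr rfl e1, Finset.sum_congr rfl e2, ← Finset.sum_smul, ← Finset.sum_smul,
      ← add_smul, ← Finset.mul_sum, ← Finset.mul_sum, ← mul_add] at h1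
    exact h1
  have hm' : (0 : ℝ) < m := by exact_mod_cast hm
  have h2 := congrArg Matrix.trace hkey
  rw [trace_smul, htr, smul_eq_mul] at h2
  have h3 : (m : ℝ) / Fintype.card Ω * Ssum p q n μ = 1 := by
    have : ((m : ℝ) / Fintype.card Ω * Ssum p q n μ - 1) * m = 0 := by linarith
    rcases mul_eq_zero.mp this with h | h
    · linarith
    · exact absurd h hm'.ne'
  refine ⟨m, hm, ?_⟩
  field_simp at h3
  linarith

end Cfsg.Agent.H95.FH
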