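import Mathlib
import Cfsg.Agent.H95.FlagDefs

/-!
# helper95: the coefficient of the right-hand side of the Cauchy identity (S2422-C2R)
-/

set_option autoImplicit false

namespace Cfsg.Agent.H95.Flag

variable {n : ℕ}

/-- The coefficient functional at `(lam, lam')` as an additive hom. -/
noncomputable def cf (lam lam' : Fin n → ℕ) : GF n →+ ℤ :=
  (Finsupp.applyAddHom (lam, lam')).comp
    (AddMonoidAlgebra.coeffAddEquiv : GF n ≃+ _).toAddMonoidHom

theorem cf_apply (lam lam' : Fin n → ℕ) (f : GF n) : cf lam lam' f = f.coeff (lam, lam') := rfl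

theorem cf_mon (lam lam' u v : Fin n → ℕ) :
    cf lam lam' (mon u v) = if u = lam ∧ v = lam' then 1 else 0 := by
  rw [cf_apply, mon_apply]

/-- products of monomials -/
theorem prod_mon {ι : Type*} (s : Finset ι) (u v : ι → Fin n → ℕ) :
    ∏ i ∈ s, mon (u i) (v i) = mon (∑ i ∈ s, u i) (∑ i ∈ s, v i) := by
  classical
  induction s using Finset.induction_on with
  | empty => simp [mon_zero]
  | insert a s ha ih =>
    rw [Finset.prod_insert ha, Finset.sum_insert ha, Finset.sum_insert ha, ih, mon_mul]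

theorem mon_pow (u v : Fin n → ℕ) (k : ℕ) : mon u v ^ k = mon (k • u) (k • v) := by
  induction k with
  | zero => simp [mon_zero]
  | succ k ih => rw [pow_succ, ih, mon_mul, succ_nsmul, succ_nsmul]

theorem gx_mul_gy_pow (i j : Fin n) (k : ℕ) :
    (gx i * gy j : GF n) ^ k = mon (Pi.single i k) (Pi.single j k) := by
  unfold gx gy
  rw [mon_mul, mon_pow, add_zero, zero_add]
  congr 1
  · ext l
    by_cases hl : l = i
    · subst hl; simp
    · simp [Pi.single_apply, hl]
  · ext l
    by_cases hl : l = j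
    · subst hl; simp
    · simp [Pi.single_apply, hl]

/-- The elements all of whose multiples have zero coefficient at `(lam, lam')`. -/
def Van (lam lam' : Fin n → ℕ) (f : GF n) : Prop := ∀ r : GF n, cf lam lam' (f * r) = 0

theorem Van.add {lam lam' : Fin n → ℕ} {f g : GF n} (hf : Van lam lam' f) (hg : Van lam lam' g) :
    Van lam lam' (f + g) := by
  intro r
  rw [add_mul, map_add, hf r, hg r, add_zero]

theorem Van.mul_right {lam lam' : Fin n → ℕ} {f : GF n} (hf : Van lam lam' f) (g : GF n) :
    Van lam lam' (f * g) := by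
  intro r
  rw [mul_assoc]
  exact hf _

theorem Van.neg {lam lam' : Fin n → ℕ} {f : GF n} (hf : Van lam lam' f) : Van lam lam' (-f) := by
  intro r
  rw [neg_mul, map_neg, hf r, neg_zero]

theorem van_mon {lam lam' : Fin n → ℕ} (u v : Fin n → ℕ) (i : Fin n) (hi : lam i < u i) :
    Van lam lam' (mon u v) := by
  intro r
  rw [cf_apply]
  unfold mon
  apply AddMonoidAlgebra.coeff_single_mul_of_forall_add_ne
  intro d hd
  have h1 : u + d.1 = lam := congrArg Prod.fst hd
  have h2 := congrFun h1 i
  simp only [Pi.add_apply] at h2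
  omega

theorem van_factor {lam lam' : Fin n → ℕ} (D : ℕ) (i j : Fin n) (hD : lam i < D) :
    Van lam lam' ((1 - (gx i * gy j : GF n) ^ D) - 1) := by
  have : (1 - (gx i * gy j : GF n) ^ D) - 1 = -(mon (Pi.single i D) (Pi.single j D)) := by
    rw [gx_mul_gy_pow]; ring
  rw [this]
  apply Van.neg
  apply van_mon _ _ i
  simpa using hD

theorem van_mul_sub_one {lam lam' : Fin n → ℕ} {a b : GF n} (ha : Van lam lam' (a - 1))
    (hb : Van lam lam' (b - 1)) : Van lam lam' (a * b - 1) := by
  have : a * b - 1 = (a - 1) * b + (b - 1) := by ring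
  rw [this]
  exact (ha.mul_right b).add hb

theorem van_prod_sub_one {lam lam' : Fin n → ℕ} {ι : Type*} (s : Finset ι) (f : ι → GF n)
    (hf : ∀ i ∈ s, Van lam lam' (f i - 1)) : Van lam lam' (∏ i ∈ s, f i - 1) := by
  refine Finset.prod_induction f (fun a => Van lam lam' (a - 1)) (fun a b => van_mul_sub_one) ?_ hf
  intro r
  simp

theorem cf_mul_of_van {lam lam' : Fin n → ℕ} {P : GF n} (hP : Van lam lam' (P - 1)) (Q : GF n) :
    cf lam lam' (P * Q) = cf lam lam' Q := by
  have : P * Q = Q + (P - 1) * Q := by ring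
  rw [this, map_add, hP Q, add_zero]

/-- The coefficient of `∏ i, ∑ k < D, (x_i y_{σ i})^k` at `(lam, lam')`. -/
theorem cf_prod_geom (lam lam' : Fin n → ℕ) (D : ℕ) (hD : ∀ i, lam i < D)
    (σ : Equiv.Perm (Fin n)) :
    cf lam lam' (∏ i, ∑ k ∈ Finset.range D, (gx i * gy (σ i) : GF n) ^ k) =
      if lam = lam' ∘ σ then 1 else 0 := by
  classical
  rw [Finset.prod_univ_sum, map_sum]
  have hterm : ∀ k ∈ Fintype.piFinset (fun _ : Fin n => Finset.range D),
      cf lam lam' (∏ i, (gx i * gy (σ i) : GF n) ^ (k i)) =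
        if k = lam then (if lam = lam' ∘ σ then 1 else 0) else 0 := by
    intro k _
    simp only [gx_mul_gy_pow]
    rw [prod_mon, cf_mon]
    have h1 : (∑ i, Pi.single i (k i) : Fin n → ℕ) = k := by
      ext l
      rw [Finset.sum_apply]
      simp [Pi.single_apply]
    have h2 : (∑ i, Pi.single (σ i) (k i) : Fin n → ℕ) = k ∘ σ.symm := by
      ext l
      rw [Finset.sum_apply]
      rw [Finset.sum_eq_single (σ.symm l)]
      · simp
      · intro b _ hb
        rw [Pi.single_apply, if_neg]
        rintro rfl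
        exact hb (by simp)
      · intro hh; exact absurd (Finset.mem_univ _) hh
    rw [h1, h2]
    by_cases hk : k = lam
    · subst hk
      rw [if_pos rfl]
      have : (k ∘ σ.symm = lam') ↔ (k = lam' ∘ σ) := by
        constructor
        · rintro rfl; ext i; simp
        · intro hh; rw [hh]; ext i; simp
      by_cases hc : k = lam' ∘ σ
      · rw [if_pos hc, if_pos ⟨rfl, this.mpr hc⟩]
      · rw [if_neg hc, if_neg (fun hh => hc (this.mp hh.2))]
    · rw [if_neg hk, if_neg (fun hh => hk hh.1)]
  rw [Finset.sum_congr rfl hterm, Finset.sum_ite_eq']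
  rw [if_pos]
  rw [Fintype.mem_piFinset]
  intro i
  exact Finset.mem_range.mpr (hD i)

theorem perm_eq_one_of_strictMono (σ : Equiv.Perm (Fin n)) (hσ : StrictMono σ) : σ = 1 := by
  have h1 : ∀ i, i ≤ σ i := fun i => hσ.id_le i
  have hσ' : StrictMono (σ.symm : Fin n → Fin n) := by
    intro i j hij
    by_contra hc
    have hc' : σ.symm j ≤ σ.symm i := not_lt.mp hc
    have := hσ.monotone hc'
    simp only [Equiv.apply_symm_apply] at this
    exact absurd hij (not_lt.mpr this)
  have h2 : ∀ i, i ≤ σ.symm i := fun i => hσ'.id_le i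
  ext i
  have h3 := h2 (σ i)
  simp only [Equiv.symm_apply_apply] at h3
  exact congrArg Fin.val (le_antisymm h3 (h1 i))

/-- S2422-C2R. -/
theorem coeff_cauchy_rhs {n : ℕ} (lam lam' : Fin n → ℕ) (h : StrictMono lam) (h' : StrictMono lam')
    (D : ℕ) (hD : ∀ i, lam i < D) :
    (∑ σ : Equiv.Perm (Fin n), ((Equiv.Perm.sign σ : ℤ) : GF n) *
        ((∏ i, ∏ j ∈ Finset.univ.erase (σ i), (1 - (gx i * gy j : GF n) ^ D)) *
          ∏ i, ∑ k ∈ Finset.range D, (gx i * gy (σ i) : GF n) ^ k)).coeff (lam, lam') =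
      if lam = lam' then 1 else 0 := by
  classical
  rw [← cf_apply, map_sum]
  have hterm : ∀ σ : Equiv.Perm (Fin n),
      cf lam lam' (((Equiv.Perm.sign σ : ℤ) : GF n) *
        ((∏ i, ∏ j ∈ Finset.univ.erase (σ i), (1 - (gx i * gy j : GF n) ^ D)) *
          ∏ i, ∑ k ∈ Finset.range D, (gx i * gy (σ i) : GF n) ^ k)) =
      if σ = 1 then (if lam = lam' then 1 else 0) else 0 := by
    intro σ
    have hP : Van lam lam'
        ((∏ i, ∏ j ∈ Finset.univ.erase (σ i), (1 - (gx i * gy j : GF n) ^ D)) - 1) := by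
      apply van_prod_sub_one
      intro i _
      apply van_prod_sub_one
      intro j _
      exact van_factor D i j (hD i)
    have hval : cf lam lam' ((∏ i, ∏ j ∈ Finset.univ.erase (σ i), (1 - (gx i * gy j : GF n) ^ D)) *
          ∏ i, ∑ k ∈ Finset.range D, (gx i * gy (σ i) : GF n) ^ k) =
        if lam = lam' ∘ σ then 1 else 0 := by
      rw [cf_mul_of_van hP, cf_prod_geom lam lam' D hD σ]
    by_cases hσ : σ = 1
    · subst hσ
      rw [if_pos rfl]
      rw [Equiv.Perm.sign_one, Units.val_one, Int.cast_one, one_mul, hval]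
      rfl
    · rw [if_neg hσ]
      have hne : ¬ (lam = lam' ∘ σ) := by
        intro hc
        apply hσ
        apply perm_eq_one_of_strictMono
        intro i j hij
        have := h hij
        rw [hc] at this
        exact h'.lt_iff_lt.mp this
      rw [if_neg hne] at hval
      rcases Int.units_eq_one_or (Equiv.Perm.sign σ) with hs | hs
      · rw [hs, Units.val_one, Int.cast_one, one_mul, hval]
      · rw [hs, Units.val_neg, Units.val_one, Int.cast_neg, Int.cast_one, neg_one_mul, map_neg, hval,
          neg_zero]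
  rw [Finset.sum_congr rfl (fun σ _ => hterm σ), Finset.sum_ite_eq' Finset.univ 1, if_pos (Finset.mem_univ _)]

end Cfsg.Agent.H95.Flag
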