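import Mathlib
import Cfsg.Agent.H95.FlagDefs
import Cfsg.Agent.H20.FlagBurnside
import Cfsg.Agent.H39.FlagRk
import Cfsg.Agent.H98.FlagYD
import Cfsg.Agent.H89.FlagBruhat

/-!
# helper95: GL_n flag permutation characters vs Young permutation characters (S2423)
-/

set_option autoImplicit false
open scoped MatrixGroups

namespace Cfsg.Agent.H95.Flag

variable {n : ℕ} {F : Type*} [Field F]

theorem compLabel_monotone (μ : Fin n → ℕ) : Monotone (Cfsg.compLabel μ) := by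
  intro i i' h
  unfold Cfsg.compLabel
  apply Finset.card_le_card
  intro j hj
  simp only [Finset.mem_filter, Finset.mem_univ, true_and] at hj ⊢
  exact hj.trans (Fin.le_def.mp h)

theorem blockTriangular_of_id {a : Fin n → ℕ} (ha : Monotone a) {M : Matrix (Fin n) (Fin n) F}
    (h : M.BlockTriangular id) : M.BlockTriangular a := by
  intro i j hij
  apply h
  show j < i
  by_contra hc
  exact absurd (ha (not_lt.mp hc)) (not_le.mpr hij)

/-- The permutation matrix as an element of `GL`. -/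
noncomputable def permGL (F : Type*) [Field F] (σ : Equiv.Perm (Fin n)) : GL (Fin n) F :=
  Matrix.nonsingInvUnit (pmat F σ) (isUnit_det_pmat F σ)

theorem coe_permGL (σ : Equiv.Perm (Fin n)) :
    ((permGL F σ : GL (Fin n) F) : Matrix (Fin n) (Fin n) F) = pmat F σ := rfl

theorem permGL_mul (σ τ : Equiv.Perm (Fin n)) : permGL F (σ * τ) = permGL F σ * permGL F τ := by
  apply Units.ext
  rw [Units.val_mul, coe_permGL, coe_permGL, coe_permGL, pmat_mul]

theorem permGL_mem_parabolic (μ : Fin n → ℕ) (σ : Equiv.Perm (Fin n))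
    (h : ∀ i, Cfsg.compLabel μ (σ i) = Cfsg.compLabel μ i) :
    permGL F σ ∈ Cfsg.parabolicGL n F μ :=
  pmat_blockTriangular F _ σ h

/-- Bruhat decomposition in `GL` form, with the Borel factors inside given parabolics. -/
theorem bruhat_GL (ν μ : Fin n → ℕ) (g : GL (Fin n) F) :
    ∃ p ∈ Cfsg.parabolicGL n F ν, ∃ p' ∈ Cfsg.parabolicGL n F μ, ∃ σ : Equiv.Perm (Fin n),
      g = p * permGL F σ * p' := by
  obtain ⟨b, b', σ, hb, hb', hbu, hbu', hg⟩ :=
    Cfsg.Agent.H89.Flag.bruhat_exists (g : Matrix (Fin n) (Fin n) F) (Matrix.isUnits_det_units g)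
  refine ⟨Matrix.nonsingInvUnit b hbu, blockTriangular_of_id (compLabel_monotone ν) hb,
    Matrix.nonsingInvUnit b' hbu', blockTriangular_of_id (compLabel_monotone μ) hb', σ, ?_⟩
  apply Units.ext
  rw [Units.val_mul, Units.val_mul, coe_permGL]
  exact hg

theorem rkInv_parabolic_mul (ν μ : Fin n → ℕ) {p p' : GL (Fin n) F}
    (hp : p ∈ Cfsg.parabolicGL n F ν) (hp' : p' ∈ Cfsg.parabolicGL n F μ) (g : GL (Fin n) F) :
    rkInv (Cfsg.compLabel ν) (Cfsg.compLabel μ) ((p * g * p' : GL (Fin n) F) : Matrix (Fin n) (Fin n) F)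
      = rkInv (Cfsg.compLabel ν) (Cfsg.compLabel μ) (g : Matrix (Fin n) (Fin n) F) := by
  rw [Units.val_mul, Units.val_mul]
  exact Cfsg.Agent.H39.Flag.rkInv_mul_mul _ _ _ _ _ hp (Matrix.isUnits_det_units p) hp' (Matrix.isUnits_det_units p')

theorem rkInv_permGL (ν μ : Fin n → ℕ) (σ : Equiv.Perm (Fin n)) :
    rkInv (Cfsg.compLabel ν) (Cfsg.compLabel μ) ((permGL F σ : GL (Fin n) F) : Matrix (Fin n) (Fin n) F)
      = cntInv (Cfsg.compLabel ν) (Cfsg.compLabel μ) σ := by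
  rw [coe_permGL]
  exact Cfsg.Agent.H39.Flag.rkInv_pmat _ _ σ

theorem rkInv_eq_iff (ν μ : Fin n → ℕ) (g g' : GL (Fin n) F) :
    rkInv (Cfsg.compLabel ν) (Cfsg.compLabel μ) (g : Matrix (Fin n) (Fin n) F) =
        rkInv (Cfsg.compLabel ν) (Cfsg.compLabel μ) (g' : Matrix (Fin n) (Fin n) F) ↔
      ∃ p ∈ Cfsg.parabolicGL n F ν, ∃ p' ∈ Cfsg.parabolicGL n F μ, g' = p * g * p' := by
  constructor
  · intro h
    obtain ⟨p₁, hp₁, p₁', hp₁', σ, rfl⟩ := bruhat_GL ν μ g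
    obtain ⟨p₂, hp₂, p₂', hp₂', τ, rfl⟩ := bruhat_GL ν μ g'
    rw [rkInv_parabolic_mul ν μ hp₁ hp₁', rkInv_parabolic_mul ν μ hp₂ hp₂', rkInv_permGL,
      rkInv_permGL] at h
    obtain ⟨α, β, hα, hβ, rfl⟩ := (Cfsg.Agent.H98.Flag.cntInv_eq_iff _ _ σ τ).mp h
    refine ⟨p₂ * permGL F α * p₁⁻¹,
      (Cfsg.parabolicGL n F ν).mul_mem ((Cfsg.parabolicGL n F ν).mul_mem hp₂
        (permGL_mem_parabolic ν α hα)) ((Cfsg.parabolicGL n F ν).inv_mem hp₁),
      p₁'⁻¹ * permGL F β * p₂',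
      (Cfsg.parabolicGL n F μ).mul_mem ((Cfsg.parabolicGL n F μ).mul_mem
        ((Cfsg.parabolicGL n F μ).inv_mem hp₁') (permGL_mem_parabolic μ β hβ)) hp₂', ?_⟩
    rw [permGL_mul, permGL_mul]
    group
  · rintro ⟨p, hp, p', hp', rfl⟩
    exact (rkInv_parabolic_mul ν μ hp hp' g).symm

theorem range_rkInv_eq (ν μ : Fin n → ℕ) :
    Set.range (fun g : GL (Fin n) F =>
        rkInv (Cfsg.compLabel ν) (Cfsg.compLabel μ) (g : Matrix (Fin n) (Fin n) F)) =
      Set.range (cntInv (Cfsg.compLabel ν) (Cfsg.compLabel μ)) := by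
  ext c
  constructor
  · rintro ⟨g, rfl⟩
    obtain ⟨p, hp, p', hp', σ, rfl⟩ := bruhat_GL ν μ g
    exact ⟨σ, by
      show _ = rkInv _ _ _
      rw [rkInv_parabolic_mul ν μ hp hp', rkInv_permGL]⟩
  · rintro ⟨σ, rfl⟩
    exact ⟨permGL F σ, rkInv_permGL ν μ σ⟩

/-- The inner product of two flag permutation characters of `GL_n` is the number of values of the
counting invariant. -/
theorem inner_parabolic [Fintype (GL (Fin n) F)] (ν μ : Fin n → ℕ) :
    (Nat.card (GL (Fin n) F) : ℂ)⁻¹ * ∑ g : GL (Fin n) F,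
        Cfsg.fixedPointCharacter (Cfsg.parabolicGL n F ν) g *
          Cfsg.fixedPointCharacter (Cfsg.parabolicGL n F μ) g =
      (Nat.card (Set.range (cntInv (Cfsg.compLabel ν) (Cfsg.compLabel μ))) : ℂ) := by
  rw [Cfsg.Agent.H20.Flag.inner_fixedPointCharacter_eq_card_range (Cfsg.parabolicGL n F ν) (Cfsg.parabolicGL n F μ)
    (fun g : GL (Fin n) F =>
      rkInv (Cfsg.compLabel ν) (Cfsg.compLabel μ) (g : Matrix (Fin n) (Fin n) F))
    (rkInv_eq_iff ν μ), range_rkInv_eq]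

/-- The inner product of two Young permutation characters of `S_n` is the number of values of the
counting invariant. -/
theorem inner_young (ν μ : Fin n → ℕ) :
    (Nat.card (Equiv.Perm (Fin n)) : ℂ)⁻¹ * ∑ σ : Equiv.Perm (Fin n),
        Cfsg.fixedPointCharacter (Cfsg.youngSubgroup ν) σ *
          Cfsg.fixedPointCharacter (Cfsg.youngSubgroup μ) σ =
      (Nat.card (Set.range (cntInv (Cfsg.compLabel ν) (Cfsg.compLabel μ))) : ℂ) := by
  refine Cfsg.Agent.H20.Flag.inner_fixedPointCharacter_eq_card_range (Cfsg.youngSubgroup ν) (Cfsg.youngSubgroup μ)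
    (cntInv (Cfsg.compLabel ν) (Cfsg.compLabel μ)) (fun σ τ => ?_)
  rw [Cfsg.Agent.H98.Flag.cntInv_eq_iff]
  constructor
  · rintro ⟨α, β, hα, hβ, rfl⟩
    exact ⟨α, hα, β, hβ, rfl⟩
  · rintro ⟨α, hα, β, hβ, rfl⟩
    exact ⟨α, β, hα, hβ, rfl⟩

end Cfsg.Agent.H95.Flag
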