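import Mathlib
import Cfsg.Agent.H95.FlagMain
import Cfsg.Agent.H95.FlagC2R
import Cfsg.Agent.H39.CauchyDet
import Cfsg.Agent.H98.FlagC1
import Cfsg.Agent.H89.FlagC2L

/-!
# helper95: orthonormality of the alternating sums of flag characters of GL_n (S2422, S2421)
-/

set_option autoImplicit false
open scoped MatrixGroups

namespace Cfsg.Agent.H95.Flag

variable {n : ℕ} {F : Type*} [Field F]

/-- The Cauchy-determinant coefficient identity: orthonormality of the Jacobi–Trudi sums. -/
theorem cauchy_count {n : ℕ} (lam lam' : Fin n → ℕ) (h : StrictMono lam) (h' : StrictMono lam') :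
    ∑ κ : Equiv.Perm (Fin n), ∑ κ' : Equiv.Perm (Fin n),
        (if (∀ i, (κ i).val ≤ lam i) ∧ (∀ i, (κ' i).val ≤ lam' i) then
          ((Equiv.Perm.sign κ : ℤ) * (Equiv.Perm.sign κ' : ℤ)) *
            (margCount (fun i => lam i - (κ i).val) (fun j => lam' j - (κ' j).val) : ℤ)
        else 0) = if lam = lam' then 1 else 0 := by
  obtain ⟨D, hD, hD'⟩ : ∃ D : ℕ, (∀ i, lam i < D) ∧ (∀ i, lam' i < D) := by
    refine ⟨(∑ i, lam i) + (∑ i, lam' i) + 1, fun i => ?_, fun i => ?_⟩
    · have := Finset.single_le_sum (s := Finset.univ) (f := lam) (fun j _ => Nat.zero_le _) (Finset.mem_univ i)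
      omega
    · have := Finset.single_le_sum (s := Finset.univ) (f := lam') (fun j _ => Nat.zero_le _) (Finset.mem_univ i)
      omega
  rw [← Cfsg.Agent.H89.Flag.coeff_vand_geom lam lam' D hD hD', ← coeff_cauchy_rhs lam lam' h h' D hD]
  have key := Cfsg.Agent.H39.Flag.cauchy_det_poly (R := GF n) gx gy
  rw [← key, Finset.sum_mul]
  refine congrArg (fun f : GF n => f.coeff (lam, lam')) ?_
  refine Finset.sum_congr rfl fun σ _ => ?_
  rw [mul_assoc]
  congr 1
  rw [← Finset.prod_mul_distrib, ← Finset.prod_mul_distrib]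
  refine Finset.prod_congr rfl fun i _ => ?_
  rw [← Finset.mul_prod_erase Finset.univ (fun j => ∑ k ∈ Finset.range D, (gx i * gy j : GF n) ^ k)
    (Finset.mem_univ (σ i))]
  rw [mul_comm (∑ k ∈ Finset.range D, (gx i * gy (σ i) : GF n) ^ k), ← mul_assoc,
    ← Finset.prod_mul_distrib]
  congr 1
  refine Finset.prod_congr rfl fun j _ => ?_
  exact mul_neg_geom_sum _ _

theorem sum_shift_sub (ν : Fin n → ℕ) (hνs : ∑ i, ν i = n) (κ : Equiv.Perm (Fin n))
    (hκ : ∀ i, (κ i).val ≤ ν i + i.val) :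
    ∑ i, (ν i + i.val - (κ i).val) = n := by
  have h1 : ∑ i, (ν i + i.val - (κ i).val) + ∑ i, (κ i).val = ∑ i, (ν i + i.val) := by
    rw [← Finset.sum_add_distrib]
    exact Finset.sum_congr rfl fun i _ => Nat.sub_add_cancel (hκ i)
  have h2 : ∑ i, (κ i).val = ∑ i : Fin n, i.val := Equiv.sum_comp κ (fun i => i.val)
  rw [Finset.sum_add_distrib, hνs, h2] at h1
  omega

theorem inner_parabolic_margCount [Fintype (GL (Fin n) F)] (α β : Fin n → ℕ)
    (hα : ∑ i, α i = n) (hβ : ∑ i, β i = n) :
    (Nat.card (GL (Fin n) F) : ℂ)⁻¹ * ∑ g : GL (Fin n) F,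
        Cfsg.fixedPointCharacter (Cfsg.parabolicGL n F α) g *
          Cfsg.fixedPointCharacter (Cfsg.parabolicGL n F β) g = (margCount α β : ℂ) := by
  rw [inner_parabolic, Cfsg.Agent.H98.Flag.card_range_cntInv α β hα hβ]

theorem strictMono_shift (ν : Fin n → ℕ) (hν : Monotone ν) :
    StrictMono (fun i : Fin n => ν i + i.val) := by
  intro i j hij
  have := hν hij.le
  have h2 : i.val < j.val := hij
  show ν i + i.val < ν j + j.val
  omega

/-- Orthonormality of the alternating sums of flag permutation characters. -/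
theorem inner_unipotent [Fintype (GL (Fin n) F)] (ν ν' : Fin n → ℕ) (hν : Monotone ν)
    (hνs : ∑ i, ν i = n) (hν' : Monotone ν') (hνs' : ∑ i, ν' i = n) :
    (Nat.card (GL (Fin n) F) : ℂ)⁻¹ * ∑ g : GL (Fin n) F,
        Cfsg.unipotentCharacterGL n F ν g * Cfsg.unipotentCharacterGL n F ν' g =
      if ν = ν' then 1 else 0 := by
  have hterm : ∀ κ κ' : Equiv.Perm (Fin n),
      (Nat.card (GL (Fin n) F) : ℂ)⁻¹ * ∑ g : GL (Fin n) F,
        ((if ∀ i : Fin n, (κ i).val ≤ ν i + i.val then
            ((Equiv.Perm.sign κ : ℤ) : ℂ) * Cfsg.fixedPointCharacter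
              (Cfsg.parabolicGL n F fun i => ν i + i.val - (κ i).val) g else 0) *
          (if ∀ i : Fin n, (κ' i).val ≤ ν' i + i.val then
            ((Equiv.Perm.sign κ' : ℤ) : ℂ) * Cfsg.fixedPointCharacter
              (Cfsg.parabolicGL n F fun i => ν' i + i.val - (κ' i).val) g else 0)) =
      (((if (∀ i, (κ i).val ≤ ν i + i.val) ∧ (∀ i, (κ' i).val ≤ ν' i + i.val) then
          ((Equiv.Perm.sign κ : ℤ) * (Equiv.Perm.sign κ' : ℤ)) *
            (margCount (fun i => ν i + i.val - (κ i).val)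
              (fun j => ν' j + j.val - (κ' j).val) : ℤ)
        else 0 : ℤ)) : ℂ) := by
    intro κ κ'
    by_cases h1 : ∀ i : Fin n, (κ i).val ≤ ν i + i.val
    · by_cases h2 : ∀ i : Fin n, (κ' i).val ≤ ν' i + i.val
      · simp only [if_pos h1, if_pos h2, if_pos (And.intro h1 h2)]
        have := inner_parabolic_margCount (F := F) (fun i => ν i + i.val - (κ i).val)
          (fun j => ν' j + j.val - (κ' j).val) (sum_shift_sub ν hνs κ h1)
          (sum_shift_sub ν' hνs' κ' h2)
        push_cast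
        rw [← this, Finset.mul_sum, Finset.mul_sum, Finset.mul_sum]
        refine Finset.sum_congr rfl fun g _ => ?_
        ring
      · simp only [if_neg h2, if_neg (fun h : (∀ i : Fin n, (κ i).val ≤ ν i + i.val) ∧
          (∀ i : Fin n, (κ' i).val ≤ ν' i + i.val) => h2 h.2)]
        simp
    · simp only [if_neg h1, if_neg (fun h : (∀ i : Fin n, (κ i).val ≤ ν i + i.val) ∧
          (∀ i : Fin n, (κ' i).val ≤ ν' i + i.val) => h1 h.1)]
      simp
  have hsum : ∑ g : GL (Fin n) F,
        Cfsg.unipotentCharacterGL n F ν g * Cfsg.unipotentCharacterGL n F ν' g =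
      ∑ κ : Equiv.Perm (Fin n), ∑ κ' : Equiv.Perm (Fin n), ∑ g : GL (Fin n) F,
        ((if ∀ i : Fin n, (κ i).val ≤ ν i + i.val then
            ((Equiv.Perm.sign κ : ℤ) : ℂ) * Cfsg.fixedPointCharacter
              (Cfsg.parabolicGL n F fun i => ν i + i.val - (κ i).val) g else 0) *
          (if ∀ i : Fin n, (κ' i).val ≤ ν' i + i.val then
            ((Equiv.Perm.sign κ' : ℤ) : ℂ) * Cfsg.fixedPointCharacter
              (Cfsg.parabolicGL n F fun i => ν' i + i.val - (κ' i).val) g else 0)) := by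
    unfold Cfsg.unipotentCharacterGL
    simp only [Finset.sum_mul_sum]
    rw [Finset.sum_comm]
    refine Finset.sum_congr rfl fun κ _ => ?_
    rw [Finset.sum_comm]
  rw [hsum, Finset.mul_sum]
  simp only [Finset.mul_sum]
  simp only [← Finset.mul_sum, hterm]
  simp only [← Int.cast_sum]
  rw [cauchy_count _ _ (strictMono_shift ν hν) (strictMono_shift ν' hν')]
  have hiff : ((fun i : Fin n => ν i + i.val) = fun i : Fin n => ν' i + i.val) ↔ ν = ν' := by
    constructor
    · intro h
      funext i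
      have := congrFun h i
      simpa using this
    · rintro rfl; rfl
  by_cases h : ν = ν'
  · rw [if_pos h, if_pos (hiff.mpr h)]; simp
  · rw [if_neg h, if_neg (fun h' => h (hiff.mp h'))]; simp

end Cfsg.Agent.H95.Flag
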