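import Cfsg.Agent.H95.Tensor

set_option autoImplicit false

namespace Cfsg.Agent.H95

open Cfsg Cfsg.Geo
open scoped MatrixGroups Matrix Kronecker

section TensorForm

variable {ι : Type} [Fintype ι] [DecidableEq ι] {F : Type*} [Field F] {n₁ n₂ : ℕ}

/-- The pure tensor `u ⊗ v` as a coordinate vector indexed by pairs. -/
def pt (u : Fin n₁ → F) (v : Fin n₂ → F) : Fin n₁ × Fin n₂ → F := fun p => u p.1 * v p.2

lemma pt_apply (u : Fin n₁ → F) (v : Fin n₂ → F) (i : Fin n₁) (j : Fin n₂) :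
    pt u v (i, j) = u i * v j := rfl

lemma pt_add_left (u u' : Fin n₁ → F) (v : Fin n₂ → F) : pt (u + u') v = pt u v + pt u' v := by
  funext p; simp [pt, add_mul]

lemma pt_add_right (u : Fin n₁ → F) (v v' : Fin n₂ → F) : pt u (v + v') = pt u v + pt u v' := by
  funext p; simp [pt, mul_add]

lemma pt_smul_left (c : F) (u : Fin n₁ → F) (v : Fin n₂ → F) : pt (c • u) v = c • pt u v := by
  funext p; simp [pt, mul_assoc]

lemma pt_smul_right (c : F) (u : Fin n₁ → F) (v : Fin n₂ → F) : pt u (c • v) = c • pt u v := by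
  funext p; simp [pt, mul_left_comm]

lemma pt_zero_left (v : Fin n₂ → F) : pt (0 : Fin n₁ → F) v = 0 := by
  funext p; simp [pt]

lemma pt_zero_right (u : Fin n₁ → F) : pt u (0 : Fin n₂ → F) = 0 := by
  funext p; simp [pt]

lemma pt_neg_right (u : Fin n₁ → F) (v : Fin n₂ → F) : pt u (-v) = - pt u v := by
  funext p; simp [pt]

lemma pt_neg_left (u : Fin n₁ → F) (v : Fin n₂ → F) : pt (-u) v = - pt u v := by
  funext p; simp [pt]

/-- The identification of the coordinate space indexed by pairs with `F^ι` through `e` and `P`. -/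
def tL (e : ι ≃ Fin n₁ × Fin n₂) (P : GL ι F) (x : Fin n₁ × Fin n₂ → F) : ι → F :=
  (P : Matrix ι ι F) *ᵥ (x ∘ e)

lemma tL_add (e : ι ≃ Fin n₁ × Fin n₂) (P : GL ι F) (x y : Fin n₁ × Fin n₂ → F) :
    tL e P (x + y) = tL e P x + tL e P y := by
  unfold tL
  rw [← Matrix.mulVec_add]
  rfl

lemma tL_smul (e : ι ≃ Fin n₁ × Fin n₂) (P : GL ι F) (c : F) (x : Fin n₁ × Fin n₂ → F) :
    tL e P (c • x) = c • tL e P x := by
  unfold tL
  rw [← Matrix.mulVec_smul]
  rfl

lemma tL_zero (e : ι ≃ Fin n₁ × Fin n₂) (P : GL ι F) : tL e P (0 : Fin n₁ × Fin n₂ → F) = 0 := by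
  unfold tL
  have : ((0 : Fin n₁ × Fin n₂ → F) ∘ e) = 0 := rfl
  rw [this, Matrix.mulVec_zero]

lemma tL_neg (e : ι ≃ Fin n₁ × Fin n₂) (P : GL ι F) (x : Fin n₁ × Fin n₂ → F) :
    tL e P (-x) = - tL e P x := by
  have := tL_smul e P (-1 : F) x
  simpa using this

lemma tL_injective (e : ι ≃ Fin n₁ × Fin n₂) (P : GL ι F) : Function.Injective (tL e P) := by
  intro x y h
  have h' := mulVec_injective P h
  funext p
  have := congrFun h' (e.symm p)
  simpa using this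

lemma tL_surjective (e : ι ≃ Fin n₁ × Fin n₂) (P : GL ι F) : Function.Surjective (tL e P) := by
  intro y
  refine ⟨(((P⁻¹ : GL ι F) : Matrix ι ι F) *ᵥ y) ∘ e.symm, ?_⟩
  unfold tL
  have : ((((P⁻¹ : GL ι F) : Matrix ι ι F) *ᵥ y) ∘ e.symm) ∘ e = ((P⁻¹ : GL ι F) : Matrix ι ι F) *ᵥ y := by
    funext i; simp
  rw [this, Matrix.mulVec_mulVec, ← Units.val_mul, mul_inv_cancel, Units.val_one, Matrix.one_mulVec]

lemma tpsIso_mulVec (e : ι ≃ Fin n₁ × Fin n₂) (P : GL ι F) (M : GL (Fin n₁ × Fin n₂) F)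
    (x : Fin n₁ × Fin n₂ → F) :
    ((tpsIso e P M : GL ι F) : Matrix ι ι F) *ᵥ tL e P x =
      tL e P ((M : Matrix (Fin n₁ × Fin n₂) (Fin n₁ × Fin n₂) F) *ᵥ x) := by
  have h1 : ((tpsIso e P M : GL ι F) : Matrix ι ι F) =
      (P : Matrix ι ι F) * (M : Matrix (Fin n₁ × Fin n₂) (Fin n₁ × Fin n₂) F).submatrix e e *
        ((P⁻¹ : GL ι F) : Matrix ι ι F) := rfl
  unfold tL
  rw [h1, Matrix.mulVec_mulVec, Matrix.mul_assoc, Matrix.mul_assoc, ← Units.val_mul, inv_mul_cancel,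
    Units.val_one, Matrix.mul_one, ← Matrix.mulVec_mulVec, Matrix.submatrix_mulVec_equiv]
  have h2 : (x ∘ e) ∘ e.symm = x := by funext p; simp
  rw [h2]

lemma kronecker_mulVec_pt (a : Matrix (Fin n₁) (Fin n₁) F) (b : Matrix (Fin n₂) (Fin n₂) F)
    (u : Fin n₁ → F) (v : Fin n₂ → F) :
    (a ⊗ₖ b) *ᵥ pt u v = pt (a *ᵥ u) (b *ᵥ v) := by
  funext p
  obtain ⟨i, j⟩ := p
  simp only [Matrix.mulVec, dotProduct, pt, Matrix.kroneckerMap_apply, Fintype.sum_prod_type]
  rw [Finset.sum_mul_sum]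
  apply Finset.sum_congr rfl
  intro i' _
  apply Finset.sum_congr rfl
  intro j' _
  ring

lemma formOfGram_eq {κ : Type} [Fintype κ] [DecidableEq κ] (f : (κ → F) → (κ → F) → F)
    (hf : IsBilinearForm f) (x y : κ → F) : f x y = formOfGram id (gramMatrix f) x y := by
  have hsl : ∀ (s : Finset κ) (g : κ → (κ → F)) (v : κ → F), f (∑ a ∈ s, g a) v = ∑ a ∈ s, f (g a) v := by
    intro s g v
    induction s using Finset.induction_on with
    | empty =>
      have := hf.smul_left 0 0 v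
      simpa using this
    | insert a s ha ih => rw [Finset.sum_insert ha, Finset.sum_insert ha, hf.add_left, ih]
  have hsr : ∀ (s : Finset κ) (g : κ → (κ → F)) (v : κ → F), f v (∑ a ∈ s, g a) = ∑ a ∈ s, f v (g a) := by
    intro s g v
    induction s using Finset.induction_on with
    | empty =>
      have := hf.smul_right 0 v 0
      simpa using this
    | insert a s ha ih => rw [Finset.sum_insert ha, Finset.sum_insert ha, hf.add_right, ih]
  have hx : x = ∑ a, x a • (Pi.single a 1 : κ → F) := by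
    funext i
    simp [Finset.sum_apply, Pi.single_apply]
  have hy : y = ∑ a, y a • (Pi.single a 1 : κ → F) := by
    funext i
    simp [Finset.sum_apply, Pi.single_apply]
  unfold formOfGram gramMatrix
  conv_lhs => rw [hx, hsl]
  apply Finset.sum_congr rfl
  intro a _
  conv_lhs => rw [hy, hsr]
  apply Finset.sum_congr rfl
  intro b _
  rw [hf.smul_left, hf.smul_right]
  simp only [id]
  ring

lemma formOfGram_kronecker_pt (σ : F → F) (hσ : ∀ a b, σ (a * b) = σ a * σ b)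
    (G₁ : Matrix (Fin n₁) (Fin n₁) F) (G₂ : Matrix (Fin n₂) (Fin n₂) F)
    (u u' : Fin n₁ → F) (v v' : Fin n₂ → F) :
    formOfGram σ (G₁ ⊗ₖ G₂) (pt u v) (pt u' v') = formOfGram σ G₁ u u' * formOfGram σ G₂ v v' := by
  unfold formOfGram
  simp only [Fintype.sum_prod_type, pt, Matrix.kroneckerMap_apply, hσ]
  rw [Finset.sum_mul_sum]
  refine Finset.sum_congr rfl fun i _ => Finset.sum_congr rfl fun j _ => ?_
  rw [Finset.sum_mul_sum]
  refine Finset.sum_congr rfl fun i' _ => Finset.sum_congr rfl fun j' _ => ?_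
  ring

/-- The action of an element of the tensor product subgroup on pure tensors. -/
lemma tps_act (e : ι ≃ Fin n₁ × Fin n₂) (P : GL ι F) {g : GL ι F}
    (hg : g ∈ tensorProductSubgroup n₁ n₂ e P) :
    ∃ (a : GL (Fin n₁) F) (b : GL (Fin n₂) F), ∀ (u : Fin n₁ → F) (v : Fin n₂ → F),
      (g : Matrix ι ι F) *ᵥ tL e P (pt u v) =
        tL e P (pt ((a : Matrix (Fin n₁) (Fin n₁) F) *ᵥ u) ((b : Matrix (Fin n₂) (Fin n₂) F) *ᵥ v)) := by
  rw [tensorProductSubgroup_eq_map] at hg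
  obtain ⟨M, hM, rfl⟩ := hg
  obtain ⟨a, b, hab⟩ := hM
  refine ⟨a, b, fun u v => ?_⟩
  rw [MulEquiv.coe_toMonoidHom, tpsIso_mulVec, hab, kronecker_mulVec_pt]

/-- The value of a tensor form on pure tensors (bilinear case). -/
lemma tensorForm_pt_id {f : (ι → F) → (ι → F) → F} {f₁ : (Fin n₁ → F) → (Fin n₁ → F) → F}
    {f₂ : (Fin n₂ → F) → (Fin n₂ → F) → F} {e : ι ≃ Fin n₁ × Fin n₂} {P : GL ι F}
    (hf₁ : IsBilinearForm f₁) (hf₂ : IsBilinearForm f₂)
    (hT : IsTensorFormStructure id f f₁ f₂ e P) :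
    ∃ c : F, c ≠ 0 ∧ ∀ (u u' : Fin n₁ → F) (v v' : Fin n₂ → F),
      f (tL e P (pt u v)) (tL e P (pt u' v')) = c * (f₁ u u' * f₂ v v') := by
  obtain ⟨c, hc, h⟩ := hT
  refine ⟨c, hc, fun u u' v v' => ?_⟩
  have := h (pt u v) (pt u' v')
  rw [formOfGram_kronecker_pt id (fun _ _ => rfl), ← formOfGram_eq f₁ hf₁, ← formOfGram_eq f₂ hf₂] at this
  exact this

/-- Contraction of the second tensor factor against a vector, using a form. -/
def ctr (f₂ : (Fin n₂ → F) → (Fin n₂ → F) → F) (x : Fin n₁ × Fin n₂ → F) (v : Fin n₂ → F) :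
    Fin n₁ → F := fun a => f₂ (fun j => x (a, j)) v

lemma ctr_add {f₂ : (Fin n₂ → F) → (Fin n₂ → F) → F} (hf₂ : IsBilinearForm f₂)
    (x y : Fin n₁ × Fin n₂ → F) (v : Fin n₂ → F) : ctr f₂ (x + y) v = ctr f₂ x v + ctr f₂ y v := by
  funext a
  exact hf₂.add_left _ _ _

lemma ctr_smul {f₂ : (Fin n₂ → F) → (Fin n₂ → F) → F} (hf₂ : IsBilinearForm f₂) (c : F)
    (x : Fin n₁ × Fin n₂ → F) (v : Fin n₂ → F) : ctr f₂ (c • x) v = c • ctr f₂ x v := by
  funext a
  exact hf₂.smul_left _ _ _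

lemma ctr_pt {f₂ : (Fin n₂ → F) → (Fin n₂ → F) → F} (hf₂ : IsBilinearForm f₂)
    (u : Fin n₁ → F) (v' v : Fin n₂ → F) : ctr f₂ (pt u v') v = f₂ v' v • u := by
  funext a
  have : (fun j => pt u v' (a, j)) = u a • v' := rfl
  change f₂ (fun j => pt u v' (a, j)) v = f₂ v' v * u a
  rw [this, hf₂.smul_left, mul_comm]

/-- Contraction of the first tensor factor against a vector, using a form. -/
def ctr1 (f₁ : (Fin n₁ → F) → (Fin n₁ → F) → F) (x : Fin n₁ × Fin n₂ → F) (u : Fin n₁ → F) :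
    Fin n₂ → F := fun b => f₁ (fun i => x (i, b)) u

lemma ctr1_add {f₁ : (Fin n₁ → F) → (Fin n₁ → F) → F} (hf₁ : IsBilinearForm f₁)
    (x y : Fin n₁ × Fin n₂ → F) (u : Fin n₁ → F) : ctr1 f₁ (x + y) u = ctr1 f₁ x u + ctr1 f₁ y u := by
  funext b
  exact hf₁.add_left _ _ _

lemma ctr1_smul {f₁ : (Fin n₁ → F) → (Fin n₁ → F) → F} (hf₁ : IsBilinearForm f₁) (c : F)
    (x : Fin n₁ × Fin n₂ → F) (u : Fin n₁ → F) : ctr1 f₁ (c • x) u = c • ctr1 f₁ x u := by
  funext b
  exact hf₁.smul_left _ _ _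

lemma ctr1_pt {f₁ : (Fin n₁ → F) → (Fin n₁ → F) → F} (hf₁ : IsBilinearForm f₁)
    (u' : Fin n₁ → F) (v : Fin n₂ → F) (u : Fin n₁ → F) : ctr1 f₁ (pt u' v) u = f₁ u' u • v := by
  funext b
  have : (fun i => pt u' v (i, b)) = v b • u' := by
    funext i
    simp [pt, mul_comm]
  change f₁ (fun i => pt u' v (i, b)) u = f₁ u' u * v b
  rw [this, hf₁.smul_left, mul_comm]

/-- If two pure tensors agree and the second factor of the first is non-zero, the first factors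
are proportional. -/
lemma pt_eq_pt_left {u u' : Fin n₁ → F} {v v' : Fin n₂ → F} (h : pt u v = pt u' v') (hv : v ≠ 0) :
    ∃ c : F, u = c • u' := by
  obtain ⟨j, hj⟩ := Function.ne_iff.mp hv
  refine ⟨v' j / v j, ?_⟩
  funext i
  have := congrFun h (i, j)
  simp only [pt] at this
  simp only [Pi.smul_apply, smul_eq_mul]
  have hj' : v j ≠ 0 := hj
  field_simp
  linear_combination this

lemma pt_eq_pt_right {u u' : Fin n₁ → F} {v v' : Fin n₂ → F} (h : pt u v = pt u' v') (hu : u ≠ 0) :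
    ∃ c : F, v = c • v' := by
  obtain ⟨i, hi⟩ := Function.ne_iff.mp hu
  refine ⟨u' i / u i, ?_⟩
  funext j
  have := congrFun h (i, j)
  simp only [pt] at this
  simp only [Pi.smul_apply, smul_eq_mul]
  have hi' : u i ≠ 0 := hi
  field_simp
  linear_combination this

/-- An invertible matrix mapping a set of vectors over a finite field into itself stabilises it. -/
lemma mem_stabilizing_of_forall [Finite F] (g : GL ι F) (S : Set (ι → F))
    (h : ∀ x ∈ S, (g : Matrix ι ι F) *ᵥ x ∈ S) : g ∈ stabilizing (glToMat ι F) S := by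
  rw [mem_stabilizing_iff]
  intro v
  refine ⟨h v, fun hv => ?_⟩
  let φ : S → S := fun x => ⟨(g : Matrix ι ι F) *ᵥ x.1, h x.1 x.2⟩
  have hinj : Function.Injective φ := by
    intro x y hxy
    apply Subtype.ext
    apply mulVec_injective g
    exact congrArg Subtype.val hxy
  have hsurj : Function.Surjective φ := Finite.injective_iff_surjective.mp hinj
  obtain ⟨x, hx⟩ := hsurj ⟨_, hv⟩
  have hx' : (g : Matrix ι ι F) *ᵥ x.1 = (g : Matrix ι ι F) *ᵥ v := congrArg Subtype.val hx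
  have := mulVec_injective g hx'
  rw [← this]
  exact x.2

lemma ctr1_add' {f₁ : (Fin n₁ → F) → (Fin n₁ → F) → F}
    (hadd : ∀ x y v, f₁ (x + y) v = f₁ x v + f₁ y v)
    (x y : Fin n₁ × Fin n₂ → F) (u : Fin n₁ → F) : ctr1 f₁ (x + y) u = ctr1 f₁ x u + ctr1 f₁ y u := by
  funext b
  exact hadd _ _ _

lemma ctr1_smul' {f₁ : (Fin n₁ → F) → (Fin n₁ → F) → F}
    (hsmul : ∀ (c : F) (x v : Fin n₁ → F), f₁ (c • x) v = c * f₁ x v) (c : F)
    (x : Fin n₁ × Fin n₂ → F) (u : Fin n₁ → F) : ctr1 f₁ (c • x) u = c • ctr1 f₁ x u := by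
  funext b
  exact hsmul _ _ _

lemma ctr1_pt' {f₁ : (Fin n₁ → F) → (Fin n₁ → F) → F}
    (hsmul : ∀ (c : F) (x v : Fin n₁ → F), f₁ (c • x) v = c * f₁ x v)
    (u' : Fin n₁ → F) (v : Fin n₂ → F) (u : Fin n₁ → F) : ctr1 f₁ (pt u' v) u = f₁ u' u • v := by
  funext b
  have : (fun i => pt u' v (i, b)) = v b • u' := by
    funext i
    simp [pt, mul_comm]
  change f₁ (fun i => pt u' v (i, b)) u = f₁ u' u * v b
  rw [this, hsmul, mul_comm]

lemma ctr_add' {f₂ : (Fin n₂ → F) → (Fin n₂ → F) → F}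
    (hadd : ∀ x y v, f₂ (x + y) v = f₂ x v + f₂ y v)
    (x y : Fin n₁ × Fin n₂ → F) (v : Fin n₂ → F) : ctr f₂ (x + y) v = ctr f₂ x v + ctr f₂ y v := by
  funext a
  exact hadd _ _ _

lemma ctr_smul' {f₂ : (Fin n₂ → F) → (Fin n₂ → F) → F}
    (hsmul : ∀ (c : F) (x v : Fin n₂ → F), f₂ (c • x) v = c * f₂ x v) (c : F)
    (x : Fin n₁ × Fin n₂ → F) (v : Fin n₂ → F) : ctr f₂ (c • x) v = c • ctr f₂ x v := by
  funext a
  exact hsmul _ _ _

lemma ctr_pt' {f₂ : (Fin n₂ → F) → (Fin n₂ → F) → F}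
    (hsmul : ∀ (c : F) (x v : Fin n₂ → F), f₂ (c • x) v = c * f₂ x v)
    (u : Fin n₁ → F) (v' v : Fin n₂ → F) : ctr f₂ (pt u v') v = f₂ v' v • u := by
  funext a
  have : (fun j => pt u v' (a, j)) = u a • v' := rfl
  change f₂ (fun j => pt u v' (a, j)) v = f₂ v' v * u a
  rw [this, hsmul, mul_comm]

/-- Induction over sums of multiples of images of pure tensors. -/
lemma tL_induction (e : ι ≃ Fin n₁ × Fin n₂) (P : GL ι F) (p : (ι → F) → Prop) (h0 : p 0)
    (hadd : ∀ x y, p x → p y → p (x + y)) (hsmul : ∀ (c : F) (x : ι → F), p x → p (c • x))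
    (hpt : ∀ (u : Fin n₁ → F) (v : Fin n₂ → F), p (tL e P (pt u v))) : ∀ x, p x := by
  classical
  intro x
  obtain ⟨x', rfl⟩ := tL_surjective e P x
  have hx' : x' = ∑ q : Fin n₁ × Fin n₂, x' q • pt (Pi.single q.1 1) (Pi.single q.2 1) := by
    funext r
    rw [Finset.sum_apply, Finset.sum_eq_single r]
    · simp [pt]
    · intro q _ hq
      have : ¬ (q.1 = r.1 ∧ q.2 = r.2) := fun h => hq (Prod.ext h.1 h.2)
      by_cases h1 : q.1 = r.1
      · have h2 : q.2 ≠ r.2 := fun h => this ⟨h1, h⟩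
        simp [pt, Pi.single_apply, Ne.symm h2]
      · simp [pt, Pi.single_apply, Ne.symm h1]
    · intro h; exact absurd (Finset.mem_univ r) h
  rw [hx']
  have key : ∀ s : Finset (Fin n₁ × Fin n₂),
      p (tL e P (∑ q ∈ s, x' q • pt (Pi.single q.1 1) (Pi.single q.2 1))) := by
    intro s
    induction s using Finset.induction_on with
    | empty => rw [Finset.sum_empty, tL_zero]; exact h0
    | insert a s ha ih =>
      rw [Finset.sum_insert ha, tL_add, tL_smul]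
      exact hadd _ _ (hsmul _ _ (hpt _ _)) ih
  exact key Finset.univ

end TensorForm

end Cfsg.Agent.H95
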