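import Cfsg.Agent.H95.Quad
import Cfsg.Agent.H95.TensorForm

set_option autoImplicit false
set_option linter.unusedSectionVars false

namespace Cfsg.Agent.H95

open Cfsg Cfsg.Geo
open scoped MatrixGroups Matrix

section FrameSet

variable {ι : Type} [Fintype ι] [DecidableEq ι] {F : Type*} [Field F] {Q : (ι → F) → F}

lemma q_sum_orth (hQ : IsNondegenerateQuadraticForm Q) {α : Type*} (s : Finset α)
    (x : α → (ι → F))
    (hx : ∀ i ∈ s, ∀ j ∈ s, i ≠ j → QuadraticMap.polar Q (x i) (x j) = 0) :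
    Q (∑ i ∈ s, x i) = ∑ i ∈ s, Q (x i) := by
  classical
  induction s using Finset.induction_on with
  | empty => simp [q_zero hQ]
  | insert a s ha ih =>
    have h1 : ∑ j ∈ s, QuadraticMap.polar Q (x a) (x j) = 0 := by
      apply Finset.sum_eq_zero
      intro j hj
      exact hx a (Finset.mem_insert_self a s) j (Finset.mem_insert_of_mem hj)
        (fun h => ha (h ▸ hj))
    have h2 := ih (fun i hi j hj hij =>
      hx i (Finset.mem_insert_of_mem hi) j (Finset.mem_insert_of_mem hj) hij)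
    rw [Finset.sum_insert ha, Finset.sum_insert ha, q_add Q, h2, bil_sum_right hQ.polar_bilinear,
      h1, add_zero]

/-- The `3`-cycle on three mutually orthogonal members of a frame set stabilises the frame set. -/
theorem frameSet_three_cycle [Finite F] (hQ : IsNondegenerateQuadraticForm Q) (h2 : (2 : F) ≠ 0)
    (S : Set (ι → F))
    (hS : ∀ v ∈ S, ∀ v' ∈ S, v' = v ∨ v' = -v ∨ QuadraticMap.polar Q v v' = 0)
    (hneg : ∀ v ∈ S, -v ∈ S) {a b c : ι → F} (ha : a ∈ S) (hb : b ∈ S) (hc : c ∈ S)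
    (hQa : Q a ≠ 0) (hab : Q a = Q b) (hbc : Q b = Q c)
    (oab : QuadraticMap.polar Q a b = 0) (oac : QuadraticMap.polar Q a c = 0)
    (obc : QuadraticMap.polar Q b c = 0) :
    ∃ g : GL ι F, g ∈ stabilizing (glToMat ι F) S ⊓ omegaGL Q ∧ (g : Matrix ι ι F) *ᵥ a = c ∧
      (g : Matrix ι ι F) *ᵥ b = a ∧ (g : Matrix ι ι F) *ᵥ c = b ∧
      ∀ x, QuadraticMap.polar Q x a = 0 → QuadraticMap.polar Q x b = 0 →
        QuadraticMap.polar Q x c = 0 → (g : Matrix ι ι F) *ᵥ x = x := by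
  obtain ⟨g, hgΩ, hga, hgb, hgc, hgfix⟩ := exists_three_cycle hQ h2 hQa hab hbc oab oac obc
  refine ⟨g, ⟨?_, hgΩ⟩, hga, hgb, hgc, hgfix⟩
  apply mem_stabilizing_of_forall
  intro v hv
  rcases hS a ha v hv with h | h | h
  · rw [h, hga]; exact hc
  · rw [h, Matrix.mulVec_neg, hga]; exact hneg c hc
  · rcases hS b hb v hv with h' | h' | h'
    · rw [h', hgb]; exact ha
    · rw [h', Matrix.mulVec_neg, hgb]; exact hneg a ha
    · rcases hS c hc v hv with h'' | h'' | h''
      · rw [h'', hgc]; exact hb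
      · rw [h'', Matrix.mulVec_neg, hgc]; exact hneg b hb
      · rw [hgfix v ((polar_symm Q v a).trans h) ((polar_symm Q v b).trans h')
          ((polar_symm Q v c).trans h'')]
        exact hv

/-- The stabiliser in `Ω` of a frame set is a proper subgroup. -/
theorem frameSet_lt [Finite F] (hQ : IsNondegenerateQuadraticForm Q) (h2 : (2 : F) ≠ 0)
    (S : Set (ι → F))
    (hS : ∀ v ∈ S, ∀ v' ∈ S, v' = v ∨ v' = -v ∨ QuadraticMap.polar Q v v' = 0)
    {r : ℕ} (hr : (r : F) = 1) (hr2 : 2 ≤ r) (a b : ι → F) (y : Fin r → (ι → F))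
    (ha : a ∈ S) (hyS : ∀ i, y i ∈ S) (hQa : Q a ≠ 0) (hQb : Q b = Q a)
    (hQy : ∀ i, Q (y i) = Q a) (oab : QuadraticMap.polar Q a b = 0)
    (oay : ∀ i, QuadraticMap.polar Q a (y i) = 0) (oby : ∀ i, QuadraticMap.polar Q b (y i) = 0)
    (oyy : ∀ i j, i ≠ j → QuadraticMap.polar Q (y i) (y j) = 0) :
    stabilizing (glToMat ι F) S ⊓ omegaGL Q < omegaGL Q := by
  classical
  have hb := hQ.polar_bilinear
  set Y := ∑ i, y i with hY
  have hQY : Q Y = Q a := by
    rw [hY, q_sum_orth hQ _ _ (fun i _ j _ hij => oyy i j hij), Finset.sum_congr rfl (fun i _ => hQy i),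
      Finset.sum_const, Finset.card_univ, Fintype.card_fin, nsmul_eq_mul, hr, one_mul]
  have oaY : QuadraticMap.polar Q a Y = 0 := by
    rw [hY, bil_sum_right hb]
    exact Finset.sum_eq_zero (fun i _ => oay i)
  have obY : QuadraticMap.polar Q b Y = 0 := by
    rw [hY, bil_sum_right hb]
    exact Finset.sum_eq_zero (fun i _ => oby i)
  have hyY : ∀ k, QuadraticMap.polar Q (y k) Y = 2 * Q a := by
    intro k
    rw [hY, bil_sum_right hb, Finset.sum_eq_single k, polar_self hQ, hQy]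
    · intro j _ hjk
      exact oyy k j (fun h => hjk h.symm)
    · intro h; exact absurd (Finset.mem_univ k) h
  have h2a : 2 * Q a ≠ 0 := mul_ne_zero h2 hQa
  obtain ⟨g, hgΩ, hga, -, -, -⟩ := exists_three_cycle hQ h2 (a := a) (b := b) (c := Y) hQa hQb.symm
    (hQb.trans hQY.symm) oab oaY obY
  refine lt_of_le_of_ne inf_le_right ?_
  intro hEq
  have hgK : g ∈ stabilizing (glToMat ι F) S ⊓ omegaGL Q := by rw [hEq]; exact hgΩ
  have hYS : Y ∈ S := by
    have := ((mem_stabilizing_iff g S).mp hgK.1 a).mp ha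
    rwa [hga] at this
  set i₀ : Fin r := ⟨0, by omega⟩ with hi₀
  set i₁ : Fin r := ⟨1, by omega⟩ with hi₁
  have h01 : i₁ ≠ i₀ := by simp [hi₀, hi₁, Fin.ext_iff]
  rcases hS (y i₀) (hyS i₀) Y hYS with h | h | h
  · have := hyY i₁
    rw [h, oyy i₁ i₀ h01] at this
    exact h2a this.symm
  · have := hyY i₁
    rw [h, bil_neg_right hb, oyy i₁ i₀ h01, neg_zero] at this
    exact h2a this.symm
  · rw [hyY i₀] at h
    exact h2a h

end FrameSet

end Cfsg.Agent.H95
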