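import Cfsg.Agent.H95.GuKappa

set_option autoImplicit false
set_option linter.unusedSectionVars false

/-! helper95: piece GU-FULL1 for S5700 (an Eichler direction outside the hermitian perp makes
the point full). -/

namespace Cfsg.Agent.H95.Gu

open Module Matrix Cfsg.Agent.H49 Cfsg.Agent.H95 Cfsg.Agent.H96.Gu

universe u

section
variable {ι : Type} [Fintype ι] [DecidableEq ι] {F : Type u} [Field F]
variable {Q : QuadraticForm F (ι → F)} {J : (ι → F) →ₗ[F] (ι → F)} {t N : F}

/-- Orthogonality to a finite family extends to its span. -/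
theorem polar_span_range_zero (Q : QuadraticForm F (ι → F)) {κ : Type} (v : κ → ι → F)
    (z : ι → F) (h : ∀ i, QuadraticMap.polar (⇑Q) (v i) z = 0) :
    ∀ a ∈ Submodule.span F (Set.range v), QuadraticMap.polar (⇑Q) a z = 0 := by
  intro a ha
  induction ha using Submodule.span_induction with
  | mem x hx =>
    obtain ⟨i, rfl⟩ := hx
    exact h i
  | zero => exact QuadraticMap.polar_zero_left _ _
  | add x y _ _ hx hy => rw [QuadraticMap.polar_add_left, hx, hy, add_zero]
  | smul c x _ hx => rw [QuadraticMap.polar_smul_left, hx, smul_zero]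

/-- A hyperbolic pair orthogonal to a family of at most five vectors, and the fact that the
orthogonal complement of the family consists of Eichler directions as soon as its singular
vectors do. -/
theorem eichDir_of_orth_family [Finite F] (C : Ctx Q J t N)
    (M : Subgroup ↥(Cfsg.isometryGroup F (⇑Q))) (u : ι → F) (hu : Q u = 0)
    {k : ℕ} (hk : 2 * k + 3 ≤ 14) (v : Fin k → ι → F)
    (hA : ∀ z : ι → F, Q z = 0 → (∀ i, QuadraticMap.polar (⇑Q) (v i) z = 0) → eichDir Q M u z)
    (z : ι → F) (hz : ∀ i, QuadraticMap.polar (⇑Q) (v i) z = 0) : eichDir Q M u z := by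
  have hfr : finrank F (Submodule.span F (Set.range v)) ≤ k := by
    have := finrank_range_le_card (R := F) v
    rwa [Fintype.card_fin] at this
  have hdim : finrank F (ι → F) = Fintype.card ι := Module.finrank_fintype_fun_eq_card F
  have hd := C.dim
  obtain ⟨e, e', he, he', hee, hX, hX'⟩ := exists_hyp_pair_orth Q C.nd
    (Submodule.span F (Set.range v)) (by omega)
  have hmem : ∀ y : ι → F, (∀ i, QuadraticMap.polar (⇑Q) (v i) y = 0) →
      y ∈ LinearMap.BilinForm.orthogonal (QuadraticMap.polarBilin Q)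
        (Submodule.span F (Set.range v)) :=
    fun y h => LinearMap.BilinForm.mem_orthogonal_iff.mpr (polar_span_range_zero Q v y h)
  have hsub : ∀ i, v i ∈ Submodule.span F (Set.range v) :=
    fun i => Submodule.subset_span ⟨i, rfl⟩
  refine eichDir_of_mem Q M u hu _ e e' (hmem e fun i => hX _ (hsub i))
    (hmem e' fun i => hX' _ (hsub i)) he he' hee ?_ z (hmem z hz)
  intro y hy hQy
  exact hA y hQy fun i => (LinearMap.BilinForm.mem_orthogonal_iff.mp hy) _ (hsub i)

/-- GU-FULL1. -/
theorem full1 (hK : StKappa.{u}) : StFull1.{u} := by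
  intro ι _ _ F _ _ Q J t N C M hT u y₀ hu0 hu hy hne z hz
  obtain ⟨β, hβ⟩ : ∃ β, β = QuadraticMap.polar (⇑Q) u (J y₀) := ⟨_, rfl⟩
  rw [← hβ] at hne
  have huy : QuadraticMap.polar (⇑Q) u y₀ = 0 := hy.1
  have huu : QuadraticMap.polar (⇑Q) u u = 0 := pol_self Q hu
  have huJu : QuadraticMap.polar (⇑Q) u (J u) = 0 := C.pol_self_J hu
  -- the orthogonal complement of `u, J u, y₀, J y₀` consists of Eichler directions
  have hAll : ∀ x : ι → F, (∀ i, QuadraticMap.polar (⇑Q) (![u, J u, y₀, J y₀] i) x = 0) →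
      eichDir Q M u x := by
    apply eichDir_of_orth_family C M u hu (k := 4) (by norm_num) ![u, J u, y₀, J y₀]
    intro w hw hwo
    have h0 : QuadraticMap.polar (⇑Q) u w = 0 := hwo 0
    have h1 : QuadraticMap.polar (⇑Q) (J u) w = 0 := hwo 1
    have h2 : QuadraticMap.polar (⇑Q) y₀ w = 0 := hwo 2
    have h3 : QuadraticMap.polar (⇑Q) (J y₀) w = 0 := hwo 3
    have hwu : hp Q J w u := by
      refine ⟨by rw [QuadraticMap.polar_comm]; exact h0, ?_⟩
      rw [QuadraticMap.polar_comm]; exact h1
    have hwy : hp Q J w y₀ := by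
      refine ⟨by rw [QuadraticMap.polar_comm]; exact h2, ?_⟩
      rw [QuadraticMap.polar_comm]; exact h3
    refine hK Q J t N C M hT u y₀ u w hu hy hu hw (hp_self C hu) hwu (hp_symm C hwu) hwy ?_
    rintro ⟨-, h⟩
    exact hne (by rw [hβ]; exact h)
  obtain ⟨α, hα⟩ : ∃ α, α = QuadraticMap.polar (⇑Q) u (J z) / β := ⟨_, rfl⟩
  obtain ⟨z', hz'⟩ : ∃ z', z' = z - α • y₀ := ⟨_, rfl⟩
  obtain ⟨b, hb⟩ : ∃ b, b = -QuadraticMap.polar (⇑Q) y₀ z' / β := ⟨_, rfl⟩
  obtain ⟨a, ha⟩ : ∃ a, a = QuadraticMap.polar (⇑Q) (J y₀) z' / β := ⟨_, rfl⟩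
  have e1 : QuadraticMap.polar (⇑Q) u z' = 0 := by
    rw [hz', QuadraticMap.polar_sub_right, QuadraticMap.polar_smul_right, hz, huy]
    simp
  have e2 : QuadraticMap.polar (⇑Q) u (J z') = 0 := by
    rw [hz', map_sub, map_smul, QuadraticMap.polar_sub_right, QuadraticMap.polar_smul_right,
      ← hβ, hα, smul_eq_mul, div_mul_cancel₀ _ hne, sub_self]
  have e3 : QuadraticMap.polar (⇑Q) (J u) z' = 0 := by
    rw [C.adj, e1, e2]; simp
  have e4 : QuadraticMap.polar (⇑Q) y₀ (J u) = -β := by
    rw [C.adj', QuadraticMap.polar_comm (⇑Q) y₀ u, huy, QuadraticMap.polar_comm (⇑Q) (J y₀) u,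
      ← hβ]
    simp
  have e5 : QuadraticMap.polar (⇑Q) (J y₀) u = β := by
    rw [QuadraticMap.polar_comm, ← hβ]
  have e6 : QuadraticMap.polar (⇑Q) (J y₀) (J u) = 0 := by
    rw [C.polJJ, QuadraticMap.polar_comm, huy, mul_zero]
  have e7 : QuadraticMap.polar (⇑Q) y₀ u = 0 := by
    rw [QuadraticMap.polar_comm]; exact huy
  have e8 : QuadraticMap.polar (⇑Q) (J u) u = 0 := by
    rw [QuadraticMap.polar_comm]; exact huJu
  have e9 : QuadraticMap.polar (⇑Q) (J u) (J u) = 0 := by
    rw [C.polJJ, huu, mul_zero]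
  have hz'' : eichDir Q M u (z' - a • u - b • J u) := by
    apply hAll
    intro i
    fin_cases i
    · show QuadraticMap.polar (⇑Q) u (z' - a • u - b • J u) = 0
      rw [QuadraticMap.polar_sub_right, QuadraticMap.polar_sub_right,
        QuadraticMap.polar_smul_right, QuadraticMap.polar_smul_right, e1, huu, huJu]
      simp
    · show QuadraticMap.polar (⇑Q) (J u) (z' - a • u - b • J u) = 0
      rw [QuadraticMap.polar_sub_right, QuadraticMap.polar_sub_right,
        QuadraticMap.polar_smul_right, QuadraticMap.polar_smul_right, e3, e8, e9]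
      simp
    · show QuadraticMap.polar (⇑Q) y₀ (z' - a • u - b • J u) = 0
      rw [QuadraticMap.polar_sub_right, QuadraticMap.polar_sub_right,
        QuadraticMap.polar_smul_right, QuadraticMap.polar_smul_right, e7, e4, hb]
      simp only [smul_eq_mul, mul_zero, sub_zero]
      field_simp
      ring
    · show QuadraticMap.polar (⇑Q) (J y₀) (z' - a • u - b • J u) = 0
      rw [QuadraticMap.polar_sub_right, QuadraticMap.polar_sub_right,
        QuadraticMap.polar_smul_right, QuadraticMap.polar_smul_right, e5, e6, ha]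
      simp only [smul_eq_mul, mul_zero, sub_zero]
      field_simp
      ring
  have e : z = α • y₀ + (a • u + (b • J u + (z' - a • u - b • J u))) := by
    rw [hz']; module
  rw [e]
  exact eichDir_add Q M u _ _ hu (eichDir_smul Q M u _ α hy)
    (eichDir_add Q M u _ _ hu (eichDir_smul Q M u _ a (eichDir_self Q M u hu))
      (eichDir_add Q M u _ _ hu (eichDir_smul Q M u _ b (hT u hu)) hz''))

example (hK : StKappa.{u}) : StFull1.{u} := full1 hK

end

end Cfsg.Agent.H95.Gu

namespace Cfsg.Agent.H95.Gu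

/-- GU-FULL1, closed (with `kappa`). -/
theorem full1_closed.{w} : Cfsg.Agent.H96.Gu.StFull1.{w} := full1 kappa

end Cfsg.Agent.H95.Gu
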