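import Cfsg.Agent.H96.GuDefs

set_option autoImplicit false
set_option linter.unusedSectionVars false

/-! helper95: piece GU-KAPPA for S5700 (the basic transfer lemma for Eichler directions in the
hermitian setting). -/

namespace Cfsg.Agent.H95.Gu

open Module Matrix Cfsg.Agent.H49 Cfsg.Agent.H95 Cfsg.Agent.H96.Gu

universe u

section
variable {ι : Type} [Fintype ι] [DecidableEq ι] {F : Type u} [Field F]
variable {Q : QuadraticForm F (ι → F)} {J : (ι → F) →ₗ[F] (ι → F)} {t N : F}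

/-- Step (A): conjugating a direction `y₀` at `u` by the Siegel element at `(w, J w)`, for a
singular `w` hermitian-orthogonal to `u`. -/
theorem kappa_stepA (C : Ctx Q J t N) (M : Subgroup ↥(Cfsg.isometryGroup F (⇑Q)))
    (hT : HasTau Q J M) (u y₀ w : ι → F) (hu : Q u = 0) (hy : eichDir Q M u y₀)
    (hw : Q w = 0) (hwu : hp Q J w u) :
    eichDir Q M u (QuadraticMap.polar (⇑Q) w y₀ • J w - QuadraticMap.polar (⇑Q) (J w) y₀ • w) := by
  obtain ⟨g, hg, e⟩ := (hT w hw).2 1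
  have e' : ∀ x, act g x
      = x + (1 : F) • (QuadraticMap.polar (⇑Q) w x • J w - QuadraticMap.polar (⇑Q) (J w) x • w) :=
    fun x => by rw [e, eich_tau C hw]
  have hgu : act g u = u := by
    rw [e', C.adj, hwu.1, hwu.2]
    simp
  have h1 := eichDir_conj Q M u y₀ hg hy
  rw [hgu, e' y₀] at h1
  have h2 := eichDir_sub Q M u _ _ hu h1 hy
  have e3 : y₀ + (1 : F) • (QuadraticMap.polar (⇑Q) w y₀ • J w
      - QuadraticMap.polar (⇑Q) (J w) y₀ • w) - y₀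
      = QuadraticMap.polar (⇑Q) w y₀ • J w - QuadraticMap.polar (⇑Q) (J w) y₀ • w := by
    module
  rwa [e3] at h2

/-- Step (B): the `F`-line `α • J w₂ - β • w₂`. -/
theorem kappa_stepB (C : Ctx Q J t N) (M : Subgroup ↥(Cfsg.isometryGroup F (⇑Q)))
    (hT : HasTau Q J M) (u y₀ w₁ w₂ : ι → F) (hu : Q u = 0) (hy : eichDir Q M u y₀)
    (hw₁ : Q w₁ = 0) (hw₂ : Q w₂ = 0) (h1u : hp Q J w₁ u) (h2u : hp Q J w₂ u)
    (h12 : hp Q J w₁ w₂) (h2y : hp Q J w₂ y₀) :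
    eichDir Q M u (QuadraticMap.polar (⇑Q) w₁ y₀ • J w₂
      - QuadraticMap.polar (⇑Q) (J w₁) y₀ • w₂) := by
  have hs : Q (w₁ + w₂) = 0 := by
    rw [Q_add', hw₁, hw₂, h12.1]; simp
  have hA := kappa_stepA C M hT u y₀ (w₁ + w₂) hu hy hs (hp_add_left h1u h2u)
  have hA₁ := kappa_stepA C M hT u y₀ w₁ hu hy hw₁ h1u
  have hJ2 : QuadraticMap.polar (⇑Q) (J w₂) y₀ = 0 := by
    rw [C.adj, h2y.1, h2y.2]; simp
  have h := eichDir_sub Q M u _ _ hu hA hA₁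
  have e : QuadraticMap.polar (⇑Q) (w₁ + w₂) y₀ • J (w₁ + w₂)
      - QuadraticMap.polar (⇑Q) (J (w₁ + w₂)) y₀ • (w₁ + w₂)
      - (QuadraticMap.polar (⇑Q) w₁ y₀ • J w₁ - QuadraticMap.polar (⇑Q) (J w₁) y₀ • w₁)
      = QuadraticMap.polar (⇑Q) w₁ y₀ • J w₂ - QuadraticMap.polar (⇑Q) (J w₁) y₀ • w₂ := by
    rw [map_add, QuadraticMap.polar_add_left, QuadraticMap.polar_add_left, h2y.1, hJ2]
    module
  rwa [e] at h

/-- GU-KAPPA. -/
theorem kappa : StKappa.{u} := by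
  intro ι _ _ F _ _ Q J t N C M hT u y₀ w₁ w₂ hu hy hw₁ hw₂ h1u h2u h12 h2y hn
  have hB1 := kappa_stepB C M hT u y₀ w₁ w₂ hu hy hw₁ hw₂ h1u h2u h12 h2y
  have hB2 := kappa_stepB C M hT u y₀ w₁ (J w₂) hu hy hw₁ (C.sing_J hw₂) h1u
    (hp_J_left C h2u) (hp_J_right C h12) (hp_J_left C h2y)
  rw [C.sq] at hB2
  obtain ⟨α, hα⟩ : ∃ α, α = QuadraticMap.polar (⇑Q) w₁ y₀ := ⟨_, rfl⟩
  obtain ⟨β, hβ⟩ : ∃ β, β = QuadraticMap.polar (⇑Q) (J w₁) y₀ := ⟨_, rfl⟩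
  rw [← hα, ← hβ] at hB1 hB2
  have hne : β * β - t * β * α + N * α * α ≠ 0 := by
    apply C.norm_ne
    rintro ⟨hb, ha⟩
    apply hn
    refine ⟨by rw [← hα]; exact ha, ?_⟩
    have := C.adj w₁ y₀
    rw [← hβ, ← hα, hb, ha] at this
    rw [mul_zero, zero_sub] at this
    exact neg_eq_zero.mp this.symm
  have h3 := eichDir_sub Q M u _ _ hu (eichDir_smul Q M u _ (α * t - β) hB1)
    (eichDir_smul Q M u _ α hB2)
  have e : (α * t - β) • (α • J w₂ - β • w₂) - α • (α • (t • J w₂ - N • w₂) - β • J w₂)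
      = (β * β - t * β * α + N * α * α) • w₂ := by
    module
  rw [e] at h3
  have h4 := eichDir_smul Q M u _ (β * β - t * β * α + N * α * α)⁻¹ h3
  rwa [smul_smul, inv_mul_cancel₀ hne, one_smul] at h4

example : StKappa.{u} := kappa

end

end Cfsg.Agent.H95.Gu
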