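import Cfsg.Agent.H96.GuDefs

set_option autoImplicit false
set_option linter.unusedSectionVars false

/-! helper95: piece GU-PROPER for S5700 (some element of the commutator subgroup does not
normalise `F[J]`). -/

namespace Cfsg.Agent.H95.Gu

open Module Matrix Cfsg.Agent.H49 Cfsg.Agent.H95 Cfsg.Agent.H96.Gu

universe u

/-- GU-PROPER. -/
theorem proper (hInd : StInd.{u}) (hGP : StGP.{u}) (hSNM : StSNM.{u}) : StProper.{u} := by
  intro ι _ _ F _ _ Q J t N C
  obtain ⟨u, hu, -, -, hu0'⟩ := hSNM Q J t N C 0 0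
  have hu0 : u ≠ 0 := by
    have := hu0' 0 0 0 0
    simpa using this
  obtain ⟨y, hy, hyu, -, hy'⟩ := hSNM Q J t N C u u
  have hy0 : y ≠ 0 := by
    have := hy' 0 0 0 0
    simpa using this
  have hnK : ¬ inK J u y := by
    rintro ⟨a, b, rfl⟩
    apply hy' a b 0 0
    simp
  have huy : QuadraticMap.polar (⇑Q) u y = 0 := by rw [QuadraticMap.polar_comm]; exact hyu.1
  refine ⟨siegelG Q u y hu hy huy 1,
    Cfsg.Agent.H49.siegelG_mem_commutator Q C.nd C.ts u y hu hy huy 1, ?_⟩
  rintro ⟨a, b, hab⟩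
  have hρ : ∀ x, act (siegelG Q u y hu hy huy 1) x
      = x + (1 : F) • (QuadraticMap.polar (⇑Q) u x • y - QuadraticMap.polar (⇑Q) y x • u) :=
    fun x => act_siegelG Q u y hu hy huy 1 x
  have h1 := hab u
  rw [hρ, hρ, pol_self Q hu, C.pol_self_J hu, hyu.1, hyu.2] at h1
  simp only [zero_smul, sub_zero, smul_zero, add_zero] at h1
  have h1' : a • u + (b - 1) • J u = 0 := by
    have e : a • u + (b - 1) • J u = a • u + b • J u - J u := by module
    rw [e, ← h1, sub_self]
  obtain ⟨ha, hb⟩ := (hInd Q J t N C u hu0).1 a (b - 1) h1'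
  have hb1 : b = 1 := by linear_combination hb
  obtain ⟨w, hw, hwu, hwJu, hwy, hwJy⟩ := (hGP Q J t N C u hu0).2 y hnK 1 t 0 0
  have h2 := hab w
  rw [hρ, hρ, ha, hb1, C.adj' u w, QuadraticMap.polar_comm (⇑Q) u w, hwu,
    QuadraticMap.polar_comm (⇑Q) (J u) w, hwJu, C.adj' y w, QuadraticMap.polar_comm (⇑Q) y w, hwy,
    QuadraticMap.polar_comm (⇑Q) (J y) w, hwJy] at h2
  simp only [mul_one, sub_self, zero_smul, sub_zero, smul_zero, add_zero, mul_zero, one_smul,
    zero_add, map_add] at h2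
  have hJy : J y = 0 := by
    have := h2
    rw [left_eq_add] at this
    exact this
  have h3 : (0 : F) • y + (1 : F) • J y = 0 := by rw [hJy]; simp
  exact one_ne_zero ((hInd Q J t N C y hy0).1 0 1 h3).2

example (hInd : StInd.{u}) (hGP : StGP.{u}) (hSNM : StSNM.{u}) : StProper.{u} :=
  proper hInd hGP hSNM

end Cfsg.Agent.H95.Gu
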