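import Cfsg.Agent.H96.GuDefs

set_option autoImplicit false
set_option linter.unusedSectionVars false

/-! helper95: pieces GU-TAU and GU-SNM for S5700 (parallel takes). -/

namespace Cfsg.Agent.H95.Gu

open Module Matrix Cfsg.Agent.H49 Cfsg.Agent.H95 Cfsg.Agent.H96.Gu

universe u

/-- GU-TAU. -/
theorem tau : StTau.{u} := by
  intro ι _ _ F _ _ Q J t N C u hu hJu h c x
  rw [act_siegelG, act_siegelG, C.adj' u x, C.polJJ, map_add, map_smul, map_sub, map_smul,
    map_smul, C.sq]
  module

example : StTau.{u} := tau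

/-- GU-SNM. -/
theorem snm : StSNM.{u} := by
  intro ι _ _ F _ _ Q J t N C u v
  have hfr : finrank F (Submodule.span F (Set.range ![u, J u, v, J v])) ≤ 4 := by
    have := finrank_range_le_card (R := F) ![u, J u, v, J v]
    rwa [Fintype.card_fin] at this
  have hdim : finrank F (ι → F) = Fintype.card ι := Module.finrank_fintype_fun_eq_card F
  have hd := C.dim
  obtain ⟨e, he, hX, hne⟩ := exists_singular_orth_not_mem Q C.nd
    (Submodule.span F (Set.range ![u, J u, v, J v])) (by omega)
  have hsub : ∀ i, ![u, J u, v, J v] i ∈ Submodule.span F (Set.range ![u, J u, v, J v]) :=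
    fun i => Submodule.subset_span ⟨i, rfl⟩
  have h0 : QuadraticMap.polar (⇑Q) u e = 0 := hX _ (hsub 0)
  have h1 : QuadraticMap.polar (⇑Q) (J u) e = 0 := hX _ (hsub 1)
  have h2 : QuadraticMap.polar (⇑Q) v e = 0 := hX _ (hsub 2)
  have h3 : QuadraticMap.polar (⇑Q) (J v) e = 0 := hX _ (hsub 3)
  refine ⟨e, he, ⟨by rw [QuadraticMap.polar_comm]; exact h0, by
    rw [QuadraticMap.polar_comm]; exact h1⟩, ⟨by rw [QuadraticMap.polar_comm]; exact h2, by
    rw [QuadraticMap.polar_comm]; exact h3⟩, ?_⟩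
  intro a b c d hcon
  apply hne
  rw [hcon]
  exact Submodule.add_mem _ (Submodule.add_mem _ (Submodule.add_mem _
    (Submodule.smul_mem _ a (hsub 0)) (Submodule.smul_mem _ b (hsub 1)))
    (Submodule.smul_mem _ c (hsub 2))) (Submodule.smul_mem _ d (hsub 3))

example : StSNM.{u} := snm

end Cfsg.Agent.H95.Gu
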