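import Cfsg.Agent.H96.GuDefs

set_option autoImplicit false
set_option linter.unusedSectionVars false

/-! helper95: piece GU-VI for S5700 (one full point gives the commutator subgroup). -/

namespace Cfsg.Agent.H95.Gu

open Module Matrix Cfsg.Agent.H49 Cfsg.Agent.H95 Cfsg.Agent.H96.Gu

universe u

/-- GU-VI. -/
theorem vi (hGP : StGP.{u}) (hF1 : StFull1.{u}) : StVI.{u} := by
  intro ι _ _ F _ _ Q J t N C M hT v hv0 hv hFull
  obtain ⟨y, hy, hyv, hyJv⟩ := (hGP Q J t N C v hv0).1 0 1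
  have hvy : QuadraticMap.polar (⇑Q) v y = 0 := by rw [QuadraticMap.polar_comm]; exact hyv
  have hy0 : y ≠ 0 := by
    rintro rfl
    rw [QuadraticMap.polar_zero_left] at hyJv
    exact zero_ne_one hyJv
  have hDy : eichDir Q M y v := eichDir_symm Q M v y hv hy (hFull y hvy)
  have hFy : Full Q M y := hF1 Q J t N C M hT y v hy0 hy hDy (by rw [hyJv]; exact one_ne_zero)
  have hvF : v ∈ fullPts Q M := mem_fullPts_of_eichDir Q M v hv hFull
  have hyF : y ∈ fullPts Q M := mem_fullPts_of_eichDir Q M y hy hFy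
  have hnK : ¬ inK J v y := by
    rintro ⟨a, b, rfl⟩
    rw [QuadraticMap.polar_add_left, QuadraticMap.polar_smul_left, QuadraticMap.polar_smul_left,
      C.pol_self_J hv, C.polJJ, pol_self Q hv] at hyJv
    simp at hyJv
  obtain ⟨w, hw, hwv, hwJv, hwy, hwJy⟩ := (hGP Q J t N C v hv0).2 y hnK 0 (-1) 1 0
  obtain ⟨g, hg, e⟩ := (hT w hw).2 1
  have hx : act g y ∈ fullPts Q M := fullPts_act Q M hg hyF
  apply commutator_le_of_fullPts_pair Q C.nd C.ts M hvF hx
  rw [e, eich_tau C hw, QuadraticMap.polar_add_right, QuadraticMap.polar_smul_right,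
    QuadraticMap.polar_sub_right, QuadraticMap.polar_smul_right, QuadraticMap.polar_smul_right,
    hvy, C.adj' v w, QuadraticMap.polar_comm (⇑Q) v w, hwv, QuadraticMap.polar_comm (⇑Q) (J v) w,
    hwJv, hwy]
  simp

example (hGP : StGP.{u}) (hF1 : StFull1.{u}) : StVI.{u} := vi hGP hF1

end Cfsg.Agent.H95.Gu
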