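import Cfsg.Agent.H95.Herm

set_option autoImplicit false

namespace Cfsg.Agent.H95

open Cfsg Cfsg.Geo
open scoped MatrixGroups Matrix

section Herm2

variable {n : ℕ} {F : Type*} [Field F] [Fintype F]

lemma two_eq_zero_of_card_four (hF : Fintype.card F = 2 ^ 2) : (2 : F) = 0 := by
  have := FiniteField.cast_card_eq_zero F
  rw [hF] at this
  have h4 : (2 : F) * 2 = 0 := by
    push_cast at this
    linear_combination this
  exact mul_self_eq_zero.mp h4

lemma pow_three_of_card_four (hF : Fintype.card F = 2 ^ 2) {a : F} (ha : a ≠ 0) : a ^ 3 = 1 := by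
  have := FiniteField.pow_card_sub_one_eq_one a ha
  rwa [hF] at this

/-- The norm `h(x, x)` is `0` or `1`. -/
lemma herm_self_zero_or_one (hF : Fintype.card F = 2 ^ 2) (x : Fin n → F) :
    hermForm n F 2 x x = 0 ∨ hermForm n F 2 x x = 1 := by
  have h := hermForm_herm hF x x
  have h' : hermForm n F 2 x x * (hermForm n F 2 x x - 1) = 0 := by linear_combination -h
  rcases mul_eq_zero.mp h' with h0 | h1
  · exact Or.inl h0
  · exact Or.inr (sub_eq_zero.mp h1)

lemma herm_self_eq_one (hF : Fintype.card F = 2 ^ 2) {x : Fin n → F}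
    (hx : hermForm n F 2 x x ≠ 0) : hermForm n F 2 x x = 1 :=
  (herm_self_zero_or_one hF x).resolve_left hx

lemma herm_sub_smul (hF : Fintype.card F = 2 ^ 2) (x e : Fin n → F) (c : F) :
    hermForm n F 2 (x + c • e) (x + c • e) = hermForm n F 2 x x + c ^ 2 * hermForm n F 2 x e
      + c * hermForm n F 2 e x + c ^ 3 * hermForm n F 2 e e := by
  rw [hermForm_add_left, hermForm_add_right hF, hermForm_add_right hF, hermForm_smul_left,
    hermForm_smul_right, hermForm_smul_left, hermForm_smul_right]
  ring

/-- A non-degenerate subspace contains a vector of norm one. -/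
lemma exists_norm_one (hF : Fintype.card F = 2 ^ 2) (W : Submodule F (Fin n → F))
    (hW0 : W ≠ ⊥) (hnd : IsNondegenerateOn (hermForm n F 2) W) :
    ∃ e ∈ W, hermForm n F 2 e e = 1 := by
  have h2 := two_eq_zero_of_card_four hF
  obtain ⟨y, hyW, hy0⟩ := (Submodule.ne_bot_iff W).mp hW0
  by_cases hyy : hermForm n F 2 y y = 0
  · obtain ⟨⟨x, hxW, hx⟩, -⟩ := hnd y hyW hy0
    by_cases hxx : hermForm n F 2 x x = 0
    · -- choose c different from 0 and μ
      set μ := hermForm n F 2 x y with hμ
      have hcard : 2 < Fintype.card F := by rw [hF]; norm_num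
      obtain ⟨c, hc0, hcμ⟩ : ∃ c : F, c ≠ 0 ∧ c ≠ μ := by
        classical
        have h3 : (({0, μ} : Finset F)).card < (Finset.univ : Finset F).card := by
          calc (({0, μ} : Finset F)).card ≤ 2 := Finset.card_le_two
            _ < Fintype.card F := hcard
            _ = (Finset.univ : Finset F).card := Finset.card_univ.symm
        obtain ⟨c, -, hc⟩ := Finset.exists_mem_notMem_of_card_lt_card h3
        simp only [Finset.mem_insert, Finset.mem_singleton, not_or] at hc
        exact ⟨c, hc.1, hc.2⟩
      refine ⟨x + c • y, W.add_mem hxW (W.smul_mem c hyW), ?_⟩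
      apply herm_self_eq_one hF
      rw [herm_sub_smul hF, hxx, hyy, hermForm_herm hF x y, ← hμ]
      have : 0 + c ^ 2 * μ + c * μ ^ 2 + c ^ 3 * 0 = c * μ * (c - μ) + 2 * (c * μ ^ 2) := by ring
      rw [this, h2, zero_mul, add_zero]
      exact mul_ne_zero (mul_ne_zero hc0 hx) (sub_ne_zero.mpr hcμ)
    · exact ⟨x, hxW, herm_self_eq_one hF hxx⟩
  · exact ⟨y, hyW, herm_self_eq_one hF hyy⟩

/-- In a non-degenerate plane, an isotropic vector orthogonal to a vector of norm one vanishes. -/
lemma herm2_eq_zero (hF : Fintype.card F = 2 ^ 2) (W : Submodule F (Fin n → F))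
    (hfin : Module.finrank F W = 2) (hnd : IsNondegenerateOn (hermForm n F 2) W)
    {e y : Fin n → F} (he : e ∈ W) (hee : hermForm n F 2 e e = 1) (hy : y ∈ W)
    (hye : hermForm n F 2 y e = 0) (hyy : hermForm n F 2 y y = 0) : y = 0 := by
  by_contra hy0
  obtain ⟨⟨x, hxW, hx⟩, -⟩ := hnd y hy hy0
  have hli : ∀ s t : F, s • e + t • y = 0 → s = 0 ∧ t = 0 := by
    intro s t hst
    have h2 : s = 0 := by
      have := congrArg (fun z => hermForm n F 2 z e) hst
      simp only [hermForm_add_left, hermForm_smul_left, hee, hye, hermForm_zero_left, mul_one,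
        mul_zero, add_zero] at this
      exact this
    refine ⟨h2, ?_⟩
    rw [h2, zero_smul, zero_add] at hst
    exact (smul_eq_zero.mp hst).resolve_right hy0
  obtain ⟨α, β, hx'⟩ := mem_pair_of_finrank_two W hfin he hy hli hxW
  apply hx
  rw [hx', hermForm_add_left, hermForm_smul_left, hermForm_smul_left, hyy, hermForm_herm hF y e, hye]
  simp

/-- In a non-degenerate plane, an anisotropic vector not orthogonal to a vector `e` of norm one is
a multiple of `e`. -/
lemma herm2_eq_smul (hF : Fintype.card F = 2 ^ 2) (W : Submodule F (Fin n → F))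
    (hfin : Module.finrank F W = 2) (hnd : IsNondegenerateOn (hermForm n F 2) W)
    {e x : Fin n → F} (he : e ∈ W) (hee : hermForm n F 2 e e = 1) (hx : x ∈ W)
    (hxx : hermForm n F 2 x x ≠ 0) (hxe : hermForm n F 2 x e ≠ 0) :
    x = hermForm n F 2 x e • e := by
  have h2 := two_eq_zero_of_card_four hF
  set c := hermForm n F 2 x e with hc
  have hy : x + c • e ∈ W := W.add_mem hx (W.smul_mem c he)
  have hye : hermForm n F 2 (x + c • e) e = 0 := by
    rw [hermForm_add_left, hermForm_smul_left, hee, ← hc]
    linear_combination c * h2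
  have hyy : hermForm n F 2 (x + c • e) (x + c • e) = 0 := by
    have hc3 : c ^ 3 = 1 := pow_three_of_card_four hF hxe
    rw [herm_sub_smul hF, hee, herm_self_eq_one hF hxx, hermForm_herm hF x e, ← hc]
    linear_combination 3 * hc3 + 2 * h2
  have h0 := herm2_eq_zero hF W hfin hnd he hee hy hye hyy
  have h3 : x = -(c • e) := eq_neg_of_add_eq_zero_left h0
  rw [h3]
  have : (c • e) + (c • e) = 0 := by rw [← two_smul F, h2, zero_smul]
  exact (eq_neg_of_add_eq_zero_left this).symm

/-- In a plane there is a vector not orthogonal to `e` and not a multiple of `e`. -/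
lemma herm2_exists_not_smul (W : Submodule F (Fin n → F))
    (hfin : Module.finrank F W = 2) {e : Fin n → F} (he : e ∈ W) (hee : hermForm n F 2 e e = 1) :
    ∃ x ∈ W, hermForm n F 2 x e ≠ 0 ∧ ∀ c : F, x + c • e ≠ 0 := by
  -- a vector outside the line of e
  have hlt : ¬ (W ≤ Submodule.span F {e}) := by
    intro hle
    have h1 := Submodule.finrank_mono hle
    have he0 : e ≠ 0 := by
      rintro rfl
      rw [hermForm_zero_left] at hee
      exact zero_ne_one hee
    have h2 : Module.finrank F (Submodule.span F {e}) = 1 := finrank_span_singleton he0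
    omega
  obtain ⟨z, hzW, hz⟩ := SetLike.not_le_iff_exists.mp hlt
  have hz' : ∀ c : F, z + c • e ≠ 0 := by
    intro c h
    apply hz
    rw [eq_neg_of_add_eq_zero_left h, ← neg_smul]
    exact Submodule.smul_mem _ _ (Submodule.mem_span_singleton_self e)
  by_cases h : hermForm n F 2 z e = 0
  · refine ⟨z + e, W.add_mem hzW he, ?_, ?_⟩
    · rw [hermForm_add_left, h, hee, zero_add]
      exact one_ne_zero
    · intro c
      have := hz' (1 + c)
      rwa [add_smul, one_smul, ← add_assoc] at this
  · exact ⟨z, hzW, h, hz'⟩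

end Herm2

end Cfsg.Agent.H95
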