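import Cfsg.Agent.H95.Tensor
import Cfsg.Agent.H95.TensorForm

set_option autoImplicit false
set_option linter.unusedSectionVars false

namespace Cfsg.Agent.H95

open Cfsg Cfsg.Geo
open scoped MatrixGroups Matrix Kronecker

section JStd

variable {F : Type*} [Field F]

/-- The matrix of order three of `GL_2(2)`. -/
def A0 (F : Type*) [Field F] : Matrix (Fin 2) (Fin 2) F := !![0, 1; 1, 1]

/-- Its inverse. -/
def A0' (F : Type*) [Field F] : Matrix (Fin 2) (Fin 2) F := !![1, 1; 1, 0]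

lemma A0_mul_A0' (h11 : (1 : F) + 1 = 0) : A0 F * A0' F = 1 := by
  ext i j; fin_cases i <;> fin_cases j <;> simp [A0, A0', Matrix.mul_apply, Fin.sum_univ_two, h11]

lemma A0'_mul_A0 (h11 : (1 : F) + 1 = 0) : A0' F * A0 F = 1 := by
  ext i j; fin_cases i <;> fin_cases j <;> simp [A0, A0', Matrix.mul_apply, Fin.sum_univ_two, h11]

lemma A0_sq (h11 : (1 : F) + 1 = 0) : A0 F * A0 F = A0 F + 1 := by
  ext i j; fin_cases i <;> fin_cases j <;> simp [A0, Matrix.mul_apply, Fin.sum_univ_two, h11]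

/-- The standard element of order three commuting with `1 ⊗ GL`. -/
def jStd (h11 : (1 : F) + 1 = 0) (n₂ : ℕ) : GL (Fin 2 × Fin n₂) F :=
  blockGL (fun _ => A0 F) (fun _ => A0' F) (fun _ => A0_mul_A0' h11) (fun _ => A0'_mul_A0 h11)

lemma jStd_val (h11 : (1 : F) + 1 = 0) (n₂ : ℕ) :
    ((jStd h11 n₂ : GL (Fin 2 × Fin n₂) F) : Matrix (Fin 2 × Fin n₂) (Fin 2 × Fin n₂) F) =
      A0 F ⊗ₖ (1 : Matrix (Fin n₂) (Fin n₂) F) := by
  rw [Matrix.kronecker_one]
  rfl

lemma jStd_inv_val (h11 : (1 : F) + 1 = 0) (n₂ : ℕ) :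
    (((jStd h11 n₂)⁻¹ : GL (Fin 2 × Fin n₂) F) : Matrix (Fin 2 × Fin n₂) (Fin 2 × Fin n₂) F) =
      A0' F ⊗ₖ (1 : Matrix (Fin n₂) (Fin n₂) F) := by
  rw [Matrix.kronecker_one]
  rfl

lemma two_by_two' [Fintype F] (hq : Fintype.card F = 2)
    (a : Matrix (Fin 2) (Fin 2) F) (ha : a.det ≠ 0) :
    a * A0 F = A0 F * a ∨ a * A0 F = A0' F * a := by
  have h2 : (2 : F) = 0 := by
    have := FiniteField.cast_card_eq_zero F
    rw [hq] at this
    exact_mod_cast this
  have h11 : (1 : F) + 1 = 0 := by linear_combination h2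
  have h01 : ∀ a : F, a = 0 ∨ a = 1 := by
    intro a
    have h := FiniteField.pow_card a
    rw [hq] at h
    have h' : a * (a - 1) = 0 := by linear_combination h
    rcases mul_eq_zero.mp h' with h0 | h1
    · exact Or.inl h0
    · exact Or.inr (sub_eq_zero.mp h1)
  rw [Matrix.det_fin_two] at ha
  rcases h01 (a 0 0) with hx | hx <;> rcases h01 (a 0 1) with hy | hy <;>
  rcases h01 (a 1 0) with hz | hz <;> rcases h01 (a 1 1) with hw | hw
  all_goals first
    | (exfalso; apply ha; simp [hx, hy, hz, hw]; done)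
    | (left; ext i j; fin_cases i <;> fin_cases j <;>
        simp [A0, Matrix.mul_apply, Fin.sum_univ_two, hx, hy, hz, hw, h11]; done)
    | (right; ext i j; fin_cases i <;> fin_cases j <;>
        simp [A0, A0', Matrix.mul_apply, Fin.sum_univ_two, hx, hy, hz, hw, h11])

/-- Kronecker products normalise the group generated by the standard element of order three. -/
lemma kronecker_le_invNormalizer [Fintype F] (hq : Fintype.card F = 2) (h11 : (1 : F) + 1 = 0)
    (n₂ : ℕ) : kroneckerSubgroup 2 n₂ F ≤ invNormalizer (jStd h11 n₂) := by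
  intro g hg
  obtain ⟨a, b, hab⟩ := hg
  have hdet0 : (a : Matrix (Fin 2) (Fin 2) F).det ≠ 0 := by
    intro h
    have := (Matrix.isUnit_iff_isUnit_det (a : Matrix (Fin 2) (Fin 2) F)).mp a.isUnit
    rw [h] at this
    exact not_isUnit_zero this
  rw [mem_invNormalizer_iff]
  rcases two_by_two' hq (a : Matrix (Fin 2) (Fin 2) F) hdet0 with h | h
  · left
    apply Units.ext
    rw [Units.val_mul, Units.val_mul, hab, jStd_val, ← Matrix.mul_kronecker_mul,
      ← Matrix.mul_kronecker_mul, h, mul_one, one_mul]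
  · right
    apply Units.ext
    rw [Units.val_mul, Units.val_mul, hab, jStd_val, jStd_inv_val, ← Matrix.mul_kronecker_mul,
      ← Matrix.mul_kronecker_mul, h, mul_one, one_mul]

/-- The action of the transported standard element on pure tensors. -/
lemma jStd_act {ι : Type} [Fintype ι] [DecidableEq ι] (h11 : (1 : F) + 1 = 0) {n₂ : ℕ}
    (e : ι ≃ Fin 2 × Fin n₂) (P : GL ι F) (u : Fin 2 → F) (v : Fin n₂ → F) :
    ((tpsIso e P (jStd h11 n₂) : GL ι F) : Matrix ι ι F) *ᵥ tL e P (pt u v) =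
      tL e P (pt (A0 F *ᵥ u) v) := by
  rw [tpsIso_mulVec, jStd_val, kronecker_mulVec_pt, Matrix.one_mulVec]

end JStd

end Cfsg.Agent.H95
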