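import Cfsg.Agent.H95.Eich

set_option autoImplicit false
set_option linter.unusedSectionVars false

/-! Helper lemmas (helper95): tools for the maximality of stabilisers of non-degenerate
subspaces in `Ω(Q)`. -/

namespace Cfsg.Agent.H95

open Module Matrix Cfsg.Agent.H49

section
variable {ι : Type} [Fintype ι] [DecidableEq ι] {F : Type*} [Field F]

theorem eichDir_self (Q : QuadraticForm F (ι → F))
    (M : Subgroup ↥(Cfsg.isometryGroup F (⇑Q))) (u : ι → F) (hu : Q u = 0) :
    eichDir Q M u u := by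
  refine ⟨by rw [polar_self', hu, mul_zero], fun c => ⟨1, M.one_mem, fun x => ?_⟩⟩
  rw [act_one]
  unfold eich
  rw [QuadraticMap.map_smul, hu, QuadraticMap.polar_smul_left]
  simp only [smul_eq_mul, mul_zero, zero_mul, zero_smul, sub_zero]
  module

theorem eichDir_conj (Q : QuadraticForm F (ι → F))
    (M : Subgroup ↥(Cfsg.isometryGroup F (⇑Q))) (u y : ι → F)
    {m : ↥(Cfsg.isometryGroup F (⇑Q))} (hm : m ∈ M) (h : eichDir Q M u y) :
    eichDir Q M (act m u) (act m y) := by
  refine ⟨by rw [polar_act]; exact h.1, fun c => ?_⟩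
  obtain ⟨g, hg, e⟩ := h.2 c
  refine ⟨m * g * m⁻¹, M.mul_mem (M.mul_mem hm hg) (M.inv_mem hm), fun x => ?_⟩
  rw [act_mul, act_mul, e]
  unfold eich
  rw [act_sub, act_sub, act_add, act_smul, act_smul, act_smul, act_act_inv, ← act_smul m c y,
    polar_act_left Q m u x, polar_act_left Q m (c • y) x, Q_act, act_smul m c y, act_smul]

theorem siegelG_symm (Q : QuadraticForm F (ι → F)) (p r : ι → F) (hp : Q p = 0) (hr : Q r = 0)
    (hpr : QuadraticMap.polar (⇑Q) p r = 0) (hrp : QuadraticMap.polar (⇑Q) r p = 0) (c : F) :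
    siegelG Q r p hr hp hrp c = siegelG Q p r hp hr hpr (-c) := by
  apply act_ext
  intro x
  rw [act_siegelG, act_siegelG]
  module

/-- Symmetry of Eichler directions between singular vectors. -/
theorem eichDir_symm (Q : QuadraticForm F (ι → F))
    (M : Subgroup ↥(Cfsg.isometryGroup F (⇑Q))) (p r : ι → F) (hp : Q p = 0) (hr : Q r = 0)
    (h : eichDir Q M p r) : eichDir Q M r p := by
  have hrp : QuadraticMap.polar (⇑Q) r p = 0 := by rw [QuadraticMap.polar_comm]; exact h.1
  apply eichDir_of_siegel Q M r p hr hp hrp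
  intro c
  rw [siegelG_symm Q p r hp hr h.1 hrp c]
  exact siegel_mem_of_eichDir Q M p r hp hr h (-c)

/-- The radical of `X ⊔ S` lies in `S` when `X` is non-degenerate and `S ⊥ X`. -/
theorem finrank_inf_orth_sup_le (Q : QuadraticForm F (ι → F)) (X S : Submodule F (ι → F))
    (hX : X ⊓ LinearMap.BilinForm.orthogonal (QuadraticMap.polarBilin Q) X = ⊥)
    (hS : ∀ s ∈ S, ∀ a ∈ X, QuadraticMap.polar (⇑Q) a s = 0) :
    finrank F ↥((X ⊔ S) ⊓ LinearMap.BilinForm.orthogonal (QuadraticMap.polarBilin Q) (X ⊔ S))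
      ≤ finrank F S := by
  apply Submodule.finrank_mono
  rintro z ⟨hz1, hz2⟩
  obtain ⟨x, hx, s, hs, rfl⟩ := Submodule.mem_sup.mp hz1
  have hz2' := LinearMap.BilinForm.mem_orthogonal_iff.mp hz2
  have hx0 : x = 0 := by
    have hmem : x ∈ X ⊓ LinearMap.BilinForm.orthogonal (QuadraticMap.polarBilin Q) X := by
      refine ⟨hx, LinearMap.BilinForm.mem_orthogonal_iff.mpr (fun a ha => ?_)⟩
      have h1 : QuadraticMap.polar (⇑Q) a (x + s) = 0 := hz2' a (Submodule.mem_sup_left ha)
      rw [QuadraticMap.polar_add_right, hS s hs a ha, add_zero] at h1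
      exact h1
    rw [hX] at hmem
    exact (Submodule.mem_bot F).mp hmem
  rw [hx0, zero_add]
  exact hs

/-- A hyperbolic pair orthogonal to `X` and to `S`. -/
theorem exists_hyp_pair_orth_sup [Finite F] (Q : QuadraticForm F (ι → F))
    (hQ : (QuadraticMap.polarBilin Q).Nondegenerate) (X S : Submodule F (ι → F))
    (hX : X ⊓ LinearMap.BilinForm.orthogonal (QuadraticMap.polarBilin Q) X = ⊥)
    (hS : ∀ s ∈ S, ∀ a ∈ X, QuadraticMap.polar (⇑Q) a s = 0)
    (hd : finrank F X + 2 * finrank F S + 3 ≤ finrank F (ι → F)) :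
    ∃ e e' : ι → F, Q e = 0 ∧ Q e' = 0 ∧ QuadraticMap.polar (⇑Q) e e' = 1 ∧
      (∀ a ∈ X, QuadraticMap.polar (⇑Q) a e = 0) ∧
      (∀ a ∈ X, QuadraticMap.polar (⇑Q) a e' = 0) ∧
      (∀ s ∈ S, QuadraticMap.polar (⇑Q) s e = 0) ∧
      (∀ s ∈ S, QuadraticMap.polar (⇑Q) s e' = 0) := by
  have h1 := finrank_inf_orth_sup_le Q X S hX hS
  have h2 := Submodule.finrank_add_le_finrank_add_finrank X S
  obtain ⟨e, e', he, he', hee, h3, h4⟩ := exists_hyp_pair_orth' Q hQ (X ⊔ S) (by omega)
  exact ⟨e, e', he, he', hee, fun a ha => h3 a (Submodule.mem_sup_left ha),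
    fun a ha => h4 a (Submodule.mem_sup_left ha), fun s hs => h3 s (Submodule.mem_sup_right hs),
    fun s hs => h4 s (Submodule.mem_sup_right hs)⟩

/-- A non-zero singular vector orthogonal to a subspace of codimension at least three. -/
theorem exists_singular_orth_ne_zero [Finite F] (Q : QuadraticForm F (ι → F))
    (hQ : (QuadraticMap.polarBilin Q).Nondegenerate) (W : Submodule F (ι → F))
    (hd : finrank F W + 3 ≤ finrank F (ι → F)) :
    ∃ u : ι → F, u ≠ 0 ∧ Q u = 0 ∧ ∀ a ∈ W, QuadraticMap.polar (⇑Q) a u = 0 := by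
  have h2 := LinearMap.BilinForm.finrank_orthogonal hQ W
  obtain ⟨⟨c, hc⟩, hne, hQc⟩ := exists_singular_of_three_le
    (Q.comp (LinearMap.BilinForm.orthogonal (QuadraticMap.polarBilin Q) W).subtype) (by omega)
  refine ⟨c, fun h => hne (Subtype.ext h), hQc,
    fun a ha => (LinearMap.BilinForm.mem_orthogonal_iff.mp hc) a ha⟩

/-- An isometry mapping `X` into itself maps `X^⊥` into itself. -/
theorem act_orth_of_stab (Q : QuadraticForm F (ι → F)) (g : ↥(Cfsg.isometryGroup F (⇑Q)))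
    (X : Submodule F (ι → F)) (h : ∀ x ∈ X, act g x ∈ X) (y : ι → F)
    (hy : ∀ a ∈ X, QuadraticMap.polar (⇑Q) a y = 0) :
    ∀ a ∈ X, QuadraticMap.polar (⇑Q) a (act g y) = 0 := by
  intro a ha
  rw [polar_act_right]
  apply hy
  have hs := mem_subspaceStabilizer_of_forall
    (g : Matrix.GeneralLinearGroup ι F) X h
  have h2 : act g (act g⁻¹ a) ∈ X := by rw [act_act_inv]; exact ha
  exact ((mem_subspaceStabilizer_iff _ X).mp hs (act g⁻¹ a)).mpr h2

/-- An isometry mapping `X` into itself maps `X` onto itself. -/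
theorem act_inv_mem_of_stab (Q : QuadraticForm F (ι → F)) (g : ↥(Cfsg.isometryGroup F (⇑Q)))
    (X : Submodule F (ι → F)) (h : ∀ x ∈ X, act g x ∈ X) (a : ι → F) (ha : a ∈ X) :
    act g⁻¹ a ∈ X := by
  have hs := mem_subspaceStabilizer_of_forall
    (g : Matrix.GeneralLinearGroup ι F) X h
  have h2 : act g (act g⁻¹ a) ∈ X := by rw [act_act_inv]; exact ha
  exact ((mem_subspaceStabilizer_iff _ X).mp hs (act g⁻¹ a)).mpr h2

end

end Cfsg.Agent.H95
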