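import Cfsg.Agent.H95.NDIrr

set_option autoImplicit false
set_option linter.unusedSectionVars false
set_option linter.unusedVariables false

/-! Helper lemmas (helper95): the stabiliser of a non-degenerate subspace `X` in `Ω(Q)` is
maximal (core argument). `Y` denotes the orthogonal complement of `X`; membership of `Y` is
written `∀ a ∈ X, polar a y = 0`. -/

namespace Cfsg.Agent.H95

open Module Matrix Cfsg.Agent.H49

section
variable {ι : Type} [Fintype ι] [DecidableEq ι] {F : Type*} [Field F]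

/-- The standing hypotheses. -/
structure NDSetup [Fintype F] (Q : QuadraticForm F (ι → F)) (X : Submodule F (ι → F))
    (M : Subgroup ↥(Cfsg.isometryGroup F (⇑Q))) : Prop where
  hQ : (QuadraticMap.polarBilin Q).Nondegenerate
  h3 : HasTS3 Q
  hX : X ⊓ LinearMap.BilinForm.orthogonal (QuadraticMap.polarBilin Q) X = ⊥
  hd : finrank F X + 7 ≤ finrank F (ι → F)
  hM : ∀ g ∈ commutator ↥(Cfsg.isometryGroup F (⇑Q)), (∀ x ∈ X, act g x ∈ X) → g ∈ M

variable [Fintype F] {Q : QuadraticForm F (ι → F)} {X : Submodule F (ι → F)}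
  {M : Subgroup ↥(Cfsg.isometryGroup F (⇑Q))}

theorem NDSetup.eq_zero (S : NDSetup Q X M) {x : ι → F} (hx : x ∈ X)
    (hxX : ∀ a ∈ X, QuadraticMap.polar (⇑Q) a x = 0) : x = 0 := by
  have : x ∈ X ⊓ LinearMap.BilinForm.orthogonal (QuadraticMap.polarBilin Q) X :=
    ⟨hx, LinearMap.BilinForm.mem_orthogonal_iff.mpr hxX⟩
  rw [S.hX] at this
  exact (Submodule.mem_bot F).mp this

/-- Siegel pairs inside `Y` give Eichler directions. -/
theorem NDSetup.ypair (S : NDSetup Q X M) (u z : ι → F) (hu : Q u = 0) (hz : Q z = 0)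
    (huz : QuadraticMap.polar (⇑Q) u z = 0)
    (huX : ∀ a ∈ X, QuadraticMap.polar (⇑Q) a u = 0)
    (hzX : ∀ a ∈ X, QuadraticMap.polar (⇑Q) a z = 0) : eichDir Q M u z := by
  refine eichDir_of_siegel Q M u z hu hz huz (fun c =>
    S.hM _ (siegelG_mem_commutator Q S.hQ S.h3 u z hu hz huz c) (fun x hx => ?_))
  rw [act_siegelG, QuadraticMap.polar_comm (⇑Q) u x, huX x hx,
    QuadraticMap.polar_comm (⇑Q) z x, hzX x hx]
  simpa using hx

/-- Every vector of `Y ∩ u^⊥` is an Eichler direction at a singular `u ∈ Y`. -/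
theorem NDSetup.ydirs (S : NDSetup Q X M) (u : ι → F) (hu : Q u = 0)
    (huX : ∀ a ∈ X, QuadraticMap.polar (⇑Q) a u = 0) (y : ι → F)
    (hyX : ∀ a ∈ X, QuadraticMap.polar (⇑Q) a y = 0)
    (huy : QuadraticMap.polar (⇑Q) u y = 0) : eichDir Q M u y := by
  have hS : ∀ s ∈ Submodule.span F {u}, ∀ a ∈ X, QuadraticMap.polar (⇑Q) a s = 0 := by
    intro s hs a ha
    obtain ⟨c, rfl⟩ := Submodule.mem_span_singleton.mp hs
    rw [QuadraticMap.polar_smul_right, huX a ha, smul_zero]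
  have hfr := finrank_span_singleton_le' (F := F) u
  have hd := S.hd
  obtain ⟨e, e', he, he', hee, heX, he'X, heS, he'S⟩ := exists_hyp_pair_orth_sup Q S.hQ X
    (Submodule.span F {u}) S.hX hS (by omega)
  have hmem : ∀ t : ι → F, (∀ a ∈ X, QuadraticMap.polar (⇑Q) a t = 0) →
      QuadraticMap.polar (⇑Q) u t = 0 →
      t ∈ LinearMap.BilinForm.orthogonal (QuadraticMap.polarBilin Q)
        (X ⊔ Submodule.span F {u}) := by
    intro t htX hut
    rw [LinearMap.BilinForm.mem_orthogonal_iff]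
    intro n hn
    obtain ⟨a, ha, s, hs, rfl⟩ := Submodule.mem_sup.mp hn
    obtain ⟨c, rfl⟩ := Submodule.mem_span_singleton.mp hs
    show QuadraticMap.polar (⇑Q) (a + c • u) t = 0
    rw [QuadraticMap.polar_add_left, QuadraticMap.polar_smul_left, htX a ha, hut]
    simp
  refine eichDir_of_mem Q M u hu _ e e'
    (hmem e heX (heS u (Submodule.mem_span_singleton_self u)))
    (hmem e' he'X (he'S u (Submodule.mem_span_singleton_self u))) he he' hee ?_ y
    (hmem y hyX huy)
  intro z hz hQz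
  have hz' := LinearMap.BilinForm.mem_orthogonal_iff.mp hz
  have hzX : ∀ a ∈ X, QuadraticMap.polar (⇑Q) a z = 0 :=
    fun a ha => hz' a (Submodule.mem_sup_left ha)
  have huz : QuadraticMap.polar (⇑Q) u z = 0 :=
    hz' u (Submodule.mem_sup_right (Submodule.mem_span_singleton_self u))
  exact S.ypair u z hu hQz huz huX hzX

/-- Step 1: an `M`-pair `(w', v)` in good position. -/
theorem NDSetup.step1 (S : NDSetup Q X M) (g₀ : ↥(Cfsg.isometryGroup F (⇑Q))) (hg₀ : g₀ ∈ M)
    (x₀ : ι → F) (hx₀ : x₀ ∈ X) (hgx₀ : act g₀ x₀ ∉ X)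
    (hswap : ∃ y : ι → F, (∀ a ∈ X, QuadraticMap.polar (⇑Q) a y = 0) ∧ act g₀ y ∉ X) :
    ∃ (w' v vX vY w'X w'Y : ι → F), Q w' = 0 ∧ Q v = 0 ∧ eichDir Q M w' v ∧ vX ∈ X ∧
      (∀ a ∈ X, QuadraticMap.polar (⇑Q) a vY = 0) ∧ w'X ∈ X ∧
      (∀ a ∈ X, QuadraticMap.polar (⇑Q) a w'Y = 0) ∧ v = vX + vY ∧ w' = w'X + w'Y ∧
      vX ≠ 0 ∧ w'Y ∉ Submodule.span F {vY} := by
  have hQ := S.hQ
  have hd := S.hd
  obtain ⟨e, e', he, he', hee, heX, he'X⟩ := exists_hyp_pair_orth' Q hQ X
    (by rw [S.hX, finrank_bot]; omega)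
  have hspan : ∀ y : ι → F, (∀ a ∈ X, QuadraticMap.polar (⇑Q) a y = 0) →
      y ∈ Submodule.span F {s : ι → F |
        s ∈ LinearMap.BilinForm.orthogonal (QuadraticMap.polarBilin Q) X ∧ Q s = 0} :=
    fun y hy => mem_span_singular Q _ e e' (LinearMap.BilinForm.mem_orthogonal_iff.mpr heX)
      (LinearMap.BilinForm.mem_orthogonal_iff.mpr he'X) he he' hee y
      (LinearMap.BilinForm.mem_orthogonal_iff.mpr hy)
  -- a singular vector of `Y` not mapped into `Y`
  have h1a : ∃ y₁ : ι → F, Q y₁ = 0 ∧ (∀ a ∈ X, QuadraticMap.polar (⇑Q) a y₁ = 0) ∧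
      ¬ (∀ a ∈ X, QuadraticMap.polar (⇑Q) a (act g₀ y₁) = 0) := by
    by_contra hc
    push Not at hc
    have hall' : ∀ y ∈ Submodule.span F {s : ι → F |
        s ∈ LinearMap.BilinForm.orthogonal (QuadraticMap.polarBilin Q) X ∧ Q s = 0},
        act g₀ y ∈ LinearMap.BilinForm.orthogonal (QuadraticMap.polarBilin Q) X := by
      intro y h
      induction h using Submodule.span_induction with
      | mem z hz =>
        exact LinearMap.BilinForm.mem_orthogonal_iff.mpr
          (hc z hz.2 (LinearMap.BilinForm.mem_orthogonal_iff.mp hz.1))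
      | zero => rw [act_zero]; exact Submodule.zero_mem _
      | add a b _ _ ha hb => rw [act_add]; exact Submodule.add_mem _ ha hb
      | smul c z _ hz => rw [act_smul]; exact Submodule.smul_mem _ c hz
    have hall : ∀ y ∈ LinearMap.BilinForm.orthogonal (QuadraticMap.polarBilin Q) X,
        act g₀ y ∈ LinearMap.BilinForm.orthogonal (QuadraticMap.polarBilin Q) X :=
      fun y hy => hall' y (hspan y (LinearMap.BilinForm.mem_orthogonal_iff.mp hy))
    apply hgx₀
    rw [← LinearMap.BilinForm.orthogonal_orthogonal hQ (polarBilin_isRefl Q) X,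
      LinearMap.BilinForm.mem_orthogonal_iff]
    intro y hy
    show QuadraticMap.polar (⇑Q) y (act g₀ x₀) = 0
    rw [polar_act_right]
    have hy' := act_inv_mem_of_stab Q g₀ _ hall y hy
    rw [QuadraticMap.polar_comm]
    exact (LinearMap.BilinForm.mem_orthogonal_iff.mp hy') x₀ hx₀
  -- a singular vector of `Y` not mapped into `X`
  have h1b : ∃ y₂ : ι → F, Q y₂ = 0 ∧ (∀ a ∈ X, QuadraticMap.polar (⇑Q) a y₂ = 0) ∧
      act g₀ y₂ ∉ X := by
    by_contra hc
    push Not at hc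
    have hall' : ∀ y ∈ Submodule.span F {s : ι → F |
        s ∈ LinearMap.BilinForm.orthogonal (QuadraticMap.polarBilin Q) X ∧ Q s = 0},
        act g₀ y ∈ X := by
      intro y h
      induction h using Submodule.span_induction with
      | mem z hz => exact hc z hz.2 (LinearMap.BilinForm.mem_orthogonal_iff.mp hz.1)
      | zero => rw [act_zero]; exact X.zero_mem
      | add a b _ _ ha hb => rw [act_add]; exact X.add_mem ha hb
      | smul c z _ hz => rw [act_smul]; exact X.smul_mem c hz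
    obtain ⟨y, hyX, hgy⟩ := hswap
    exact hgy (hall' y (hspan y hyX))
  obtain ⟨y₁, hy₁, hy₁X, hgy₁⟩ := h1a
  obtain ⟨y₂, hy₂, hy₂X, hgy₂⟩ := h1b
  -- the generic case
  have hgen : ∀ y : ι → F, Q y = 0 → (∀ a ∈ X, QuadraticMap.polar (⇑Q) a y = 0) →
      act g₀ y ∉ X → ¬ (∀ a ∈ X, QuadraticMap.polar (⇑Q) a (act g₀ y) = 0) →
      ∃ (w' v vX vY w'X w'Y : ι → F), Q w' = 0 ∧ Q v = 0 ∧ eichDir Q M w' v ∧ vX ∈ X ∧
        (∀ a ∈ X, QuadraticMap.polar (⇑Q) a vY = 0) ∧ w'X ∈ X ∧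
        (∀ a ∈ X, QuadraticMap.polar (⇑Q) a w'Y = 0) ∧ v = vX + vY ∧ w' = w'X + w'Y ∧
        vX ≠ 0 ∧ w'Y ∉ Submodule.span F {vY} := by
    intro y hy hyX hpX hpY
    have hS : ∀ s ∈ Submodule.span F {y}, ∀ a ∈ X, QuadraticMap.polar (⇑Q) a s = 0 := by
      intro s hs a ha
      obtain ⟨c, rfl⟩ := Submodule.mem_span_singleton.mp hs
      rw [QuadraticMap.polar_smul_right, hyX a ha, smul_zero]
    have hfr := finrank_span_singleton_le' (F := F) y
    have hr1 := finrank_inf_orth_sup_le Q X (Submodule.span F {y}) S.hX hS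
    have hr2 := Submodule.finrank_add_le_finrank_add_finrank X (Submodule.span F {y})
    obtain ⟨y', hy', hy'W, hy'n⟩ := exists_singular_orth_not_mem' Q hQ
      (X ⊔ Submodule.span F {y}) (by omega)
    have hy'X : ∀ a ∈ X, QuadraticMap.polar (⇑Q) a y' = 0 :=
      fun a ha => hy'W a (Submodule.mem_sup_left ha)
    have hyy' : QuadraticMap.polar (⇑Q) y y' = 0 :=
      hy'W y (Submodule.mem_sup_right (Submodule.mem_span_singleton_self y))
    obtain ⟨p, hpd⟩ : ∃ p, p = act g₀ y := ⟨_, rfl⟩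
    obtain ⟨r, hrd⟩ : ∃ r, r = act g₀ y' := ⟨_, rfl⟩
    rw [← hpd] at hpX hpY
    have hQp : Q p = 0 := by rw [hpd, Q_act]; exact hy
    have hQr : Q r = 0 := by rw [hrd, Q_act]; exact hy'
    have hDpr : eichDir Q M p r := by
      rw [hpd, hrd]
      exact eichDir_conj Q M y y' hg₀ (S.ypair y y' hy hy' hyy' hyX hy'X)
    obtain ⟨pX, hpXm, pY, hpYm, hpdec⟩ := exists_decomp Q X S.hX p
    obtain ⟨rX, hrXm, rY, hrYm, hrdec⟩ := exists_decomp Q X S.hX r
    have hpX0 : pX ≠ 0 := by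
      rintro rfl
      apply hpY
      rw [hpdec, zero_add]
      exact hpYm
    have hpY0 : pY ≠ 0 := by
      rintro rfl
      apply hpX
      rw [hpdec, add_zero]
      exact hpXm
    by_cases hcase : rY ∈ Submodule.span F {pY}
    · obtain ⟨l, hl⟩ := Submodule.mem_span_singleton.mp hcase
      have hr' : r - l • p = rX - l • pX := by
        rw [hrdec, hpdec, ← hl]; module
      have hr'X : r - l • p ∈ X := by
        rw [hr']; exact X.sub_mem hrXm (X.smul_mem l hpXm)
      have hr'0 : r - l • p ≠ 0 := by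
        intro h
        apply hy'n
        have h2 : act g₀ y' = act g₀ (l • y) := by
          rw [act_smul, ← hpd, ← hrd]
          exact sub_eq_zero.mp h
        have h3 := act_injective g₀ h2
        rw [h3]
        exact Submodule.mem_sup_right
          (Submodule.smul_mem _ l (Submodule.mem_span_singleton_self y))
      have hQr' : Q (r - l • p) = 0 := by
        rw [Q_sub_smul, hQr, hQp, hDpr.1]; ring
      have hD' : eichDir Q M p (r - l • p) :=
        eichDir_sub Q M p r (l • p) hQp hDpr (eichDir_smul Q M p p l (eichDir_self Q M p hQp))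
      refine ⟨p, r - l • p, r - l • p, 0, pX, pY, hQp, hQr', hD', hr'X, ?_, hpXm, hpYm,
        (add_zero _).symm, hpdec, hr'0, ?_⟩
      · intro a _
        exact QuadraticMap.polar_zero_right _ _
      · rw [Submodule.span_zero_singleton, Submodule.mem_bot]
        exact hpY0
    · exact ⟨r, p, pX, pY, rX, rY, hQr, hQp, eichDir_symm Q M p r hQp hQr hDpr, hpXm, hpYm,
        hrXm, hrYm, hpdec, hrdec, hpX0, hcase⟩
  by_cases h : act g₀ y₁ ∈ X
  · by_cases h' : ∀ a ∈ X, QuadraticMap.polar (⇑Q) a (act g₀ y₂) = 0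
    · have h21 : QuadraticMap.polar (⇑Q) y₂ y₁ = 0 := by
        rw [← polar_act Q g₀, QuadraticMap.polar_comm]
        exact h' _ h
      have hD := eichDir_conj Q M y₂ y₁ hg₀ (S.ypair y₂ y₁ hy₂ hy₁ h21 hy₂X hy₁X)
      refine ⟨act g₀ y₂, act g₀ y₁, act g₀ y₁, 0, 0, act g₀ y₂, by rw [Q_act]; exact hy₂,
        by rw [Q_act]; exact hy₁, hD, h, ?_, X.zero_mem, h', (add_zero _).symm,
        (zero_add _).symm, ?_, ?_⟩
      · intro a _
        exact QuadraticMap.polar_zero_right _ _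
      · intro h0
        apply hgy₁
        intro a _
        rw [h0]
        exact QuadraticMap.polar_zero_right _ _
      · rw [Submodule.span_zero_singleton, Submodule.mem_bot]
        intro h0
        apply hgy₂
        rw [h0]
        exact X.zero_mem
    · exact hgen y₂ hy₂ hy₂X hgy₂ h'
  · exact hgen y₁ hy₁ hy₁X h hgy₁

/-- Step 2: a singular `u ∈ Y` with a non-zero Eichler direction in `X`. -/
theorem NDSetup.step2 (S : NDSetup Q X M) (w' v vX vY w'X w'Y : ι → F) (hw' : Q w' = 0)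
    (hv : Q v = 0) (hMP : eichDir Q M w' v) (hvX : vX ∈ X)
    (hvY : ∀ a ∈ X, QuadraticMap.polar (⇑Q) a vY = 0) (hw'X : w'X ∈ X)
    (hw'Y : ∀ a ∈ X, QuadraticMap.polar (⇑Q) a w'Y = 0) (hvd : v = vX + vY)
    (hw'd : w' = w'X + w'Y) (hvX0 : vX ≠ 0) (hnot : w'Y ∉ Submodule.span F {vY}) :
    ∃ u : ι → F, u ≠ 0 ∧ Q u = 0 ∧ (∀ a ∈ X, QuadraticMap.polar (⇑Q) a u = 0) ∧
      ∃ x ∈ X, x ≠ 0 ∧ eichDir Q M u x := by
  have hQ := S.hQ
  have hd := S.hd
  have hS : ∀ s ∈ Submodule.span F {vY}, ∀ a ∈ X, QuadraticMap.polar (⇑Q) a s = 0 := by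
    intro s hs a ha
    obtain ⟨c, rfl⟩ := Submodule.mem_span_singleton.mp hs
    rw [QuadraticMap.polar_smul_right, hvY a ha, smul_zero]
  have hfr := finrank_span_singleton_le' (F := F) vY
  obtain ⟨e, e', he, he', hee, heX, he'X, heS, he'S⟩ := exists_hyp_pair_orth_sup Q hQ X
    (Submodule.span F {vY}) S.hX hS (by omega)
  have hz : w'Y ∉ X ⊔ Submodule.span F {vY} := by
    intro h
    obtain ⟨x, hx, s, hs, hxs⟩ := Submodule.mem_sup.mp h
    have hx0 : x = 0 := by
      apply S.eq_zero hx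
      intro a ha
      have : x = w'Y - s := by rw [← hxs]; simp
      rw [this, QuadraticMap.polar_sub_right, hw'Y a ha, hS s hs a ha, sub_zero]
    apply hnot
    rw [← hxs, hx0, zero_add]
    exact hs
  have hsupe : ∀ t : ι → F, (∀ a ∈ X, QuadraticMap.polar (⇑Q) a t = 0) →
      (∀ s ∈ Submodule.span F {vY}, QuadraticMap.polar (⇑Q) s t = 0) →
      ∀ a ∈ X ⊔ Submodule.span F {vY}, QuadraticMap.polar (⇑Q) a t = 0 := by
    intro t h1 h2 a ha
    obtain ⟨x, hx, s, hs, rfl⟩ := Submodule.mem_sup.mp ha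
    rw [QuadraticMap.polar_add_left, h1 x hx, h2 s hs, add_zero]
  obtain ⟨t, ht, htW, htz⟩ := exists_singular_orth_polar_ne Q hQ
    (X ⊔ Submodule.span F {vY}) e e' he he' hee (hsupe e heX heS) (hsupe e' he'X he'S) w'Y hz
  obtain ⟨w, hwd⟩ : ∃ w, w = (QuadraticMap.polar (⇑Q) w'Y t)⁻¹ • t := ⟨_, rfl⟩
  have hw : Q w = 0 := by rw [hwd, QuadraticMap.map_smul, ht, smul_zero]
  have hwX : ∀ a ∈ X, QuadraticMap.polar (⇑Q) a w = 0 := by
    intro a ha
    rw [hwd, QuadraticMap.polar_smul_right, htW a (Submodule.mem_sup_left ha), smul_zero]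
  have hvYw : QuadraticMap.polar (⇑Q) vY w = 0 := by
    rw [hwd, QuadraticMap.polar_smul_right,
      htW vY (Submodule.mem_sup_right (Submodule.mem_span_singleton_self vY)), smul_zero]
  have hw'Yw : QuadraticMap.polar (⇑Q) w'Y w = 1 := by
    rw [hwd, QuadraticMap.polar_smul_right, smul_eq_mul, inv_mul_cancel₀ htz]
  -- the vector u
  have hf1 := finrank_span_singleton_le' (F := F) w
  have hf2 := finrank_span_singleton_le' (F := F) w'Y
  have hf3 := Submodule.finrank_add_le_finrank_add_finrank X (Submodule.span F {w})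
  have hf4 := Submodule.finrank_add_le_finrank_add_finrank (X ⊔ Submodule.span F {w})
    (Submodule.span F {w'Y})
  have hf5 := Submodule.finrank_add_le_finrank_add_finrank
    (X ⊔ Submodule.span F {w} ⊔ Submodule.span F {w'Y}) (Submodule.span F {vY})
  obtain ⟨u, hu0, hu, huW⟩ := exists_singular_orth_ne_zero Q hQ
    (X ⊔ Submodule.span F {w} ⊔ Submodule.span F {w'Y} ⊔ Submodule.span F {vY}) (by omega)
  have huX : ∀ a ∈ X, QuadraticMap.polar (⇑Q) a u = 0 := fun a ha =>
    huW a (Submodule.mem_sup_left (Submodule.mem_sup_left (Submodule.mem_sup_left ha)))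
  have hwu : QuadraticMap.polar (⇑Q) w u = 0 :=
    huW w (Submodule.mem_sup_left (Submodule.mem_sup_left (Submodule.mem_sup_right
      (Submodule.mem_span_singleton_self w))))
  have hw'Yu : QuadraticMap.polar (⇑Q) w'Y u = 0 :=
    huW w'Y (Submodule.mem_sup_left (Submodule.mem_sup_right
      (Submodule.mem_span_singleton_self w'Y)))
  have hvYu : QuadraticMap.polar (⇑Q) vY u = 0 :=
    huW vY (Submodule.mem_sup_right (Submodule.mem_span_singleton_self vY))
  have huv : QuadraticMap.polar (⇑Q) u v = 0 := by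
    rw [hvd, QuadraticMap.polar_add_right, QuadraticMap.polar_comm (⇑Q) u vX, huX vX hvX,
      QuadraticMap.polar_comm (⇑Q) u vY, hvYu, add_zero]
  have huw : QuadraticMap.polar (⇑Q) u w = 0 := by rw [QuadraticMap.polar_comm]; exact hwu
  have huw' : QuadraticMap.polar (⇑Q) u w' = 0 := by
    rw [hw'd, QuadraticMap.polar_add_right, QuadraticMap.polar_comm (⇑Q) u w'X, huX w'X hw'X,
      QuadraticMap.polar_comm (⇑Q) u w'Y, hw'Yu, add_zero]
  have hvw : QuadraticMap.polar (⇑Q) v w = 0 := by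
    rw [hvd, QuadraticMap.polar_add_left, hwX vX hvX, hvYw, add_zero]
  have hw'v : QuadraticMap.polar (⇑Q) w' v = 0 := hMP.1
  have hww' : QuadraticMap.polar (⇑Q) w w' = 1 := by
    rw [hw'd, QuadraticMap.polar_add_right, QuadraticMap.polar_comm (⇑Q) w w'X, hwX w'X hw'X,
      zero_add, QuadraticMap.polar_comm]
    exact hw'Yw
  have hUW : eichDir Q M u w := S.ypair u w hu hw huw huX hwX
  have hsieg : ∀ c : F, siegelG Q u v hu hv huv c ∈ M := by
    intro c
    have key := siegelG_commutator Q u v w w' hu hv hw hw' huv huw huw' hvw hw'v hww' (-c) 1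
    have e1 : -(-c * 1) = c := by ring
    rw [siegelG_congr Q u v u v hu hv huv hu hv huv _ c rfl rfl e1] at key
    rw [← key, commutatorElement_def]
    have m1 := siegel_mem_of_eichDir Q M u w hu hw hUW (-c)
    have m2 := siegel_mem_of_eichDir Q M w' v hw' hv hMP 1
    exact M.mul_mem (M.mul_mem (M.mul_mem m1 m2) (M.inv_mem m1)) (M.inv_mem m2)
  have hDv : eichDir Q M u v := eichDir_of_siegel Q M u v hu hv huv hsieg
  have huvY : QuadraticMap.polar (⇑Q) u vY = 0 := by
    rw [QuadraticMap.polar_comm]; exact hvYu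
  have hDvY : eichDir Q M u vY := S.ydirs u hu huX vY hvY huvY
  refine ⟨u, hu0, hu, huX, vX, hvX, hvX0, ?_⟩
  have : vX = v - vY := by rw [hvd]; simp
  rw [this]
  exact eichDir_sub Q M u v vY hu hDv hDvY

/-- Step 3: irreducibility makes `u` a full point. -/
theorem NDSetup.step3 (S : NDSetup Q X M)
    (hex : ¬ (Fintype.card F ≤ 3 ∧ finrank F X = 2 ∧ ∃ s ∈ X, s ≠ 0 ∧ Q s = 0))
    (u : ι → F) (hu : Q u = 0) (huX : ∀ a ∈ X, QuadraticMap.polar (⇑Q) a u = 0)
    (x₁ : ι → F) (hx₁ : x₁ ∈ X) (hx₁0 : x₁ ≠ 0) (hD : eichDir Q M u x₁) :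
    u ∈ fullPts Q M := by
  have hQ := S.hQ
  have h3 := S.h3
  have hd := S.hd
  let R : Submodule F (ι → F) :=
    { carrier := {x | x ∈ X ∧ eichDir Q M u x}
      add_mem' := fun {a b} ha hb => ⟨X.add_mem ha.1 hb.1, eichDir_add Q M u a b hu ha.2 hb.2⟩
      zero_mem' := ⟨X.zero_mem, eichDir_zero Q M u⟩
      smul_mem' := fun c {a} ha => ⟨X.smul_mem c ha.1, eichDir_smul Q M u a c ha.2⟩ }
  have hRmem : ∀ x : ι → F, x ∈ R ↔ x ∈ X ∧ eichDir Q M u x := fun x => Iff.rfl
  have hRX : R ≤ X := fun x hx => hx.1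
  have hR0 : R ≠ ⊥ := by
    intro h
    have : x₁ ∈ R := ⟨hx₁, hD⟩
    rw [h] at this
    exact hx₁0 ((Submodule.mem_bot F).mp this)
  have hS : ∀ s ∈ Submodule.span F {u}, ∀ a ∈ X, QuadraticMap.polar (⇑Q) a s = 0 := by
    intro s hs a ha
    obtain ⟨c, rfl⟩ := Submodule.mem_span_singleton.mp hs
    rw [QuadraticMap.polar_smul_right, huX a ha, smul_zero]
  have hfr := finrank_span_singleton_le' (F := F) u
  obtain ⟨e, e', he, he', hee, heX, he'X, heS, he'S⟩ := exists_hyp_pair_orth_sup Q hQ X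
    (Submodule.span F {u}) S.hX hS (by omega)
  have hue : QuadraticMap.polar (⇑Q) u e = 0 := heS u (Submodule.mem_span_singleton_self u)
  have hue' : QuadraticMap.polar (⇑Q) u e' = 0 := he'S u (Submodule.mem_span_singleton_self u)
  have h1 : ∀ x ∈ R, ∀ a ∈ X, Q a ≠ 0 → QuadraticMap.polar (⇑Q) a x ≠ 0 → a ∈ R := by
    rintro x ⟨hxX, hxD⟩ a ha hQa hax
    obtain ⟨b, hbd⟩ : ∃ b, b = e + Q a • e' := ⟨_, rfl⟩
    have hQb : Q b = Q a := by
      rw [hbd, Q_add', he, QuadraticMap.map_smul, he', QuadraticMap.polar_smul_right, hee]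
      simp
    have hbX : ∀ y ∈ X, QuadraticMap.polar (⇑Q) b y = 0 := by
      intro y hy
      rw [hbd, QuadraticMap.polar_add_left, QuadraticMap.polar_smul_left,
        QuadraticMap.polar_comm (⇑Q) e y, heX y hy, QuadraticMap.polar_comm (⇑Q) e' y,
        he'X y hy]
      simp
    have hbu : QuadraticMap.polar (⇑Q) b u = 0 := by
      rw [hbd, QuadraticMap.polar_add_left, QuadraticMap.polar_smul_left,
        QuadraticMap.polar_comm (⇑Q) e u, hue, QuadraticMap.polar_comm (⇑Q) e' u, hue']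
      simp
    have hb1 : ∀ y ∈ X, act (reflG Q b) y = y := by
      intro y hy
      rw [act_reflG, hbX y hy, mul_zero, zero_smul, sub_zero]
    have hh : reflG Q a * reflG Q b ∈ M := by
      apply S.hM
      · rw [commutator_eq_closure_siegelSet Q hQ h3]
        exact refl_pair_mem Q hQ h3 a b hQa hQb
      · intro y hy
        rw [act_mul, hb1 y hy, act_reflG]
        exact X.sub_mem hy (X.smul_mem _ ha)
    have hhu : act (reflG Q a * reflG Q b) u = u := by
      rw [act_mul, act_reflG Q b u, hbu, mul_zero, zero_smul, sub_zero, act_reflG,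
        huX a ha, mul_zero, zero_smul, sub_zero]
    have hhx : act (reflG Q a * reflG Q b) x
        = x - ((Q a)⁻¹ * QuadraticMap.polar (⇑Q) a x) • a := by
      rw [act_mul, hb1 x hxX, act_reflG]
    have hc := eichDir_conj Q M u x hh hxD
    rw [hhu, hhx] at hc
    have hdd := eichDir_sub Q M u x _ hu hxD hc
    rw [sub_sub_cancel] at hdd
    have hne : (Q a)⁻¹ * QuadraticMap.polar (⇑Q) a x ≠ 0 :=
      mul_ne_zero (inv_ne_zero hQa) hax
    have := eichDir_smul Q M u _ ((Q a)⁻¹ * QuadraticMap.polar (⇑Q) a x)⁻¹ hdd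
    rw [smul_smul, inv_mul_cancel₀ hne, one_smul] at this
    exact ⟨ha, this⟩
  have h2 : ∀ x ∈ R, ∀ p ∈ X, ∀ r ∈ X, Q p = 0 → Q r = 0 →
      QuadraticMap.polar (⇑Q) p r = 0 →
      QuadraticMap.polar (⇑Q) p x • r - QuadraticMap.polar (⇑Q) r x • p ∈ R := by
    rintro x ⟨hxX, hxD⟩ p hpX r hrX hp hr hpr
    have hmemX : QuadraticMap.polar (⇑Q) p x • r - QuadraticMap.polar (⇑Q) r x • p ∈ X :=
      X.sub_mem (X.smul_mem _ hrX) (X.smul_mem _ hpX)
    have hh : siegelG Q p r hp hr hpr 1 ∈ M := by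
      apply S.hM _ (siegelG_mem_commutator Q hQ h3 p r hp hr hpr 1)
      intro y hy
      rw [act_siegelG]
      exact X.add_mem hy (X.smul_mem _ (X.sub_mem (X.smul_mem _ hrX) (X.smul_mem _ hpX)))
    have hhu : act (siegelG Q p r hp hr hpr 1) u = u := by
      rw [act_siegelG, huX p hpX, huX r hrX]
      simp
    have hc := eichDir_conj Q M u x hh hxD
    rw [hhu, act_siegelG, one_smul] at hc
    have hdd := eichDir_sub Q M u _ x hu hc hxD
    rw [add_sub_cancel_left] at hdd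
    exact ⟨hmemX, hdd⟩
  have hXR := irr_claim Q X R S.hX hRX hR0 h1 h2 hex
  apply mem_fullPts_of_eichDir Q M u hu
  intro z hz
  obtain ⟨x, hx, y, hy, rfl⟩ := exists_decomp Q X S.hX z
  have hux : QuadraticMap.polar (⇑Q) u x = 0 := by
    rw [QuadraticMap.polar_comm]; exact huX x hx
  have huy : QuadraticMap.polar (⇑Q) u y = 0 := by
    rw [QuadraticMap.polar_add_right, hux, zero_add] at hz
    exact hz
  exact eichDir_add Q M u x y hu (hXR hx).2 (S.ydirs u hu huX y hy huy)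

end

section
variable {ι : Type} [Fintype ι] [DecidableEq ι] {F : Type*} [Field F]

/-- Core of the maximality of the stabiliser of a non-degenerate subspace. -/
theorem nd_max_core [Fintype F] (Q : QuadraticForm F (ι → F))
    (hQ : (QuadraticMap.polarBilin Q).Nondegenerate) (h3 : HasTS3 Q)
    (X : Submodule F (ι → F))
    (hX : X ⊓ LinearMap.BilinForm.orthogonal (QuadraticMap.polarBilin Q) X = ⊥)
    (hd : finrank F X + 7 ≤ finrank F (ι → F))
    (hex : ¬ (Fintype.card F ≤ 3 ∧ finrank F X = 2 ∧ ∃ s ∈ X, s ≠ 0 ∧ Q s = 0))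
    (M : Subgroup ↥(Cfsg.isometryGroup F (⇑Q)))
    (hM : ∀ g ∈ commutator ↥(Cfsg.isometryGroup F (⇑Q)), (∀ x ∈ X, act g x ∈ X) → g ∈ M)
    (g₀ : ↥(Cfsg.isometryGroup F (⇑Q))) (hg₀ : g₀ ∈ M) (x₀ : ι → F) (hx₀ : x₀ ∈ X)
    (hgx₀ : act g₀ x₀ ∉ X)
    (hswap : ∃ y : ι → F, (∀ a ∈ X, QuadraticMap.polar (⇑Q) a y = 0) ∧ act g₀ y ∉ X) :
    commutator ↥(Cfsg.isometryGroup F (⇑Q)) ≤ M := by
  have S : NDSetup Q X M := ⟨hQ, h3, hX, hd, hM⟩
  obtain ⟨w', v, vX, vY, w'X, w'Y, hw', hv, hMP, hvX, hvY, hw'X, hw'Y, hvd, hw'd, hvX0, hnot⟩ :=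
    S.step1 g₀ hg₀ x₀ hx₀ hgx₀ hswap
  obtain ⟨u, hu0, hu, huX, x, hxX, hx0, hD⟩ :=
    S.step2 w' v vX vY w'X w'Y hw' hv hMP hvX hvY hw'X hw'Y hvd hw'd hvX0 hnot
  have hfull := S.step3 hex u hu huX x hxX hx0 hD
  have huX' : u ∉ X := fun h => hu0 (S.eq_zero h huX)
  obtain ⟨u', hu', hu'X, huu'⟩ := exists_partner_orth Q hQ X u hu huX huX'
  have hS : ∀ s ∈ Submodule.span F {u, u'}, ∀ a ∈ X, QuadraticMap.polar (⇑Q) a s = 0 := by
    intro s hs a ha
    obtain ⟨c, d, rfl⟩ := Submodule.mem_span_pair.mp hs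
    rw [QuadraticMap.polar_add_right, QuadraticMap.polar_smul_right,
      QuadraticMap.polar_smul_right, huX a ha, hu'X a ha]
    simp
  have hfr := finrank_span_pair_le (F := F) u u'
  obtain ⟨e, e', he, he', hee, heX, he'X, heS, he'S⟩ := exists_hyp_pair_orth_sup Q hQ X
    (Submodule.span F {u, u'}) hX hS (by omega)
  have hue : QuadraticMap.polar (⇑Q) u e = 0 := heS u (Submodule.subset_span (by simp))
  have hue' : QuadraticMap.polar (⇑Q) u e' = 0 := he'S u (Submodule.subset_span (by simp))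
  have hu'u : QuadraticMap.polar (⇑Q) u' u = 1 := by rw [QuadraticMap.polar_comm]; exact huu'
  have hQa : Q (u - u') = -1 := by rw [Q_sub', hu, hu', huu']; ring
  have hQb : Q (e - e') = Q (u - u') := by rw [hQa, Q_sub', he, he', hee]; ring
  have hQa0 : Q (u - u') ≠ 0 := by rw [hQa]; exact neg_ne_zero.mpr one_ne_zero
  have hb1 : ∀ y ∈ X, act (reflG Q (e - e')) y = y := by
    intro y hy
    rw [act_reflG, QuadraticMap.polar_sub_left, QuadraticMap.polar_comm (⇑Q) e y, heX y hy,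
      QuadraticMap.polar_comm (⇑Q) e' y, he'X y hy, sub_zero, mul_zero, zero_smul, sub_zero]
  have ha1 : ∀ y ∈ X, act (reflG Q (u - u')) y = y := by
    intro y hy
    rw [act_reflG, QuadraticMap.polar_sub_left, QuadraticMap.polar_comm (⇑Q) u y, huX y hy,
      QuadraticMap.polar_comm (⇑Q) u' y, hu'X y hy, sub_zero, mul_zero, zero_smul, sub_zero]
  have hh : reflG Q (u - u') * reflG Q (e - e') ∈ M := by
    apply hM
    · rw [commutator_eq_closure_siegelSet Q hQ h3]
      exact refl_pair_mem Q hQ h3 _ _ hQa0 hQb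
    · intro y hy
      rw [act_mul, hb1 y hy, ha1 y hy]
      exact hy
  have hhu : act (reflG Q (u - u') * reflG Q (e - e')) u = u' := by
    have e1 : act (reflG Q (e - e')) u = u := by
      rw [act_reflG, QuadraticMap.polar_sub_left, QuadraticMap.polar_comm (⇑Q) e u, hue,
        QuadraticMap.polar_comm (⇑Q) e' u, hue', sub_zero, mul_zero, zero_smul, sub_zero]
    rw [act_mul, e1, act_reflG, hQa, QuadraticMap.polar_sub_left, polar_self', hu, hu'u]
    have e2 : ((-1 : F))⁻¹ * (2 * 0 - 1) = 1 := by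
      rw [inv_neg, inv_one]; ring
    rw [e2, one_smul]
    abel
  have hfull' : u' ∈ fullPts Q M := by
    have := fullPts_act Q M hh hfull
    rwa [hhu] at this
  exact commutator_le_of_fullPts_pair Q hQ h3 M hfull hfull' (by rw [huu']; exact one_ne_zero)

end

end Cfsg.Agent.H95
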