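import Cfsg.Agent.H95.ND2
import Cfsg.Agent.H49.MapSub

set_option autoImplicit false
set_option linter.unusedSectionVars false
set_option linter.unusedVariables false

/-! Helper lemmas (helper95): the stabiliser of a non-degenerate subspace in `Ω(Q)` is maximal
(statement at the level of `Cfsg.Geo.IsMaximalIn`). -/

namespace Cfsg.Agent.H95

open Module Matrix Cfsg.Agent.H49

section
variable {ι : Type} [Fintype ι] [DecidableEq ι] {F : Type*} [Field F]

theorem stab_inf_omega_le_orth (Q : QuadraticForm F (ι → F)) (W : Submodule F (ι → F)) :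
    Cfsg.Geo.subspaceStabilizer W ⊓ Cfsg.Geo.omegaGL (⇑Q) ≤
      Cfsg.Geo.subspaceStabilizer
        (LinearMap.BilinForm.orthogonal (QuadraticMap.polarBilin Q) W) ⊓
          Cfsg.Geo.omegaGL (⇑Q) := by
  rintro g ⟨hgW, ⟨g', hg', rfl⟩⟩
  refine ⟨mem_subspaceStabilizer_of_forall _ _ ?_, ⟨g', hg', rfl⟩⟩
  intro y hy
  have h : ∀ x ∈ W, act g' x ∈ W :=
    fun x hx => ((mem_subspaceStabilizer_iff _ W).mp hgW x).mp hx
  exact LinearMap.BilinForm.mem_orthogonal_iff.mpr
    (act_orth_of_stab Q g' W h y (LinearMap.BilinForm.mem_orthogonal_iff.mp hy))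

theorem stab_inf_omega_orth (Q : QuadraticForm F (ι → F))
    (hQ : (QuadraticMap.polarBilin Q).Nondegenerate) (W : Submodule F (ι → F)) :
    Cfsg.Geo.subspaceStabilizer W ⊓ Cfsg.Geo.omegaGL (⇑Q) =
      Cfsg.Geo.subspaceStabilizer
        (LinearMap.BilinForm.orthogonal (QuadraticMap.polarBilin Q) W) ⊓
          Cfsg.Geo.omegaGL (⇑Q) := by
  apply le_antisymm (stab_inf_omega_le_orth Q W)
  have := stab_inf_omega_le_orth Q
    (LinearMap.BilinForm.orthogonal (QuadraticMap.polarBilin Q) W)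
  rwa [LinearMap.BilinForm.orthogonal_orthogonal hQ (polarBilin_isRefl Q) W] at this

/-- Maximality of the stabiliser of a non-degenerate subspace `X` of codimension at least
seven, assuming no isometry maps `X^⊥` into `X`. -/
theorem nondeg_max_aux [Fintype F] (Q : QuadraticForm F (ι → F))
    (hQ : (QuadraticMap.polarBilin Q).Nondegenerate) (h3 : HasTS3 Q)
    (X : Submodule F (ι → F))
    (hX : X ⊓ LinearMap.BilinForm.orthogonal (QuadraticMap.polarBilin Q) X = ⊥)
    (hX0 : X ≠ ⊥) (hd : finrank F X + 7 ≤ finrank F (ι → F))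
    (hex : ¬ (Fintype.card F ≤ 3 ∧ finrank F X = 2 ∧ ∃ s ∈ X, s ≠ 0 ∧ Q s = 0))
    (hswap : ∀ g : ↥(Cfsg.isometryGroup F (⇑Q)),
      ¬ (∀ y : ι → F, (∀ a ∈ X, QuadraticMap.polar (⇑Q) a y = 0) → act g y ∈ X)) :
    Cfsg.Geo.IsMaximalIn (Cfsg.Geo.omegaGL (⇑Q))
      (Cfsg.Geo.subspaceStabilizer X ⊓ Cfsg.Geo.omegaGL (⇑Q)) := by
  refine ⟨lt_of_le_of_ne inf_le_right ?_, ?_⟩
  · intro hEq
    obtain ⟨x, hxX, hx0⟩ := Submodule.exists_mem_ne_zero_of_ne_bot hX0
    obtain ⟨u, hu0, hu, huX⟩ := exists_singular_orth_ne_zero Q hQ X (by omega)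
    have hS : ∀ s ∈ Submodule.span F {u}, ∀ a ∈ X, QuadraticMap.polar (⇑Q) a s = 0 := by
      intro s hs a ha
      obtain ⟨c, rfl⟩ := Submodule.mem_span_singleton.mp hs
      rw [QuadraticMap.polar_smul_right, huX a ha, smul_zero]
    have hfr := finrank_span_singleton_le' (F := F) u
    obtain ⟨e, e', he, he', hee, heX, he'X, heS, he'S⟩ := exists_hyp_pair_orth_sup Q hQ X
      (Submodule.span F {u}) hX hS (by omega)
    have hue : QuadraticMap.polar (⇑Q) u e = 0 := heS u (Submodule.mem_span_singleton_self u)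
    have hue' : QuadraticMap.polar (⇑Q) u e' = 0 :=
      he'S u (Submodule.mem_span_singleton_self u)
    have he'e : QuadraticMap.polar (⇑Q) e' e = 1 := by rw [QuadraticMap.polar_comm]; exact hee
    have hQy' : Q (e - Q x • e') = - Q x := by
      rw [Q_sub_smul, he, he', he'e]; ring
    have hy'X : ∀ a ∈ X, QuadraticMap.polar (⇑Q) a (e - Q x • e') = 0 := by
      intro a ha
      rw [QuadraticMap.polar_sub_right, QuadraticMap.polar_smul_right, heX a ha, he'X a ha]
      simp
    have hz : Q (x + (e - Q x • e')) = 0 := by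
      rw [Q_add', hQy', hy'X x hxX]; ring
    have huz : QuadraticMap.polar (⇑Q) u (x + (e - Q x • e')) = 0 := by
      rw [QuadraticMap.polar_add_right, QuadraticMap.polar_sub_right,
        QuadraticMap.polar_smul_right, hue, hue', QuadraticMap.polar_comm (⇑Q) u x, huX x hxX]
      simp
    obtain ⟨x', hx'X, hx'x⟩ := exists_polar_ne_of_inf_orth Q X hX x hxX hx0
    have hmem : (Cfsg.isometryGroup F (⇑Q)).subtype (siegelG Q u _ hu hz huz 1)
        ∈ Cfsg.Geo.omegaGL (⇑Q) := ⟨_, siegelG_mem_commutator Q hQ h3 u _ hu hz huz 1, rfl⟩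
    rw [← hEq] at hmem
    have h1 : act (siegelG Q u _ hu hz huz 1) x' ∈ X :=
      ((mem_subspaceStabilizer_iff _ X).mp hmem.1 x').mp hx'X
    rw [act_siegelG, one_smul, QuadraticMap.polar_comm (⇑Q) u x', huX x' hx'X, zero_smul,
      zero_sub, QuadraticMap.polar_add_left, QuadraticMap.polar_comm (⇑Q) (e - Q x • e') x',
      hy'X x' hx'X, add_zero, QuadraticMap.polar_comm (⇑Q) x x'] at h1
    have h2 : QuadraticMap.polar (⇑Q) x' x • u ∈ X := by
      have := X.sub_mem hx'X h1
      rwa [sub_add_cancel_left, neg_neg] at this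
    have h3' : u ∈ X := by
      have := X.smul_mem (QuadraticMap.polar (⇑Q) x' x)⁻¹ h2
      rwa [smul_smul, inv_mul_cancel₀ hx'x, one_smul] at this
    apply hu0
    have : u ∈ X ⊓ LinearMap.BilinForm.orthogonal (QuadraticMap.polarBilin Q) X :=
      ⟨h3', LinearMap.BilinForm.mem_orthogonal_iff.mpr huX⟩
    rw [hX] at this
    exact (Submodule.mem_bot F).mp this
  · intro M hHM hMΩ
    by_cases hMH : M = Cfsg.Geo.subspaceStabilizer X ⊓ Cfsg.Geo.omegaGL (⇑Q)
    · exact Or.inl hMH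
    · right
      apply le_antisymm hMΩ
      obtain ⟨g, hgM, hgH⟩ : ∃ g ∈ M, g ∉ Cfsg.Geo.subspaceStabilizer X ⊓
          Cfsg.Geo.omegaGL (⇑Q) := by
        by_contra hcon
        push Not at hcon
        exact hMH (le_antisymm hcon hHM)
      obtain ⟨g', hg', rfl⟩ := hMΩ hgM
      obtain ⟨x₀, hx₀, hgx₀⟩ : ∃ x₀ ∈ X, act g' x₀ ∉ X := by
        by_contra hcon
        push Not at hcon
        exact hgH ⟨mem_subspaceStabilizer_of_forall _ X hcon, ⟨g', hg', rfl⟩⟩
      have hsw : ∃ y : ι → F, (∀ a ∈ X, QuadraticMap.polar (⇑Q) a y = 0) ∧ act g' y ∉ X := by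
        by_contra hc
        push Not at hc
        exact hswap g' hc
      have key := nd_max_core Q hQ h3 X hX hd hex
        (M.comap (Cfsg.isometryGroup F (⇑Q)).subtype)
        (fun k hk hkX => hHM ⟨mem_subspaceStabilizer_of_forall _ X hkX, ⟨k, hk, rfl⟩⟩)
        g' hgM x₀ hx₀ hgx₀ hsw
      rintro _ ⟨k, hk, rfl⟩
      exact key hk

/-- In `Ω(Q)`, `dim ≥ 13`, the stabiliser of a non-degenerate proper non-zero subspace `W` is
maximal, provided neither `W` nor `W^⊥` is a hyperbolic plane over a field with at most three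
elements and, when `2 dim W = dim V`, no isometry maps `W^⊥` into `W`. -/
theorem nondeg_stabilizer_isMaximalIn [Fintype F] (Q : QuadraticForm F (ι → F))
    (hQ : (QuadraticMap.polarBilin Q).Nondegenerate) (h13 : 13 ≤ finrank F (ι → F))
    (W : Submodule F (ι → F))
    (hW : W ⊓ LinearMap.BilinForm.orthogonal (QuadraticMap.polarBilin Q) W = ⊥)
    (hW0 : W ≠ ⊥) (hW1 : W ≠ ⊤)
    (hexW : ¬ (Fintype.card F ≤ 3 ∧ finrank F W = 2 ∧ ∃ s ∈ W, s ≠ 0 ∧ Q s = 0))
    (hexW' : ¬ (Fintype.card F ≤ 3 ∧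
      finrank F ↥(LinearMap.BilinForm.orthogonal (QuadraticMap.polarBilin Q) W) = 2 ∧
      ∃ s ∈ LinearMap.BilinForm.orthogonal (QuadraticMap.polarBilin Q) W, s ≠ 0 ∧ Q s = 0))
    (hswap : 2 * finrank F W = finrank F (ι → F) →
      ∀ g : ↥(Cfsg.isometryGroup F (⇑Q)),
        ¬ (∀ y ∈ LinearMap.BilinForm.orthogonal (QuadraticMap.polarBilin Q) W, act g y ∈ W)) :
    Cfsg.Geo.IsMaximalIn (Cfsg.Geo.omegaGL (⇑Q))
      (Cfsg.Geo.subspaceStabilizer W ⊓ Cfsg.Geo.omegaGL (⇑Q)) := by
  have h3 := hasTS3_of_finrank Q hQ (by omega)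
  have hfY := LinearMap.BilinForm.finrank_orthogonal hQ W
  have hfW := Submodule.finrank_le W
  have hWlt : finrank F W < finrank F (ι → F) := Submodule.finrank_lt hW1
  have hoo := LinearMap.BilinForm.orthogonal_orthogonal hQ (polarBilin_isRefl Q) W
  have hmapfin : ∀ (g : ↥(Cfsg.isometryGroup F (⇑Q))) (A B : Submodule F (ι → F)),
      (∀ y ∈ A, act g y ∈ B) → finrank F A ≤ finrank F B := by
    intro g A B h
    rw [← finrank_map_iso g A]
    apply Submodule.finrank_mono
    rintro _ ⟨y, hy, rfl⟩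
    exact h y hy
  by_cases hle : 2 * finrank F W ≤ finrank F (ι → F)
  · refine nondeg_max_aux Q hQ h3 W hW hW0 (by omega) hexW ?_
    intro g hg
    have hg' : ∀ y ∈ LinearMap.BilinForm.orthogonal (QuadraticMap.polarBilin Q) W,
        act g y ∈ W := fun y hy => hg y (LinearMap.BilinForm.mem_orthogonal_iff.mp hy)
    have h1 := hmapfin g _ _ hg'
    exact hswap (by omega) g hg'
  · rw [stab_inf_omega_orth Q hQ W]
    have hY : LinearMap.BilinForm.orthogonal (QuadraticMap.polarBilin Q) W ⊓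
        LinearMap.BilinForm.orthogonal (QuadraticMap.polarBilin Q)
          (LinearMap.BilinForm.orthogonal (QuadraticMap.polarBilin Q) W) = ⊥ := by
      rw [hoo, inf_comm]; exact hW
    have hY0 : LinearMap.BilinForm.orthogonal (QuadraticMap.polarBilin Q) W ≠ ⊥ := by
      intro h
      rw [h, finrank_bot] at hfY
      omega
    refine nondeg_max_aux Q hQ h3 _ hY hY0 (by omega) hexW' ?_
    intro g hg
    have hg' : ∀ y ∈ W,
        act g y ∈ LinearMap.BilinForm.orthogonal (QuadraticMap.polarBilin Q) W := by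
      intro y hy
      apply hg y
      intro a ha
      rw [QuadraticMap.polar_comm]
      exact (LinearMap.BilinForm.mem_orthogonal_iff.mp ha) y hy
    have h1 := hmapfin g _ _ hg'
    omega

end

end Cfsg.Agent.H95
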