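import Cfsg.Agent.H95.ND3

set_option autoImplicit false
set_option linter.unusedSectionVars false
set_option linter.unusedVariables false

/-! Helper lemmas (helper95): maximality of the stabiliser of a non-degenerate subspace in
`Ω(Q)`, in the vocabulary of the statements. -/

namespace Cfsg.Agent.H95

open Module Matrix Cfsg.Agent.H49

section
variable {ι : Type} [Fintype ι] [DecidableEq ι] {F : Type*} [Field F]

theorem inf_orth_eq_bot_of_nondegOn (Q : QuadraticForm F (ι → F)) (W : Submodule F (ι → F))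
    (hW : Cfsg.Geo.IsNondegenerateOn (QuadraticMap.polar (⇑Q)) W) :
    W ⊓ LinearMap.BilinForm.orthogonal (QuadraticMap.polarBilin Q) W = ⊥ := by
  rw [eq_bot_iff]
  rintro z ⟨hz1, hz2⟩
  rw [Submodule.mem_bot]
  by_contra hz0
  obtain ⟨⟨x, hx, hxz⟩, -⟩ := hW z hz1 hz0
  exact hxz ((LinearMap.BilinForm.mem_orthogonal_iff.mp hz2) x hx)

theorem nondegOn_of_inf_orth (Q : QuadraticForm F (ι → F)) (X : Submodule F (ι → F))
    (hX : X ⊓ LinearMap.BilinForm.orthogonal (QuadraticMap.polarBilin Q) X = ⊥) :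
    Cfsg.Geo.IsNondegenerateOn (QuadraticMap.polar (⇑Q)) X := by
  intro w hw hw0
  obtain ⟨y, hy, hyw⟩ := exists_polar_ne_of_inf_orth Q X hX w hw hw0
  exact ⟨⟨y, hy, hyw⟩, ⟨y, hy, by rw [QuadraticMap.polar_comm]; exact hyw⟩⟩

theorem plusTypeOn_of_singular (Q : QuadraticForm F (ι → F)) (X : Submodule F (ι → F))
    (hX2 : finrank F X = 2) (s : ι → F) (hsX : s ∈ X) (hs0 : s ≠ 0) (hs : Q s = 0) :
    Cfsg.Geo.IsPlusTypeOn (⇑Q) X := by
  refine ⟨Submodule.span F {s}, ?_, ?_, ?_⟩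
  · rw [Submodule.span_singleton_le_iff_mem]; exact hsX
  · intro w hw
    obtain ⟨c, rfl⟩ := Submodule.mem_span_singleton.mp hw
    rw [QuadraticMap.map_smul, hs, smul_zero]
  · rw [finrank_span_singleton hs0, hX2]

/-- Maximality of the stabiliser of a non-degenerate subspace, in the vocabulary of the
statements. -/
theorem nondeg_stabilizer_isMaximalIn' [Fintype F] (Q : QuadraticForm F (ι → F))
    (hQ : (QuadraticMap.polarBilin Q).Nondegenerate) (h13 : 13 ≤ finrank F (ι → F))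
    (W : Submodule F (ι → F))
    (hW : Cfsg.Geo.IsNondegenerateOn (QuadraticMap.polar (⇑Q)) W)
    (hW0 : W ≠ ⊥) (hW1 : W ≠ ⊤)
    (hex : ¬ (Fintype.card F ≤ 3 ∧ (∃ U : Submodule F (ι → F), finrank F U = 2 ∧
      Cfsg.Geo.IsNondegenerateOn (QuadraticMap.polar (⇑Q)) U ∧ Cfsg.Geo.IsPlusTypeOn (⇑Q) U ∧
      (U = W ∨ (Cfsg.Geo.AreOrthogonalFor (QuadraticMap.polar (⇑Q)) U W ∧
        finrank F U + finrank F W = finrank F (ι → F))))))
    (hswap : 2 * finrank F W = finrank F (ι → F) →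
      ∀ g : ↥(Cfsg.isometryGroup F (⇑Q)),
        ¬ (∀ y ∈ LinearMap.BilinForm.orthogonal (QuadraticMap.polarBilin Q) W, act g y ∈ W)) :
    Cfsg.Geo.IsMaximalIn (Cfsg.Geo.omegaGL (⇑Q))
      (Cfsg.Geo.subspaceStabilizer W ⊓ Cfsg.Geo.omegaGL (⇑Q)) := by
  have hW' := inf_orth_eq_bot_of_nondegOn Q W hW
  have hoo := LinearMap.BilinForm.orthogonal_orthogonal hQ (polarBilin_isRefl Q) W
  have hfY := LinearMap.BilinForm.finrank_orthogonal hQ W
  have hfW := Submodule.finrank_le W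
  refine nondeg_stabilizer_isMaximalIn Q hQ h13 W hW' hW0 hW1 ?_ ?_ hswap
  · rintro ⟨hc, h2, s, hsW, hs0, hs⟩
    exact hex ⟨hc, W, h2, hW, plusTypeOn_of_singular Q W h2 s hsW hs0 hs, Or.inl rfl⟩
  · rintro ⟨hc, h2, s, hsY, hs0, hs⟩
    have hY : LinearMap.BilinForm.orthogonal (QuadraticMap.polarBilin Q) W ⊓
        LinearMap.BilinForm.orthogonal (QuadraticMap.polarBilin Q)
          (LinearMap.BilinForm.orthogonal (QuadraticMap.polarBilin Q) W) = ⊥ := by
      rw [hoo, inf_comm]; exact hW'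
    refine hex ⟨hc, _, h2, nondegOn_of_inf_orth Q _ hY,
      plusTypeOn_of_singular Q _ h2 s hsY hs0 hs, Or.inr ⟨?_, by omega⟩⟩
    intro u hu v hv
    rw [QuadraticMap.polar_comm]
    exact (LinearMap.BilinForm.mem_orthogonal_iff.mp hu) v hv

end

end Cfsg.Agent.H95
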