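import Cfsg.Agent.H95.ND4

set_option autoImplicit false
set_option linter.unusedSectionVars false
set_option linter.unusedVariables false

/-! Helper lemmas (helper95): if a non-degenerate subspace `W` of even dimension `dim V / 2` is
isometric to its orthogonal complement, the space has a totally singular subspace of half its
dimension. -/

namespace Cfsg.Agent.H95

open Module Matrix Cfsg.Agent.H49

section
variable {ι : Type} [Fintype ι] [DecidableEq ι] {F : Type*} [Field F]

theorem isTS_sup_of_orth (Q : QuadraticForm F (ι → F)) (A B : Submodule F (ι → F))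
    (hA : IsTS Q A) (hB : IsTS Q B)
    (hAB : ∀ a ∈ A, ∀ b ∈ B, QuadraticMap.polar (⇑Q) a b = 0) : IsTS Q (A ⊔ B) := by
  intro z hz
  obtain ⟨a, ha, b, hb, rfl⟩ := Submodule.mem_sup.mp hz
  rw [Q_add', hA a ha, hB b hb, hAB a ha b hb]
  simp

theorem not_swap_of_not_plus [Fintype F] (Q : QuadraticForm F (ι → F))
    (hQ : (QuadraticMap.polarBilin Q).Nondegenerate) (W : Submodule F (ι → F))
    (hW : W ⊓ LinearMap.BilinForm.orthogonal (QuadraticMap.polarBilin Q) W = ⊥)
    (hdim : 2 * finrank F W = finrank F (ι → F)) (hev : Even (finrank F W))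
    (hminus : ¬ ∃ T : Submodule F (ι → F), IsTS Q T ∧ 2 * finrank F T = finrank F (ι → F))
    (g : ↥(Cfsg.isometryGroup F (⇑Q))) :
    ¬ (∀ y ∈ LinearMap.BilinForm.orthogonal (QuadraticMap.polarBilin Q) W, act g y ∈ W) := by
  classical
  intro hg
  have hfY := LinearMap.BilinForm.finrank_orthogonal hQ W
  -- τ = g⁻¹ maps W into Y
  have hmapeq : (LinearMap.BilinForm.orthogonal (QuadraticMap.polarBilin Q) W).map
      (Matrix.mulVecLin ((g : Matrix.GeneralLinearGroup ι F) : Matrix ι ι F)) = W := by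
    apply Submodule.eq_of_le_of_finrank_eq
    · rintro _ ⟨y, hy, rfl⟩
      exact hg y hy
    · rw [finrank_map_iso g]
      omega
  have hτ : ∀ x ∈ W, act g⁻¹ x ∈
      LinearMap.BilinForm.orthogonal (QuadraticMap.polarBilin Q) W := by
    intro x hx
    rw [← hmapeq] at hx
    obtain ⟨y, hy, rfl⟩ := hx
    have h1 : act g⁻¹ (act g y) = y := act_inv_act g y
    have h2 : act g⁻¹ (act g y) ∈
        LinearMap.BilinForm.orthogonal (QuadraticMap.polarBilin Q) W := by
      rw [h1]; exact hy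
    exact h2
  have hWY : ∀ x ∈ W, ∀ y ∈ LinearMap.BilinForm.orthogonal (QuadraticMap.polarBilin Q) W,
      QuadraticMap.polar (⇑Q) x y = 0 :=
    fun x hx y hy => (LinearMap.BilinForm.mem_orthogonal_iff.mp hy) x hx
  have hzero : ∀ x ∈ W, x ∈ LinearMap.BilinForm.orthogonal (QuadraticMap.polarBilin Q) W →
      x = 0 := by
    intro x hx hx'
    have : x ∈ W ⊓ LinearMap.BilinForm.orthogonal (QuadraticMap.polarBilin Q) W := ⟨hx, hx'⟩
    rw [hW] at this
    exact (Submodule.mem_bot F).mp this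
  have hQτ : ∀ x : ι → F, Q (act g⁻¹ x) = Q x := fun x => Q_act Q g⁻¹ x
  have hpτ : ∀ x y : ι → F, QuadraticMap.polar (⇑Q) (act g⁻¹ x) (act g⁻¹ y)
      = QuadraticMap.polar (⇑Q) x y := fun x y => polar_act Q g⁻¹ x y
  have hxτ : ∀ x ∈ W, ∀ y ∈ W, QuadraticMap.polar (⇑Q) x (act g⁻¹ y) = 0 :=
    fun x hx y hy => hWY x hx _ (hτ y hy)
  have hτx : ∀ x ∈ W, ∀ y ∈ W, QuadraticMap.polar (⇑Q) (act g⁻¹ x) y = 0 := by
    intro x hx y hy
    rw [QuadraticMap.polar_comm]
    exact hxτ y hy x hx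
  by_cases hsq : ∃ l : F, l * l = -1
  · obtain ⟨l, hl⟩ := hsq
    obtain ⟨L, hL⟩ : ∃ L : (ι → F) →ₗ[F] (ι → F), ∀ x, L x = x + l • act g⁻¹ x :=
      ⟨LinearMap.id + l • Matrix.mulVecLin
        (((g⁻¹ : ↥(Cfsg.isometryGroup F (⇑Q))) : Matrix.GeneralLinearGroup ι F) :
          Matrix ι ι F), fun x => rfl⟩
    apply hminus
    refine ⟨W.map L, ?_, ?_⟩
    · rintro _ ⟨x, hx, rfl⟩
      rw [hL, Q_add', QuadraticMap.map_smul, hQτ, QuadraticMap.polar_smul_right, hxτ x hx x hx,
        smul_eq_mul, hl]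
      simp
    · have hinj : Function.Injective (L.comp W.subtype) := by
        rw [← LinearMap.ker_eq_bot, LinearMap.ker_eq_bot']
        intro x hx
        have h1 : (x : ι → F) + l • act g⁻¹ (x : ι → F) = 0 := by
          have := hx
          rw [LinearMap.comp_apply, Submodule.subtype_apply, hL] at this
          exact this
        have h2 : (x : ι → F) = -(l • act g⁻¹ (x : ι → F)) := eq_neg_of_add_eq_zero_left h1
        have h3 : (x : ι → F) ∈
            LinearMap.BilinForm.orthogonal (QuadraticMap.polarBilin Q) W := by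
          rw [h2]
          exact Submodule.neg_mem _ (Submodule.smul_mem _ _ (hτ _ x.2))
        exact Subtype.ext (hzero _ x.2 h3)
      have hrange : W.map L = LinearMap.range (L.comp W.subtype) := by
        rw [LinearMap.range_comp, Submodule.range_subtype]
      rw [hrange, LinearMap.finrank_range_of_inj hinj]
      exact hdim
  · push Not at hsq
    -- a totally singular subspace of W of maximal dimension
    have hP0 : ∃ T : Submodule F (ι → F), T ≤ W ∧ IsTS Q T ∧ finrank F T = 0 := by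
      refine ⟨⊥, bot_le, ?_, finrank_bot F (ι → F)⟩
      intro u hu
      rw [(Submodule.mem_bot F).mp hu, QuadraticMap.map_zero]
    obtain ⟨k, hk⟩ : ∃ k, k = Nat.findGreatest
        (fun k => ∃ T : Submodule F (ι → F), T ≤ W ∧ IsTS Q T ∧ finrank F T = k)
        (finrank F W) := ⟨_, rfl⟩
    have hspec : ∃ T : Submodule F (ι → F), T ≤ W ∧ IsTS Q T ∧ finrank F T = k := by
      rw [hk]
      exact Nat.findGreatest_spec (P := fun k => ∃ T : Submodule F (ι → F), T ≤ W ∧ IsTS Q T ∧
        finrank F T = k) (Nat.zero_le _) hP0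
    have hmax : ∀ T : Submodule F (ι → F), T ≤ W → IsTS Q T → finrank F T ≤ k := by
      intro T hTW hT
      by_contra hlt
      push Not at hlt
      have h1 := Submodule.finrank_mono hTW
      exact Nat.findGreatest_is_greatest (P := fun k => ∃ T : Submodule F (ι → F), T ≤ W ∧
        IsTS Q T ∧ finrank F T = k) (by rw [← hk]; exact hlt) h1 ⟨T, hTW, hT, rfl⟩
    obtain ⟨T₁, hT₁W, hT₁, hT₁k⟩ := hspec
    -- N = W ∩ T₁^⊥
    have hm1 : ∀ s ∈ W, (∀ t ∈ T₁, QuadraticMap.polar (⇑Q) t s = 0) → Q s = 0 → s ∈ T₁ := by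
      intro s hsW hsT hs
      by_contra hn
      have h1 := hmax (T₁ ⊔ Submodule.span F {s})
        (sup_le hT₁W (by rw [Submodule.span_singleton_le_iff_mem]; exact hsW))
        (isTS_sup_span Q T₁ hT₁ s hs hsT)
      rw [finrank_sup_span_singleton T₁ hn] at h1
      omega
    have hfT := LinearMap.BilinForm.finrank_orthogonal hQ T₁
    have hYT : LinearMap.BilinForm.orthogonal (QuadraticMap.polarBilin Q) W ≤
        LinearMap.BilinForm.orthogonal (QuadraticMap.polarBilin Q) T₁ := by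
      intro y hy
      rw [LinearMap.BilinForm.mem_orthogonal_iff]
      intro t ht
      exact (LinearMap.BilinForm.mem_orthogonal_iff.mp hy) t (hT₁W ht)
    have hWYtop : W ⊔ LinearMap.BilinForm.orthogonal (QuadraticMap.polarBilin Q) W = ⊤ := by
      apply Submodule.eq_top_of_finrank_eq
      have h1 := Submodule.finrank_sup_add_finrank_inf_eq W
        (LinearMap.BilinForm.orthogonal (QuadraticMap.polarBilin Q) W)
      rw [hW, finrank_bot] at h1
      omega
    have hWTtop : W ⊔ LinearMap.BilinForm.orthogonal (QuadraticMap.polarBilin Q) T₁ = ⊤ := by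
      rw [eq_top_iff, ← hWYtop]
      exact sup_le_sup_left hYT W
    have hfN : finrank F ↥(W ⊓ LinearMap.BilinForm.orthogonal (QuadraticMap.polarBilin Q) T₁)
        + finrank F (ι → F) = finrank F W + (finrank F (ι → F) - k) := by
      have h1 := Submodule.finrank_sup_add_finrank_inf_eq W
        (LinearMap.BilinForm.orthogonal (QuadraticMap.polarBilin Q) T₁)
      rw [hWTtop, finrank_top, hfT, hT₁k] at h1
      omega
    have hT₁N : T₁ ≤ W ⊓ LinearMap.BilinForm.orthogonal (QuadraticMap.polarBilin Q) T₁ :=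
      le_inf hT₁W hT₁.le_orthogonal
    obtain ⟨q, hq⟩ := Submodule.exists_isCompl T₁
    have hfq := Submodule.finrank_add_eq_of_isCompl hq
    obtain ⟨C, hCd⟩ : ∃ C, C = (W ⊓ LinearMap.BilinForm.orthogonal
        (QuadraticMap.polarBilin Q) T₁) ⊓ q := ⟨_, rfl⟩
    have hCW : C ≤ W := by rw [hCd]; exact inf_le_left.trans inf_le_left
    have hCT : ∀ c ∈ C, ∀ t ∈ T₁, QuadraticMap.polar (⇑Q) t c = 0 := by
      intro c hc t ht
      rw [hCd] at hc
      exact (LinearMap.BilinForm.mem_orthogonal_iff.mp hc.1.2) t ht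
    have hCq : ∀ c ∈ C, c ∈ T₁ → c = 0 := by
      intro c hc hcT
      rw [hCd] at hc
      have : c ∈ T₁ ⊓ q := ⟨hcT, hc.2⟩
      rw [hq.inf_eq_bot] at this
      exact (Submodule.mem_bot F).mp this
    have hCan : ∀ c ∈ C, Q c = 0 → c = 0 := fun c hc hQc =>
      hCq c hc (hm1 c (hCW hc) (hCT c hc) hQc)
    have hfC : finrank F C + 2 * k = finrank F W := by
      have h1 := Submodule.finrank_sup_add_finrank_inf_eq
        (W ⊓ LinearMap.BilinForm.orthogonal (QuadraticMap.polarBilin Q) T₁) q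
      have h2 : (W ⊓ LinearMap.BilinForm.orthogonal (QuadraticMap.polarBilin Q) T₁) ⊔ q = ⊤ := by
        rw [eq_top_iff, ← hq.sup_eq_top]
        exact sup_le_sup_right hT₁N q
      rw [h2, finrank_top, ← hCd] at h1
      have h3 := Submodule.finrank_le T₁
      omega
    have hC2 := anisotropic_finrank_le_two Q C hCan
    -- T₀ = T₁ ⊕ τ T₁
    obtain ⟨T₁', hT₁'d⟩ : ∃ T₁', T₁' = T₁.map (Matrix.mulVecLin
        (((g⁻¹ : ↥(Cfsg.isometryGroup F (⇑Q))) : Matrix.GeneralLinearGroup ι F) :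
          Matrix ι ι F)) := ⟨_, rfl⟩
    have hT₁'mem : ∀ z ∈ T₁', ∃ s ∈ T₁, z = act g⁻¹ s := by
      intro z hz
      rw [hT₁'d] at hz
      obtain ⟨s, hs, rfl⟩ := hz
      exact ⟨s, hs, rfl⟩
    have hT₁'fin : finrank F T₁' = k := by
      rw [hT₁'d, finrank_map_iso g⁻¹ T₁, hT₁k]
    have hT₁'ts : IsTS Q T₁' := by
      intro z hz
      obtain ⟨s, hs, rfl⟩ := hT₁'mem z hz
      rw [hQτ]
      exact hT₁ s hs
    have hT₀ts : IsTS Q (T₁ ⊔ T₁') := by
      apply isTS_sup_of_orth Q T₁ T₁' hT₁ hT₁'ts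
      intro a ha b hb
      obtain ⟨s, hs, rfl⟩ := hT₁'mem b hb
      exact hxτ a (hT₁W ha) s (hT₁W hs)
    have hT₀fin : finrank F ↥(T₁ ⊔ T₁') = 2 * k := by
      have h1 := Submodule.finrank_sup_add_finrank_inf_eq T₁ T₁'
      have h2 : T₁ ⊓ T₁' = ⊥ := by
        rw [eq_bot_iff]
        rintro z ⟨hz1, hz2⟩
        obtain ⟨s, hs, rfl⟩ := hT₁'mem z hz2
        rw [Submodule.mem_bot]
        exact hzero _ (hT₁W hz1) (hτ s (hT₁W hs))
      rw [h2, finrank_bot, hT₁k, hT₁'fin] at h1
      omega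
    have hmemT₀ : ∀ z ∈ T₁ ⊔ T₁', ∃ t ∈ T₁, ∃ s ∈ T₁, z = t + act g⁻¹ s := by
      intro z hz
      obtain ⟨t, ht, b, hb, rfl⟩ := Submodule.mem_sup.mp hz
      obtain ⟨s, hs, rfl⟩ := hT₁'mem b hb
      exact ⟨t, ht, s, hs, rfl⟩
    obtain ⟨r, hr⟩ := hev
    by_cases hC0 : finrank F C = 0
    · exact hminus ⟨T₁ ⊔ T₁', hT₀ts, by rw [hT₀fin]; omega⟩
    · have hCf : finrank F C = 2 := by omega
      have hCne : C ≠ ⊥ := by
        intro h
        rw [h, finrank_bot] at hCf
        omega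
      obtain ⟨a₁, ha₁C, ha₁0⟩ := Submodule.exists_mem_ne_zero_of_ne_bot hCne
      have ha₁W := hCW ha₁C
      have hQa₁ : Q a₁ ≠ 0 := fun h => ha₁0 (hCan a₁ ha₁C h)
      have hτa₁C : act g⁻¹ a₁ ∉ C := by
        intro h
        have h1 := hzero _ (hCW h) (hτ a₁ ha₁W)
        exact ha₁0 (act_injective g⁻¹ (by rw [h1, act_zero]))
      have hD3 : finrank F ↥(C ⊔ Submodule.span F {act g⁻¹ a₁}) = 3 := by
        rw [finrank_sup_span_singleton C hτa₁C, hCf]
      obtain ⟨⟨d, hd⟩, hne, hQd⟩ := exists_singular_of_three_le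
        (Q.comp (C ⊔ Submodule.span F {act g⁻¹ a₁}).subtype) (by omega)
      have hQd' : Q d = 0 := hQd
      have hd0 : d ≠ 0 := fun h => hne (Subtype.ext h)
      obtain ⟨c, hc, b, hb, hcb⟩ := Submodule.mem_sup.mp hd
      obtain ⟨z, rfl⟩ := Submodule.mem_span_singleton.mp hb
      have hcW := hCW hc
      have hQd2 : Q c + z * z * Q a₁ = 0 := by
        rw [← hcb, Q_add', QuadraticMap.map_smul, hQτ, QuadraticMap.polar_smul_right,
          hxτ c hcW a₁ ha₁W] at hQd'
        simpa using hQd'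
      have hz0 : z ≠ 0 := by
        rintro rfl
        simp only [zero_mul, add_zero] at hQd2
        apply hd0
        rw [← hcb, hCan c hc hQd2]
        simp
      obtain ⟨a', ha'd⟩ : ∃ a', a' = z⁻¹ • c := ⟨_, rfl⟩
      have ha'C : a' ∈ C := by rw [ha'd]; exact C.smul_mem _ hc
      have ha'W := hCW ha'C
      have hQa' : Q a' = - Q a₁ := by
        rw [ha'd, QuadraticMap.map_smul, smul_eq_mul]
        field_simp
        linear_combination hQd2
      -- the two extra vectors
      obtain ⟨p₁, hp₁d⟩ : ∃ p₁, p₁ = a₁ + act g⁻¹ a' := ⟨_, rfl⟩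
      obtain ⟨p₂, hp₂d⟩ : ∃ p₂, p₂ = a' - act g⁻¹ a₁ := ⟨_, rfl⟩
      have hQp₁ : Q p₁ = 0 := by
        rw [hp₁d, Q_add', hQτ, hQa', hxτ a₁ ha₁W a' ha'W]; ring
      have hQp₂ : Q p₂ = 0 := by
        rw [hp₂d, Q_sub', hQτ, hQa', hxτ a' ha'W a₁ ha₁W]; ring
      have hp₁p₂ : QuadraticMap.polar (⇑Q) p₁ p₂ = 0 := by
        rw [hp₁d, hp₂d, QuadraticMap.polar_add_left, QuadraticMap.polar_sub_right,
          QuadraticMap.polar_sub_right, hxτ a₁ ha₁W a₁ ha₁W, hτx a' ha'W a' ha'W, hpτ,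
          QuadraticMap.polar_comm (⇑Q) a' a₁]
        ring
      have hT₀p₁ : ∀ z ∈ T₁ ⊔ T₁', QuadraticMap.polar (⇑Q) z p₁ = 0 := by
        intro z hz
        obtain ⟨t, ht, s, hs, rfl⟩ := hmemT₀ z hz
        rw [hp₁d, QuadraticMap.polar_add_left, QuadraticMap.polar_add_right,
          QuadraticMap.polar_add_right, hCT a₁ ha₁C t ht, hxτ t (hT₁W ht) a' ha'W,
          hτx s (hT₁W hs) a₁ ha₁W, hpτ, hCT a' ha'C s hs]
        ring
      have hT₀p₂ : ∀ z ∈ T₁ ⊔ T₁', QuadraticMap.polar (⇑Q) z p₂ = 0 := by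
        intro z hz
        obtain ⟨t, ht, s, hs, rfl⟩ := hmemT₀ z hz
        rw [hp₂d, QuadraticMap.polar_add_left, QuadraticMap.polar_sub_right,
          QuadraticMap.polar_sub_right, hCT a' ha'C t ht, hxτ t (hT₁W ht) a₁ ha₁W,
          hτx s (hT₁W hs) a' ha'W, hpτ, hCT a₁ ha₁C s hs]
        ring
      have hp₁n : p₁ ∉ T₁ ⊔ T₁' := by
        intro h
        obtain ⟨t, ht, s, hs, hts⟩ := hmemT₀ p₁ h
        have e1 : a₁ - t = act g⁻¹ (s - a') := by
          rw [act_sub]
          rw [hp₁d] at hts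
          linear_combination (exp := 1) hts
        have h1 : a₁ - t = 0 := by
          apply hzero _ (W.sub_mem ha₁W (hT₁W ht))
          rw [e1]
          exact hτ _ (W.sub_mem (hT₁W hs) ha'W)
        apply ha₁0
        apply hCq a₁ ha₁C
        rw [sub_eq_zero.mp h1]
        exact ht
      have hT₂ts := isTS_sup_span Q (T₁ ⊔ T₁') hT₀ts p₁ hQp₁ hT₀p₁
      have hT₂fin := finrank_sup_span_singleton (T₁ ⊔ T₁') hp₁n
      have hT₂p₂ : ∀ z ∈ T₁ ⊔ T₁' ⊔ Submodule.span F {p₁}, QuadraticMap.polar (⇑Q) z p₂ = 0 := by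
        intro z hz
        obtain ⟨t, ht, b, hb, rfl⟩ := Submodule.mem_sup.mp hz
        obtain ⟨c', rfl⟩ := Submodule.mem_span_singleton.mp hb
        rw [QuadraticMap.polar_add_left, QuadraticMap.polar_smul_left, hT₀p₂ t ht, hp₁p₂]
        simp
      have hp₂n : p₂ ∉ T₁ ⊔ T₁' ⊔ Submodule.span F {p₁} := by
        intro h
        obtain ⟨t₀, ht₀, b, hb, htb⟩ := Submodule.mem_sup.mp h
        obtain ⟨l, rfl⟩ := Submodule.mem_span_singleton.mp hb
        obtain ⟨t, ht, s, hs, rfl⟩ := hmemT₀ t₀ ht₀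
        have e1 : a' - t - l • a₁ = act g⁻¹ (s + l • a' + a₁) := by
          rw [act_add, act_add, act_smul]
          rw [hp₁d, hp₂d] at htb
          have h' : a' - act g⁻¹ a₁ - (t + act g⁻¹ s + l • (a₁ + act g⁻¹ a')) = 0 := by
            rw [htb]; simp
          have : a' - t - l • a₁ - (act g⁻¹ s + l • act g⁻¹ a' + act g⁻¹ a₁) = 0 := by
            rw [← h']
            module
          exact sub_eq_zero.mp this
        have hmemW : a' - t - l • a₁ ∈ W :=
          W.sub_mem (W.sub_mem ha'W (hT₁W ht)) (W.smul_mem l ha₁W)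
        have hmemW2 : s + l • a' + a₁ ∈ W :=
          W.add_mem (W.add_mem (hT₁W hs) (W.smul_mem l ha'W)) ha₁W
        have h1 : a' - t - l • a₁ = 0 := by
          apply hzero _ hmemW
          rw [e1]
          exact hτ _ hmemW2
        have h2 : s + l • a' + a₁ = 0 := by
          apply act_injective g⁻¹
          rw [← e1, h1, act_zero]
        have h3 : a' - l • a₁ = 0 := by
          apply hCq _ (C.sub_mem ha'C (C.smul_mem l ha₁C))
          have : a' - l • a₁ = t := by
            rw [← sub_eq_zero]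
            rw [← h1]
            abel
          rw [this]
          exact ht
        have h4 : a₁ + l • a' = 0 := by
          apply hCq _ (C.add_mem ha₁C (C.smul_mem l ha'C))
          have : a₁ + l • a' = -s := by
            rw [← sub_eq_zero]
            rw [← h2]
            abel
          rw [this]
          exact T₁.neg_mem hs
        have h5 : a' = l • a₁ := sub_eq_zero.mp h3
        rw [h5, smul_smul] at h4
        have h6 : (1 + l * l) • a₁ = 0 := by
          rw [add_smul, one_smul]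
          exact h4
        rcases smul_eq_zero.mp h6 with h | h
        · exact hsq l (by linear_combination h)
        · exact ha₁0 h
      have hT₃ts := isTS_sup_span Q _ hT₂ts p₂ hQp₂ hT₂p₂
      have hT₃fin := finrank_sup_span_singleton _ hp₂n
      exact hminus ⟨_, hT₃ts, by rw [hT₃fin, hT₂fin, hT₀fin]; omega⟩

end

end Cfsg.Agent.H95
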