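import Cfsg.Agent.H95.ND1
import Cfsg.Agent.H49.WittND

set_option autoImplicit false
set_option linter.unusedSectionVars false

/-! Helper lemmas (helper95): an "irreducibility" statement for a non-degenerate quadratic
space `X`: a non-zero subspace stable under the moves coming from reflections and Siegel
elements of `X` is all of `X`, unless `X` is a hyperbolic plane over a field with at most three
elements. -/

namespace Cfsg.Agent.H95

open Module Matrix Cfsg.Agent.H49

section
variable {ι : Type} [Fintype ι] [DecidableEq ι] {F : Type*} [Field F]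

theorem exists_polar_ne_of_inf_orth (Q : QuadraticForm F (ι → F)) (X : Submodule F (ι → F))
    (hX : X ⊓ LinearMap.BilinForm.orthogonal (QuadraticMap.polarBilin Q) X = ⊥) (x : ι → F)
    (hx : x ∈ X) (hx0 : x ≠ 0) : ∃ y ∈ X, QuadraticMap.polar (⇑Q) y x ≠ 0 := by
  by_contra hcon
  push Not at hcon
  apply hx0
  have : x ∈ X ⊓ LinearMap.BilinForm.orthogonal (QuadraticMap.polarBilin Q) X :=
    ⟨hx, LinearMap.BilinForm.mem_orthogonal_iff.mpr hcon⟩
  rw [hX] at this
  exact (Submodule.mem_bot F).mp this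

theorem irr_stepA [Fintype F] (Q : QuadraticForm F (ι → F)) (X R : Submodule F (ι → F))
    (hX : X ⊓ LinearMap.BilinForm.orthogonal (QuadraticMap.polarBilin Q) X = ⊥) (hRX : R ≤ X)
    (h1 : ∀ x ∈ R, ∀ a ∈ X, Q a ≠ 0 → QuadraticMap.polar (⇑Q) a x ≠ 0 → a ∈ R)
    (hex : ¬ (Fintype.card F ≤ 3 ∧ finrank F X = 2 ∧ ∃ s ∈ X, s ≠ 0 ∧ Q s = 0))
    (x : ι → F) (hx : x ∈ R) (hxR : ∀ r ∈ R, QuadraticMap.polar (⇑Q) r x = 0) : x = 0 := by
  classical
  by_contra hx0
  have hxX := hRX hx
  obtain ⟨y, hyX, hyx⟩ := exists_polar_ne_of_inf_orth Q X hX x hxX hx0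
  have hK : ∀ a ∈ X, QuadraticMap.polar (⇑Q) a x ≠ 0 → Q a = 0 := by
    intro a ha hax
    by_contra hQa
    exact hax (hxR a (h1 x hx a ha hQa hax))
  have hQy : Q y = 0 := hK y hyX hyx
  by_cases hQx : Q x = 0
  · have h2 : QuadraticMap.polar (⇑Q) (y + x) x ≠ 0 := by
      rw [QuadraticMap.polar_add_left, polar_self', hQx, mul_zero, add_zero]; exact hyx
    have h3 := hK (y + x) (X.add_mem hyX hxX) h2
    rw [Q_add', hQy, hQx, zero_add, zero_add] at h3
    exact hyx h3
  · have hxx : QuadraticMap.polar (⇑Q) x x = 0 := by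
      by_contra h
      exact hQx (hK x hxX h)
    have hval : ∀ y' ∈ X, QuadraticMap.polar (⇑Q) y' x ≠ 0 →
        QuadraticMap.polar (⇑Q) y' x = - Q x := by
      intro y' hy' hy'x
      have h2 : QuadraticMap.polar (⇑Q) (y' + x) x ≠ 0 := by
        rw [QuadraticMap.polar_add_left, hxx, add_zero]; exact hy'x
      have h3 := hK (y' + x) (X.add_mem hy' hxX) h2
      rw [Q_add', hK y' hy' hy'x, zero_add] at h3
      linear_combination h3
    have hone : ∀ l : F, l ≠ 0 → l = 1 := by
      intro l hl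
      have h4 : QuadraticMap.polar (⇑Q) (l • y) x ≠ 0 := by
        rw [QuadraticMap.polar_smul_left, smul_eq_mul]; exact mul_ne_zero hl hyx
      have h5 := hval (l • y) (X.smul_mem l hyX) h4
      rw [QuadraticMap.polar_smul_left, smul_eq_mul, hval y hyX hyx] at h5
      have h6 : (l - 1) * Q x = 0 := by linear_combination -h5
      rcases mul_eq_zero.mp h6 with h | h
      · exact sub_eq_zero.mp h
      · exact absurd h hQx
    have hy0 : y ≠ 0 := by
      rintro rfl
      exact hyx (QuadraticMap.polar_zero_left _ _)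
    apply hex
    refine ⟨?_, ?_, y, hyX, hy0, hQy⟩
    · have hsub : (Finset.univ : Finset F) ⊆ {0, 1} := by
        intro l _
        by_cases hl : l = 0
        · simp [hl]
        · simp [hone l hl]
      have := Finset.card_le_card hsub
      have h2 : ({0, 1} : Finset F).card ≤ 2 := Finset.card_le_two
      rw [Finset.card_univ] at this
      omega
    · -- vectors of X orthogonal to x
      have hQN : ∀ z ∈ X, QuadraticMap.polar (⇑Q) z x = 0 →
          Q z = - QuadraticMap.polar (⇑Q) y z := by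
        intro z hz hzx
        have h2 : QuadraticMap.polar (⇑Q) (y + z) x ≠ 0 := by
          rw [QuadraticMap.polar_add_left, hzx, add_zero]; exact hyx
        have h3 := hK (y + z) (X.add_mem hyX hz) h2
        rw [Q_add', hQy, zero_add] at h3
        linear_combination h3
      have hNN : ∀ z ∈ X, ∀ z' ∈ X, QuadraticMap.polar (⇑Q) z x = 0 →
          QuadraticMap.polar (⇑Q) z' x = 0 → QuadraticMap.polar (⇑Q) z z' = 0 := by
        intro z hz z' hz' hzx hz'x
        have e1 := hQN z hz hzx
        have e2 := hQN z' hz' hz'x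
        have e3 := hQN (z + z') (X.add_mem hz hz')
          (by rw [QuadraticMap.polar_add_left, hzx, hz'x, add_zero])
        rw [Q_add', QuadraticMap.polar_add_right] at e3
        linear_combination e3 - e1 - e2
      have hN0 : ∀ z ∈ X, QuadraticMap.polar (⇑Q) z x = 0 →
          QuadraticMap.polar (⇑Q) y z = 0 → z = 0 := by
        intro z hz hzx hyz
        have hmem : z ∈ X ⊓ LinearMap.BilinForm.orthogonal (QuadraticMap.polarBilin Q) X := by
          refine ⟨hz, LinearMap.BilinForm.mem_orthogonal_iff.mpr (fun w hw => ?_)⟩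
          show QuadraticMap.polar (⇑Q) w z = 0
          by_cases hwx : QuadraticMap.polar (⇑Q) w x = 0
          · exact hNN w hw z hz hwx hzx
          · have h5 : QuadraticMap.polar (⇑Q) (w - y) x = 0 := by
              rw [QuadraticMap.polar_sub_left, hval w hw hwx, hval y hyX hyx, sub_self]
            have h6 := hNN (w - y) (X.sub_mem hw hyX) z hz h5 hzx
            rw [QuadraticMap.polar_sub_left, hyz, sub_zero] at h6
            exact h6
        rw [hX] at hmem
        exact (Submodule.mem_bot F).mp hmem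
      have hN : ∀ z ∈ X, QuadraticMap.polar (⇑Q) z x = 0 → z ∈ Submodule.span F {x} := by
        intro z hz hzx
        by_cases hyz : QuadraticMap.polar (⇑Q) y z = 0
        · rw [hN0 z hz hzx hyz]
          exact Submodule.zero_mem _
        · have hl := hone (QuadraticMap.polar (⇑Q) y z / QuadraticMap.polar (⇑Q) y x)
            (div_ne_zero hyz hyx)
          have heq : QuadraticMap.polar (⇑Q) y z = QuadraticMap.polar (⇑Q) y x := by
            field_simp at hl
            exact hl
          have h7 : z - x = 0 := by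
            apply hN0 (z - x) (X.sub_mem hz hxX)
            · rw [QuadraticMap.polar_sub_left, hzx, hxx, sub_zero]
            · rw [QuadraticMap.polar_sub_right, heq, sub_self]
          rw [sub_eq_zero.mp h7]
          exact Submodule.mem_span_singleton_self x
      have hXeq : X = Submodule.span F {x} ⊔ Submodule.span F {y} := by
        apply le_antisymm
        · intro z hz
          by_cases hzx : QuadraticMap.polar (⇑Q) z x = 0
          · exact Submodule.mem_sup_left (hN z hz hzx)
          · have h5 : QuadraticMap.polar (⇑Q) (z - y) x = 0 := by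
              rw [QuadraticMap.polar_sub_left, hval z hz hzx, hval y hyX hyx, sub_self]
            have h6 := hN (z - y) (X.sub_mem hz hyX) h5
            have : z = (z - y) + y := by abel
            rw [this]
            exact Submodule.add_mem _ (Submodule.mem_sup_left h6)
              (Submodule.mem_sup_right (Submodule.mem_span_singleton_self y))
        · apply sup_le
          · rw [Submodule.span_singleton_le_iff_mem]; exact hxX
          · rw [Submodule.span_singleton_le_iff_mem]; exact hyX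
      have hyn : y ∉ Submodule.span F {x} := by
        intro h
        obtain ⟨c, rfl⟩ := Submodule.mem_span_singleton.mp h
        apply hyx
        rw [QuadraticMap.polar_smul_left, hxx, smul_zero]
      rw [hXeq, finrank_sup_span_singleton _ hyn, finrank_span_singleton hx0]

/-- The irreducibility claim. -/
theorem irr_claim [Fintype F] (Q : QuadraticForm F (ι → F)) (X R : Submodule F (ι → F))
    (hX : X ⊓ LinearMap.BilinForm.orthogonal (QuadraticMap.polarBilin Q) X = ⊥) (hRX : R ≤ X)
    (hR0 : R ≠ ⊥)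
    (h1 : ∀ x ∈ R, ∀ a ∈ X, Q a ≠ 0 → QuadraticMap.polar (⇑Q) a x ≠ 0 → a ∈ R)
    (h2 : ∀ x ∈ R, ∀ p ∈ X, ∀ r ∈ X, Q p = 0 → Q r = 0 → QuadraticMap.polar (⇑Q) p r = 0 →
      QuadraticMap.polar (⇑Q) p x • r - QuadraticMap.polar (⇑Q) r x • p ∈ R)
    (hex : ¬ (Fintype.card F ≤ 3 ∧ finrank F X = 2 ∧ ∃ s ∈ X, s ≠ 0 ∧ Q s = 0)) :
    X ≤ R := by
  classical
  have hA := irr_stepA Q X R hX hRX h1 hex
  have hR : R ⊓ LinearMap.BilinForm.orthogonal (QuadraticMap.polarBilin Q) R = ⊥ := by
    rw [eq_bot_iff]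
    rintro z ⟨hz1, hz2⟩
    rw [Submodule.mem_bot]
    exact hA z hz1 (fun r hr => (LinearMap.BilinForm.mem_orthogonal_iff.mp hz2) r hr)
  by_contra hcon
  obtain ⟨xs, hxsX, hxsR⟩ := SetLike.not_le_iff_exists.mp hcon
  have hdec : ∀ z ∈ X, ∃ r ∈ R, ∃ s ∈ X, (∀ w ∈ R, QuadraticMap.polar (⇑Q) w s = 0) ∧
      z = r + s := by
    intro z hz
    obtain ⟨r, hr, s, hs, hzs⟩ := exists_decomp Q R hR z
    refine ⟨r, hr, s, ?_, hs, hzs⟩
    have : s = z - r := by rw [hzs]; simp
    rw [this]
    exact X.sub_mem hz (hRX hr)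
  obtain ⟨r0, hr0, r₂, hr₂X, hr₂, hxs⟩ := hdec xs hxsX
  have hr₂0 : r₂ ≠ 0 := by
    rintro rfl
    apply hxsR
    rw [hxs, add_zero]
    exact hr0
  have hr₂R : r₂ ∉ R := fun h => hr₂0 (hA r₂ h hr₂)
  obtain ⟨r₁, hr₁, hr₁0⟩ := Submodule.exists_mem_ne_zero_of_ne_bot hR0
  have hP : ∀ r ∈ R, r ≠ 0 → ∀ s ∈ X, s ≠ 0 → (∀ w ∈ R, QuadraticMap.polar (⇑Q) w s = 0) →
      Q r + Q s = 0 := by
    intro r hr hr0' s hs hs0 hsR
    have haR : r + s ∉ R := by
      intro h
      have : s ∈ R := by
        have := R.sub_mem h hr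
        rwa [add_sub_cancel_left] at this
      exact hs0 (hA s this hsR)
    obtain ⟨x, hx, hxr⟩ : ∃ x ∈ R, QuadraticMap.polar (⇑Q) x r ≠ 0 := by
      by_contra hc
      push Not at hc
      exact hr0' (hA r hr hc)
    have hne : QuadraticMap.polar (⇑Q) (r + s) x ≠ 0 := by
      rw [QuadraticMap.polar_add_left, QuadraticMap.polar_comm (⇑Q) s x, hsR x hx, add_zero,
        QuadraticMap.polar_comm]
      exact hxr
    have hQ0 : Q (r + s) = 0 := by
      by_contra hQ
      exact haR (h1 x hx (r + s) (X.add_mem (hRX hr) hs) hQ hne)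
    rw [Q_add', hsR r hr, add_zero] at hQ0
    exact hQ0
  obtain ⟨κ, hκ⟩ : ∃ κ, κ = Q r₁ := ⟨_, rfl⟩
  have hQr₂ : Q r₂ = -κ := by
    have := hP r₁ hr₁ hr₁0 r₂ hr₂X hr₂0 hr₂
    rw [hκ]
    linear_combination this
  have hQR : ∀ r ∈ R, r ≠ 0 → Q r = κ := by
    intro r hr hr0'
    have := hP r hr hr0' r₂ hr₂X hr₂0 hr₂
    rw [hQr₂] at this
    linear_combination this
  have hQR' : ∀ s ∈ X, s ≠ 0 → (∀ w ∈ R, QuadraticMap.polar (⇑Q) w s = 0) → Q s = -κ := by
    intro s hs hs0 hsR
    have := hP r₁ hr₁ hr₁0 s hs hs0 hsR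
    rw [← hκ] at this
    linear_combination this
  have hκ0 : κ ≠ 0 := by
    intro h0
    apply hr₁0
    apply hA r₁ hr₁
    intro r hr
    have e1 : ∀ z ∈ R, Q z = 0 := by
      intro z hz
      by_cases hz0 : z = 0
      · rw [hz0, QuadraticMap.map_zero]
      · rw [hQR z hz hz0, h0]
    have := Q_add' Q r r₁
    rw [e1 _ (R.add_mem hr hr₁), e1 r hr, e1 r₁ hr₁] at this
    linear_combination -this
  have hsq : ∀ l : F, l ≠ 0 → l * l = 1 := by
    intro l hl
    have := hQR (l • r₁) (R.smul_mem l hr₁) (smul_ne_zero hl hr₁0)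
    rw [QuadraticMap.map_smul, ← hκ, smul_eq_mul] at this
    have h6 : (l * l - 1) * κ = 0 := by linear_combination this
    rcases mul_eq_zero.mp h6 with h | h
    · exact sub_eq_zero.mp h
    · exact absurd h hκ0
  have hcard : Fintype.card F ≤ 3 := by
    have hsub : (Finset.univ : Finset F) ⊆ {0, 1, -1} := by
      intro l _
      by_cases hl : l = 0
      · simp [hl]
      · have h := hsq l hl
        have h' : (l - 1) * (l + 1) = 0 := by linear_combination h
        rcases mul_eq_zero.mp h' with h | h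
        · have : l = 1 := sub_eq_zero.mp h
          simp [this]
        · have : l = -1 := eq_neg_of_add_eq_zero_left h
          simp [this]
    have := Finset.card_le_card hsub
    have h3 : ({0, 1, -1} : Finset F).card ≤ 3 := Finset.card_le_three
    rw [Finset.card_univ] at this
    omega
  have hr₁r₂ : QuadraticMap.polar (⇑Q) r₁ r₂ = 0 := hr₂ r₁ hr₁
  by_cases h2F : (2 : F) = 0
  · -- characteristic two: use the Siegel move
    have hxx : ∀ z : ι → F, QuadraticMap.polar (⇑Q) z z = 0 := fun z => by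
      rw [polar_self', h2F, zero_mul]
    obtain ⟨r₁', hr₁', hr₁'r₁⟩ : ∃ x ∈ R, QuadraticMap.polar (⇑Q) x r₁ ≠ 0 := by
      by_contra hc
      push Not at hc
      exact hr₁0 (hA r₁ hr₁ hc)
    have hr₁'0 : r₁' ≠ 0 := by
      rintro rfl
      exact hr₁'r₁ (QuadraticMap.polar_zero_left _ _)
    obtain ⟨z, hzX, hzr₂⟩ := exists_polar_ne_of_inf_orth Q X hX r₂ hr₂X hr₂0
    obtain ⟨r, hr, s', hs'X, hs'R, hzs⟩ := hdec z hzX
    have hs'r₂ : QuadraticMap.polar (⇑Q) s' r₂ ≠ 0 := by
      rw [hzs, QuadraticMap.polar_add_left, hr₂ r hr, zero_add] at hzr₂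
      exact hzr₂
    have hs'0 : s' ≠ 0 := by
      rintro rfl
      exact hs'r₂ (QuadraticMap.polar_zero_left _ _)
    have hsum1 : r₁' + r₁ ≠ 0 := by
      intro h
      have : r₁' = -r₁ := eq_neg_of_add_eq_zero_left h
      apply hr₁'r₁
      rw [this, QuadraticMap.polar_neg_left, hxx, neg_zero]
    have hsum2 : s' + r₂ ≠ 0 := by
      intro h
      have : s' = -r₂ := eq_neg_of_add_eq_zero_left h
      apply hs'r₂
      rw [this, QuadraticMap.polar_neg_left, hxx, neg_zero]
    have hpR : QuadraticMap.polar (⇑Q) r₁' r₁ = -κ := by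
      have e1 := Q_add' Q r₁' r₁
      rw [hQR _ (R.add_mem hr₁' hr₁) hsum1, hQR r₁' hr₁' hr₁'0, ← hκ] at e1
      linear_combination -e1
    have hpR' : QuadraticMap.polar (⇑Q) s' r₂ = κ := by
      have e1 := Q_add' Q s' r₂
      rw [hQR' _ (X.add_mem hs'X hr₂X) hsum2 (fun w hw => by
        rw [QuadraticMap.polar_add_right, hs'R w hw, hr₂ w hw, add_zero]),
        hQR' s' hs'X hs'0 hs'R, hQr₂] at e1
      linear_combination -e1
    have hQp : Q (r₁ + r₂) = 0 := by
      rw [Q_add', ← hκ, hQr₂, hr₁r₂]; ring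
    have hQr : Q (r₁' + s') = 0 := by
      rw [Q_add', hQR r₁' hr₁' hr₁'0, hQR' s' hs'X hs'0 hs'R, hs'R r₁' hr₁']; ring
    have hpr : QuadraticMap.polar (⇑Q) (r₁ + r₂) (r₁' + s') = 0 := by
      rw [QuadraticMap.polar_add_left, QuadraticMap.polar_add_right,
        QuadraticMap.polar_add_right, QuadraticMap.polar_comm (⇑Q) r₁ r₁', hpR, hs'R r₁ hr₁,
        QuadraticMap.polar_comm (⇑Q) r₂ r₁', hr₂ r₁' hr₁', QuadraticMap.polar_comm (⇑Q) r₂ s',
        hpR']
      ring
    have key := h2 r₁ hr₁ (r₁ + r₂) (X.add_mem (hRX hr₁) hr₂X) (r₁' + s')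
      (X.add_mem (hRX hr₁') hs'X) hQp hQr hpr
    rw [QuadraticMap.polar_add_left, hxx, QuadraticMap.polar_comm (⇑Q) r₂ r₁, hr₁r₂,
      QuadraticMap.polar_add_left, hpR, QuadraticMap.polar_comm (⇑Q) s' r₁, hs'R r₁ hr₁] at key
    simp only [add_zero, zero_smul, zero_sub, neg_smul, neg_neg] at key
    have hp : r₁ + r₂ ∈ R := by
      have := R.smul_mem κ⁻¹ key
      rwa [smul_smul, inv_mul_cancel₀ hκ0, one_smul] at this
    apply hr₂R
    have := R.sub_mem hp hr₁
    rwa [add_sub_cancel_left] at this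
  · -- odd characteristic: both parts are lines
    have hline : ∀ (κ' : F) (a b : ι → F), κ' ≠ 0 → Q a = κ' → Q b = κ' →
        (b + a ≠ 0 → Q (b + a) = κ') → (b - a ≠ 0 → Q (b - a) = κ') →
        b ∈ Submodule.span F {a} := by
      intro κ' a b hκ' hQa hQb hplus hminus
      by_contra hb
      have hne1 : b + a ≠ 0 := by
        intro h
        apply hb
        rw [eq_neg_of_add_eq_zero_left h]
        exact Submodule.neg_mem _ (Submodule.mem_span_singleton_self a)
      have hne2 : b - a ≠ 0 := by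
        intro h
        apply hb
        rw [sub_eq_zero.mp h]
        exact Submodule.mem_span_singleton_self a
      have e1 := Q_add' Q b a
      have e2 := Q_sub' Q b a
      rw [hplus hne1, hQa, hQb] at e1
      rw [hminus hne2, hQa, hQb] at e2
      have : (2 : F) * κ' = 0 := by linear_combination -e1 - e2
      rcases mul_eq_zero.mp this with h | h
      · exact h2F h
      · exact hκ' h
    have hRline : ∀ r ∈ R, r ∈ Submodule.span F {r₁} := by
      intro r hr
      by_cases hr0' : r = 0
      · rw [hr0']; exact Submodule.zero_mem _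
      · exact hline κ r₁ r hκ0 hκ.symm (hQR r hr hr0')
          (fun h => hQR _ (R.add_mem hr hr₁) h) (fun h => hQR _ (R.sub_mem hr hr₁) h)
    have hR'line : ∀ s ∈ X, (∀ w ∈ R, QuadraticMap.polar (⇑Q) w s = 0) →
        s ∈ Submodule.span F {r₂} := by
      intro s hs hsR
      by_cases hs0 : s = 0
      · rw [hs0]; exact Submodule.zero_mem _
      · exact hline (-κ) r₂ s (neg_ne_zero.mpr hκ0) hQr₂ (hQR' s hs hs0 hsR)
          (fun h => hQR' _ (X.add_mem hs hr₂X) h (fun w hw => by
            rw [QuadraticMap.polar_add_right, hsR w hw, hr₂ w hw, add_zero]))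
          (fun h => hQR' _ (X.sub_mem hs hr₂X) h (fun w hw => by
            rw [QuadraticMap.polar_sub_right, hsR w hw, hr₂ w hw, sub_zero]))
    have hXeq : X = Submodule.span F {r₁} ⊔ Submodule.span F {r₂} := by
      apply le_antisymm
      · intro z hz
        obtain ⟨r, hr, s, hsX, hsR, rfl⟩ := hdec z hz
        exact Submodule.add_mem _ (Submodule.mem_sup_left (hRline r hr))
          (Submodule.mem_sup_right (hR'line s hsX hsR))
      · apply sup_le
        · rw [Submodule.span_singleton_le_iff_mem]; exact hRX hr₁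
        · rw [Submodule.span_singleton_le_iff_mem]; exact hr₂X
    have hr₂n : r₂ ∉ Submodule.span F {r₁} := by
      intro h
      apply hr₂R
      obtain ⟨c, rfl⟩ := Submodule.mem_span_singleton.mp h
      exact R.smul_mem c hr₁
    apply hex
    refine ⟨hcard, ?_, r₁ + r₂, X.add_mem (hRX hr₁) hr₂X, ?_, ?_⟩
    · rw [hXeq, finrank_sup_span_singleton _ hr₂n, finrank_span_singleton hr₁0]
    · intro h
      apply hr₂R
      rw [eq_neg_of_add_eq_zero_right h]
      exact R.neg_mem hr₁
    · rw [Q_add', ← hκ, hQr₂, hr₁r₂]; ring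

end

end Cfsg.Agent.H95
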