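import Cfsg.Agent.H95.NDU

set_option autoImplicit false
set_option linter.unusedSectionVars false
set_option linter.unusedVariables false

/-! Helper lemmas (helper95): Witt-type moves, quasi-reflections and transitivity of the
stabiliser of a non-degenerate subspace in `SU_n(q)` on the isotropic vectors of a given
type. -/

namespace Cfsg.Agent.H95

open Cfsg Cfsg.Geo Module
open scoped MatrixGroups Matrix

section NDU2

variable {n : ℕ} {F : Type*} [Field F] [Fintype F] {q : ℕ}

/-- An isometry fixing a non-degenerate subspace `Y` pointwise and moving `p` to `p'`, for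
`p`, `p'` orthogonal to `Y` of the same norm. -/
theorem witt_move (hF : Fintype.card F = q ^ 2) (Y : Submodule F (Fin n → F))
    (hY : ∀ y ∈ Y, y ≠ 0 → ∃ x ∈ Y, hermForm n F q x y ≠ 0)
    (p p' y₁ : Fin n → F) (hp : ∀ y ∈ Y, hermForm n F q y p = 0)
    (hp' : ∀ y ∈ Y, hermForm n F q y p' = 0) (hy₁ : ∀ y ∈ Y, hermForm n F q y y₁ = 0)
    (h1 : hermForm n F q p y₁ = 1) (hpp : hermForm n F q p' p' = hermForm n F q p p)
    (hp'0 : p' ≠ 0) :
    ∃ g : GL (Fin n) F, g ∈ GU n F q ∧
      (∀ y ∈ Y, (g : Matrix (Fin n) (Fin n) F) *ᵥ y = y) ∧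
      (g : Matrix (Fin n) (Fin n) F) *ᵥ p = p' := by
  classical
  let f : (Fin n → F) →ₗ[F] (Fin n → F) := LinearMap.id + (hermL q y₁).smulRight (p' - p)
  have hf_apply : ∀ x, f x = x + hermForm n F q x y₁ • (p' - p) := by
    intro x
    simp [f]
  have hfX : ∀ y ∈ Y, ∀ μ : F, f (y + μ • p) = y + μ • p' := by
    intro y hy μ
    rw [hf_apply, hermForm_add_left, hermForm_smul_left, hy₁ y hy, h1]
    module
  have hX : ∀ x ∈ Y ⊔ Submodule.span F {p}, ∃ y ∈ Y, ∃ μ : F, x = y + μ • p := by
    intro x hx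
    obtain ⟨y, hy, z, hz, rfl⟩ := Submodule.mem_sup.mp hx
    obtain ⟨μ, rfl⟩ := Submodule.mem_span_singleton.mp hz
    exact ⟨y, hy, μ, rfl⟩
  have hf : ∀ x ∈ Y ⊔ Submodule.span F {p}, ∀ x' ∈ Y ⊔ Submodule.span F {p},
      H17.hermSesq hF n (f x) (f x') = H17.hermSesq hF n x x' := by
    intro x hx x' hx'
    obtain ⟨y, hy, μ, rfl⟩ := hX x hx
    obtain ⟨y', hy', μ', rfl⟩ := hX x' hx'
    rw [hfX y hy, hfX y' hy', H17.hermSesq_apply, H17.hermSesq_apply]
    simp only [hermForm_add_left, hermForm_add_right hF, hermForm_smul_left, hermForm_smul_right,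
      hp y' hy', hp' y' hy', herm_zero_symm hF (hp y hy), herm_zero_symm hF (hp' y hy), hpp]
  have hinj : ∀ x ∈ Y ⊔ Submodule.span F {p}, f x = 0 → x = 0 := by
    intro x hx hfx
    obtain ⟨y, hy, μ, rfl⟩ := hX x hx
    rw [hfX y hy] at hfx
    have hμ : μ = 0 := by
      by_contra hμ
      apply hp'0
      have h2 : p' = (-μ⁻¹) • y := by
        have h3 : μ • p' = -y := by
          rw [eq_neg_iff_add_eq_zero, add_comm]
          exact hfx
        rw [neg_smul, ← smul_neg, ← h3, smul_smul, inv_mul_cancel₀ hμ, one_smul]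
      have h4 : p' ∈ Y := by
        rw [h2]
        exact Y.smul_mem _ hy
      by_contra h5
      obtain ⟨x, hx, hx5⟩ := hY p' h4 h5
      exact hx5 (hp' x hx)
    rw [hμ, zero_smul, add_zero] at hfx
    rw [hμ, zero_smul, add_zero, hfx]
  obtain ⟨g, hg, hgX⟩ := H17.witt_herm (H17.frobHom hF) (H17.frobHom_ne_id hF)
    (H17.frobHom_invol hF) (H17.hermSesq hF n) (H17.hermSesq_isSymm hF n)
    (H17.hermSesq_nondegenerate hF n) (Y ⊔ Submodule.span F {p}) f hf hinj
  refine ⟨glOf g, ?_, ?_, ?_⟩
  · rw [mem_GU_iff]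
    intro u v
    rw [glOf_mulVec, glOf_mulVec]
    exact hg v u
  · intro y hy
    rw [glOf_mulVec, hgX y (Submodule.mem_sup_left hy)]
    have := hfX y hy 0
    simpa using this
  · rw [glOf_mulVec, hgX p (Submodule.mem_sup_right (Submodule.mem_span_singleton_self p))]
    have := hfX 0 Y.zero_mem 1
    simpa using this

/-- Quasi-reflections: isometries of determinant `l` centred at a non-isotropic vector. -/
theorem exists_qrefl (hF : Fintype.card F = q ^ 2) (c : Fin n → F)
    (hc : hermForm n F q c c ≠ 0) (l : F) (hl : l ^ (q + 1) = 1) :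
    ∃ r : GL (Fin n) F, r ∈ GU n F q ∧ (r : Matrix (Fin n) (Fin n) F).det = l ∧
      ∀ x, (r : Matrix (Fin n) (Fin n) F) *ᵥ x =
        x + ((l - 1) / hermForm n F q c c * hermForm n F q x c) • c := by
  classical
  have hq := H17.two_le_of_card_sq hF
  let T : (Fin n → F) →ₗ[F] (Fin n → F) :=
    LinearMap.transvection (((l - 1) / hermForm n F q c c) • hermL q c) c
  have hT : ∀ x, T x = x + ((l - 1) / hermForm n F q c c * hermForm n F q x c) • c := by
    intro x
    simp [T, LinearMap.transvection.apply]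
  have hdet : LinearMap.det T = l := by
    simp only [T]
    rw [LinearMap.transvection.det]
    simp only [LinearMap.smul_apply, hermL_apply, smul_eq_mul]
    field_simp
    ring
  have hl0 : l ≠ 0 := by
    rintro rfl
    rw [zero_pow (by omega)] at hl
    exact zero_ne_one hl
  have hdet' : (LinearMap.toMatrix' T).det ≠ 0 := by
    rw [LinearMap.det_toMatrix', hdet]
    exact hl0
  have hmv : ∀ x, (LinearMap.toMatrix' T) *ᵥ x = T x := by
    intro x
    rw [← Matrix.toLin'_apply, Matrix.toLin'_toMatrix']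
  refine ⟨Matrix.GeneralLinearGroup.mkOfDetNeZero (LinearMap.toMatrix' T) hdet', ?_, ?_, ?_⟩
  · rw [mem_GU_iff]
    intro x y
    show hermForm n F q ((LinearMap.toMatrix' T) *ᵥ x) ((LinearMap.toMatrix' T) *ᵥ y) = _
    rw [hmv, hmv, hT, hT]
    have htq := herm_self_frob hF c
    have hcy : (hermForm n F q y c) ^ q = hermForm n F q c y := (hermForm_herm hF y c).symm
    have hlq : l * l ^ q = 1 := by rw [← hl, pow_succ, mul_comm]
    simp only [hermForm_add_left, hermForm_add_right hF, hermForm_smul_left, hermForm_smul_right]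
    rw [mul_pow, div_pow, H17.frob_sub hF, one_pow, htq, hcy]
    field_simp
    linear_combination (hermForm n F q x c * hermForm n F q c y) * hlq
  · show (LinearMap.toMatrix' T).det = l
    rw [LinearMap.det_toMatrix', hdet]
  · intro x
    show (LinearMap.toMatrix' T) *ᵥ x = _
    rw [hmv, hT]

end NDU2

end Cfsg.Agent.H95
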