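import Cfsg.Agent.H95.NDU2

set_option autoImplicit false
set_option linter.unusedSectionVars false
set_option linter.unusedVariables false

/-! Helper lemmas (helper95): the stabiliser of a non-degenerate subspace `W` of dimension
less than half is maximal in `SU_n(q)`. `W'` denotes the orthogonal complement of `W`. -/

namespace Cfsg.Agent.H95

open Cfsg Cfsg.Geo Module
open scoped MatrixGroups Matrix

section NDU3

variable {n : ℕ} {F : Type*} [Field F] [Fintype F] {q : ℕ}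

/-- The standing hypotheses. -/
structure NDUSetup (q : ℕ) (W W' : Submodule F (Fin n → F)) (M : Subgroup (GL (Fin n) F)) :
    Prop where
  hF : Fintype.card F = q ^ 2
  hWnd : ∀ y ∈ W, y ≠ 0 → ∃ x ∈ W, hermForm n F q x y ≠ 0
  hW'nd : ∀ y ∈ W', y ≠ 0 → ∃ x ∈ W', hermForm n F q x y ≠ 0
  horth : ∀ a ∈ W, ∀ b ∈ W', hermForm n F q a b = 0
  hdec : ∀ v : Fin n → F, ∃ a ∈ W, ∃ b ∈ W', v = a + b
  hd : 4 ≤ finrank F W'
  hHM : subspaceStabilizer W ⊓ (GU n F q ⊓ specialLinear (Fin n) F) ≤ M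

variable {W W' : Submodule F (Fin n → F)} {M : Subgroup (GL (Fin n) F)}

theorem NDUSetup.horth' (S : NDUSetup q W W' M) : ∀ b ∈ W', ∀ a ∈ W, hermForm n F q b a = 0 :=
  fun b hb a ha => herm_zero_symm S.hF (S.horth a ha b hb)

theorem NDUSetup.disj (S : NDUSetup q W W' M) (y : Fin n → F) (hy : y ∈ W) (hy' : y ∈ W') :
    y = 0 := by
  by_contra hy0
  obtain ⟨x, hx, hxy⟩ := S.hWnd y hy hy0
  exact hxy (S.horth x hx y hy')

theorem NDUSetup.dperp (S : NDUSetup q W W' M) (x : Fin n → F)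
    (hx : ∀ y ∈ W', hermForm n F q x y = 0) : x ∈ W := by
  obtain ⟨a, ha, b, hb, rfl⟩ := S.hdec x
  have hb0 : b = 0 := by
    by_contra hb0
    obtain ⟨y, hy, hyb⟩ := S.hW'nd b hb hb0
    apply hyb
    apply herm_zero_symm S.hF
    have := hx y hy
    rwa [hermForm_add_left, S.horth a ha y hy, zero_add] at this
  rw [hb0, add_zero]
  exact ha

theorem NDUSetup.stabW_of_fix (S : NDUSetup q W W' M) {g : GL (Fin n) F} (hg : g ∈ GU n F q)
    (hfix : ∀ y ∈ W', (g : Matrix (Fin n) (Fin n) F) *ᵥ y = y) (x : Fin n → F) (hx : x ∈ W) :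
    (g : Matrix (Fin n) (Fin n) F) *ᵥ x ∈ W := by
  apply S.dperp
  intro y hy
  have := GU_form hg x y
  rw [hfix y hy] at this
  rw [this]
  exact S.horth x hx y hy

theorem NDUSetup.isoW'_center (S : NDUSetup q W W' M) {b : Fin n → F} (hb : b ∈ W')
    (hbb : hermForm n F q b b = 0) : b ∈ uCenters q M := by
  refine ⟨hbb, fun c hc => S.hHM ⟨mem_subspaceStabilizer_of_forall _ W ?_,
    unitTransv_mem_GU S.hF b c hbb hc, unitTransv_mem_specialLinear b c hbb⟩⟩
  intro x hx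
  rw [unitTransv_mulVec, S.horth x hx b hb, mul_zero, zero_smul, add_zero]
  exact hx

/-- A hyperbolic partner of an isotropic vector of a non-degenerate subspace. -/
theorem hyp_partner (hF : Fintype.card F = q ^ 2) (Y : Submodule F (Fin n → F))
    (hY : ∀ y ∈ Y, y ≠ 0 → ∃ x ∈ Y, hermForm n F q x y ≠ 0) (e : Fin n → F) (he : e ∈ Y)
    (he0 : e ≠ 0) (hee : hermForm n F q e e = 0) :
    ∃ f ∈ Y, hermForm n F q f f = 0 ∧ hermForm n F q f e = 1 := by
  obtain ⟨x, hx, hxe⟩ := hY e he he0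
  have hex : hermForm n F q e x ≠ 0 := fun h => hxe (herm_zero_symm hF h)
  obtain ⟨l, hl⟩ := exists_isotropic_add hF hee hex
  refine ⟨(hermForm n F q x e)⁻¹ • (x + l • e), Y.smul_mem _ (Y.add_mem hx (Y.smul_mem _ he)),
    ?_, ?_⟩
  · rw [hermForm_smul_left, hermForm_smul_right, hl, mul_zero, mul_zero]
  · rw [hermForm_smul_left, hermForm_add_left, hermForm_smul_left, hee, mul_zero, add_zero,
      inv_mul_cancel₀ hxe]

/-- Transitivity of the stabiliser on the mixed isotropic vectors with components of given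
norms. -/
theorem NDUSetup.trans (S : NDUSetup q W W' M) {a a₁ b b₁ : Fin n → F} (ha : a ∈ W)
    (ha₁ : a₁ ∈ W) (hb : b ∈ W') (hb₁ : b₁ ∈ W') (ha0 : a ≠ 0) (ha₁0 : a₁ ≠ 0) (hb0 : b ≠ 0)
    (hb₁0 : b₁ ≠ 0) (haa : hermForm n F q a₁ a₁ = hermForm n F q a a)
    (hbb : hermForm n F q b₁ b₁ = hermForm n F q b b) (hC : a + b ∈ uCenters q M) :
    a₁ + b₁ ∈ uCenters q M := by
  have hF := S.hF
  have hq := H17.two_le_of_card_sq hF
  obtain ⟨y₁, hy₁, hay₁⟩ := nd_one_right hF W S.hWnd a ha ha0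
  obtain ⟨y₂, hy₂, hby₂⟩ := nd_one_right hF W' S.hW'nd b hb hb0
  obtain ⟨g₁, hg₁U, hg₁fix, hg₁a⟩ := witt_move hF W' S.hW'nd a a₁ y₁
    (fun y hy => S.horth' y hy a ha) (fun y hy => S.horth' y hy a₁ ha₁)
    (fun y hy => S.horth' y hy y₁ hy₁) hay₁ haa ha₁0
  obtain ⟨g₂, hg₂U, hg₂fix, hg₂b⟩ := witt_move hF W S.hWnd b b₁ y₂
    (fun y hy => S.horth y hy b hb) (fun y hy => S.horth y hy b₁ hb₁)
    (fun y hy => S.horth y hy y₂ hy₂) hby₂ hbb hb₁0
  obtain ⟨c, hc, hc0, hcc, hcb⟩ := norm_perp hF W' S.hW'nd S.hd b₁ hb₁ 1 (one_pow q)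
  have hgU : g₂ * g₁ ∈ GU n F q := (GU n F q).mul_mem hg₂U hg₁U
  have hδ : ((g₂ * g₁ : GL (Fin n) F) : Matrix (Fin n) (Fin n) F).det ^ (q + 1) = 1 :=
    H17.gu_det_pow hF n _ (fun u v => (mem_GU_iff _).mp hgU u v)
  have hδ0 : ((g₂ * g₁ : GL (Fin n) F) : Matrix (Fin n) (Fin n) F).det ≠ 0 := by
    intro h
    rw [h, zero_pow (by omega)] at hδ
    exact zero_ne_one hδ
  obtain ⟨r, hrU, hrdet, hr⟩ := exists_qrefl hF c (by rw [hcc]; exact one_ne_zero)
    (((g₂ * g₁ : GL (Fin n) F) : Matrix (Fin n) (Fin n) F).det)⁻¹ (by rw [inv_pow, hδ, inv_one])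
  have hGU : r * (g₂ * g₁) ∈ GU n F q := (GU n F q).mul_mem hrU hgU
  have hG : r * (g₂ * g₁) ∈ M := by
    apply S.hHM
    refine ⟨mem_subspaceStabilizer_of_forall _ W ?_, hGU, ?_⟩
    · intro x hx
      have h1 : (g₁ : Matrix (Fin n) (Fin n) F) *ᵥ x ∈ W := S.stabW_of_fix hg₁U hg₁fix x hx
      rw [Units.val_mul, Units.val_mul, ← Matrix.mulVec_mulVec, ← Matrix.mulVec_mulVec,
        hg₂fix _ h1, hr, S.horth _ h1 c hc, mul_zero, zero_smul, add_zero]
      exact h1
    · show r * (g₂ * g₁) ∈ specialLinear (Fin n) F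
      rw [mem_specialLinear_iff, Units.val_mul, Matrix.det_mul, hrdet]
      exact inv_mul_cancel₀ hδ0
  have key := uCenters_mulVec hG hGU hC
  rw [Units.val_mul, Units.val_mul, ← Matrix.mulVec_mulVec, ← Matrix.mulVec_mulVec,
    Matrix.mulVec_add, hg₁a, hg₁fix b hb, Matrix.mulVec_add, hg₂fix a₁ ha₁, hg₂b, hr,
    hermForm_add_left, S.horth a₁ ha₁ c hc, herm_zero_symm hF hcb, add_zero, mul_zero,
    zero_smul, add_zero] at key
  exact key

/-- All isotropic vectors whose components are non-isotropic are centres as soon as one is. -/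
theorem NDUSetup.typeII (S : NDUSetup q W W' M) {a b a₁ b₁ : Fin n → F} (ha : a ∈ W)
    (hb : b ∈ W') (hs : hermForm n F q a a ≠ 0) (hC : a + b ∈ uCenters q M)
    (ha₁ : a₁ ∈ W) (hb₁ : b₁ ∈ W') (hs₁ : hermForm n F q a₁ a₁ ≠ 0)
    (hv : hermForm n F q (a₁ + b₁) (a₁ + b₁) = 0) : a₁ + b₁ ∈ uCenters q M := by
  have hF := S.hF
  have hq := H17.two_le_of_card_sq hF
  obtain ⟨hw, hCM⟩ := hC
  have hbn : hermForm n F q b b = -hermForm n F q a a := by
    simp only [hermForm_add_left, hermForm_add_right hF, S.horth a ha b hb,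
      S.horth' b hb a ha] at hw
    linear_combination hw
  have hb₁n : hermForm n F q b₁ b₁ = -hermForm n F q a₁ a₁ := by
    simp only [hermForm_add_left, hermForm_add_right hF, S.horth a₁ ha₁ b₁ hb₁,
      S.horth' b₁ hb₁ a₁ ha₁] at hv
    linear_combination hv
  have ha0 : a ≠ 0 := by
    rintro rfl
    exact hs (hermForm_zero_left 0)
  have ha₁0 : a₁ ≠ 0 := by
    rintro rfl
    exact hs₁ (hermForm_zero_left 0)
  have hb0 : b ≠ 0 := by
    rintro rfl
    rw [hermForm_zero_left] at hbn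
    exact hs (by linear_combination hbn)
  have hb₁0 : b₁ ≠ 0 := by
    rintro rfl
    rw [hermForm_zero_left] at hb₁n
    exact hs₁ (by linear_combination hb₁n)
  obtain ⟨l, hl⟩ := norm_surj hF (hermForm n F q a a / hermForm n F q a₁ a₁)
    (by rw [div_pow, herm_self_frob hF, herm_self_frob hF]) (div_ne_zero hs hs₁)
  have hl0 : l ≠ 0 := by
    rintro rfl
    rw [zero_pow (by omega)] at hl
    exact (div_ne_zero hs hs₁) hl.symm
  have hl' : l * l ^ q * hermForm n F q a₁ a₁ = hermForm n F q a a := by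
    rw [← pow_succ', hl]
    field_simp
  have key := S.trans ha (W.smul_mem l ha₁) hb (W'.smul_mem l hb₁) ha0 (smul_ne_zero hl0 ha₁0)
    hb0 (smul_ne_zero hl0 hb₁0)
    (by rw [hermForm_smul_left, hermForm_smul_right]; linear_combination hl')
    (by rw [hermForm_smul_left, hermForm_smul_right, hbn, hb₁n]; linear_combination -hl') ⟨hw, hCM⟩
  have := uCenters_smul hF key l⁻¹
  rwa [smul_add, smul_smul, smul_smul, inv_mul_cancel₀ hl0, one_smul, one_smul] at this

end NDU3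

end Cfsg.Agent.H95
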