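import Cfsg.Agent.H95.NDU3

set_option autoImplicit false
set_option linter.unusedSectionVars false
set_option linter.unusedVariables false

/-! Helper lemmas (helper95): the stabiliser of a non-degenerate subspace `W` of dimension
less than half is maximal in `SU_n(q)` (main argument). -/

namespace Cfsg.Agent.H95

open Cfsg Cfsg.Geo Module
open scoped MatrixGroups Matrix

section NDU4

variable {n : ℕ} {F : Type*} [Field F] [Fintype F] {q : ℕ}
variable {W W' : Submodule F (Fin n → F)} {M : Subgroup (GL (Fin n) F)}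

/-- From a mixed centre to a mixed centre with non-isotropic components. -/
theorem NDUSetup.exists_typeII (S : NDUSetup q W W' M) {a b : Fin n → F} (ha : a ∈ W)
    (hb : b ∈ W') (ha0 : a ≠ 0) (hb0 : b ≠ 0) (hC : a + b ∈ uCenters q M) :
    ∃ a' ∈ W, ∃ b' ∈ W', hermForm n F q a' a' ≠ 0 ∧ a' + b' ∈ uCenters q M := by
  have hF := S.hF
  have hq := H17.two_le_of_card_sq hF
  by_cases hs : hermForm n F q a a = 0
  swap
  · exact ⟨a, ha, b, hb, hs, hC⟩
  have hw := hC.1
  have hbb : hermForm n F q b b = 0 := by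
    simp only [hermForm_add_left, hermForm_add_right hF, S.horth a ha b hb,
      S.horth' b hb a ha, hs] at hw
    linear_combination hw
  obtain ⟨a₂, ha₂, ha₂a₂, ha₂a⟩ := hyp_partner hF W S.hWnd a ha ha0 hs
  obtain ⟨b₂, hb₂, hb₂b₂, hb₂b⟩ := hyp_partner hF W' S.hW'nd b hb hb0 hbb
  obtain ⟨θ, hθ⟩ := exists_not_fixed hF
  obtain ⟨ε, hε0, hε⟩ := H17.exists_eps hF
  have hθ0 : θ ≠ 0 := by
    rintro rfl
    exact hθ (zero_pow (by omega))
  have ha₂0 : a₂ ≠ 0 := by
    rintro rfl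
    rw [hermForm_zero_left] at ha₂a
    exact zero_ne_one ha₂a
  have hb₂0 : b₂ ≠ 0 := by
    rintro rfl
    rw [hermForm_zero_left] at hb₂b
    exact zero_ne_one hb₂b
  have hwC : a₂ + θ • b₂ ∈ uCenters q M :=
    S.trans ha ha₂ hb (W'.smul_mem θ hb₂) ha0 ha₂0 hb0 (smul_ne_zero hθ0 hb₂0)
      (by rw [ha₂a₂, hs])
      (by rw [hermForm_smul_left, hermForm_smul_right, hb₂b₂, hbb, mul_zero, mul_zero]) hC
  have key := uCenters_transv hF hC hwC ε (by rw [hε]; ring)
  have hwu : hermForm n F q (a₂ + θ • b₂) (a + b) = 1 + θ := by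
    simp only [hermForm_add_left, hermForm_add_right hF, hermForm_smul_left, ha₂a, hb₂b,
      S.horth a₂ ha₂ b hb, S.horth' b₂ hb₂ a ha]
    ring
  rw [hwu] at key
  have haa₂ : hermForm n F q a a₂ = 1 := by rw [hermForm_herm hF a₂ a, ha₂a, one_pow]
  refine ⟨a₂ + (ε * (1 + θ)) • a, W.add_mem ha₂ (W.smul_mem _ ha),
    θ • b₂ + (ε * (1 + θ)) • b, W'.add_mem (W'.smul_mem _ hb₂) (W'.smul_mem _ hb), ?_, ?_⟩
  · simp only [hermForm_add_left, hermForm_add_right hF, hermForm_smul_left, hermForm_smul_right,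
      ha₂a₂, ha₂a, haa₂, hs]
    rw [mul_pow, hε, H17.frob_add hF, one_pow]
    intro h
    have h2 : ε * (θ - θ ^ q) = 0 := by linear_combination h
    rcases mul_eq_zero.mp h2 with h3 | h3
    · exact hε0 h3
    · exact hθ (sub_eq_zero.mp h3).symm
  · have he : a₂ + (ε * (1 + θ)) • a + (θ • b₂ + (ε * (1 + θ)) • b)
        = a₂ + θ • b₂ + (ε * (1 + θ)) • (a + b) := by module
    rw [he]
    exact key

/-- Mixed isotropic vectors with isotropic components are centres once all those with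
non-isotropic components are. -/
theorem NDUSetup.typeI (S : NDUSetup q W W' M)
    (hII : ∀ a₁ ∈ W, ∀ b₁ ∈ W', hermForm n F q a₁ a₁ ≠ 0 →
      hermForm n F q (a₁ + b₁) (a₁ + b₁) = 0 → a₁ + b₁ ∈ uCenters q M)
    {a b : Fin n → F} (ha : a ∈ W) (hb : b ∈ W') (ha0 : a ≠ 0)
    (haa : hermForm n F q a a = 0) (hbb : hermForm n F q b b = 0) :
    a + b ∈ uCenters q M := by
  have hF := S.hF
  have hq := H17.two_le_of_card_sq hF
  obtain ⟨a₂, ha₂, ha₂a₂, ha₂a⟩ := hyp_partner hF W S.hWnd a ha ha0 haa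
  have haa₂ : hermForm n F q a a₂ = 1 := by rw [hermForm_herm hF a₂ a, ha₂a, one_pow]
  obtain ⟨τ, hτ⟩ := exists_trace_one hF
  obtain ⟨ε, hε0, hε⟩ := H17.exists_eps hF
  obtain ⟨b₁, hb₁, hb₁0, hb₁n, hb₁b⟩ := norm_perp hF W' S.hW'nd S.hd b hb (-1)
    (by rw [H17.frob_neg hF, one_pow])
  have hbb₁ : hermForm n F q b b₁ = 0 := herm_zero_symm hF hb₁b
  -- a₁ = a₂ + τ a
  have ha₁ : a₂ + τ • a ∈ W := W.add_mem ha₂ (W.smul_mem _ ha)
  have ha₁n : hermForm n F q (a₂ + τ • a) (a₂ + τ • a) = 1 := by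
    simp only [hermForm_add_left, hermForm_add_right hF, hermForm_smul_left, hermForm_smul_right,
      ha₂a₂, ha₂a, haa₂, haa]
    linear_combination hτ
  have haa₁ : hermForm n F q a (a₂ + τ • a) = 1 := by
    rw [hermForm_add_right hF, hermForm_smul_right, haa, haa₂, mul_zero, add_zero]
  have ha₁a : hermForm n F q (a₂ + τ • a) a = 1 := by
    rw [hermForm_add_left, hermForm_smul_left, haa, ha₂a, mul_zero, add_zero]
  generalize a₂ + τ • a = a₁ at ha₁ ha₁n haa₁ ha₁a
  have hu : hermForm n F q (a₁ + b₁) (a₁ + b₁) = 0 := by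
    rw [hermForm_add_left, hermForm_add_right hF, hermForm_add_right hF, ha₁n, hb₁n,
      S.horth _ ha₁ b₁ hb₁, S.horth' b₁ hb₁ _ ha₁]
    ring
  have huC : a₁ + b₁ ∈ uCenters q M :=
    hII _ ha₁ b₁ hb₁ (by rw [ha₁n]; exact one_ne_zero) hu
  -- w = (a - ε a₁) + (b - ε b₁)
  have hwW : a - ε • a₁ ∈ W := W.sub_mem ha (W.smul_mem _ ha₁)
  have hwW' : b - ε • b₁ ∈ W' := W'.sub_mem hb (W'.smul_mem _ hb₁)
  have hwn : hermForm n F q (a - ε • a₁) (a - ε • a₁) = -(ε * ε) := by
    rw [hermForm_sub_left', hermForm_sub_right' hF, hermForm_sub_right' hF, hermForm_smul_left,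
      hermForm_smul_left, hermForm_smul_right, hermForm_smul_right, haa, haa₁, ha₁a, ha₁n, hε]
    ring
  have hwn' : hermForm n F q (b - ε • b₁) (b - ε • b₁) = ε * ε := by
    rw [hermForm_sub_left', hermForm_sub_right' hF, hermForm_sub_right' hF, hermForm_smul_left,
      hermForm_smul_left, hermForm_smul_right, hermForm_smul_right, hbb, hbb₁, hb₁b, hb₁n, hε]
    ring
  obtain ⟨wa, hwa⟩ : ∃ wa, wa = a - ε • a₁ := ⟨_, rfl⟩
  obtain ⟨wb, hwb⟩ : ∃ wb, wb = b - ε • b₁ := ⟨_, rfl⟩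
  rw [← hwa] at hwW hwn
  rw [← hwb] at hwW' hwn'
  have hw : hermForm n F q (wa + wb) (wa + wb) = 0 := by
    rw [hermForm_add_left, hermForm_add_right hF, hermForm_add_right hF, hwn, hwn',
      S.horth _ hwW _ hwW', S.horth' _ hwW' _ hwW]
    ring
  have hwC : wa + wb ∈ uCenters q M :=
    hII _ hwW _ hwW' (by rw [hwn]; exact neg_ne_zero.mpr (mul_ne_zero hε0 hε0)) hw
  have key := uCenters_transv hF huC hwC ε (by rw [hε]; ring)
  have hwu : hermForm n F q (wa + wb) (a₁ + b₁) = 1 := by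
    rw [hermForm_add_left, hermForm_add_right hF, hermForm_add_right hF,
      S.horth _ hwW b₁ hb₁, S.horth' _ hwW' _ ha₁, hwa, hwb, hermForm_sub_left',
      hermForm_sub_left', hermForm_smul_left, hermForm_smul_left, haa₁, ha₁n, hbb₁, hb₁n]
    ring
  rw [hwu, mul_one] at key
  have he : wa + wb + ε • (a₁ + b₁) = a + b := by
    rw [hwa, hwb]
    module
  rw [he] at key
  exact key

/-- An overgroup not stabilising `W` has a mixed centre. -/
theorem NDUSetup.exists_mixed (S : NDUSetup q W W' M)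
    (hMS : M ≤ GU n F q ⊓ specialLinear (Fin n) F) (hlt : finrank F W < finrank F W')
    (g : GL (Fin n) F) (hgM : g ∈ M) (hg : g ∉ subspaceStabilizer W) :
    ∃ w ∈ uCenters q M, w ∉ W ∧ w ∉ W' := by
  classical
  have hF := S.hF
  by_contra hcon
  push Not at hcon
  have hgU : g ∈ GU n F q := (hMS hgM).1
  have hor : ∀ b ∈ W', hermForm n F q b b = 0 →
      (g : Matrix (Fin n) (Fin n) F) *ᵥ b ∈ W ∨ (g : Matrix (Fin n) (Fin n) F) *ᵥ b ∈ W' := by
    intro b hb hbb
    by_cases h : (g : Matrix (Fin n) (Fin n) F) *ᵥ b ∈ W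
    · exact Or.inl h
    · exact Or.inr (hcon _ (uCenters_mulVec hgM hgU (S.isoW'_center hb hbb)) h)
  have hstep : ∀ b ∈ W', ∀ b' ∈ W', hermForm n F q b b = 0 → hermForm n F q b' b' = 0 →
      hermForm n F q b b' = 0 → b ≠ 0 → (g : Matrix (Fin n) (Fin n) F) *ᵥ b ∈ W' →
      (g : Matrix (Fin n) (Fin n) F) *ᵥ b' ∈ W' := by
    intro b hb b' hb' hbb hb'b' hbb' hb0 hgb
    by_contra hgb'
    have hgb'W : (g : Matrix (Fin n) (Fin n) F) *ᵥ b' ∈ W := (hor b' hb' hb'b').resolve_right hgb'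
    have hsum : hermForm n F q (b + b') (b + b') = 0 := by
      rw [hermForm_add_left, hermForm_add_right hF, hermForm_add_right hF, hbb, hb'b', hbb',
        herm_zero_symm hF hbb']
      ring
    rcases hor (b + b') (W'.add_mem hb hb') hsum with h | h
    · rw [Matrix.mulVec_add] at h
      have h1 : (g : Matrix (Fin n) (Fin n) F) *ᵥ b ∈ W := by
        have := W.sub_mem h hgb'W
        rwa [add_sub_cancel_right] at this
      have h2 := S.disj _ h1 hgb
      apply hb0
      apply mulVec_injective g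
      show (g : Matrix (Fin n) (Fin n) F) *ᵥ b = (g : Matrix (Fin n) (Fin n) F) *ᵥ 0
      rw [h2, Matrix.mulVec_zero]
    · rw [Matrix.mulVec_add] at h
      apply hgb'
      have := W'.sub_mem h hgb
      rwa [add_sub_cancel_left] at this
  have hconn : ∀ b ∈ W', ∀ b' ∈ W', hermForm n F q b b = 0 → hermForm n F q b' b' = 0 →
      b ≠ 0 → (g : Matrix (Fin n) (Fin n) F) *ᵥ b ∈ W' →
      (g : Matrix (Fin n) (Fin n) F) *ᵥ b' ∈ W' := by
    intro b hb b' hb' hbb hb'b' hb0 hgb
    obtain ⟨c, hc, hc0, hcc, hcb, hcb'⟩ := iso_perp_two hF W' S.hd b b'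
    have h1 := hstep b hb c hc hbb hcc (herm_zero_symm hF hcb) hb0 hgb
    exact hstep c hc b' hb' hcc hb'b' hcb' hc0 h1
  obtain ⟨e, he, he0, hee, -, -⟩ := iso_perp_two hF W' S.hd 0 0
  by_cases hP : (g : Matrix (Fin n) (Fin n) F) *ᵥ e ∈ W'
  · have hall : ∀ y ∈ W', (g : Matrix (Fin n) (Fin n) F) *ᵥ y ∈ W' := by
      intro y hy
      have hspan := iso_span hF W' S.hW'nd S.hd y hy
      have hle : Submodule.span F {s : Fin n → F | s ∈ W' ∧ hermForm n F q s s = 0} ≤
          W'.comap (Matrix.toLin' (g : Matrix (Fin n) (Fin n) F)) := by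
        rw [Submodule.span_le]
        rintro s ⟨hs, hss⟩
        show Matrix.toLin' (g : Matrix (Fin n) (Fin n) F) s ∈ W'
        rw [Matrix.toLin'_apply]
        exact hconn e he s hs hee hss he0 hP
      have := hle hspan
      rwa [Submodule.mem_comap, Matrix.toLin'_apply] at this
    have hst : g ∈ subspaceStabilizer W' := mem_subspaceStabilizer_of_forall g W' hall
    apply hg
    apply mem_subspaceStabilizer_of_forall g W
    intro x hx
    apply S.dperp
    intro y hy
    have hy' : ((g⁻¹ : GL (Fin n) F) : Matrix (Fin n) (Fin n) F) *ᵥ y ∈ W' := by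
      rw [(mem_subspaceStabilizer_iff g W').mp hst, Matrix.mulVec_mulVec, ← Units.val_mul,
        mul_inv_cancel, Units.val_one, Matrix.one_mulVec]
      exact hy
    have h1 := GU_form hgU x (((g⁻¹ : GL (Fin n) F) : Matrix (Fin n) (Fin n) F) *ᵥ y)
    rw [Matrix.mulVec_mulVec, ← Units.val_mul, mul_inv_cancel, Units.val_one,
      Matrix.one_mulVec] at h1
    rw [h1]
    exact S.horth x hx _ hy'
  · have hall : ∀ y ∈ W', (g : Matrix (Fin n) (Fin n) F) *ᵥ y ∈ W := by
      intro y hy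
      have hspan := iso_span hF W' S.hW'nd S.hd y hy
      have hle : Submodule.span F {s : Fin n → F | s ∈ W' ∧ hermForm n F q s s = 0} ≤
          W.comap (Matrix.toLin' (g : Matrix (Fin n) (Fin n) F)) := by
        rw [Submodule.span_le]
        rintro s ⟨hs, hss⟩
        show Matrix.toLin' (g : Matrix (Fin n) (Fin n) F) s ∈ W
        rw [Matrix.toLin'_apply]
        by_cases hs0 : s = 0
        · rw [hs0, Matrix.mulVec_zero]
          exact W.zero_mem
        · rcases hor s hs hss with h | h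
          · exact h
          · exact absurd (hconn s hs e he hss hee hs0 h) hP
      have := hle hspan
      rwa [Submodule.mem_comap, Matrix.toLin'_apply] at this
    let φ : W' →ₗ[F] W := LinearMap.codRestrict W
      ((Matrix.toLin' (g : Matrix (Fin n) (Fin n) F)).domRestrict W')
      (fun b' => by
        rw [LinearMap.domRestrict_apply, Matrix.toLin'_apply]
        exact hall b' b'.2)
    have hφ : Function.Injective φ := by
      intro x y hxy
      apply Subtype.ext
      apply mulVec_injective g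
      have := congrArg Subtype.val hxy
      simpa [φ] using this
    have := LinearMap.finrank_le_finrank_of_injective hφ
    omega

/-- The stabiliser of a non-degenerate subspace of dimension less than half is maximal in
`SU_n(q)`. -/
theorem ndU_isMaximalIn (hF : Fintype.card F = q ^ 2) (hn : 13 ≤ n)
    (W : Submodule F (Fin n → F)) (hW0 : W ≠ ⊥)
    (hW : IsNondegenerateOn (hermForm n F q) W) (hdim : 2 * finrank F W < n) :
    IsMaximalIn (GU n F q ⊓ specialLinear (Fin n) F)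
      (subspaceStabilizer W ⊓ (GU n F q ⊓ specialLinear (Fin n) F)) := by
  classical
  have hq := H17.two_le_of_card_sq hF
  have hWnd : ∀ y ∈ W, y ≠ 0 → ∃ x ∈ W, hermForm n F q x y ≠ 0 :=
    fun y hy hy0 => (hW y hy hy0).1
  obtain ⟨W', hW'def⟩ : ∃ W', W' = hermPerp q W := ⟨_, rfl⟩
  have horth' : ∀ b ∈ W', ∀ a ∈ W, hermForm n F q b a = 0 := by
    intro b hb a ha
    rw [hW'def] at hb
    exact hb a ha
  have horth : ∀ a ∈ W, ∀ b ∈ W', hermForm n F q a b = 0 :=
    fun a ha b hb => herm_zero_symm hF (horth' b hb a ha)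
  have hdisj : W ⊓ W' = ⊥ := by
    rw [Submodule.eq_bot_iff]
    rintro y ⟨hy, hy'⟩
    by_contra hy0
    obtain ⟨x, hx, hxy⟩ := hWnd y hy hy0
    exact hxy (horth x hx y hy')
  have hge := finrank_hermPerp_ge hF W
  rw [← hW'def] at hge
  have hVn : finrank F (Fin n → F) = n := by
    rw [Module.finrank_pi, Fintype.card_fin]
  have hsupdim := finrank_sup_of_inf_bot W W' hdisj
  have hsuple := Submodule.finrank_le (W ⊔ W')
  rw [hVn] at hsuple
  have hsup : W ⊔ W' = ⊤ := by
    apply Submodule.eq_top_of_finrank_eq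
    rw [hVn]
    omega
  have hfin : finrank F W + finrank F W' = n := by omega
  have hdec : ∀ v : Fin n → F, ∃ a ∈ W, ∃ b ∈ W', v = a + b := by
    intro v
    have : v ∈ W ⊔ W' := by rw [hsup]; trivial
    obtain ⟨a, ha, b, hb, hab⟩ := Submodule.mem_sup.mp this
    exact ⟨a, ha, b, hb, hab.symm⟩
  have hW'nd : ∀ y ∈ W', y ≠ 0 → ∃ x ∈ W', hermForm n F q x y ≠ 0 := by
    intro y hy hy0
    by_contra hcon
    push Not at hcon
    apply hy0
    apply H17.hermForm_nd_left hF n y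
    intro c
    obtain ⟨a, ha, b, hb, rfl⟩ := hdec c
    rw [hermForm_add_left, horth a ha y hy, hcon b hb, add_zero]
  have hdisj' : ∀ y, y ∈ W → y ∈ W' → y = 0 := by
    intro y hy hy'
    have : y ∈ W ⊓ W' := ⟨hy, hy'⟩
    rw [hdisj] at this
    exact (Submodule.mem_bot F).mp this
  refine ⟨lt_of_le_of_ne inf_le_right ?_, ?_⟩
  · -- proper
    intro hEq
    obtain ⟨a₀, ha₀, ha₀0⟩ := Submodule.exists_mem_ne_zero_of_ne_bot hW0
    obtain ⟨b₀, hb₀, hb₀0, hb₀n, -⟩ := norm_perp hF W' hW'nd (by omega) 0 W'.zero_mem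
      (-(hermForm n F q a₀ a₀)) (by rw [H17.frob_neg hF, herm_self_frob hF])
    have hu : hermForm n F q (a₀ + b₀) (a₀ + b₀) = 0 := by
      rw [hermForm_add_left, hermForm_add_right hF, hermForm_add_right hF, hb₀n,
        horth a₀ ha₀ b₀ hb₀, horth' b₀ hb₀ a₀ ha₀]
      ring
    obtain ⟨ε, hε0, hε⟩ := H17.exists_eps hF
    obtain ⟨x, hx, hxa⟩ := nd_one_left hF W hWnd a₀ ha₀ ha₀0
    have hT : unitTransv q (a₀ + b₀) ε hu ∈
        subspaceStabilizer W ⊓ (GU n F q ⊓ specialLinear (Fin n) F) := by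
      rw [hEq]
      exact ⟨unitTransv_mem_GU hF _ ε hu (by rw [hε]; ring), unitTransv_mem_specialLinear _ ε hu⟩
    have h1 := ((mem_subspaceStabilizer_iff _ W).mp hT.1 x).mp hx
    rw [unitTransv_mulVec, hermForm_add_right hF, hxa, horth x hx b₀ hb₀, add_zero, mul_one] at h1
    have h2 : ε • (a₀ + b₀) ∈ W := by
      have := W.sub_mem h1 hx
      rwa [add_sub_cancel_left] at this
    have h3 : a₀ + b₀ ∈ W := by
      have := W.smul_mem ε⁻¹ h2
      rwa [smul_smul, inv_mul_cancel₀ hε0, one_smul] at this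
    have h4 : b₀ ∈ W := by
      have := W.sub_mem h3 ha₀
      rwa [add_sub_cancel_left] at this
    exact hb₀0 (hdisj' b₀ h4 hb₀)
  · intro M hHM hMS
    by_cases hMH : M = subspaceStabilizer W ⊓ (GU n F q ⊓ specialLinear (Fin n) F)
    · exact Or.inl hMH
    right
    apply le_antisymm hMS
    apply suGL_le_of_transv hF (by omega) (by omega) M
    have S : NDUSetup q W W' M := ⟨hF, hWnd, hW'nd, horth, hdec, by omega, hHM⟩
    obtain ⟨g, hgM, hgW⟩ : ∃ g ∈ M, g ∉ subspaceStabilizer W := by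
      by_contra hcon
      push Not at hcon
      exact hMH (le_antisymm (fun g hg => ⟨hcon g hg, hMS hg⟩) hHM)
    obtain ⟨w, hwC, hwW, hwW'⟩ := S.exists_mixed hMS (by omega) g hgM hgW
    obtain ⟨a, ha, b, hb, rfl⟩ := hdec w
    have ha0 : a ≠ 0 := by
      rintro rfl
      rw [zero_add] at hwW'
      exact hwW' hb
    have hb0 : b ≠ 0 := by
      rintro rfl
      rw [add_zero] at hwW
      exact hwW ha
    obtain ⟨a', ha', b', hb', hs', hC'⟩ := S.exists_typeII ha hb ha0 hb0 hwC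
    have hII : ∀ a₁ ∈ W, ∀ b₁ ∈ W', hermForm n F q a₁ a₁ ≠ 0 →
        hermForm n F q (a₁ + b₁) (a₁ + b₁) = 0 → a₁ + b₁ ∈ uCenters q M :=
      fun a₁ ha₁ b₁ hb₁ hs₁ hv => S.typeII ha' hb' hs' hC' ha₁ hb₁ hs₁ hv
    have hall : ∀ v : Fin n → F, hermForm n F q v v = 0 → v ∈ uCenters q M := by
      intro v hv
      obtain ⟨a₁, ha₁, b₁, hb₁, rfl⟩ := hdec v
      by_cases hs₁ : hermForm n F q a₁ a₁ = 0
      · have hb₁b₁ : hermForm n F q b₁ b₁ = 0 := by
          rw [hermForm_add_left, hermForm_add_right hF, hermForm_add_right hF, hs₁,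
            horth a₁ ha₁ b₁ hb₁, horth' b₁ hb₁ a₁ ha₁] at hv
          linear_combination hv
        by_cases ha₁0 : a₁ = 0
        · rw [ha₁0, zero_add]
          exact S.isoW'_center hb₁ hb₁b₁
        · exact S.typeI hII ha₁ hb₁ ha₁0 hs₁ hb₁b₁
      · exact hII a₁ ha₁ b₁ hb₁ hs₁ hv
    intro v c hv hc
    exact uCenters_of_mem (hall v hv) c hv hc

end NDU4

end Cfsg.Agent.H95
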