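import Cfsg.Agent.H95.Eich

set_option autoImplicit false
set_option linter.unusedSectionVars false

/-! Helper lemmas (helper95): in `Ω(Q)` the stabiliser of a non-singular point is maximal
(any characteristic, dimension at least seven). -/

namespace Cfsg.Agent.H95

open Module Matrix Cfsg.Agent.H49

section
variable {ι : Type} [Fintype ι] [DecidableEq ι] {F : Type*} [Field F]

/-- A singular `u` orthogonal to `v` and `v'` is a full point as soon as the Siegel elements at
`u` inside `v^⊥` and inside `v'^⊥` lie in `M` and `v ∉ ⟨u, v'⟩`. -/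
theorem fullPts_of_two_perps [Finite F] (Q : QuadraticForm F (ι → F))
    (hQ : (QuadraticMap.polarBilin Q).Nondegenerate)
    (M : Subgroup ↥(Cfsg.isometryGroup F (⇑Q))) (h7 : 7 ≤ finrank F (ι → F))
    (u v v' : ι → F) (hu : Q u = 0)
    (hnot : v ∉ Submodule.span F {u, v'})
    (hA : ∀ z : ι → F, Q z = 0 → QuadraticMap.polar (⇑Q) u z = 0 →
      QuadraticMap.polar (⇑Q) v z = 0 → eichDir Q M u z)
    (hA' : ∀ z : ι → F, Q z = 0 → QuadraticMap.polar (⇑Q) u z = 0 →
      QuadraticMap.polar (⇑Q) v' z = 0 → eichDir Q M u z) :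
    u ∈ fullPts Q M := by
  apply mem_fullPts_of_eichDir Q M u hu
  intro z hz
  obtain ⟨e₁, e₁', he₁, he₁', hee₁, h1X, h1X'⟩ := exists_hyp_pair_orth Q hQ
    (Submodule.span F {u, v}) (by have := finrank_span_pair_le (F := F) u v; omega)
  obtain ⟨e₂, e₂', he₂, he₂', hee₂, h2X, h2X'⟩ := exists_hyp_pair_orth Q hQ
    (Submodule.span F {u, v'}) (by have := finrank_span_pair_le (F := F) u v'; omega)
  have hmem : ∀ (X : Submodule F (ι → F)) (y : ι → F),
      (∀ a ∈ X, QuadraticMap.polar (⇑Q) a y = 0) →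
      y ∈ LinearMap.BilinForm.orthogonal (QuadraticMap.polarBilin Q) X :=
    fun X y h => LinearMap.BilinForm.mem_orthogonal_iff.mpr h
  have hD₁ : ∀ a ∈ LinearMap.BilinForm.orthogonal (QuadraticMap.polarBilin Q)
      (Submodule.span F {u, v}), eichDir Q M u a := by
    intro a ha
    refine eichDir_of_mem Q M u hu _ e₁ e₁' (hmem _ _ h1X) (hmem _ _ h1X') he₁ he₁' hee₁ ?_ a ha
    intro y hy hQy
    have hy' := LinearMap.BilinForm.mem_orthogonal_iff.mp hy
    exact hA y hQy (hy' u (Submodule.subset_span (by simp)))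
      (hy' v (Submodule.subset_span (by simp)))
  have hD₂ : ∀ a ∈ LinearMap.BilinForm.orthogonal (QuadraticMap.polarBilin Q)
      (Submodule.span F {u, v'}), eichDir Q M u a := by
    intro a ha
    refine eichDir_of_mem Q M u hu _ e₂ e₂' (hmem _ _ h2X) (hmem _ _ h2X') he₂ he₂' hee₂ ?_ a ha
    intro y hy hQy
    have hy' := LinearMap.BilinForm.mem_orthogonal_iff.mp hy
    exact hA' y hQy (hy' u (Submodule.subset_span (by simp)))
      (hy' v' (Submodule.subset_span (by simp)))
  obtain ⟨t, htX, htv⟩ := exists_orth_polar_ne Q hQ (Submodule.span F {u, v'}) v hnot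
  have e : z = (z - (QuadraticMap.polar (⇑Q) v z / QuadraticMap.polar (⇑Q) v t) • t)
      + (QuadraticMap.polar (⇑Q) v z / QuadraticMap.polar (⇑Q) v t) • t := by module
  rw [e]
  apply eichDir_add Q M u _ _ hu
  · apply hD₁
    apply hmem
    apply polar_span_pair Q u v
    · rw [QuadraticMap.polar_sub_right, QuadraticMap.polar_smul_right, hz,
        htX u (Submodule.subset_span (by simp))]
      simp
    · rw [QuadraticMap.polar_sub_right, QuadraticMap.polar_smul_right, smul_eq_mul,
        div_mul_cancel₀ _ htv, sub_self]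
  · apply eichDir_smul
    exact hD₂ t (hmem _ _ htX)

/-- Core of the maximality of the stabiliser of a non-singular point. -/
theorem nonsing_point_core [Fintype F] (Q : QuadraticForm F (ι → F))
    (hQ : (QuadraticMap.polarBilin Q).Nondegenerate) (h3 : HasTS3 Q)
    (h7 : 7 ≤ finrank F (ι → F)) (v : ι → F)
    (M : Subgroup ↥(Cfsg.isometryGroup F (⇑Q)))
    (hM : ∀ g ∈ commutator ↥(Cfsg.isometryGroup F (⇑Q)), act g v = v → g ∈ M)
    (g₀ : ↥(Cfsg.isometryGroup F (⇑Q))) (hg₀ : g₀ ∈ M)
    (hgv : act g₀ v ∉ Submodule.span F {v}) :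
    commutator ↥(Cfsg.isometryGroup F (⇑Q)) ≤ M := by
  obtain ⟨v', hv'⟩ : ∃ v', v' = act g₀ v := ⟨_, rfl⟩
  rw [← hv'] at hgv
  have hA : ∀ (u z : ι → F) (hu : Q u = 0) (hz : Q z = 0)
      (huz : QuadraticMap.polar (⇑Q) u z = 0), QuadraticMap.polar (⇑Q) u v = 0 →
      QuadraticMap.polar (⇑Q) z v = 0 → ∀ c : F, siegelG Q u z hu hz huz c ∈ M := by
    intro u z hu hz huz h1 h2 c
    apply hM _ (siegelG_mem_commutator Q hQ h3 u z hu hz huz c)
    rw [act_siegelG, h1, h2]
    simp
  have hA' : ∀ (u z : ι → F) (hu : Q u = 0) (hz : Q z = 0)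
      (huz : QuadraticMap.polar (⇑Q) u z = 0), QuadraticMap.polar (⇑Q) u v' = 0 →
      QuadraticMap.polar (⇑Q) z v' = 0 → ∀ c : F, siegelG Q u z hu hz huz c ∈ M := by
    intro u z hu hz huz h1 h2 c
    have hu' : Q (act g₀⁻¹ u) = 0 := by rw [Q_act]; exact hu
    have hz' : Q (act g₀⁻¹ z) = 0 := by rw [Q_act]; exact hz
    have huz' : QuadraticMap.polar (⇑Q) (act g₀⁻¹ u) (act g₀⁻¹ z) = 0 := by
      rw [polar_act]; exact huz
    have h1' : QuadraticMap.polar (⇑Q) (act g₀⁻¹ u) v = 0 := by
      rw [polar_act_left, inv_inv, ← hv']; exact h1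
    have h2' : QuadraticMap.polar (⇑Q) (act g₀⁻¹ z) v = 0 := by
      rw [polar_act_left, inv_inv, ← hv']; exact h2
    have key := conj_siegelG Q g₀ (act g₀⁻¹ u) (act g₀⁻¹ z) hu' hz' huz' c
    have e : siegelG Q u z hu hz huz c
        = g₀ * siegelG Q (act g₀⁻¹ u) (act g₀⁻¹ z) hu' hz' huz' c * g₀⁻¹ := by
      rw [key]
      exact siegelG_congr Q _ _ _ _ _ _ _ _ _ _ c c (act_act_inv g₀ u).symm
        (act_act_inv g₀ z).symm rfl
    rw [e]
    exact M.mul_mem (M.mul_mem hg₀ (hA _ _ hu' hz' huz' h1' h2' c)) (M.inv_mem hg₀)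
  have hnot : ∀ u w : ι → F, QuadraticMap.polar (⇑Q) u w ≠ 0 →
      QuadraticMap.polar (⇑Q) v w = 0 → QuadraticMap.polar (⇑Q) v' w = 0 →
      v ∉ Submodule.span F {u, v'} := by
    intro u w huw hvw hv'w hmem
    obtain ⟨a, b, hab⟩ := Submodule.mem_span_pair.mp hmem
    have h1 : QuadraticMap.polar (⇑Q) v w = a * QuadraticMap.polar (⇑Q) u w := by
      rw [← hab, QuadraticMap.polar_add_left, QuadraticMap.polar_smul_left,
        QuadraticMap.polar_smul_left, hv'w]
      simp
    rw [hvw] at h1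
    have ha : a = 0 := by
      rcases mul_eq_zero.mp h1.symm with h | h
      · exact h
      · exact absurd h huw
    rw [ha, zero_smul, zero_add] at hab
    by_cases hb : b = 0
    · rw [hb, zero_smul] at hab
      apply hgv
      rw [hv', ← hab, act_zero]
      exact Submodule.zero_mem _
    · apply hgv
      have : v' = b⁻¹ • v := by rw [← hab, smul_smul, inv_mul_cancel₀ hb, one_smul]
      rw [this]
      exact Submodule.smul_mem _ _ (Submodule.mem_span_singleton_self v)
  obtain ⟨u₁, u₂, hu₁, hu₂, h12, h1X, h2X⟩ := exists_hyp_pair_orth Q hQ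
    (Submodule.span F {v, v'}) (by have := finrank_span_pair_le (F := F) v v'; omega)
  have h21 : QuadraticMap.polar (⇑Q) u₂ u₁ = 1 := by rw [QuadraticMap.polar_comm]; exact h12
  have hvu₁ : QuadraticMap.polar (⇑Q) v u₁ = 0 := h1X v (Submodule.subset_span (by simp))
  have hv'u₁ : QuadraticMap.polar (⇑Q) v' u₁ = 0 := h1X v' (Submodule.subset_span (by simp))
  have hvu₂ : QuadraticMap.polar (⇑Q) v u₂ = 0 := h2X v (Submodule.subset_span (by simp))
  have hv'u₂ : QuadraticMap.polar (⇑Q) v' u₂ = 0 := h2X v' (Submodule.subset_span (by simp))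
  have hfull : ∀ u w : ι → F, Q u = 0 → QuadraticMap.polar (⇑Q) u w ≠ 0 →
      QuadraticMap.polar (⇑Q) v w = 0 → QuadraticMap.polar (⇑Q) v' w = 0 →
      QuadraticMap.polar (⇑Q) v u = 0 → QuadraticMap.polar (⇑Q) v' u = 0 →
      u ∈ fullPts Q M := by
    intro u w hu huw hvw hv'w hvu hv'u
    have huv : QuadraticMap.polar (⇑Q) u v = 0 := by rw [QuadraticMap.polar_comm]; exact hvu
    have huv' : QuadraticMap.polar (⇑Q) u v' = 0 := by rw [QuadraticMap.polar_comm]; exact hv'u
    refine fullPts_of_two_perps Q hQ M h7 u v v' hu (hnot u w huw hvw hv'w) ?_ ?_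
    · intro z hz huz hvz
      exact eichDir_of_siegel Q M u z hu hz huz (hA u z hu hz huz huv
        (by rw [QuadraticMap.polar_comm]; exact hvz))
    · intro z hz huz hvz
      exact eichDir_of_siegel Q M u z hu hz huz (hA' u z hu hz huz huv'
        (by rw [QuadraticMap.polar_comm]; exact hvz))
  have hf₁ := hfull u₁ u₂ hu₁ (by rw [h12]; exact one_ne_zero) hvu₂ hv'u₂ hvu₁ hv'u₁
  have hf₂ := hfull u₂ u₁ hu₂ (by rw [h21]; exact one_ne_zero) hvu₁ hv'u₁ hvu₂ hv'u₂
  exact commutator_le_of_fullPts_pair Q hQ h3 M hf₁ hf₂ (by rw [h12]; exact one_ne_zero)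

/-- In `Ω(Q)` the stabiliser of a non-singular point is maximal. -/
theorem nonsing_point_stabilizer_isMaximalIn [Fintype F] (Q : QuadraticForm F (ι → F))
    (hQ : (QuadraticMap.polarBilin Q).Nondegenerate) (h7 : 7 ≤ finrank F (ι → F))
    (v : ι → F) (hv : Q v ≠ 0) :
    Cfsg.Geo.IsMaximalIn (Cfsg.Geo.omegaGL (⇑Q))
      (Cfsg.Geo.subspaceStabilizer (Submodule.span F {v}) ⊓ Cfsg.Geo.omegaGL (⇑Q)) := by
  have h3 := hasTS3_of_finrank Q hQ h7
  have hv0 : v ≠ 0 := by
    rintro rfl
    exact hv (QuadraticMap.map_zero Q)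
  refine ⟨lt_of_le_of_ne inf_le_right ?_, ?_⟩
  · intro hEq
    obtain ⟨e, e', he, he', hee, -, -⟩ := exists_hyp_pair_orth Q hQ ⊥
      (by rw [finrank_bot]; omega)
    have hbot : ∀ y : ι → F, ∀ a ∈ (⊥ : Submodule F (ι → F)),
        QuadraticMap.polar (⇑Q) a y = 0 := by
      intro y a ha
      rw [(Submodule.mem_bot F).mp ha]
      exact QuadraticMap.polar_zero_left _ _
    obtain ⟨t, ht, -, hvt⟩ := exists_singular_orth_polar_ne Q hQ ⊥ e e' he he' hee
      (hbot e) (hbot e') v (by rw [Submodule.mem_bot]; exact hv0)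
    obtain ⟨z, hz, hzX, hzn⟩ := exists_singular_orth_not_mem Q hQ (Submodule.span F {v, t})
      (by have := finrank_span_pair_le (F := F) v t; omega)
    have hvz : QuadraticMap.polar (⇑Q) v z = 0 := hzX v (Submodule.subset_span (by simp))
    have htz : QuadraticMap.polar (⇑Q) t z = 0 := hzX t (Submodule.subset_span (by simp))
    have hmem : (Cfsg.isometryGroup F (⇑Q)).subtype (siegelG Q t z ht hz htz 1)
        ∈ Cfsg.Geo.omegaGL (⇑Q) := ⟨_, siegelG_mem_commutator Q hQ h3 t z ht hz htz 1, rfl⟩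
    rw [← hEq] at hmem
    have h1 := ((mem_subspaceStabilizer_iff _ _).mp hmem.1 v).mp
      (Submodule.mem_span_singleton_self v)
    have h2 : act (siegelG Q t z ht hz htz 1) v ∈ Submodule.span F {v} := h1
    rw [act_siegelG, QuadraticMap.polar_comm (⇑Q) z v, hvz, zero_smul, sub_zero, one_smul] at h2
    have h3' : QuadraticMap.polar (⇑Q) t v • z ∈ Submodule.span F {v} := by
      have := Submodule.sub_mem _ h2 (Submodule.mem_span_singleton_self v)
      rwa [add_sub_cancel_left] at this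
    have htv : QuadraticMap.polar (⇑Q) t v ≠ 0 := by
      rw [QuadraticMap.polar_comm]; exact hvt
    apply hzn
    have h4 := Submodule.smul_mem _ (QuadraticMap.polar (⇑Q) t v)⁻¹ h3'
    rw [smul_smul, inv_mul_cancel₀ htv, one_smul] at h4
    exact Submodule.span_mono (by simp) h4
  · intro M hHM hMΩ
    by_cases hMH : M = Cfsg.Geo.subspaceStabilizer (Submodule.span F {v}) ⊓
        Cfsg.Geo.omegaGL (⇑Q)
    · exact Or.inl hMH
    · right
      apply le_antisymm hMΩ
      obtain ⟨g, hgM, hgH⟩ : ∃ g ∈ M, g ∉ Cfsg.Geo.subspaceStabilizer (Submodule.span F {v}) ⊓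
          Cfsg.Geo.omegaGL (⇑Q) := by
        by_contra hcon
        push Not at hcon
        exact hMH (le_antisymm hcon hHM)
      obtain ⟨g', hg', rfl⟩ := hMΩ hgM
      have hgv : act g' v ∉ Submodule.span F {v} := by
        intro h
        apply hgH
        refine ⟨mem_subspaceStabilizer_of_forall _ _ ?_, ⟨g', hg', rfl⟩⟩
        intro x hx
        obtain ⟨c, rfl⟩ := Submodule.mem_span_singleton.mp hx
        have : act g' (c • v) ∈ Submodule.span F {v} := by
          rw [act_smul]
          exact Submodule.smul_mem _ _ h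
        exact this
      have key := nonsing_point_core Q hQ h3 h7 v
        (M.comap (Cfsg.isometryGroup F (⇑Q)).subtype)
        (by
          intro k hk hkv
          apply hHM
          refine ⟨mem_subspaceStabilizer_of_forall _ _ ?_, ⟨k, hk, rfl⟩⟩
          intro x hx
          obtain ⟨c, rfl⟩ := Submodule.mem_span_singleton.mp hx
          have : act k (c • v) ∈ Submodule.span F {v} := by
            rw [act_smul, hkv]
            exact Submodule.smul_mem _ _ (Submodule.mem_span_singleton_self v)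
          exact this)
        g' hgM hgv
      rintro _ ⟨k, hk, rfl⟩
      exact key hk

end

end Cfsg.Agent.H95
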