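import Mathlib
import Cfsg.Agent.H78.StODefs
import Cfsg.Agent.H49.Plus
import Cfsg.Agent.H49.CD
import Cfsg.Agent.H49.CD2

/-!
# Generation of `O⁺_{2(m+1)}(F)` (helper95, piece S2548-GEN for helper78)
-/

set_option autoImplicit false
set_option linter.unusedSimpArgs false
set_option linter.unusedVariables false

namespace Cfsg.Agent.H95.OPlusGen

open Matrix Cfsg.Agent.H78.StO

variable {F : Type*} [Field F]

/-- Action of a transvection on a vector. -/
theorem transvection_mulVec_eq {n : ℕ} (a b : Fin n) (s : F) (v : Fin n → F) :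
    transvection a b s *ᵥ v = v + (s * v b) • Pi.single a (1 : F) := by
  ext k
  simp only [transvection, Matrix.add_mulVec, Matrix.one_mulVec, Pi.add_apply, Pi.smul_apply,
    smul_eq_mul, Pi.single_apply]
  congr 1
  by_cases hk : k = a
  · subst hk
    simp [Matrix.mulVec, dotProduct, Matrix.single_apply]
  · simp [Matrix.mulVec, dotProduct, Matrix.single_apply, hk, Ne.symm hk]

/-- The commutator identity for transvections. -/
theorem transvection_comm {n : ℕ} (a b c : Fin n) (hab : a ≠ b) (hbc : b ≠ c) (hac : a ≠ c)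
    (s u : F) :
    transvection a b s * transvection b c u * transvection a b (-s) * transvection b c (-u)
      = transvection a c (s * u) := by
  apply Cfsg.Agent.H49.matrix_ext_mulVec
  intro v
  simp only [← Matrix.mulVec_mulVec, transvection_mulVec_eq]
  ext k
  simp only [Pi.add_apply, Pi.smul_apply, smul_eq_mul, Pi.single_apply]
  by_cases hka : k = a
  · subst hka
    simp [hab, hac, hbc, Ne.symm hab, Ne.symm hac, Ne.symm hbc]
    ring
  · by_cases hkb : k = b
    · subst hkb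
      simp [hab, hac, hbc, Ne.symm hab, Ne.symm hac, Ne.symm hbc]
    · simp [hka, hkb, hab, hac, hbc, Ne.symm hab, Ne.symm hac, Ne.symm hbc]

theorem levi_quad (m : ℕ) (A B : Matrix (Fin m) (Fin m) F) (hBA : B * A = 1)
    (x : Fin m ⊕ Fin m → F) :
    Cfsg.quadFormPlus m F (Matrix.fromBlocks A 0 0 Bᵀ *ᵥ x) = Cfsg.quadFormPlus m F x := by
  have e : ∀ i, (Matrix.fromBlocks A 0 0 Bᵀ *ᵥ x) (Sum.inl i)
      * (Matrix.fromBlocks A 0 0 Bᵀ *ᵥ x) (Sum.inr i)
      = (A *ᵥ (x ∘ Sum.inl)) i * (Bᵀ *ᵥ (x ∘ Sum.inr)) i := fun i => by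
    rw [Matrix.fromBlocks_mulVec]
    simp
  show ∑ i, (Matrix.fromBlocks A 0 0 Bᵀ *ᵥ x) (Sum.inl i)
      * (Matrix.fromBlocks A 0 0 Bᵀ *ᵥ x) (Sum.inr i) = ∑ i, x (Sum.inl i) * x (Sum.inr i)
  simp only [e]
  show (A *ᵥ (x ∘ Sum.inl)) ⬝ᵥ (Bᵀ *ᵥ (x ∘ Sum.inr)) = (x ∘ Sum.inl) ⬝ᵥ (x ∘ Sum.inr)
  rw [Matrix.mulVec_transpose, dotProduct_comm, Matrix.dotProduct_mulVec, Matrix.vecMul_vecMul,
    hBA, Matrix.vecMul_one, dotProduct_comm]

/-- Levi elements exist. -/
theorem exists_levi (m : ℕ) (A B : Matrix (Fin (m + 1)) (Fin (m + 1)) F) (hAB : A * B = 1)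
    (hBA : B * A = 1) : ∃ g : OG m F, mat g = fromBlocks A 0 0 Bᵀ := by
  refine ⟨⟨⟨fromBlocks A 0 0 Bᵀ, fromBlocks B 0 0 Aᵀ, ?_, ?_⟩, ?_⟩, rfl⟩
  · rw [Matrix.fromBlocks_multiply]
    simp only [Matrix.mul_zero, Matrix.zero_mul, add_zero, zero_add, ← Matrix.transpose_mul, hAB]
    simp [Matrix.fromBlocks_one]
  · rw [Matrix.fromBlocks_multiply]
    simp only [Matrix.mul_zero, Matrix.zero_mul, add_zero, zero_add, ← Matrix.transpose_mul, hBA]
    simp [Matrix.fromBlocks_one]
  · exact Cfsg.Agent.H49.mem_isometryGroup_iff.mpr (fun x => levi_quad (m + 1) A B hBA x)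


theorem transvection_inv_eq {n : ℕ} (i j : Fin n) (hij : i ≠ j) (c : F) :
    (transvection i j c)⁻¹ = transvection i j (-c) := by
  apply Matrix.inv_eq_right_inv
  rw [Matrix.transvection_mul_transvection_same _ _ hij]
  simp

theorem transvection_transpose_eq {n : ℕ} (i j : Fin n) (c : F) :
    (transvection i j c)ᵀ = transvection j i c := by
  simp [transvection, Matrix.transpose_add, Matrix.transpose_single]

/-- Determinant of a rank one perturbation of the identity. -/
theorem det_one_add_vecMulVec_eq {n : ℕ} (u v : Fin n → F) :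
    (1 + vecMulVec u v).det = 1 + v ⬝ᵥ u := by
  rw [Matrix.vecMulVec_eq Unit, Matrix.det_one_add_replicateCol_mul_replicateRow]

theorem one_add_vecMulVec_mulVec {n : ℕ} (u v w : Fin n → F) :
    (1 + vecMulVec u v) *ᵥ w = w + (v ⬝ᵥ w) • u := by
  rw [Matrix.add_mulVec, Matrix.one_mulVec, Matrix.vecMulVec_mulVec, op_smul_eq_smul]

/-- A nonzero vector can be moved to the last basis vector. -/
theorem exists_mulVec_last {n : ℕ} (x : Fin (n + 1) → F) (hx : x ≠ 0) :
    ∃ A : Matrix (Fin (n + 1)) (Fin (n + 1)) F, A.det ≠ 0 ∧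
      A *ᵥ x = Pi.single (Fin.last n) 1 := by
  classical
  -- a covector `φ` with `φ last = 1` and `φ ⬝ᵥ x ≠ 0`
  obtain ⟨φ, hφ1, hφ2⟩ : ∃ φ : Fin (n + 1) → F, φ (Fin.last n) = 1 ∧ φ ⬝ᵥ x ≠ 0 := by
    by_cases hl : x (Fin.last n) = 0
    · obtain ⟨i, hi⟩ : ∃ i, x i ≠ 0 := by
        by_contra hcon
        push Not at hcon
        exact hx (funext hcon)
      have hil : i ≠ Fin.last n := by
        rintro rfl
        exact hi hl
      refine ⟨Pi.single (Fin.last n) 1 + Pi.single i 1, ?_, ?_⟩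
      · simp [Pi.single_apply, hil.symm]
      · rw [add_dotProduct, single_dotProduct, single_dotProduct, hl]
        simpa using hi
    · refine ⟨Pi.single (Fin.last n) 1, by simp, ?_⟩
      rw [single_dotProduct]
      simpa using hl
  refine ⟨1 + vecMulVec ((φ ⬝ᵥ x)⁻¹ • (Pi.single (Fin.last n) 1 - x)) φ, ?_, ?_⟩
  · rw [det_one_add_vecMulVec_eq, dotProduct_smul, dotProduct_sub, dotProduct_single, hφ1]
    simp only [smul_eq_mul, mul_one]
    have : 1 + (φ ⬝ᵥ x)⁻¹ * (1 - φ ⬝ᵥ x) = (φ ⬝ᵥ x)⁻¹ := by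
      field_simp
      ring
    rw [this]
    exact inv_ne_zero hφ2
  · rw [one_add_vecMulVec_mulVec, smul_smul, mul_inv_cancel₀ hφ2, one_smul]
    abel

/-- Simultaneous normal form of a vector and a covector with nonzero pairing. -/
theorem exists_levi_move {n : ℕ} (x y : Fin (n + 1) → F) (c : F) (hc : c ≠ 0)
    (hxy : x ⬝ᵥ y = c) :
    ∃ A : Matrix (Fin (n + 1)) (Fin (n + 1)) F, A.det ≠ 0 ∧
      A *ᵥ x = Pi.single (Fin.last n) 1 ∧
      (A⁻¹)ᵀ *ᵥ y = c • Pi.single (Fin.last n) 1 := by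
  classical
  have hx : x ≠ 0 := by
    rintro rfl
    rw [zero_dotProduct] at hxy
    exact hc hxy.symm
  obtain ⟨A₁, hA₁, hA₁x⟩ := exists_mulVec_last x hx
  have hA₁u : IsUnit A₁.det := isUnit_iff_ne_zero.mpr hA₁
  set y₁ := (A₁⁻¹)ᵀ *ᵥ y with hy₁
  have hy₁l : y₁ (Fin.last n) = c := by
    have h1 : (A₁ *ᵥ x) ⬝ᵥ y₁ = x ⬝ᵥ y := by
      rw [hy₁, Matrix.dotProduct_mulVec, Matrix.vecMul_transpose, Matrix.mulVec_mulVec,
        Matrix.nonsing_inv_mul A₁ hA₁u, Matrix.one_mulVec]
    rw [hA₁x, single_dotProduct, one_mul, hxy] at h1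
    exact h1
  -- the second matrix
  set B : Matrix (Fin (n + 1)) (Fin (n + 1)) F :=
    1 + vecMulVec (Pi.single (Fin.last n) 1) (c⁻¹ • y₁ - Pi.single (Fin.last n) 1) with hB
  have hBdet : B.det = 1 := by
    rw [hB, det_one_add_vecMulVec_eq, sub_dotProduct, smul_dotProduct, dotProduct_single,
      single_dotProduct, hy₁l]
    simp [hc]
  have hBu : IsUnit B.det := by rw [hBdet]; exact isUnit_one
  have hBe : B *ᵥ Pi.single (Fin.last n) 1 = Pi.single (Fin.last n) 1 := by
    rw [hB, one_add_vecMulVec_mulVec, sub_dotProduct, smul_dotProduct, dotProduct_single,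
      single_dotProduct, hy₁l]
    simp [hc]
  have hBT : Bᵀ *ᵥ (c • Pi.single (Fin.last n) 1) = y₁ := by
    rw [hB, Matrix.transpose_add, Matrix.transpose_one, Matrix.transpose_vecMulVec,
      one_add_vecMulVec_mulVec, dotProduct_smul, single_dotProduct]
    simp only [Pi.single_eq_same, mul_one, smul_eq_mul]
    rw [smul_sub, smul_smul, mul_inv_cancel₀ hc, one_smul]
    abel
  have hBinv : (B⁻¹)ᵀ *ᵥ y₁ = c • Pi.single (Fin.last n) 1 := by
    rw [← hBT, Matrix.mulVec_mulVec, ← Matrix.transpose_mul, Matrix.mul_nonsing_inv B hBu,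
      Matrix.transpose_one, Matrix.one_mulVec]
  refine ⟨B * A₁, ?_, ?_, ?_⟩
  · rw [Matrix.det_mul, hBdet, one_mul]
    exact hA₁
  · rw [← Matrix.mulVec_mulVec, hA₁x, hBe]
  · rw [Matrix.mul_inv_rev, Matrix.transpose_mul, ← Matrix.mulVec_mulVec, ← hy₁, hBinv]

section
variable {m : ℕ}

/-- The matrix `X` is realised by an element of `K`. -/
def InK (K : Subgroup (OG m F))
    (X : Matrix (Fin (m + 1) ⊕ Fin (m + 1)) (Fin (m + 1) ⊕ Fin (m + 1)) F) : Prop :=
  ∃ g ∈ K, mat g = X

theorem InK.mul {K : Subgroup (OG m F)}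
    {X Y : Matrix (Fin (m + 1) ⊕ Fin (m + 1)) (Fin (m + 1) ⊕ Fin (m + 1)) F}
    (hX : InK K X) (hY : InK K Y) : InK K (X * Y) := by
  obtain ⟨g, hg, rfl⟩ := hX
  obtain ⟨h, hh, rfl⟩ := hY
  exact ⟨g * h, K.mul_mem hg hh, mat_mul g h⟩

/-- The Levi element `diag(A, A⁻ᵀ)` is realised in `K`. -/
def LevP (K : Subgroup (OG m F)) (A : Matrix (Fin (m + 1)) (Fin (m + 1)) F) : Prop :=
  InK K (fromBlocks A 0 0 (A⁻¹)ᵀ)

theorem LevP.mul {K : Subgroup (OG m F)} {A B : Matrix (Fin (m + 1)) (Fin (m + 1)) F}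
    (hA : LevP K A) (hB : LevP K B) : LevP K (A * B) := by
  unfold LevP at *
  have := hA.mul hB
  rw [Matrix.fromBlocks_multiply] at this
  simp only [Matrix.mul_zero, Matrix.zero_mul, add_zero, zero_add] at this
  rwa [Matrix.mul_inv_rev, Matrix.transpose_mul]

theorem levP_transvection_iff (K : Subgroup (OG m F)) (i j : Fin (m + 1)) (hij : i ≠ j) (t : F) :
    LevP K (transvection i j t) ↔
      InK K (fromBlocks (transvection i j t) 0 0 (transvection j i (-t))) := by
  unfold LevP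
  rw [transvection_inv_eq i j hij, transvection_transpose_eq]

theorem levP_upper (K : Subgroup (OG m F)) (hU : ∀ g : OG m F, IsUniO g → g ∈ K)
    (i j : Fin (m + 1)) (hij : i < j) (t : F) : LevP K (transvection i j t) := by
  rw [levP_transvection_iff K i j hij.ne]
  obtain ⟨g, hg⟩ := exists_levi m (transvection i j t) (transvection i j (-t))
    (by rw [Matrix.transvection_mul_transvection_same _ _ hij.ne]; simp)
    (by rw [Matrix.transvection_mul_transvection_same _ _ hij.ne]; simp)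
  rw [transvection_transpose_eq] at hg
  refine ⟨g, hU g ?_, hg⟩
  refine ⟨?_, ?_, ?_, ?_, ?_⟩
  · intro a b
    rw [hg]
    simp
  · intro a b hab
    rw [hg]
    simp only [fromBlocks_apply₁₁, transvection, Matrix.add_apply, Matrix.one_apply,
      Matrix.single_apply]
    have h1 : a ≠ b := hab.ne'
    have h2 : ¬ (i = a ∧ j = b) := by
      rintro ⟨rfl, rfl⟩
      exact absurd hij (not_lt.mpr hab.le)
    simp [h1, h2]
  · intro a
    rw [hg]
    simp only [fromBlocks_apply₁₁, transvection, Matrix.add_apply, Matrix.one_apply,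
      Matrix.single_apply]
    have h2 : ¬ (i = a ∧ j = a) := by
      rintro ⟨rfl, rfl⟩
      exact absurd hij (lt_irrefl _)
    simp [h2]
  · intro a b hab
    rw [hg]
    simp only [fromBlocks_apply₂₂, transvection, Matrix.add_apply, Matrix.one_apply,
      Matrix.single_apply]
    have h1 : a ≠ b := hab.ne
    have h2 : ¬ (j = a ∧ i = b) := by
      rintro ⟨rfl, rfl⟩
      exact absurd hij (not_lt.mpr hab.le)
    simp [h1, h2]
  · intro a
    rw [hg]
    simp only [fromBlocks_apply₂₂, transvection, Matrix.add_apply, Matrix.one_apply,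
      Matrix.single_apply]
    have h2 : ¬ (j = a ∧ i = a) := by
      rintro ⟨rfl, rfl⟩
      exact absurd hij (lt_irrefl _)
    simp [h2]

theorem levP_lower (K : Subgroup (OG m F)) (hU : ∀ g : OG m F, IsUniO g → g ∈ K)
    (hlow : ∀ (k : Fin m) (t : F), ∃ g ∈ K, mat g =
      fromBlocks (transvection k.succ k.castSucc t) 0 0 (transvection k.castSucc k.succ (-t)))
    (i : Fin (m + 1)) : ∀ j : Fin (m + 1), j < i → ∀ t : F, LevP K (transvection i j t) := by
  induction i using Fin.induction with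
  | zero =>
    intro j hj
    exact absurd hj (Fin.not_lt_zero j)
  | succ k ih =>
    intro j hj t
    have hadj : ∀ t : F, LevP K (transvection k.succ k.castSucc t) := by
      intro t
      rw [levP_transvection_iff K _ _ (Fin.castSucc_lt_succ (i := k)).ne']
      exact hlow k t
    by_cases hjk : j = k.castSucc
    · subst hjk
      exact hadj t
    · have hlt : j < k.castSucc := by
        rw [Fin.lt_def] at hj ⊢
        have : (j : ℕ) ≠ (k.castSucc : ℕ) := fun h => hjk (Fin.ext h)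
        simp only [Fin.val_succ, Fin.val_castSucc] at *
        omega
      have h1 := ((hadj t).mul (ih j hlt 1)).mul (hadj (-t))
      have h2 := h1.mul (ih j hlt (-1))
      rw [transvection_comm k.succ k.castSucc j (Fin.castSucc_lt_succ (i := k)).ne' hlt.ne'
        hj.ne' t 1, mul_one] at h2
      exact h2

theorem levP_diag (K : Subgroup (OG m F))
    (hdiag : ∀ d : Fin (m + 1) → Fˣ, ∃ g ∈ K, mat g =
      fromBlocks (diagonal fun i => (d i : F)) 0 0 (diagonal fun i => (((d i)⁻¹ : Fˣ) : F)))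
    (D : Fin (m + 1) → F) (hD : ∀ i, D i ≠ 0) : LevP K (diagonal D) := by
  unfold LevP
  have e : (diagonal D)⁻¹ = diagonal (fun i => (D i)⁻¹) := by
    apply Matrix.inv_eq_right_inv
    rw [Matrix.diagonal_mul_diagonal]
    rw [← Matrix.diagonal_one]
    congr 1
    funext i
    exact mul_inv_cancel₀ (hD i)
  rw [e, Matrix.diagonal_transpose]
  obtain ⟨g, hg, hgm⟩ := hdiag (fun i => Units.mk0 (D i) (hD i))
  refine ⟨g, hg, ?_⟩
  rw [hgm]
  simp

theorem levP_all (K : Subgroup (OG m F)) (hU : ∀ g : OG m F, IsUniO g → g ∈ K)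
    (hlow : ∀ (k : Fin m) (t : F), ∃ g ∈ K, mat g =
      fromBlocks (transvection k.succ k.castSucc t) 0 0 (transvection k.castSucc k.succ (-t)))
    (hdiag : ∀ d : Fin (m + 1) → Fˣ, ∃ g ∈ K, mat g =
      fromBlocks (diagonal fun i => (d i : F)) 0 0 (diagonal fun i => (((d i)⁻¹ : Fˣ) : F)))
    (A : Matrix (Fin (m + 1)) (Fin (m + 1)) F) (hA : A.det ≠ 0) : LevP K A := by
  refine Matrix.diagonal_transvection_induction_of_det_ne_zero (LevP K) A hA ?_ ?_ ?_
  · intro D hD
    apply levP_diag K hdiag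
    intro i
    rw [Matrix.det_diagonal] at hD
    exact fun h => hD (Finset.prod_eq_zero (Finset.mem_univ i) h)
  · intro t
    rcases lt_or_gt_of_ne t.hij with h | h
    · exact levP_upper K hU t.i t.j h t.c
    · exact levP_lower K hU hlow t.i t.j h t.c
  · intro A B _ _ hA hB
    exact hA.mul hB


/-- The identity, between the two presentations of the isometry group. -/
def eOG (m : ℕ) (F : Type*) [Field F] :
    ↥(Cfsg.isometryGroup F ⇑(Cfsg.Agent.H49.QP (m + 1) F)) ≃* OG m F :=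
  MulEquiv.refl _

theorem mat_eOG (g : ↥(Cfsg.isometryGroup F ⇑(Cfsg.Agent.H49.QP (m + 1) F))) :
    mat (eOG m F g) = ((g : Matrix.GeneralLinearGroup (Fin (m + 1) ⊕ Fin (m + 1)) F) :
      Matrix (Fin (m + 1) ⊕ Fin (m + 1)) (Fin (m + 1) ⊕ Fin (m + 1)) F) := rfl

theorem coe_eOG_symm (g : OG m F) :
    ((((eOG m F).symm g : ↥(Cfsg.isometryGroup F ⇑(Cfsg.Agent.H49.QP (m + 1) F))) :
      Matrix.GeneralLinearGroup (Fin (m + 1) ⊕ Fin (m + 1)) F) :
      Matrix (Fin (m + 1) ⊕ Fin (m + 1)) (Fin (m + 1) ⊕ Fin (m + 1)) F) = mat g := rfl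

open Cfsg.Agent.H49 in
/-- The reflection in `e_l + c f_l` lies in `K`. -/
theorem refl_std_mem (K : Subgroup (OG m F))
    (hdiag : ∀ d : Fin (m + 1) → Fˣ, ∃ g ∈ K, mat g =
      fromBlocks (diagonal fun i => (d i : F)) 0 0 (diagonal fun i => (((d i)⁻¹ : Fˣ) : F)))
    (hflip : ∃ g ∈ K, ∀ (v : Fin (m + 1) ⊕ Fin (m + 1) → F) (c : Fin (m + 1) ⊕ Fin (m + 1)),
      (mat g *ᵥ v) c = v (Equiv.swap (Sum.inl (Fin.last m)) (Sum.inr (Fin.last m)) c))
    (c : F) (hc : c ≠ 0) :
    eOG m F (reflG (QP (m + 1) F) (Pi.single (Sum.inl (Fin.last m)) 1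
      + c • Pi.single (Sum.inr (Fin.last m)) 1)) ∈ K := by
  classical
  obtain ⟨φ, hφK, hφ⟩ := hflip
  obtain ⟨d, hdK, hd⟩ := hdiag (fun i => if i = Fin.last m then Units.mk0 (-c⁻¹)
    (neg_ne_zero.mpr (inv_ne_zero hc)) else 1)
  set w : Fin (m + 1) ⊕ Fin (m + 1) → F := Pi.single (Sum.inl (Fin.last m)) 1
      + c • Pi.single (Sum.inr (Fin.last m)) 1 with hw
  have hQw : QP (m + 1) F w = c := by
    rw [QP_apply, Finset.sum_eq_single (Fin.last m)]
    · simp [hw]
    · intro j _ hj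
      simp [hw, Pi.single_apply, hj]
    · intro h; exact absurd (Finset.mem_univ _) h
  have hpol : ∀ x : Fin (m + 1) ⊕ Fin (m + 1) → F,
      QuadraticMap.polar (⇑(QP (m + 1) F)) w x
        = x (Sum.inr (Fin.last m)) + c * x (Sum.inl (Fin.last m)) := by
    intro x
    rw [hw, QuadraticMap.polar_add_left, QuadraticMap.polar_smul_left, polar_QP_single_inl,
      polar_QP_single_inr, smul_eq_mul]
  have key : eOG m F (reflG (QP (m + 1) F) w) = d * φ := by
    apply mat_injective
    rw [mat_mul, mat_eOG, reflG_coe]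
    apply matrix_ext_mulVec
    intro x
    rw [reflectionMatrix_mulVec, hQw, hpol, ← Matrix.mulVec_mulVec, hd]
    funext k
    rw [Matrix.fromBlocks_mulVec]
    rcases k with j | j
    · simp only [Sum.elim_inl, Pi.add_apply, Matrix.zero_mulVec, add_zero, Pi.sub_apply,
        Pi.smul_apply, smul_eq_mul, Matrix.mulVec_diagonal, Function.comp_apply, hφ]
      by_cases hj : j = Fin.last m
      · subst hj
        simp [hw]
        field_simp
        ring
      · simp [hw, Pi.single_apply, hj, Equiv.swap_apply_of_ne_of_ne]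
    · simp only [Sum.elim_inr, Pi.add_apply, Matrix.zero_mulVec, zero_add, Pi.sub_apply,
        Pi.smul_apply, smul_eq_mul, Matrix.mulVec_diagonal, Function.comp_apply, hφ]
      by_cases hj : j = Fin.last m
      · subst hj
        simp [hw]
        field_simp
        ring
      · simp [hw, Pi.single_apply, hj, Equiv.swap_apply_of_ne_of_ne]
  rw [key]
  exact K.mul_mem hdK hφK

open Cfsg.Agent.H49 in
/-- **S2548-GEN**: a subgroup of `O⁺_{2(m+1)}(F)` containing the unitriangular isometries, the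
adjacent lower root elements of the Levi factor, the torus and the last flip is everything. -/
theorem oplus_gen [Fintype F] (m : ℕ) (hm : 1 ≤ m) (h : Fintype.card F ≠ 2 ∨ m ≠ 1)
    (K : Subgroup (OG m F))
    (hU : ∀ g : OG m F, IsUniO g → g ∈ K)
    (hlow : ∀ (k : Fin m) (t : F), ∃ g ∈ K, mat g =
      fromBlocks (transvection k.succ k.castSucc t) 0 0 (transvection k.castSucc k.succ (-t)))
    (hdiag : ∀ d : Fin (m + 1) → Fˣ, ∃ g ∈ K, mat g =
      fromBlocks (diagonal fun i => (d i : F)) 0 0 (diagonal fun i => (((d i)⁻¹ : Fˣ) : F)))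
    (hflip : ∃ g ∈ K, ∀ (v : Fin (m + 1) ⊕ Fin (m + 1) → F) (c : Fin (m + 1) ⊕ Fin (m + 1)),
      (mat g *ᵥ v) c = v (Equiv.swap (Sum.inl (Fin.last m)) (Sum.inr (Fin.last m)) c)) :
    K = ⊤ := by
  classical
  have hrefl : ∀ v : Fin (m + 1) ⊕ Fin (m + 1) → F, QP (m + 1) F v ≠ 0 →
      eOG m F (reflG (QP (m + 1) F) v) ∈ K := by
    intro v hv
    obtain ⟨A, hA, hAx, hAy⟩ := exists_levi_move (v ∘ Sum.inl) (v ∘ Sum.inr) (QP (m + 1) F v) hv rfl
    obtain ⟨g, hgK, hg⟩ := levP_all K hU hlow hdiag A hA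
    have hgv : mat g *ᵥ v = Pi.single (Sum.inl (Fin.last m)) 1
        + (QP (m + 1) F v) • Pi.single (Sum.inr (Fin.last m)) 1 := by
      rw [hg, Matrix.fromBlocks_mulVec, hAx, hAy]
      funext k
      rcases k with j | j
      · simp [Pi.single_apply]
      · simp [Pi.single_apply]
    have hconj := congrArg (eOG m F) (conj_reflG (QP (m + 1) F) ((eOG m F).symm g) v)
    rw [coe_eOG_symm, hgv] at hconj
    simp only [map_mul, map_inv, MulEquiv.apply_symm_apply] at hconj
    have hstd := refl_std_mem K hdiag hflip (QP (m + 1) F v) hv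
    rw [← hconj] at hstd
    have e : eOG m F (reflG (QP (m + 1) F) v)
        = g⁻¹ * (g * eOG m F (reflG (QP (m + 1) F) v) * g⁻¹) * g := by group
    rw [e]
    exact K.mul_mem (K.mul_mem (K.inv_mem hgK) hstd) hgK
  have hcl : Subgroup.closure (reflSet (QP (m + 1) F)) ≤ K.comap (eOG m F).toMonoidHom := by
    rw [Subgroup.closure_le]
    rintro r ⟨v, hv, rfl⟩
    exact hrefl v hv
  have htop : Subgroup.closure (reflSet (QP (m + 1) F)) = ⊤ := by
    by_cases h2 : (2 : F) = 0
    · refine closure_reflSet_eq_top_two (QP (m + 1) F) h2 (QP_nondeg (m + 1) F)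
        (finrank_plus (m + 1) F) ?_
      rcases h with h | h
      · exact Or.inl h
      · exact Or.inr (by omega)
    · exact closure_reflSet_eq_top (QP (m + 1) F) h2 (QP_nondeg (m + 1) F)
  rw [eq_top_iff]
  intro g _
  have h1 : (eOG m F).symm g ∈ Subgroup.closure (reflSet (QP (m + 1) F)) := by rw [htop]; trivial
  have h2 := hcl h1
  rw [Subgroup.mem_comap] at h2
  have h3 : (eOG m F).toMonoidHom ((eOG m F).symm g) = g := (eOG m F).apply_symm_apply g
  rw [h3] at h2
  exact h2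

end

end Cfsg.Agent.H95.OPlusGen
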