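import Mathlib
import Cfsg.Agent.H95.OhDefs

/-!
# S5992 / S5993: assembly from the piece statements of `OhDefs`
-/

set_option autoImplicit false

namespace Cfsg.Agent.H95.Oh

open Cfsg.Agent.H45 Cfsg.Agent.H42.Spd Cfsg.Agent.H42.Ti Cfsg.Agent.H14.Ot Module

universe u

section Main

variable {F : Type u} [Field F] [Fintype F]

theorem oh_two_ne (h : Odd (Fintype.card F)) : (2 : F) ≠ 0 := by
  intro h2
  have : CharP F 2 := CharTwo.of_one_ne_zero_of_two_eq_zero one_ne_zero h2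
  have h3 := FiniteField.even_card_of_char_two (ringChar.eq F 2)
  rw [Nat.odd_iff] at h
  omega

theorem oh_finrank_std (d : ℕ) :
    Module.finrank F (Unit ⊕ (Fin d ⊕ Fin d) → F) = 2 * d + 1 := by
  rw [Module.finrank_fintype_fun_eq_card]
  simp
  omega

theorem oh_toLin_pow {d : ℕ} (x : Matrix.GeneralLinearGroup (Unit ⊕ (Fin d ⊕ Fin d)) F) (r : ℕ)
    (h : x ^ r = 1) :
    (Matrix.toLin' (x : Matrix (Unit ⊕ (Fin d ⊕ Fin d)) (Unit ⊕ (Fin d ⊕ Fin d)) F)) ^ r = 1 := by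
  rw [← Matrix.toLin'_pow, ← Units.val_pow_eq_pow_val, h]
  simp [Matrix.toLin'_one]
  rfl

theorem oh_omega_le {d : ℕ} {x : Matrix.GeneralLinearGroup (Unit ⊕ (Fin d ⊕ Fin d)) F}
    (hx : x ∈ Cfsg.Geo.omegaGL (Cfsg.quadFormOdd d F)) :
    x ∈ Cfsg.isometryGroup F (Cfsg.quadFormOdd d F) := by
  obtain ⟨y, _, rfl⟩ := hx
  exact y.2

theorem oh_cast_ne {p : ℕ} [Fact p.Prime] [CharP F p] {r : ℕ} (hr : r.Prime) (hrp : r ≠ p) :
    (r : F) ≠ 0 := by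
  rw [Ne, CharP.cast_eq_zero_iff F p]
  intro h
  exact hrp ((Nat.prime_dvd_prime_iff_eq Fact.out hr).mp h).symm

theorem oh_ii_pos {p : ℕ} [Fact p.Prime] [CharP F p] {r : ℕ} (hr : r.Prime) (hrp : r ≠ p) :
    0 < ii F r := by
  unfold ii
  obtain ⟨n, hp, hcard⟩ := FiniteField.card F p
  have hcop : (Fintype.card F).Coprime r := by
    rw [hcard]
    exact Nat.Coprime.pow_left _ ((Nat.coprime_primes hp hr).mpr (Ne.symm hrp))
  have h1 : ((ZMod.unitOfCoprime _ hcop : (ZMod r)ˣ) : ZMod r) = (Fintype.card F : ZMod r) :=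
    ZMod.coe_unitOfCoprime _ hcop
  rw [← h1, orderOf_units]
  haveI : Fact r.Prime := ⟨hr⟩
  exact orderOf_pos _

theorem oh_cc_eq (r : ℕ) : cc F r = if Even (ii F r) then ii F r else 2 * ii F r := rfl

theorem oh_cc_pos {p : ℕ} [Fact p.Prime] [CharP F p] {r : ℕ} (hr : r.Prime) (hrp : r ≠ p) :
    0 < cc F r := by
  have := oh_ii_pos (F := F) hr hrp
  rw [oh_cc_eq]
  split_ifs <;> omega

theorem oh_octx {p : ℕ} [Fact p.Prime] [CharP F p] (h2 : (2 : F) ≠ 0) {d r : ℕ} (hr : r.Prime)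
    (hr2 : r ≠ 2) (hrp : r ≠ p)
    (B : (Unit ⊕ (Fin d ⊕ Fin d) → F) →ₗ[F] (Unit ⊕ (Fin d ⊕ Fin d) → F) →ₗ[F] F)
    (hsymm : ∀ x y, B x y = B y x) (hnd : ∀ x, (∀ y, B x y = 0) → x = 0)
    (x : Matrix.GeneralLinearGroup (Unit ⊕ (Fin d ⊕ Fin d)) F)
    (hiso : ∀ u v,
      B (Matrix.toLin' (x : Matrix (Unit ⊕ (Fin d ⊕ Fin d)) (Unit ⊕ (Fin d ⊕ Fin d)) F) u)
        (Matrix.toLin' (x : Matrix (Unit ⊕ (Fin d ⊕ Fin d)) (Unit ⊕ (Fin d ⊕ Fin d)) F) v) = B u v)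
    (hxr : x ^ r = 1) :
    OCtx r B (Matrix.toLin' (x : Matrix (Unit ⊕ (Fin d ⊕ Fin d)) (Unit ⊕ (Fin d ⊕ Fin d)) F)) :=
  ⟨hr, hr2, oh_cast_ne hr hrp, h2, hsymm, hnd, hiso, oh_toLin_pow x r hxr⟩

/-- Every isometry of odd prime order `r ≠ p` fixes an `m`-space of type `pl`, given the
arithmetic. -/
theorem oh_back (hBr : StBridge.{u}) (hM : StOModc.{u, u}) (hExW : StExW.{u, u})
    {p : ℕ} [Fact p.Prime] [CharP F p] (h2 : (2 : F) ≠ 0) (d m r : ℕ) (hr : r.Prime)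
    (hr2 : r ≠ 2) (hrp : r ≠ p) (pl : Prop)
    (harith : ∀ k₀ a : ℕ, 2 * d + 1 = k₀ + cc F r * a →
      ∃ j e : ℕ, k₀ + cc F r * j ≤ 2 * d + 1 ∧ Even e ∧ e + 1 ≤ k₀ ∧ cc F r * j + e = m ∧
        (e = 0 → (pl ↔ (Odd (ii F r) ∨ Even j))))
    (x : Matrix.GeneralLinearGroup (Unit ⊕ (Fin d ⊕ Fin d)) F)
    (hx : x ∈ Cfsg.isometryGroup F (Cfsg.quadFormOdd d F)) (hxr : x ^ r = 1) :
    ∃ W : Submodule F (Unit ⊕ (Fin d ⊕ Fin d) → F), IsHE F d m pl W ∧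
      W.map (Matrix.toLin'
        (x : Matrix (Unit ⊕ (Fin d ⊕ Fin d)) (Unit ⊕ (Fin d ⊕ Fin d)) F)) ≤ W := by
  obtain ⟨B, -, hsymm, hnd, -, hND, hPl, hIso⟩ := hBr F d h2
  have hctx := oh_octx h2 hr hr2 hrp B hsymm hnd x ((hIso x).mp hx) hxr
  obtain ⟨s, hs⟩ := hM F _ r B _ hctx
  rw [oh_finrank_std] at hs
  obtain ⟨j, e, h1, h2', h3, h4, h5⟩ := harith _ s hs
  obtain ⟨W, hWinv, hWnd, hWfin, hWpl⟩ := hExW F _ r B _ hctx j e pl
    (by rw [oh_finrank_std]; exact h1) h2' h3 h5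
  refine ⟨W, ⟨by rw [hWfin, h4], (hND W).mpr hWnd, (hPl W).trans hWpl⟩, ?_⟩
  rw [Submodule.map_le_iff_le_comap]
  exact (Module.End.mem_invtSubmodule _).mp hWinv

/-- The shape of a fixed `m`-space of type `pl`. -/
theorem oh_fwd (hBr : StBridge.{u}) (hFwd : StFwd.{u, u})
    {p : ℕ} [Fact p.Prime] [CharP F p] (h2 : (2 : F) ≠ 0) (d m r : ℕ) (hr : r.Prime)
    (hr2 : r ≠ 2) (hrp : r ≠ p) (pl : Prop)
    (x : Matrix.GeneralLinearGroup (Unit ⊕ (Fin d ⊕ Fin d)) F)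
    (hx : x ∈ Cfsg.isometryGroup F (Cfsg.quadFormOdd d F)) (hxr : x ^ r = 1)
    (W : Submodule F (Unit ⊕ (Fin d ⊕ Fin d) → F)) (hW : IsHE F d m pl W)
    (hinv : W.map (Matrix.toLin'
        (x : Matrix (Unit ⊕ (Fin d ⊕ Fin d)) (Unit ⊕ (Fin d ⊕ Fin d)) F)) ≤ W) :
    ∃ kW j : ℕ, m = kW + cc F r * j ∧
      Module.finrank F ↥(LinearMap.ker (Matrix.toLin'
        (x : Matrix (Unit ⊕ (Fin d ⊕ Fin d)) (Unit ⊕ (Fin d ⊕ Fin d)) F) - 1)) + cc F r * j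
          ≤ 2 * d + 1 ∧
      kW ≤ Module.finrank F ↥(LinearMap.ker (Matrix.toLin'
        (x : Matrix (Unit ⊕ (Fin d ⊕ Fin d)) (Unit ⊕ (Fin d ⊕ Fin d)) F) - 1)) ∧
      (kW = 0 → (pl ↔ (Odd (ii F r) ∨ Even j))) := by
  obtain ⟨B, -, hsymm, hnd, -, hND, hPl, hIso⟩ := hBr F d h2
  have hctx := oh_octx h2 hr hr2 hrp B hsymm hnd x ((hIso x).mp hx) hxr
  obtain ⟨hWfin, hWnd, hWpl⟩ := hW
  have hWinv : W ∈ Module.End.invtSubmodule (Matrix.toLin'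
      (x : Matrix (Unit ⊕ (Fin d ⊕ Fin d)) (Unit ⊕ (Fin d ⊕ Fin d)) F)) := by
    rw [Module.End.mem_invtSubmodule, ← Submodule.map_le_iff_le_comap]
    exact hinv
  obtain ⟨j, h1, h2', h3⟩ := hFwd F _ r B _ hctx W hWinv ((hND W).mp hWnd)
  have hkk : kk (Matrix.toLin'
      (x : Matrix (Unit ⊕ (Fin d ⊕ Fin d)) (Unit ⊕ (Fin d ⊕ Fin d)) F)) ⊤ =
      Module.finrank F ↥(LinearMap.ker (Matrix.toLin'
        (x : Matrix (Unit ⊕ (Fin d ⊕ Fin d)) (Unit ⊕ (Fin d ⊕ Fin d)) F) - 1)) := by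
    unfold kk
    rw [top_inf_eq]
  refine ⟨kk (Matrix.toLin'
      (x : Matrix (Unit ⊕ (Fin d ⊕ Fin d)) (Unit ⊕ (Fin d ⊕ Fin d)) F)) W, j, ?_, ?_, ?_, ?_⟩
  · rw [← hWfin, h1]
  · rw [← hkk, ← oh_finrank_std (F := F) d]
    exact h2'
  · unfold kk
    exact Submodule.finrank_mono inf_le_right
  · intro h0
    exact (hWpl.symm.trans (hPl W)).trans (h3 h0)

/-- The core equivalence, for a type `pl` and a right-hand side `RC`. -/
theorem oh_core (hBr : StBridge.{u}) (hM : StOModc.{u, u}) (hExW : StExW.{u, u})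
    (hFwd : StFwd.{u, u}) (hInv : StInv.{u, u}) (hExist : StExist.{u}) (hCnt : StCnt.{u})
    {p : ℕ} [Fact p.Prime] [CharP F p] (h2 : (2 : F) ≠ 0)
    (d m : ℕ) (hm : 2 ≤ m) (hme : Even m) (hmn : m ≤ 2 * d) (r : ℕ) (hr : r.Prime)
    (pl RC : Prop)
    (hrΩ : r ∣ Nat.card {W : Submodule F (Unit ⊕ (Fin d ⊕ Fin d) → F) // IsHE F d m pl W})
    (hback : r ≠ 2 → r ≠ p → RC → ∀ k₀ a : ℕ, 2 * d + 1 = k₀ + cc F r * a →
      ∃ j e : ℕ, k₀ + cc F r * j ≤ 2 * d + 1 ∧ Even e ∧ e + 1 ≤ k₀ ∧ cc F r * j + e = m ∧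
        (e = 0 → (pl ↔ (Odd (ii F r) ∨ Even j))))
    (hfwd : r ≠ 2 → r ≠ p → ∀ kW j : ℕ, m = kW + cc F r * j →
      (2 * d + 1) % cc F r + cc F r * j ≤ 2 * d + 1 → kW ≤ (2 * d + 1) % cc F r →
      (kW = 0 → (pl ↔ (Odd (ii F r) ∨ Even j))) →
      ¬ (m < cc F r ∧ m < (2 * d + 1) % cc F r) → RC)
    (hunip : r = p → r ≠ 2 →
      ¬ (∀ x : Matrix.GeneralLinearGroup (Unit ⊕ (Fin d ⊕ Fin d)) F,
        x ∈ Cfsg.Geo.omegaGL (Cfsg.quadFormOdd d F) → orderOf x = r →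
        ∃ W : Submodule F (Unit ⊕ (Fin d ⊕ Fin d) → F), IsHE F d m pl W ∧
          W.map (Matrix.toLin'
            (x : Matrix (Unit ⊕ (Fin d ⊕ Fin d)) (Unit ⊕ (Fin d ⊕ Fin d)) F)) ≤ W)) :
    (∀ x : Matrix.GeneralLinearGroup (Unit ⊕ (Fin d ⊕ Fin d)) F,
      x ∈ Cfsg.Geo.omegaGL (Cfsg.quadFormOdd d F) → orderOf x = r →
      ∃ W : Submodule F (Unit ⊕ (Fin d ⊕ Fin d) → F), IsHE F d m pl W ∧
        W.map (Matrix.toLin'
          (x : Matrix (Unit ⊕ (Fin d ⊕ Fin d)) (Unit ⊕ (Fin d ⊕ Fin d)) F)) ≤ W) ↔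
    (r = 2 ∨ (r ≠ p ∧ RC)) := by
  constructor
  · intro hL
    by_cases hr2 : r = 2
    · exact Or.inl hr2
    right
    by_cases hrp : r = p
    · exact absurd hL (hunip hrp hr2)
    refine ⟨hrp, ?_⟩
    have hcpos := oh_cc_pos (F := F) hr hrp
    -- an isometry with `x ^ r = 1` and fixed space of dimension `n % c`
    have hex : ∃ x : Matrix.GeneralLinearGroup (Unit ⊕ (Fin d ⊕ Fin d)) F,
        x ∈ Cfsg.isometryGroup F (Cfsg.quadFormOdd d F) ∧ x ^ r = 1 ∧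
        Module.finrank F ↥(LinearMap.ker (Matrix.toLin'
          (x : Matrix (Unit ⊕ (Fin d ⊕ Fin d)) (Unit ⊕ (Fin d ⊕ Fin d)) F) - 1)) =
            (2 * d + 1) % cc F r ∧
        (cc F r ≤ 2 * d + 1 → x ∈ Cfsg.Geo.omegaGL (Cfsg.quadFormOdd d F) ∧ orderOf x = r) := by
      by_cases hcn : cc F r ≤ 2 * d + 1
      · obtain ⟨x, hxΩ, hord, hker⟩ := hExist F p r hr hr2 hrp h2 d hcn
        exact ⟨x, oh_omega_le hxΩ, by rw [← hord]; exact pow_orderOf_eq_one x, hker,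
          fun _ => ⟨hxΩ, hord⟩⟩
      · refine ⟨1, Subgroup.one_mem _, one_pow r, ?_, fun h => absurd h hcn⟩
        have h1 : (Matrix.toLin' (((1 : Matrix.GeneralLinearGroup (Unit ⊕ (Fin d ⊕ Fin d)) F) :
            Matrix (Unit ⊕ (Fin d ⊕ Fin d)) (Unit ⊕ (Fin d ⊕ Fin d)) F)) - 1 :
            Module.End F (Unit ⊕ (Fin d ⊕ Fin d) → F)) = 0 := by
          rw [Units.val_one, Matrix.toLin'_one]
          exact sub_self _
        rw [h1, LinearMap.ker_zero, finrank_top, oh_finrank_std, Nat.mod_eq_of_lt (by omega)]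
    obtain ⟨x, hxiso, hxr, hker, hxΩ⟩ := hex
    by_cases hreg : m < cc F r ∧ m < (2 * d + 1) % cc F r
    · exfalso
      exact hCnt F p r hr hr2 hrp h2 d m pl hme hm hreg.1 x hxiso hxr (by rw [hker]; exact hreg.2)
        (by rw [hker]; exact Nat.mod_lt _ hcpos) hrΩ
    · have hcn : cc F r ≤ 2 * d + 1 := by
        by_contra hcn
        apply hreg
        rw [Nat.mod_eq_of_lt (by omega)]
        omega
      obtain ⟨hxΩ', hord⟩ := hxΩ hcn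
      obtain ⟨W, hW, hinv⟩ := hL x hxΩ' hord
      obtain ⟨kW, j, h1, h2', h3, h4⟩ := oh_fwd hBr hFwd h2 d m r hr hr2 hrp pl x hxiso hxr W hW hinv
      rw [hker] at h2' h3
      exact hfwd hr2 hrp kW j h1 h2' h3 h4 hreg
  · intro hR x hxΩ hord
    have hxiso := oh_omega_le hxΩ
    have hxr : x ^ r = 1 := by rw [← hord]; exact pow_orderOf_eq_one x
    by_cases hr2 : r = 2
    · subst hr2
      obtain ⟨B, -, hsymm, hnd, -, hND, hPl, hIso⟩ := hBr F d h2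
      have hTT : (Matrix.toLin'
          (x : Matrix (Unit ⊕ (Fin d ⊕ Fin d)) (Unit ⊕ (Fin d ⊕ Fin d)) F)) *
          (Matrix.toLin'
          (x : Matrix (Unit ⊕ (Fin d ⊕ Fin d)) (Unit ⊕ (Fin d ⊕ Fin d)) F)) = 1 := by
        rw [← pow_two]
        exact oh_toLin_pow x 2 hxr
      obtain ⟨W, hWinv, hWnd, hWfin, hWpl⟩ := hInv F _ B _ h2 hsymm hnd ((hIso x).mp hxiso) hTT m pl
        hme hm (by rw [oh_finrank_std]; omega)
      refine ⟨W, ⟨hWfin, (hND W).mpr hWnd, (hPl W).trans hWpl⟩, ?_⟩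
      rw [Submodule.map_le_iff_le_comap]
      exact (Module.End.mem_invtSubmodule _).mp hWinv
    · rcases hR with h | ⟨hrp, hRC⟩
      · exact absurd h hr2
      · exact oh_back hBr hM hExW h2 d m r hr hr2 hrp pl (hback hr2 hrp hRC) x hxiso hxr

/-- `r = p` (S5993): some element of order `p` fixes no minus-type `m`-space. -/
theorem oh_unip (hBr : StBridge.{u}) (hUA : StUnipAbs.{u, u}) (hUE : StUnipEx.{u})
    {p : ℕ} [Fact p.Prime] [CharP F p] (h2 : (2 : F) ≠ 0) (hp2 : p ≠ 2) (d m : ℕ) (hd : 1 ≤ d)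
    (hme : Even m) :
    ¬ (∀ x : Matrix.GeneralLinearGroup (Unit ⊕ (Fin d ⊕ Fin d)) F,
      x ∈ Cfsg.Geo.omegaGL (Cfsg.quadFormOdd d F) → orderOf x = p →
      ∃ W : Submodule F (Unit ⊕ (Fin d ⊕ Fin d) → F), IsHE F d m False W ∧
        W.map (Matrix.toLin'
          (x : Matrix (Unit ⊕ (Fin d ⊕ Fin d)) (Unit ⊕ (Fin d ⊕ Fin d)) F)) ≤ W) := by
  intro h
  obtain ⟨x, hxΩ, hord, hN3, hineq⟩ := hUE F p d hp2 hd
  obtain ⟨W, ⟨hWfin, hWnd, hWpl⟩, hinv⟩ := h x hxΩ hord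
  obtain ⟨B, -, hsymm, hnd, -, hND, hPl, hIso⟩ := hBr F d h2
  have hWinv : W ∈ Module.End.invtSubmodule (Matrix.toLin'
      (x : Matrix (Unit ⊕ (Fin d ⊕ Fin d)) (Unit ⊕ (Fin d ⊕ Fin d)) F)) := by
    rw [Module.End.mem_invtSubmodule, ← Submodule.map_le_iff_le_comap]
    exact hinv
  have hplus := hUA F _ B _ hsymm hnd ((hIso x).mp (oh_omega_le hxΩ)) hN3
    (by rw [oh_finrank_std]; exact hineq) W hWinv ((hND W).mp hWnd) (by rw [hWfin]; exact hme)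
  exact hWpl.mp ((hPl W).mpr hplus)

end Main

/-- S5992, from the pieces. -/
theorem oh_S5992 (hBr : StBridge.{u}) (hM : StOModc.{u, u}) (hExW : StExW.{u, u})
    (hFwd : StFwd.{u, u}) (hInv : StInv.{u, u}) (hExist : StExist.{u}) (hCnt : StCnt.{u})
    (hAB : StArBackH) (hAF : StArFwdH)
    {F : Type u} [Field F] [Fintype F] {p : ℕ} [Fact p.Prime] [CharP F p] {q : ℕ}
    (hq : Fintype.card F = q) (hqodd : Odd q)
    (d m : ℕ) (hm : 2 ≤ m) (hme : Even m) (hmn : m ≤ 2 * d)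
    (r : ℕ) [Fact r.Prime] (hrp : r ≠ p)
    (hrΩ : r ∣ Nat.card {W : Submodule F (Unit ⊕ (Fin d ⊕ Fin d) → F) //
      Module.finrank F ↥W = m ∧
      Cfsg.Geo.IsNondegenerateOn (QuadraticMap.polar (Cfsg.quadFormOdd d F)) W ∧
      Cfsg.Geo.IsPlusTypeOn (Cfsg.quadFormOdd d F) W})
    (i c : ℕ) (hi : i = orderOf (q : ZMod r)) (hc : c = if Even i then i else 2 * i) :
    (∀ x : Matrix.GeneralLinearGroup (Unit ⊕ (Fin d ⊕ Fin d)) F,
      x ∈ Cfsg.Geo.omegaGL (Cfsg.quadFormOdd d F) → orderOf x = r →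
      ∃ W : Submodule F (Unit ⊕ (Fin d ⊕ Fin d) → F),
        (Module.finrank F ↥W = m ∧
          Cfsg.Geo.IsNondegenerateOn (QuadraticMap.polar (Cfsg.quadFormOdd d F)) W ∧
          Cfsg.Geo.IsPlusTypeOn (Cfsg.quadFormOdd d F) W) ∧
        W.map (Matrix.toLin'
          (x : Matrix (Unit ⊕ (Fin d ⊕ Fin d)) (Unit ⊕ (Fin d ⊕ Fin d)) F)) ≤ W) ↔
    (r = 2 ∨
     (2 < r ∧ Odd i ∧ c ≤ m ∧ (m % c = 0 ∨ (0 < m % c ∧ m % c < (2 * d + 1) % c))) ∨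
     (2 < r ∧ Even i ∧ i ≤ m ∧ m % c < (2 * d + 1) % c ∧ (0 < m % c ∨ Even (m / i)))) := by
  subst hq
  have hr : r.Prime := Fact.out
  have h2 : (2 : F) ≠ 0 := oh_two_ne hqodd
  have hii : ii F r = i := hi.symm
  have hcc : cc F r = c := by rw [hc, oh_cc_eq, hii]
  have hHE : ∀ W : Submodule F (Unit ⊕ (Fin d ⊕ Fin d) → F), IsHE F d m True W ↔
      (Module.finrank F ↥W = m ∧
      Cfsg.Geo.IsNondegenerateOn (QuadraticMap.polar (Cfsg.quadFormOdd d F)) W ∧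
      Cfsg.Geo.IsPlusTypeOn (Cfsg.quadFormOdd d F) W) := fun W => by simp [IsHE]
  have hrΩ' : r ∣ Nat.card {W : Submodule F (Unit ⊕ (Fin d ⊕ Fin d) → F) // IsHE F d m True W} := by
    rw [Nat.card_congr (Equiv.subtypeEquivRight hHE)]
    exact hrΩ
  have hodd : Odd (2 * d + 1) := ⟨d, rfl⟩
  have core := oh_core hBr hM hExW hFwd hInv hExist hCnt h2 d m hm hme hmn r hr True
    ((Odd i ∧ c ≤ m ∧ (m % c = 0 ∨ (0 < m % c ∧ m % c < (2 * d + 1) % c))) ∨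
     (Even i ∧ i ≤ m ∧ m % c < (2 * d + 1) % c ∧ (0 < m % c ∨ Even (m / i)))) hrΩ'
    (by
      intro _ hrp' hRC k₀ a hk
      have hipos : 0 < i := by rw [← hii]; exact oh_ii_pos (F := F) hr hrp'
      rw [hcc] at hk ⊢
      rw [hii]
      obtain ⟨j, e, h1, h2', h3, h4, h5⟩ := hAB (2 * d + 1) m i c k₀ a hodd hme hm (by omega) hipos
        hc hk hRC
      exact ⟨j, e, h1, h2', h3, h4, fun h0 => iff_of_true trivial (h5 h0)⟩)
    (by
      intro _ hrp' kW j h1 h2' h3 h4 h5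
      have hipos : 0 < i := by rw [← hii]; exact oh_ii_pos (F := F) hr hrp'
      rw [hcc] at h1 h2' h3 h5
      rw [hii] at h4
      exact hAF (2 * d + 1) m i c kW j hodd hme hm hipos hc h1 h2' h3
        (fun h0 => (h4 h0).mp trivial) h5)
    (fun h _ => absurd h hrp)
  simp only [hHE] at core
  rw [core]
  constructor
  · rintro (h | ⟨-, h⟩)
    · exact Or.inl h
    · by_cases hr2 : r = 2
      · exact Or.inl hr2
      have h2r : 2 < r := lt_of_le_of_ne hr.two_le (Ne.symm hr2)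
      rcases h with h | h
      · exact Or.inr (Or.inl ⟨h2r, h⟩)
      · exact Or.inr (Or.inr ⟨h2r, h⟩)
  · rintro (h | ⟨-, h⟩ | ⟨-, h⟩)
    · exact Or.inl h
    · exact Or.inr ⟨hrp, Or.inl h⟩
    · exact Or.inr ⟨hrp, Or.inr h⟩

/-- S5993, from the pieces. -/
theorem oh_S5993 (hBr : StBridge.{u}) (hM : StOModc.{u, u}) (hExW : StExW.{u, u})
    (hFwd : StFwd.{u, u}) (hInv : StInv.{u, u}) (hExist : StExist.{u}) (hCnt : StCnt.{u})
    (hUA : StUnipAbs.{u, u}) (hUE : StUnipEx.{u})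
    (hAB : StArBackE) (hAF : StArFwdE)
    {F : Type u} [Field F] [Fintype F] {p : ℕ} [Fact p.Prime] [CharP F p] {q : ℕ}
    (hq : Fintype.card F = q) (hqodd : Odd q)
    (d m : ℕ) (hd : 3 ≤ d) (hm : 2 ≤ m) (hme : Even m) (hmn : m ≤ 2 * d)
    (r : ℕ) [Fact r.Prime]
    (hrΩ : r ∣ Nat.card {W : Submodule F (Unit ⊕ (Fin d ⊕ Fin d) → F) //
      Module.finrank F ↥W = m ∧
      Cfsg.Geo.IsNondegenerateOn (QuadraticMap.polar (Cfsg.quadFormOdd d F)) W ∧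
      ¬ Cfsg.Geo.IsPlusTypeOn (Cfsg.quadFormOdd d F) W})
    (i c : ℕ) (hi : i = orderOf (q : ZMod r)) (hc : c = if Even i then i else 2 * i) :
    (∀ x : Matrix.GeneralLinearGroup (Unit ⊕ (Fin d ⊕ Fin d)) F,
      x ∈ Cfsg.Geo.omegaGL (Cfsg.quadFormOdd d F) → orderOf x = r →
      ∃ W : Submodule F (Unit ⊕ (Fin d ⊕ Fin d) → F),
        (Module.finrank F ↥W = m ∧
          Cfsg.Geo.IsNondegenerateOn (QuadraticMap.polar (Cfsg.quadFormOdd d F)) W ∧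
          ¬ Cfsg.Geo.IsPlusTypeOn (Cfsg.quadFormOdd d F) W) ∧
        W.map (Matrix.toLin'
          (x : Matrix (Unit ⊕ (Fin d ⊕ Fin d)) (Unit ⊕ (Fin d ⊕ Fin d)) F)) ≤ W) ↔
    (r = 2 ∨
     (r ≠ p ∧ 2 < r ∧ Odd i ∧ c ≤ m ∧ 0 < m % c ∧ m % c < (2 * d + 1) % c) ∨
     (r ≠ p ∧ 2 < r ∧ Even i ∧ i ≤ m ∧ m % c < (2 * d + 1) % c ∧
       (0 < m % c ∨ Odd (m / i)))) := by
  subst hq
  have hr : r.Prime := Fact.out
  have h2 : (2 : F) ≠ 0 := oh_two_ne hqodd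
  have hii : ii F r = i := hi.symm
  have hcc : cc F r = c := by rw [hc, oh_cc_eq, hii]
  have hHE : ∀ W : Submodule F (Unit ⊕ (Fin d ⊕ Fin d) → F), IsHE F d m False W ↔
      (Module.finrank F ↥W = m ∧
      Cfsg.Geo.IsNondegenerateOn (QuadraticMap.polar (Cfsg.quadFormOdd d F)) W ∧
      ¬ Cfsg.Geo.IsPlusTypeOn (Cfsg.quadFormOdd d F) W) := fun W => by simp [IsHE]
  have hrΩ' : r ∣ Nat.card {W : Submodule F (Unit ⊕ (Fin d ⊕ Fin d) → F) // IsHE F d m False W} := by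
    rw [Nat.card_congr (Equiv.subtypeEquivRight hHE)]
    exact hrΩ
  have hodd : Odd (2 * d + 1) := ⟨d, rfl⟩
  have core := oh_core hBr hM hExW hFwd hInv hExist hCnt h2 d m hm hme hmn r hr False
    ((Odd i ∧ c ≤ m ∧ 0 < m % c ∧ m % c < (2 * d + 1) % c) ∨
     (Even i ∧ i ≤ m ∧ m % c < (2 * d + 1) % c ∧ (0 < m % c ∨ Odd (m / i)))) hrΩ'
    (by
      intro _ hrp' hRC k₀ a hk
      have hipos : 0 < i := by rw [← hii]; exact oh_ii_pos (F := F) hr hrp'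
      rw [hcc] at hk ⊢
      rw [hii]
      obtain ⟨j, e, h1, h2', h3, h4, h5⟩ := hAB (2 * d + 1) m i c k₀ a hodd hme hm (by omega) hipos
        hc hk hRC
      exact ⟨j, e, h1, h2', h3, h4, fun h0 => iff_of_false id (h5 h0)⟩)
    (by
      intro _ hrp' kW j h1 h2' h3 h4 h5
      have hipos : 0 < i := by rw [← hii]; exact oh_ii_pos (F := F) hr hrp'
      rw [hcc] at h1 h2' h3 h5
      rw [hii] at h4
      exact hAF (2 * d + 1) m i c kW j hodd hme hm hipos hc h1 h2' h3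
        (fun h0 => (h4 h0).mpr) h5)
    (by
      intro hrp' hr2
      subst hrp'
      exact oh_unip hBr hUA hUE h2 hr2 d m (by omega) hme)
  simp only [hHE] at core
  rw [core]
  constructor
  · rintro (h | ⟨hrp, h⟩)
    · exact Or.inl h
    · by_cases hr2 : r = 2
      · exact Or.inl hr2
      have h2r : 2 < r := lt_of_le_of_ne hr.two_le (Ne.symm hr2)
      rcases h with h | h
      · exact Or.inr (Or.inl ⟨hrp, h2r, h⟩)
      · exact Or.inr (Or.inr ⟨hrp, h2r, h⟩)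
  · rintro (h | ⟨hrp, -, h⟩ | ⟨hrp, -, h⟩)
    · exact Or.inl h
    · exact Or.inr ⟨hrp, Or.inl h⟩
    · exact Or.inr ⟨hrp, Or.inr h⟩

end Cfsg.Agent.H95.Oh
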