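import Cfsg.Agent.H49.TwoFam

set_option autoImplicit false
set_option linter.unusedSectionVars false
set_option linter.unusedVariables false

/-! Helper lemmas (helper95): linear algebra for a pair of complementary subspaces of half
dimension, used for the maximality of the stabiliser of a pair of complementary totally
singular subspaces in the classical groups. -/

namespace Cfsg.Agent.H95

open Module

section
variable {F V : Type*} [Field F] [AddCommGroup V] [Module F V] [FiniteDimensional F V]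

theorem finrank_inf_ker_ge (X : Submodule F V) (f : V →ₗ[F] F) :
    finrank F X ≤ finrank F ↥(X ⊓ LinearMap.ker f) + 1 := by
  have h1 := LinearMap.finrank_range_add_finrank_ker f
  have h2 : finrank F (LinearMap.range f) ≤ 1 := by
    have := Submodule.finrank_le (LinearMap.range f)
    rwa [Module.finrank_self] at this
  have h3 := Submodule.finrank_sup_add_finrank_inf_eq X (LinearMap.ker f)
  have h4 := Submodule.finrank_le (X ⊔ LinearMap.ker f)
  omega

theorem finrank_sup_of_inf_bot (U U' : Submodule F V) (hUU' : U ⊓ U' = ⊥) :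
    finrank F ↥(U ⊔ U') = finrank F U + finrank F U' := by
  have := Submodule.finrank_sup_add_finrank_inf_eq U U'
  rw [hUU', finrank_bot] at this
  omega

theorem sup_eq_top_of_inf_bot {m : ℕ} (hV : finrank F V = 2 * m) (U U' : Submodule F V)
    (hU : finrank F U = m) (hU' : finrank F U' = m) (hUU' : U ⊓ U' = ⊥) : U ⊔ U' = ⊤ := by
  apply Submodule.eq_top_of_finrank_eq
  rw [finrank_sup_of_inf_bot U U' hUU', hU, hU', hV]
  omega

/-- A vector of a subspace `X` outside two subspaces of the same dimension different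
from `X`. -/
theorem exists_mem_not_mem_two (X U U' : Submodule F V) (h1 : finrank F X = finrank F U)
    (h2 : finrank F X = finrank F U') (hXU : X ≠ U) (hXU' : X ≠ U') :
    ∃ x ∈ X, x ∉ U ∧ x ∉ U' := by
  obtain ⟨x₁, hx₁, hx₁U⟩ : ∃ x ∈ X, x ∉ U := by
    by_contra hcon
    push Not at hcon
    exact hXU (Submodule.eq_of_le_of_finrank_eq (fun x hx => hcon x hx) h1)
  obtain ⟨x₂, hx₂, hx₂U'⟩ : ∃ x ∈ X, x ∉ U' := by
    by_contra hcon
    push Not at hcon
    exact hXU' (Submodule.eq_of_le_of_finrank_eq (fun x hx => hcon x hx) h2)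
  by_cases h3 : x₁ ∈ U'
  · by_cases h4 : x₂ ∈ U
    · refine ⟨x₁ + x₂, X.add_mem hx₁ hx₂, ?_, ?_⟩
      · intro h
        exact hx₁U ((U.add_mem_iff_left h4).mp h)
      · intro h
        exact hx₂U' ((U'.add_mem_iff_right h3).mp h)
    · exact ⟨x₂, hx₂, h4, hx₂U'⟩
  · exact ⟨x₁, hx₁, hx₁U, h3⟩

theorem pairgeo_one {m : ℕ} (hm : 4 ≤ m) (hV : finrank F V = 2 * m) (U U' X' : Submodule F V)
    (hU : finrank F U = m) (hU' : finrank F U' = m) (hX' : finrank F X' = m)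
    (hUU' : U ⊓ U' = ⊥) (x : V) (hxU : x ∉ U) (hxU' : x ∉ U') (f : V →ₗ[F] F) :
    ∃ x' ∈ X', f x' = 0 ∧
      (x' ∉ U' ⊔ Submodule.span F {x} ∨ x' ∉ U ⊔ Submodule.span F {x}) := by
  by_contra hcon
  push Not at hcon
  have hK := finrank_inf_ker_ge X' f
  have hle : X' ⊓ LinearMap.ker f ≤
      (U' ⊔ Submodule.span F {x}) ⊓ (U ⊔ Submodule.span F {x}) := by
    rintro y ⟨hy1, hy2⟩
    exact hcon y hy1 (LinearMap.mem_ker.mp hy2)
  have h1 := Submodule.finrank_mono hle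
  have h2 := H49.finrank_sup_span_singleton U hxU
  have h3 := H49.finrank_sup_span_singleton U' hxU'
  have h4 := Submodule.finrank_sup_add_finrank_inf_eq (U' ⊔ Submodule.span F {x})
    (U ⊔ Submodule.span F {x})
  have h5 := finrank_sup_of_inf_bot U U' hUU'
  have h6 : U ⊔ U' ≤ (U' ⊔ Submodule.span F {x}) ⊔ (U ⊔ Submodule.span F {x}) :=
    sup_le (le_sup_left.trans le_sup_right) (le_sup_left.trans le_sup_left)
  have h7 := Submodule.finrank_mono h6
  omega

theorem pairgeo_two {m : ℕ} (hm : 5 ≤ m) (hV : finrank F V = 2 * m) (U U' : Submodule F V)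
    (hU : finrank F U = m) (hU' : finrank F U' = m) (hUU' : U ⊓ U' = ⊥) (x x' : V)
    (hxU' : x ∉ U') (hx' : x' ∉ U' ⊔ Submodule.span F {x}) (f₁ f₂ : V →ₗ[F] F) :
    ∃ a ∈ U, a ≠ 0 ∧ f₁ a = 0 ∧ f₂ a = 0 ∧
      ∀ α β : F, α • x + β • x' ∈ U' ⊔ Submodule.span F {a} → α = 0 ∧ β = 0 := by
  obtain ⟨L, hL⟩ : ∃ L, L = U' ⊔ Submodule.span F {x} ⊔ Submodule.span F {x'} := ⟨_, rfl⟩
  have hLdim : finrank F L = m + 2 := by
    rw [hL, H49.finrank_sup_span_singleton _ hx', H49.finrank_sup_span_singleton _ hxU', hU']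
  have hxL : x ∈ L := by
    rw [hL]
    exact Submodule.mem_sup_left (Submodule.mem_sup_right (Submodule.mem_span_singleton_self x))
  have hx'L : x' ∈ L := by
    rw [hL]
    exact Submodule.mem_sup_right (Submodule.mem_span_singleton_self x')
  have hU'L : U' ≤ L := by
    rw [hL]
    exact le_sup_left.trans le_sup_left
  have hex : ∃ a ∈ U ⊓ LinearMap.ker f₁ ⊓ LinearMap.ker f₂, a ∉ L := by
    by_contra hcon
    push Not at hcon
    have hle : U ⊓ LinearMap.ker f₁ ⊓ LinearMap.ker f₂ ≤ U ⊓ L :=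
      fun y hy => ⟨hy.1.1, hcon y hy⟩
    have h1 := Submodule.finrank_mono hle
    have h2 := finrank_inf_ker_ge U f₁
    have h3 := finrank_inf_ker_ge (U ⊓ LinearMap.ker f₁) f₂
    have h4 := Submodule.finrank_sup_add_finrank_inf_eq U L
    have h5 := finrank_sup_of_inf_bot U U' hUU'
    have h6 : U ⊔ U' ≤ U ⊔ L := sup_le_sup_left hU'L U
    have h7 := Submodule.finrank_mono h6
    omega
  obtain ⟨a, ⟨⟨haU, ha1⟩, ha2⟩, haL⟩ := hex
  refine ⟨a, haU, ?_, LinearMap.mem_ker.mp ha1, LinearMap.mem_ker.mp ha2, ?_⟩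
  · rintro rfl
    exact haL L.zero_mem
  · intro α β h
    obtain ⟨u', hu', y, hy, hsum⟩ := Submodule.mem_sup.mp h
    obtain ⟨γ, rfl⟩ := Submodule.mem_span_singleton.mp hy
    have hγ : γ = 0 := by
      by_contra hγ
      apply haL
      have : a = γ⁻¹ • (α • x + β • x' - u') := by
        rw [← hsum, add_sub_cancel_left, smul_smul, inv_mul_cancel₀ hγ, one_smul]
      rw [this]
      exact L.smul_mem _ (L.sub_mem (L.add_mem (L.smul_mem _ hxL) (L.smul_mem _ hx'L))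
        (hU'L hu'))
    rw [hγ, zero_smul, add_zero] at hsum
    have hβ : β = 0 := by
      by_contra hβ
      apply hx'
      have : x' = β⁻¹ • (u' - α • x) := by
        rw [hsum, add_sub_cancel_left, smul_smul, inv_mul_cancel₀ hβ, one_smul]
      rw [this]
      exact Submodule.smul_mem _ _ (Submodule.sub_mem _ (Submodule.mem_sup_left hu')
        (Submodule.mem_sup_right (Submodule.smul_mem _ _ (Submodule.mem_span_singleton_self x))))
    rw [hβ, zero_smul, add_zero] at hsum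
    refine ⟨?_, hβ⟩
    by_contra hα
    apply hxU'
    have : x = α⁻¹ • u' := by rw [hsum, smul_smul, inv_mul_cancel₀ hα, one_smul]
    rw [this]
    exact U'.smul_mem _ hu'

end

section PP
variable {F V : Type*} [Field F] [AddCommGroup V] [Module F V]
variable (ψ : V → V →ₗ[F] F) (P P' : Submodule F V)

theorem pair_pp1
    (hsub : ∀ v w e, ψ (v - w) e = ψ v e - ψ w e)
    (hsm : ∀ (c : F) (w : V), ∃ c' : F, ∀ e, ψ (c' • w) e = c * ψ w e)
    (hND : ∀ w ∈ P, (∀ e' ∈ P', ψ w e' = 0) → w = 0)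
    (s z : V) (hs : s ∈ P) (hz : z ∈ P)
    (h : ∀ e' ∈ P', ψ s e' = 0 → ψ z e' = 0) : z ∈ Submodule.span F {s} := by
  have hker : ⨅ _i : Unit, LinearMap.ker ((ψ s).comp P'.subtype) ≤
      LinearMap.ker ((ψ z).comp P'.subtype) := by
    intro e he
    rw [Submodule.mem_iInf] at he
    have h1 := he ()
    rw [LinearMap.mem_ker] at h1 ⊢
    exact h e e.2 h1
  have h2 := mem_span_of_iInf_ker_le_ker (L := fun _ : Unit => (ψ s).comp P'.subtype) hker
  rw [Set.range_const, Submodule.mem_span_singleton] at h2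
  obtain ⟨c, hc⟩ := h2
  obtain ⟨c', hc'⟩ := hsm c s
  have hw : z - c' • s = 0 := by
    apply hND _ (P.sub_mem hz (P.smul_mem _ hs))
    intro e' he'
    rw [hsub, hc']
    have h3 := LinearMap.congr_fun hc ⟨e', he'⟩
    simp only [LinearMap.smul_apply, LinearMap.comp_apply, Submodule.subtype_apply,
      smul_eq_mul] at h3
    rw [← h3, sub_self]
  rw [Submodule.mem_span_singleton]
  exact ⟨c', (sub_eq_zero.mp hw).symm⟩

theorem pair_pp2
    (hsub : ∀ v w e, ψ (v - w) e = ψ v e - ψ w e)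
    (hsm : ∀ (c : F) (w : V), ∃ c' : F, ∀ e, ψ (c' • w) e = c * ψ w e)
    (hND : ∀ w ∈ P, (∀ e' ∈ P', ψ w e' = 0) → w = 0)
    (s₁ s₂ z : V) (hs₁ : s₁ ∈ P) (hs₂ : s₂ ∈ P) (hz : z ∈ P)
    (h : ∀ e' ∈ P', ψ s₁ e' = 0 → ψ s₂ e' = 0 → ψ z e' = 0) :
    ∃ c₁ c₂ : F, z = c₁ • s₁ + c₂ • s₂ := by
  have hker : ⨅ i : Bool, LinearMap.ker ((ψ (bif i then s₁ else s₂)).comp P'.subtype) ≤
      LinearMap.ker ((ψ z).comp P'.subtype) := by
    intro e he
    rw [Submodule.mem_iInf] at he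
    have h1 := he true
    have h2 := he false
    rw [LinearMap.mem_ker] at h1 h2 ⊢
    exact h e e.2 h1 h2
  have h2 := mem_span_of_iInf_ker_le_ker
    (L := fun i : Bool => (ψ (bif i then s₁ else s₂)).comp P'.subtype) hker
  obtain ⟨c, hc⟩ := (Submodule.mem_span_range_iff_exists_fun F).mp h2
  rw [Fintype.sum_bool] at hc
  obtain ⟨c₁, h₁⟩ := hsm (c true) s₁
  obtain ⟨c₂, h₂⟩ := hsm (c false) s₂
  have hw : z - c₁ • s₁ - c₂ • s₂ = 0 := by
    apply hND _ (P.sub_mem (P.sub_mem hz (P.smul_mem _ hs₁)) (P.smul_mem _ hs₂))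
    intro e' he'
    rw [hsub, hsub, h₁, h₂]
    have h3 := LinearMap.congr_fun hc ⟨e', he'⟩
    simp only [LinearMap.add_apply, LinearMap.smul_apply, LinearMap.comp_apply,
      Submodule.subtype_apply, smul_eq_mul, cond_true, cond_false] at h3
    rw [← h3]
    ring
  refine ⟨c₁, c₂, ?_⟩
  rw [sub_sub, sub_eq_zero] at hw
  exact hw

theorem pair_exists1
    (hsub : ∀ v w e, ψ (v - w) e = ψ v e - ψ w e)
    (hsm : ∀ (c : F) (w : V), ∃ c' : F, ∀ e, ψ (c' • w) e = c * ψ w e)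
    (hND : ∀ w ∈ P, (∀ e' ∈ P', ψ w e' = 0) → w = 0)
    (s z : V) (hs : s ∈ P) (hz : z ∈ P) (hzs : z ∉ Submodule.span F {s}) :
    ∃ e' ∈ P', ψ s e' = 0 ∧ ψ z e' ≠ 0 := by
  by_contra hcon
  push Not at hcon
  exact hzs (pair_pp1 ψ P P' hsub hsm hND s z hs hz hcon)

theorem pair_exists2
    (hsub : ∀ v w e, ψ (v - w) e = ψ v e - ψ w e)
    (hsm : ∀ (c : F) (w : V), ∃ c' : F, ∀ e, ψ (c' • w) e = c * ψ w e)
    (hND : ∀ w ∈ P, (∀ e' ∈ P', ψ w e' = 0) → w = 0)
    (s₁ s₂ z : V) (hs₁ : s₁ ∈ P) (hs₂ : s₂ ∈ P) (hz : z ∈ P)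
    (hzs : ∀ c₁ c₂ : F, z ≠ c₁ • s₁ + c₂ • s₂) :
    ∃ e' ∈ P', ψ s₁ e' = 0 ∧ ψ s₂ e' = 0 ∧ ψ z e' ≠ 0 := by
  by_contra hcon
  push Not at hcon
  obtain ⟨c₁, c₂, e⟩ := pair_pp2 ψ P P' hsub hsm hND s₁ s₂ z hs₁ hs₂ hz hcon
  exact hzs c₁ c₂ e

theorem pair_existsV
    (hsub : ∀ v w e, ψ (v - w) e = ψ v e - ψ w e)
    (hsm : ∀ (c : F) (w : V), ∃ c' : F, ∀ e, ψ (c' • w) e = c * ψ w e)
    (hND : ∀ w ∈ P, (∀ e' ∈ P', ψ w e' = 0) → w = 0)
    (hts' : ∀ u ∈ P', ∀ e ∈ P', ψ u e = 0) (hsup : P ⊔ P' = ⊤)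
    (a z : V) (ha : a ∈ P) (hz : z ∉ P' ⊔ Submodule.span F {a}) :
    ∃ b' ∈ P', ψ a b' = 0 ∧ ψ z b' ≠ 0 := by
  obtain ⟨p, hp, p', hp', rfl⟩ := Submodule.mem_sup.mp
    (show z ∈ P ⊔ P' by rw [hsup]; exact Submodule.mem_top)
  have hpa : p ∉ Submodule.span F {a} := by
    intro h
    apply hz
    rw [add_comm]
    exact Submodule.add_mem _ (Submodule.mem_sup_left hp') (Submodule.mem_sup_right h)
  obtain ⟨b', hb', h1, h2⟩ := pair_exists1 ψ P P' hsub hsm hND a p ha hp hpa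
  refine ⟨b', hb', h1, ?_⟩
  have h3 : ψ p b' = ψ (p + p') b' - ψ p' b' := by
    rw [← hsub, add_sub_cancel_right]
  rw [hts' p' hp' b' hb', sub_zero] at h3
  rw [← h3]
  exact h2

end PP

end Cfsg.Agent.H95
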