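import Cfsg.Agent.H95.PairGeo
import Cfsg.Agent.H95.ND1

set_option autoImplicit false
set_option linter.unusedSectionVars false
set_option linter.unusedVariables false

/-! Helper lemmas (helper95): in `Ω(Q)` the stabiliser of a pair of complementary maximal totally
singular subspaces is maximal (core argument on Eichler directions and full points). -/

namespace Cfsg.Agent.H95

open Module Matrix Cfsg.Agent.H49

section
variable {ι : Type} [Fintype ι] [DecidableEq ι] {F : Type*} [Field F]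

theorem polar_hsub (Q : QuadraticForm F (ι → F)) :
    ∀ v w e : ι → F, QuadraticMap.polarBilin Q (v - w) e =
      QuadraticMap.polarBilin Q v e - QuadraticMap.polarBilin Q w e := by
  intro v w e
  rw [map_sub, LinearMap.sub_apply]

theorem polar_hsm (Q : QuadraticForm F (ι → F)) :
    ∀ (c : F) (w : ι → F), ∃ c' : F, ∀ e, QuadraticMap.polarBilin Q (c' • w) e =
      c * QuadraticMap.polarBilin Q w e :=
  fun c w => ⟨c, fun e => by rw [map_smul, LinearMap.smul_apply, smul_eq_mul]⟩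

theorem polar_hND (Q : QuadraticForm F (ι → F))
    (hQ : (QuadraticMap.polarBilin Q).Nondegenerate) (P P' : Submodule F (ι → F))
    (hP : IsTS Q P) (hsup : P ⊔ P' = ⊤) :
    ∀ w ∈ P, (∀ e' ∈ P', QuadraticMap.polarBilin Q w e' = 0) → w = 0 := by
  intro w hw h
  apply hQ.1
  intro y
  obtain ⟨p, hp, p', hp', rfl⟩ := Submodule.mem_sup.mp
    (show y ∈ P ⊔ P' by rw [hsup]; exact Submodule.mem_top)
  rw [map_add, h p' hp', add_zero]
  exact hP.polar hw hp

theorem pairO_exists0 (Q : QuadraticForm F (ι → F))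
    (hQ : (QuadraticMap.polarBilin Q).Nondegenerate) (P P' : Submodule F (ι → F))
    (hP : IsTS Q P) (hsup : P ⊔ P' = ⊤) (a : ι → F) (ha : a ∈ P) (ha0 : a ≠ 0) :
    ∃ c' ∈ P', QuadraticMap.polar (⇑Q) a c' ≠ 0 := by
  by_contra hcon
  push Not at hcon
  exact ha0 (polar_hND Q hQ P P' hP hsup a ha hcon)

theorem pairO_exists1 (Q : QuadraticForm F (ι → F))
    (hQ : (QuadraticMap.polarBilin Q).Nondegenerate) (P P' : Submodule F (ι → F))
    (hP : IsTS Q P) (hsup : P ⊔ P' = ⊤) (s z : ι → F) (hs : s ∈ P) (hz : z ∈ P)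
    (hzs : z ∉ Submodule.span F {s}) :
    ∃ e' ∈ P', QuadraticMap.polar (⇑Q) s e' = 0 ∧ QuadraticMap.polar (⇑Q) z e' ≠ 0 :=
  pair_exists1 (fun v => QuadraticMap.polarBilin Q v) P P' (polar_hsub Q) (polar_hsm Q)
    (polar_hND Q hQ P P' hP hsup) s z hs hz hzs

theorem pairO_exists2 (Q : QuadraticForm F (ι → F))
    (hQ : (QuadraticMap.polarBilin Q).Nondegenerate) (P P' : Submodule F (ι → F))
    (hP : IsTS Q P) (hsup : P ⊔ P' = ⊤) (s₁ s₂ z : ι → F) (hs₁ : s₁ ∈ P) (hs₂ : s₂ ∈ P)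
    (hz : z ∈ P) (hzs : ∀ c₁ c₂ : F, z ≠ c₁ • s₁ + c₂ • s₂) :
    ∃ e' ∈ P', QuadraticMap.polar (⇑Q) s₁ e' = 0 ∧ QuadraticMap.polar (⇑Q) s₂ e' = 0 ∧
      QuadraticMap.polar (⇑Q) z e' ≠ 0 :=
  pair_exists2 (fun v => QuadraticMap.polarBilin Q v) P P' (polar_hsub Q) (polar_hsm Q)
    (polar_hND Q hQ P P' hP hsup) s₁ s₂ z hs₁ hs₂ hz hzs

theorem pairO_existsV (Q : QuadraticForm F (ι → F))
    (hQ : (QuadraticMap.polarBilin Q).Nondegenerate) (P P' : Submodule F (ι → F))
    (hP : IsTS Q P) (hP' : IsTS Q P') (hsup : P ⊔ P' = ⊤) (a z : ι → F) (ha : a ∈ P)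
    (hz : z ∉ P' ⊔ Submodule.span F {a}) :
    ∃ b' ∈ P', QuadraticMap.polar (⇑Q) a b' = 0 ∧ QuadraticMap.polar (⇑Q) z b' ≠ 0 :=
  pair_existsV (fun v => QuadraticMap.polarBilin Q v) P P' (polar_hsub Q) (polar_hsm Q)
    (polar_hND Q hQ P P' hP hsup) (fun u hu e he => hP'.polar hu he) hsup a z ha hz

/-- Producing a full point in `P` from one Eichler direction `x'` at a point `x`, the line
`⟨x, x'⟩` missing `P'`. -/
theorem pairO_full (Q : QuadraticForm F (ι → F))
    (hQ : (QuadraticMap.polarBilin Q).Nondegenerate) {m : ℕ} (hm : 5 ≤ m)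
    (hV : finrank F (ι → F) = 2 * m)
    (P P' : Submodule F (ι → F)) (hP : IsTS Q P) (hP' : IsTS Q P') (dP : finrank F P = m)
    (dP' : finrank F P' = m) (hPP' : P ⊓ P' = ⊥)
    (M : Subgroup ↥(Cfsg.isometryGroup F (⇑Q)))
    (hE : ∀ p ∈ P, ∀ p' ∈ P', QuadraticMap.polar (⇑Q) p p' = 0 → eichDir Q M p p')
    (x x' : ι → F) (hxx' : eichDir Q M x x') (hxP' : x ∉ P')
    (hx' : x' ∉ P' ⊔ Submodule.span F {x}) :
    ∃ a ∈ P, a ≠ 0 ∧ a ∈ fullPts Q M := by
  have hsup : P ⊔ P' = ⊤ := sup_eq_top_of_inf_bot hV P P' dP dP' hPP'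
  have hmemsup : ∀ z : ι → F, z ∈ P ⊔ P' := fun z => by rw [hsup]; exact Submodule.mem_top
  obtain ⟨a, haP, ha0, hxa, hx'a, hind⟩ := pairgeo_two hm hV P P' dP dP' hPP' x x' hxP' hx'
    (QuadraticMap.polarBilin Q x) (QuadraticMap.polarBilin Q x')
  have hxa' : QuadraticMap.polar (⇑Q) x a = 0 := hxa
  have hx'a' : QuadraticMap.polar (⇑Q) x' a = 0 := hx'a
  have hQa : Q a = 0 := hP a haP
  have hxna : x ∉ P' ⊔ Submodule.span F {a} := by
    intro h
    have := hind 1 0 (by rw [one_smul, zero_smul, add_zero]; exact h)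
    exact one_ne_zero this.1
  obtain ⟨b', hb'P', hab', hxb'⟩ := pairO_existsV Q hQ P P' hP hP' hsup a x haP hxna
  obtain ⟨τ, hτM, hτ⟩ := hxx'.2 1
  have hτa : act τ a = a := by
    rw [hτ]
    unfold eich
    rw [one_smul, hxa', hx'a']
    simp
  obtain ⟨d, hd⟩ : ∃ d, d = QuadraticMap.polar (⇑Q) x b' • x' -
      (QuadraticMap.polar (⇑Q) x' b' + Q x' * QuadraticMap.polar (⇑Q) x b') • x := ⟨_, rfl⟩
  have hτb : act τ b' = b' + d := by
    rw [hτ, hd]
    unfold eich
    rw [one_smul]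
    module
  have h1 : eichDir Q M a b' := hE a haP b' hb'P' hab'
  have h2 := eichDir_conj Q M a b' hτM h1
  rw [hτa, hτb] at h2
  have h3 : eichDir Q M a d := by
    have := eichDir_sub Q M a _ _ hQa h2 h1
    rwa [add_sub_cancel_left] at this
  have hdn : d ∉ P' ⊔ Submodule.span F {a} := by
    intro h
    have h' := hind (-(QuadraticMap.polar (⇑Q) x' b' + Q x' * QuadraticMap.polar (⇑Q) x b'))
      (QuadraticMap.polar (⇑Q) x b') (by
        have e : -(QuadraticMap.polar (⇑Q) x' b' + Q x' * QuadraticMap.polar (⇑Q) x b') • x +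
            QuadraticMap.polar (⇑Q) x b' • x' = d := by
          rw [hd]; module
        rw [e]; exact h)
    exact hxb' h'.2
  obtain ⟨d₁, hd₁, d₂, hd₂, hdsum⟩ := Submodule.mem_sup.mp (hmemsup d)
  have had₁ : QuadraticMap.polar (⇑Q) a d₁ = 0 := hP.polar haP hd₁
  have had₂ : QuadraticMap.polar (⇑Q) a d₂ = 0 := by
    have := h3.1
    rw [← hdsum, QuadraticMap.polar_add_right, had₁, zero_add] at this
    exact this
  have h4 : eichDir Q M a d₁ := by
    have := eichDir_sub Q M a d d₂ hQa h3 (hE a haP d₂ hd₂ had₂)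
    rwa [← hdsum, add_sub_cancel_right] at this
  have hd₁n : d₁ ∉ Submodule.span F {a} := by
    intro h
    apply hdn
    rw [← hdsum, add_comm]
    exact Submodule.add_mem _ (Submodule.mem_sup_left hd₂) (Submodule.mem_sup_right h)
  have h5 : ∀ c ∈ P, eichDir Q M a c := by
    intro c hc
    by_cases hcase : ∃ c₁ c₂ : F, d₁ = c₁ • a + c₂ • c
    · obtain ⟨c₁, c₂, e⟩ := hcase
      have hc₂ : c₂ ≠ 0 := by
        rintro rfl
        apply hd₁n
        rw [e, zero_smul, add_zero]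
        exact Submodule.smul_mem _ _ (Submodule.mem_span_singleton_self a)
      have e2 : c = c₂⁻¹ • (d₁ - c₁ • a) := by
        rw [e, add_sub_cancel_left, smul_smul, inv_mul_cancel₀ hc₂, one_smul]
      rw [e2]
      exact eichDir_smul Q M a _ _ (eichDir_sub Q M a _ _ hQa h4
        (eichDir_smul Q M a a c₁ (eichDir_self Q M a hQa)))
    · push Not at hcase
      obtain ⟨e', he'P', hae', hce', hde'⟩ := pairO_exists2 Q hQ P P' hP hsup a c d₁ haP hc hd₁
        hcase
      have hce : eichDir Q M c e' := hE c hc e' he'P' hce'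
      obtain ⟨h, hhM, hh⟩ := hce.2 1
      have hca : QuadraticMap.polar (⇑Q) c a = 0 := hP.polar hc haP
      have he'a : QuadraticMap.polar (⇑Q) e' a = 0 := by
        rw [QuadraticMap.polar_comm]; exact hae'
      have hcd : QuadraticMap.polar (⇑Q) c d₁ = 0 := hP.polar hc hd₁
      have hha : act h a = a := by
        rw [hh]
        unfold eich
        rw [one_smul, hca, he'a]
        simp
      have hhd : act h d₁ = d₁ - QuadraticMap.polar (⇑Q) e' d₁ • c := by
        rw [hh]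
        unfold eich
        rw [one_smul, hcd]
        simp
      have h6 := eichDir_conj Q M a d₁ hhM h4
      rw [hha, hhd] at h6
      have h7 : eichDir Q M a (QuadraticMap.polar (⇑Q) e' d₁ • c) := by
        have := eichDir_sub Q M a _ _ hQa h4 h6
        rwa [sub_sub_cancel] at this
      have hne : QuadraticMap.polar (⇑Q) e' d₁ ≠ 0 := by
        rw [QuadraticMap.polar_comm]; exact hde'
      have := eichDir_smul Q M a _ (QuadraticMap.polar (⇑Q) e' d₁)⁻¹ h7
      rwa [smul_smul, inv_mul_cancel₀ hne, one_smul] at this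
  refine ⟨a, haP, ha0, mem_fullPts_of_eichDir Q M a hQa ?_⟩
  intro z haz
  obtain ⟨z₁, hz₁, z₂, hz₂, rfl⟩ := Submodule.mem_sup.mp (hmemsup z)
  have haz₁ : QuadraticMap.polar (⇑Q) a z₁ = 0 := hP.polar haP hz₁
  have haz₂ : QuadraticMap.polar (⇑Q) a z₂ = 0 := by
    rw [QuadraticMap.polar_add_right, haz₁, zero_add] at haz
    exact haz
  exact eichDir_add Q M a z₁ z₂ hQa (h5 z₁ hz₁) (hE a haP z₂ hz₂ haz₂)

/-- From a full point in `P` and an element of `M` interchanging `P` and `P'`, conclude. -/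
theorem pairO_finish [Fintype F] (Q : QuadraticForm F (ι → F))
    (hQ : (QuadraticMap.polarBilin Q).Nondegenerate) (h3 : HasTS3 Q)
    (P P' : Submodule F (ι → F)) (hP : IsTS Q P) (hP' : IsTS Q P') (hsup : P ⊔ P' = ⊤)
    (M : Subgroup ↥(Cfsg.isometryGroup F (⇑Q)))
    (hE : ∀ p ∈ P, ∀ p' ∈ P', QuadraticMap.polar (⇑Q) p p' = 0 → eichDir Q M p p')
    (s : ↥(Cfsg.isometryGroup F (⇑Q))) (hsM : s ∈ M) (hsP : ∀ x ∈ P, act s x ∈ P')
    (a : ι → F) (haP : a ∈ P) (ha0 : a ≠ 0) (haf : a ∈ fullPts Q M) :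
    commutator ↥(Cfsg.isometryGroup F (⇑Q)) ≤ M := by
  have hsup' : P' ⊔ P = ⊤ := by rw [sup_comm]; exact hsup
  have ha₂f : act s a ∈ fullPts Q M := fullPts_act Q M hsM haf
  have ha₂P' : act s a ∈ P' := hsP a haP
  have ha₂0 : act s a ≠ 0 := act_ne_zero s ha0
  by_cases hcase : QuadraticMap.polar (⇑Q) a (act s a) ≠ 0
  · exact commutator_le_of_fullPts_pair Q hQ h3 M haf ha₂f hcase
  · push Not at hcase
    obtain ⟨c', hc'P', hac'⟩ := pairO_exists0 Q hQ P P' hP hsup a haP ha0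
    have hn : act s a ∉ Submodule.span F {c'} := by
      intro h
      obtain ⟨t, ht⟩ := Submodule.mem_span_singleton.mp h
      rw [← ht, QuadraticMap.polar_smul_right, smul_eq_mul] at hcase
      rcases mul_eq_zero.mp hcase with h0 | h0
      · apply ha₂0
        rw [← ht, h0, zero_smul]
      · exact hac' h0
    obtain ⟨e, heP, hc'e, ha₂e⟩ := pairO_exists1 Q hQ P' P hP' hsup' c' (act s a) hc'P' ha₂P' hn
    have hec' : QuadraticMap.polar (⇑Q) e c' = 0 := by rw [QuadraticMap.polar_comm]; exact hc'e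
    have hdir : eichDir Q M c' e :=
      eichDir_symm Q M e c' (hP e heP) (hP' c' hc'P') (hE e heP c' hc'P' hec')
    obtain ⟨h, hhM, hh⟩ := hdir.2 1
    have hc'a₂ : QuadraticMap.polar (⇑Q) c' (act s a) = 0 := hP'.polar hc'P' ha₂P'
    have hha₂ : act h (act s a) = act s a - QuadraticMap.polar (⇑Q) e (act s a) • c' := by
      rw [hh]
      unfold eich
      rw [one_smul, hc'a₂]
      simp
    have hff : act h (act s a) ∈ fullPts Q M := fullPts_act Q M hhM ha₂f
    have hne : QuadraticMap.polar (⇑Q) a (act h (act s a)) ≠ 0 := by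
      rw [hha₂, QuadraticMap.polar_sub_right, hcase, QuadraticMap.polar_smul_right, zero_sub,
        smul_eq_mul, neg_ne_zero]
      have : QuadraticMap.polar (⇑Q) e (act s a) ≠ 0 := by
        rw [QuadraticMap.polar_comm]; exact ha₂e
      exact mul_ne_zero this hac'
    exact commutator_le_of_fullPts_pair Q hQ h3 M haf hff hne

/-- Core of the maximality of the stabiliser of a pair `{U, U'}` of complementary maximal
totally singular subspaces. -/
theorem pairO_core [Fintype F] (Q : QuadraticForm F (ι → F))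
    (hQ : (QuadraticMap.polarBilin Q).Nondegenerate) (h3 : HasTS3 Q) {m : ℕ} (hm : 5 ≤ m)
    (hV : finrank F (ι → F) = 2 * m)
    (U U' : Submodule F (ι → F)) (hU : IsTS Q U) (hU' : IsTS Q U') (dU : finrank F U = m)
    (dU' : finrank F U' = m) (hUU' : U ⊓ U' = ⊥)
    (M : Subgroup ↥(Cfsg.isometryGroup F (⇑Q)))
    (hE : ∀ p ∈ U, ∀ p' ∈ U', QuadraticMap.polar (⇑Q) p p' = 0 → eichDir Q M p p')
    (s : ↥(Cfsg.isometryGroup F (⇑Q))) (hsM : s ∈ M) (hsU : ∀ x ∈ U, act s x ∈ U')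
    (hsU' : ∀ x ∈ U', act s x ∈ U)
    (x : ι → F) (hxU : x ∉ U) (hxU' : x ∉ U') (X' : Submodule F (ι → F))
    (dX' : finrank F X' = m)
    (hX' : ∀ x' ∈ X', QuadraticMap.polar (⇑Q) x x' = 0 → eichDir Q M x x') :
    commutator ↥(Cfsg.isometryGroup F (⇑Q)) ≤ M := by
  have hsup : U ⊔ U' = ⊤ := sup_eq_top_of_inf_bot hV U U' dU dU' hUU'
  have hsup' : U' ⊔ U = ⊤ := by rw [sup_comm]; exact hsup
  have hU'U : U' ⊓ U = ⊥ := by rw [inf_comm]; exact hUU'
  have hE' : ∀ p ∈ U', ∀ p' ∈ U, QuadraticMap.polar (⇑Q) p p' = 0 → eichDir Q M p p' := by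
    intro p hp p' hp' h
    have h' : QuadraticMap.polar (⇑Q) p' p = 0 := by rw [QuadraticMap.polar_comm]; exact h
    exact eichDir_symm Q M p' p (hU p' hp') (hU' p hp) (hE p' hp' p hp h')
  obtain ⟨x', hx'X', hxx', hcases⟩ := pairgeo_one (by omega) hV U U' X' dU dU' dX' hUU' x hxU hxU'
    (QuadraticMap.polarBilin Q x)
  have hdir : eichDir Q M x x' := hX' x' hx'X' hxx'
  rcases hcases with hc | hc
  · obtain ⟨a, haU, ha0, haf⟩ := pairO_full Q hQ hm hV U U' hU hU' dU dU' hUU' M hE x x' hdir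
      hxU' hc
    exact pairO_finish Q hQ h3 U U' hU hU' hsup M hE s hsM hsU a haU ha0 haf
  · obtain ⟨a, haU, ha0, haf⟩ := pairO_full Q hQ hm hV U' U hU' hU dU' dU hU'U M hE' x x' hdir
      hxU hc
    exact pairO_finish Q hQ h3 U' U hU' hU hsup' M hE' s hsM hsU' a haU ha0 haf

end

end Cfsg.Agent.H95
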