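import Cfsg.Agent.H49.Trans
import Cfsg.Agent.H49.Eich1
import Cfsg.Agent.H95.PairGeo

set_option autoImplicit false
set_option linter.unusedSectionVars false
set_option linter.unusedVariables false

/-! Helper lemmas (helper95): dual bases of a pair of complementary maximal totally singular
subspaces, and an element of `Ω(Q)` interchanging them when their dimension is even. -/

namespace Cfsg.Agent.H95

open Module Matrix Cfsg.Agent.H49

section
variable {ι : Type} [Fintype ι] [DecidableEq ι] {F : Type*} [Field F]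

theorem exists_dual_families (Q : QuadraticForm F (ι → F))
    (hQ : (QuadraticMap.polarBilin Q).Nondegenerate) (U U' : Submodule F (ι → F))
    (hU : IsTS Q U) (hU' : IsTS Q U') (κ : Type) [Fintype κ] [DecidableEq κ]
    (dU : finrank F U = Fintype.card κ) (dU' : finrank F U' = Fintype.card κ)
    (hsup : U ⊔ U' = ⊤) :
    ∃ e f : κ → ι → F, (∀ i, e i ∈ U) ∧ (∀ i, f i ∈ U') ∧
      (∀ i j, QuadraticMap.polar (⇑Q) (e i) (f j) = if i = j then 1 else 0) ∧
      (∀ x ∈ U, x = ∑ i, QuadraticMap.polar (⇑Q) x (f i) • e i) ∧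
      (∀ x ∈ U', x = ∑ i, QuadraticMap.polar (⇑Q) (e i) x • f i) := by
  classical
  obtain ⟨b⟩ : Nonempty (Basis κ F U) :=
    ⟨(Module.finBasisOfFinrankEq F U dU).reindex (Fintype.equivFin κ).symm⟩
  obtain ⟨Φ, hΦ⟩ : ∃ Φ : U' →ₗ[F] (κ → F), ∀ u' i, Φ u' i =
      QuadraticMap.polar (⇑Q) (b i : ι → F) (u' : ι → F) :=
    ⟨LinearMap.pi (fun i => (QuadraticMap.polarBilin Q (b i : ι → F)).comp U'.subtype),
      fun u' i => rfl⟩
  have hrepr : ∀ (u : ι → F) (hu : u ∈ U), u = ∑ i, b.repr ⟨u, hu⟩ i • (b i : ι → F) := by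
    intro u hu
    have h1 := b.sum_repr ⟨u, hu⟩
    have h2 := congrArg (Subtype.val) h1
    rw [Submodule.coe_sum] at h2
    simp only [Submodule.coe_smul] at h2
    exact h2.symm
  have hpolsum : ∀ (c : κ → F) (w : κ → ι → F) (y : ι → F),
      QuadraticMap.polar (⇑Q) (∑ i, c i • w i) y = ∑ i, c i * QuadraticMap.polar (⇑Q) (w i) y := by
    intro c w y
    change QuadraticMap.polarBilin Q (∑ i, c i • w i) y = _
    rw [map_sum, LinearMap.sum_apply]
    apply Finset.sum_congr rfl
    intro i _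
    rw [map_smul, LinearMap.smul_apply, smul_eq_mul]
    rfl
  have hinj : Function.Injective Φ := by
    rw [← LinearMap.ker_eq_bot, LinearMap.ker_eq_bot']
    intro u' hu'
    have h1 : ∀ i, QuadraticMap.polar (⇑Q) (b i : ι → F) (u' : ι → F) = 0 := by
      intro i
      rw [← hΦ, hu']
      rfl
    have h2 : ∀ u ∈ U, QuadraticMap.polar (⇑Q) u (u' : ι → F) = 0 := by
      intro u hu
      rw [hrepr u hu, hpolsum]
      apply Finset.sum_eq_zero
      intro i _
      rw [h1 i, mul_zero]
    apply Subtype.ext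
    change (u' : ι → F) = 0
    apply hQ.1
    intro y
    obtain ⟨p, hp, p', hp', rfl⟩ := Submodule.mem_sup.mp
      (show y ∈ U ⊔ U' by rw [hsup]; exact Submodule.mem_top)
    rw [map_add]
    change QuadraticMap.polar (⇑Q) (u' : ι → F) p + QuadraticMap.polar (⇑Q) (u' : ι → F) p' = 0
    rw [QuadraticMap.polar_comm, h2 p hp, hU'.polar u'.2 hp', add_zero]
  have hsurj : Function.Surjective Φ := by
    apply (LinearMap.injective_iff_surjective_of_finrank_eq_finrank ?_).mp hinj
    rw [dU', Module.finrank_fintype_fun_eq_card]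
  choose f' hf' using fun j : κ => hsurj (Pi.single j 1)
  have hdual : ∀ i j, QuadraticMap.polar (⇑Q) (b i : ι → F) (f' j : ι → F) =
      if i = j then 1 else 0 := by
    intro i j
    rw [← hΦ, hf', Pi.single_apply]
  refine ⟨fun i => (b i : ι → F), fun j => (f' j : ι → F), fun i => (b i).2, fun j => (f' j).2,
    hdual, ?_, ?_⟩
  · intro x hx
    have e2 : ∀ j, QuadraticMap.polar (⇑Q) x (f' j : ι → F) = b.repr ⟨x, hx⟩ j := by
      intro j
      conv_lhs => rw [hrepr x hx]
      rw [hpolsum, Finset.sum_eq_single j]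
      · rw [hdual j j, if_pos rfl, mul_one]
      · intro i _ hij
        rw [hdual i j, if_neg hij, mul_zero]
      · intro h
        exact absurd (Finset.mem_univ j) h
    conv_lhs => rw [hrepr x hx]
    exact Finset.sum_congr rfl (fun j _ => by rw [e2 j])
  · intro x hx
    have h1 : (⟨x, hx⟩ : U') = ∑ j, QuadraticMap.polar (⇑Q) (b j : ι → F) x • f' j := by
      apply hinj
      rw [map_sum]
      funext i
      rw [hΦ, Finset.sum_apply]
      simp only [map_smul, hf', Pi.smul_apply, Pi.single_apply, smul_eq_mul, mul_ite, mul_one,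
        mul_zero]
      rw [Finset.sum_ite_eq]
      simp
    have h2 := congrArg (Subtype.val) h1
    rw [Submodule.coe_sum] at h2
    simp only [Submodule.coe_smul] at h2
    exact h2

theorem exists_prod_act (Q : QuadraticForm F (ι → F)) {κ : Type} [DecidableEq κ]
    (t : κ → ↥(Cfsg.isometryGroup F (⇑Q))) (p q : κ → ι → F)
    (ht : ∀ j, t j ∈ commutator ↥(Cfsg.isometryGroup F (⇑Q)))
    (hact : ∀ j x, act (t j) x = x + QuadraticMap.polar (⇑Q) (p j) x • p j
      + QuadraticMap.polar (⇑Q) (q j) x • q j)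
    (hpp : ∀ i j, i ≠ j → QuadraticMap.polar (⇑Q) (p i) (p j) = 0)
    (hpq : ∀ i j, i ≠ j → QuadraticMap.polar (⇑Q) (p i) (q j) = 0)
    (hqq : ∀ i j, i ≠ j → QuadraticMap.polar (⇑Q) (q i) (q j) = 0)
    (S : Finset κ) :
    ∃ g ∈ commutator ↥(Cfsg.isometryGroup F (⇑Q)), ∀ x, act g x = x + ∑ j ∈ S,
      (QuadraticMap.polar (⇑Q) (p j) x • p j + QuadraticMap.polar (⇑Q) (q j) x • q j) := by
  induction S using Finset.induction_on with
  | empty =>
    exact ⟨1, Subgroup.one_mem _, fun x => by rw [act_one, Finset.sum_empty, add_zero]⟩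
  | insert j S hj ih =>
    obtain ⟨g, hg, hgx⟩ := ih
    refine ⟨g * t j, Subgroup.mul_mem _ hg (ht j), fun x => ?_⟩
    rw [act_mul, hgx, hact, Finset.sum_insert hj]
    have hsum : ∀ i ∈ S,
        QuadraticMap.polar (⇑Q) (p i) (x + QuadraticMap.polar (⇑Q) (p j) x • p j
          + QuadraticMap.polar (⇑Q) (q j) x • q j) • p i
        + QuadraticMap.polar (⇑Q) (q i) (x + QuadraticMap.polar (⇑Q) (p j) x • p j
          + QuadraticMap.polar (⇑Q) (q j) x • q j) • q i
        = QuadraticMap.polar (⇑Q) (p i) x • p i + QuadraticMap.polar (⇑Q) (q i) x • q i := by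
      intro i hi
      have hij : i ≠ j := fun h => hj (h ▸ hi)
      have hqp : QuadraticMap.polar (⇑Q) (q i) (p j) = 0 := by
        rw [QuadraticMap.polar_comm]; exact hpq j i (Ne.symm hij)
      rw [QuadraticMap.polar_add_right, QuadraticMap.polar_add_right,
        QuadraticMap.polar_smul_right, QuadraticMap.polar_smul_right, hpp i j hij, hpq i j hij,
        QuadraticMap.polar_add_right, QuadraticMap.polar_add_right,
        QuadraticMap.polar_smul_right, QuadraticMap.polar_smul_right, hqp, hqq i j hij]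
      simp
    rw [Finset.sum_congr rfl hsum]
    abel

/-- An element of `Ω(Q)` interchanging two complementary totally singular subspaces of even
dimension. -/
theorem exists_swap_commutator (Q : QuadraticForm F (ι → F))
    (hQ : (QuadraticMap.polarBilin Q).Nondegenerate) {k : ℕ} (U U' : Submodule F (ι → F))
    (hU : IsTS Q U) (hU' : IsTS Q U')
    (dU : finrank F U = k + k) (dU' : finrank F U' = k + k) (hsup : U ⊔ U' = ⊤) :
    ∃ s ∈ commutator ↥(Cfsg.isometryGroup F (⇑Q)),
      (∀ x ∈ U, act s x ∈ U') ∧ (∀ x ∈ U', act s x ∈ U) := by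
  classical
  obtain ⟨e, f, heU, hfU', hdual, hexpU, hexpU'⟩ := exists_dual_families Q hQ U U' hU hU'
    (Fin k ⊕ Fin k) (by rw [dU]; simp) (by rw [dU']; simp) hsup
  have hQe : ∀ i, Q (e i) = 0 := fun i => hU _ (heU i)
  have hQf : ∀ i, Q (f i) = 0 := fun i => hU' _ (hfU' i)
  have hee : ∀ i j, QuadraticMap.polar (⇑Q) (e i) (e j) = 0 := fun i j => hU.polar (heU i) (heU j)
  have hff : ∀ i j, QuadraticMap.polar (⇑Q) (f i) (f j) = 0 :=
    fun i j => hU'.polar (hfU' i) (hfU' j)
  have hfe : ∀ i j, QuadraticMap.polar (⇑Q) (f i) (e j) = if j = i then 1 else 0 := by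
    intro i j
    rw [QuadraticMap.polar_comm]
    exact hdual j i
  have hQv : ∀ i, Q (e i - f i) = -1 := fun i =>
    Q_sub_pair Q (e i) (f i) (hQe i) (hQf i) (by rw [hdual, if_pos rfl])
  have hvv : ∀ i j, i ≠ j → QuadraticMap.polar (⇑Q) (e i - f i) (e j - f j) = 0 := by
    intro i j hij
    rw [QuadraticMap.polar_sub_left, QuadraticMap.polar_sub_right, QuadraticMap.polar_sub_right,
      hee, hff, hdual, hfe, if_neg hij, if_neg (Ne.symm hij)]
    ring
  have hrefl : ∀ i x, act (reflG Q (e i - f i)) x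
      = x + QuadraticMap.polar (⇑Q) (e i - f i) x • (e i - f i) := by
    intro i x
    rw [act_reflG, hQv, show ((-1 : F))⁻¹ = -1 by rw [inv_neg, inv_one]]
    module
  obtain ⟨t, htd⟩ : ∃ t : Fin k → ↥(Cfsg.isometryGroup F (⇑Q)), ∀ j, t j =
      reflG Q (e (Sum.inl j) - f (Sum.inl j)) * reflG Q (e (Sum.inr j) - f (Sum.inr j)) :=
    ⟨_, fun j => rfl⟩
  have ht : ∀ j, t j ∈ commutator ↥(Cfsg.isometryGroup F (⇑Q)) := by
    intro j
    rw [htd]
    exact double_refl_mem_commutator Q (e (Sum.inl j)) (e (Sum.inr j)) (f (Sum.inl j))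
      (f (Sum.inr j)) (hQe _) (hQe _) (hQf _) (hQf _) (hee _ _) (hff _ _)
      (by rw [hdual, if_pos rfl]) (by rw [hdual, if_pos rfl])
      (by rw [hdual, if_neg (by simp)]) (by rw [hdual, if_neg (by simp)])
  have hact : ∀ j x, act (t j) x = x
      + QuadraticMap.polar (⇑Q) (e (Sum.inl j) - f (Sum.inl j)) x • (e (Sum.inl j) - f (Sum.inl j))
      + QuadraticMap.polar (⇑Q) (e (Sum.inr j) - f (Sum.inr j)) x •
        (e (Sum.inr j) - f (Sum.inr j)) := by
    intro j x
    rw [htd, act_mul, hrefl, hrefl, QuadraticMap.polar_add_right, QuadraticMap.polar_smul_right,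
      hvv _ _ (by simp)]
    simp only [smul_eq_mul, mul_zero, add_zero]
    abel
  obtain ⟨s, hs, hsx⟩ := exists_prod_act Q t (fun j => e (Sum.inl j) - f (Sum.inl j))
    (fun j => e (Sum.inr j) - f (Sum.inr j)) ht hact
    (fun i j hij => hvv _ _ (by simpa using hij)) (fun i j hij => hvv _ _ (by simp))
    (fun i j hij => hvv _ _ (by simpa using hij)) Finset.univ
  have hsx' : ∀ x, act s x = x + ∑ i : Fin k ⊕ Fin k,
      QuadraticMap.polar (⇑Q) (e i - f i) x • (e i - f i) := by
    intro x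
    rw [hsx, Fintype.sum_sum_type, Finset.sum_add_distrib]
  refine ⟨s, hs, ?_, ?_⟩
  · intro x hx
    have h1 : ∀ i, QuadraticMap.polar (⇑Q) (e i - f i) x = - QuadraticMap.polar (⇑Q) x (f i) := by
      intro i
      rw [QuadraticMap.polar_sub_left, hU.polar (heU i) hx, zero_sub, QuadraticMap.polar_comm]
    have h3 : x + ∑ i, (-(QuadraticMap.polar (⇑Q) x (f i))) • (e i - f i)
        = (x - ∑ i, QuadraticMap.polar (⇑Q) x (f i) • e i)
          + ∑ i, QuadraticMap.polar (⇑Q) x (f i) • f i := by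
      simp only [smul_sub, neg_smul, Finset.sum_sub_distrib, Finset.sum_neg_distrib]
      abel
    have h2 : act s x = ∑ i, QuadraticMap.polar (⇑Q) x (f i) • f i := by
      rw [hsx']
      simp only [h1]
      rw [h3, sub_eq_zero.mpr (hexpU x hx), zero_add]
    rw [h2]
    exact Submodule.sum_mem _ (fun i _ => U'.smul_mem _ (hfU' i))
  · intro x hx
    have h1 : ∀ i, QuadraticMap.polar (⇑Q) (e i - f i) x = QuadraticMap.polar (⇑Q) (e i) x := by
      intro i
      rw [QuadraticMap.polar_sub_left, hU'.polar (hfU' i) hx, sub_zero]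
    have h3 : x + ∑ i, QuadraticMap.polar (⇑Q) (e i) x • (e i - f i)
        = (x - ∑ i, QuadraticMap.polar (⇑Q) (e i) x • f i)
          + ∑ i, QuadraticMap.polar (⇑Q) (e i) x • e i := by
      simp only [smul_sub, Finset.sum_sub_distrib]
      abel
    have h2 : act s x = ∑ i, QuadraticMap.polar (⇑Q) (e i) x • e i := by
      rw [hsx']
      simp only [h1]
      rw [h3, sub_eq_zero.mpr (hexpU' x hx), zero_add]
    rw [h2]
    exact Submodule.sum_mem _ (fun i _ => U.smul_mem _ (heU i))

end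

end Cfsg.Agent.H95
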