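import Cfsg.Agent.H95.PairO
import Cfsg.Agent.H95.PairSwap
import Cfsg.Agent.H95.SpDecomp
import Cfsg.Agent.H49.MapSub

set_option autoImplicit false
set_option linter.unusedSectionVars false
set_option linter.unusedVariables false

/-! Helper lemmas (helper95): in `Ω(Q)` the stabiliser of a pair of complementary maximal totally
singular subspaces of even dimension is maximal (statement with `Cfsg.Geo.IsMaximalIn`). -/

namespace Cfsg.Agent.H95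

open Module Matrix Cfsg.Agent.H49

section
variable {ι : Type} [Fintype ι] [DecidableEq ι] {F : Type*} [Field F]

theorem pair_isMaximalIn_aux [Fintype F] (Q : QuadraticForm F (ι → F))
    (hQ : (QuadraticMap.polarBilin Q).Nondegenerate) (h3 : HasTS3 Q) {j : ℕ} (hj : 5 ≤ j + j)
    (hV : finrank F (ι → F) = 2 * (j + j))
    (D : Fin 2 → Submodule F (ι → F)) (hD : Cfsg.Geo.IsMDecomposition (j + j) D)
    (hts : ∀ i, IsTS Q (D i))
    (hne : Cfsg.Geo.decompositionStabilizer D ⊓ Cfsg.Geo.omegaGL (⇑Q) ≠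
      Cfsg.Geo.omegaGL (⇑Q)) :
    Cfsg.Geo.IsMaximalIn (Cfsg.Geo.omegaGL (⇑Q))
      (Cfsg.Geo.decompositionStabilizer D ⊓ Cfsg.Geo.omegaGL (⇑Q)) := by
  classical
  have hdim : ∀ i, finrank F (D i) = j + j := hD.finrank_eq
  have h01 : (0 : Fin 2) ≠ 1 := by decide
  have hdisj : D 0 ⊓ D 1 = ⊥ := (hD.indep.pairwiseDisjoint h01).eq_bot
  have hsup : D 0 ⊔ D 1 = ⊤ := sup_eq_top_of_inf_bot hV (D 0) (D 1) (hdim 0) (hdim 1) hdisj
  refine ⟨lt_of_le_of_ne inf_le_right hne, ?_⟩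
  intro M hHM hMΩ
  by_cases hMH : M = Cfsg.Geo.decompositionStabilizer D ⊓ Cfsg.Geo.omegaGL (⇑Q)
  · exact Or.inl hMH
  right
  apply le_antisymm hMΩ
  obtain ⟨g, hgM, hgH⟩ : ∃ g ∈ M, g ∉ Cfsg.Geo.decompositionStabilizer D ⊓
      Cfsg.Geo.omegaGL (⇑Q) := by
    by_contra hcon
    push Not at hcon
    exact hMH (le_antisymm hcon hHM)
  obtain ⟨g', hg', rfl⟩ := hMΩ hgM
  obtain ⟨M', hM'⟩ : ∃ M' : Subgroup ↥(Cfsg.isometryGroup F (⇑Q)),
      M' = M.comap (Cfsg.isometryGroup F (⇑Q)).subtype := ⟨_, rfl⟩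
  have hmemM' : ∀ k : ↥(Cfsg.isometryGroup F (⇑Q)),
      k ∈ commutator ↥(Cfsg.isometryGroup F (⇑Q)) →
      (∀ i, ∃ i', ∀ x ∈ D i, act k x ∈ D i') → k ∈ M' := by
    intro k hk hstab
    rw [hM']
    exact hHM ⟨mem_decompositionStabilizer_of_forall hD _ hstab, ⟨k, hk, rfl⟩⟩
  have hg'M : g' ∈ M' := by rw [hM']; exact hgM
  have hE : ∀ p ∈ D 0, ∀ p' ∈ D 1, QuadraticMap.polar (⇑Q) p p' = 0 → eichDir Q M' p p' := by
    intro p hp p' hp' hpp'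
    apply eichDir_of_siegel Q M' p p' (hts 0 p hp) (hts 1 p' hp') hpp'
    intro c
    apply hmemM' _ (siegelG_mem_commutator Q hQ h3 p p' _ _ hpp' c)
    rw [Fin.forall_fin_two]
    refine ⟨⟨0, ?_⟩, ⟨1, ?_⟩⟩
    · intro x hx
      rw [act_siegelG, (hts 0).polar hp hx, zero_smul, zero_sub]
      exact (D 0).add_mem hx ((D 0).smul_mem _ ((D 0).neg_mem ((D 0).smul_mem _ hp)))
    · intro x hx
      rw [act_siegelG, (hts 1).polar hp' hx, zero_smul, sub_zero]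
      exact (D 1).add_mem hx ((D 1).smul_mem _ ((D 1).smul_mem _ hp'))
  have hE' : ∀ p ∈ D 1, ∀ p' ∈ D 0, QuadraticMap.polar (⇑Q) p p' = 0 → eichDir Q M' p p' := by
    intro p hp p' hp' h
    exact eichDir_symm Q M' p' p (hts 0 p' hp') (hts 1 p hp)
      (hE p' hp' p hp (by rw [QuadraticMap.polar_comm]; exact h))
  obtain ⟨s, hs, hsU, hsU'⟩ := exists_swap_commutator Q hQ (D 0) (D 1) (hts 0) (hts 1)
    (hdim 0) (hdim 1) hsup
  have hsM : s ∈ M' := hmemM' s hs (by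
    rw [Fin.forall_fin_two]
    exact ⟨⟨1, hsU⟩, ⟨0, hsU'⟩⟩)
  have hgns : ¬ ∀ i, ∃ i', ∀ x ∈ D i, act g' x ∈ D i' :=
    fun h => hgH ⟨mem_decompositionStabilizer_of_forall hD _ h, ⟨g', hg', rfl⟩⟩
  push Not at hgns
  obtain ⟨i, hi⟩ := hgns
  obtain ⟨x₀, hx₀, hgx₀⟩ := hi 0
  obtain ⟨x₁, hx₁, hgx₁⟩ := hi 1
  obtain ⟨a₀, ha₀, h0, h1⟩ : ∃ a₀ ∈ D i, act g' a₀ ∉ D 0 ∧ act g' a₀ ∉ D 1 := by
    by_cases c1 : act g' x₀ ∈ D 1
    · by_cases c2 : act g' x₁ ∈ D 0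
      · refine ⟨x₀ + x₁, (D i).add_mem hx₀ hx₁, ?_, ?_⟩
        · rw [act_add]
          intro h
          exact hgx₀ (((D 0).add_mem_iff_left c2).mp h)
        · rw [act_add]
          intro h
          exact hgx₁ (((D 1).add_mem_iff_right c1).mp h)
      · exact ⟨x₁, hx₁, c2, hgx₁⟩
    · exact ⟨x₀, hx₀, hgx₀, c1⟩
  have hEi : ∃ i' : Fin 2, ∀ p ∈ D i, ∀ p' ∈ D i', QuadraticMap.polar (⇑Q) p p' = 0 →
      eichDir Q M' p p' := by
    have h2 : ∀ i : Fin 2, i = 0 ∨ i = 1 := by decide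
    rcases h2 i with rfl | rfl
    · exact ⟨1, hE⟩
    · exact ⟨0, hE'⟩
  obtain ⟨i', hEi⟩ := hEi
  have key := pairO_core Q hQ h3 hj hV (D 0) (D 1) (hts 0) (hts 1) (hdim 0) (hdim 1) hdisj M' hE
    s hsM hsU hsU' (act g' a₀) h0 h1
    ((D i').map (Matrix.mulVecLin ((g' : Matrix.GeneralLinearGroup ι F) : Matrix ι ι F)))
    (by rw [finrank_map_iso, hdim]) (by
      rintro _ ⟨b₀, hb₀, rfl⟩ hpol
      have h' : QuadraticMap.polar (⇑Q) a₀ b₀ = 0 := by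
        rw [← polar_act Q g']
        exact hpol
      exact eichDir_conj Q M' a₀ b₀ hg'M (hEi a₀ ha₀ b₀ hb₀ h'))
  rintro _ ⟨k, hk, rfl⟩
  have h2 := key hk
  rw [hM'] at h2
  exact h2

end

end Cfsg.Agent.H95
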