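import Cfsg.Agent.H95.PairSp

set_option autoImplicit false
set_option linter.unusedSectionVars false
set_option linter.unusedVariables false

/-! Helper lemmas (helper95): dual bases of complementary totally isotropic subspaces for the
symplectic form, an element of `Sp` interchanging them, and the maximality of the stabiliser
of the pair in `Sp_2m(q)`, `q` odd. -/

namespace Cfsg.Agent.H95

open Cfsg Cfsg.Geo Module
open scoped MatrixGroups Matrix

section PairSp2

variable {m : ℕ} {F : Type*} [Field F]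

theorem exists_dual_families_sp (U U' : Submodule F (Fin m ⊕ Fin m → F))
    (hU : IsTotallySingularFor (sympForm m F) U) (hU' : IsTotallySingularFor (sympForm m F) U')
    (κ : Type) [Fintype κ] [DecidableEq κ]
    (dU : finrank F U = Fintype.card κ) (dU' : finrank F U' = Fintype.card κ)
    (hsup : U ⊔ U' = ⊤) :
    ∃ e f : κ → Fin m ⊕ Fin m → F, (∀ i, e i ∈ U) ∧ (∀ i, f i ∈ U') ∧
      (∀ i j, sympForm m F (e i) (f j) = if i = j then 1 else 0) ∧
      (∀ x ∈ U, x = ∑ i, sympForm m F x (f i) • e i) ∧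
      (∀ x ∈ U', x = ∑ i, sympForm m F (e i) x • f i) := by
  classical
  obtain ⟨b⟩ : Nonempty (Basis κ F U) :=
    ⟨(Module.finBasisOfFinrankEq F U dU).reindex (Fintype.equivFin κ).symm⟩
  obtain ⟨Φ, hΦ⟩ : ∃ Φ : U' →ₗ[F] (κ → F), ∀ u' i, Φ u' i =
      sympForm m F (b i : Fin m ⊕ Fin m → F) (u' : Fin m ⊕ Fin m → F) :=
    ⟨{ toFun := fun u' i => sympForm m F (b i : Fin m ⊕ Fin m → F) (u' : Fin m ⊕ Fin m → F)
       map_add' := fun u v => by
        funext i
        simp [sympForm_add_right]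
       map_smul' := fun c u => by
        funext i
        simp [sympForm_smul_right] }, fun u' i => rfl⟩
  have hrepr : ∀ (u : Fin m ⊕ Fin m → F) (hu : u ∈ U),
      u = ∑ i, b.repr ⟨u, hu⟩ i • (b i : Fin m ⊕ Fin m → F) := by
    intro u hu
    have h1 := b.sum_repr ⟨u, hu⟩
    have h2 := congrArg (Subtype.val) h1
    rw [Submodule.coe_sum] at h2
    simp only [Submodule.coe_smul] at h2
    exact h2.symm
  have hpolsum : ∀ (c : κ → F) (w : κ → Fin m ⊕ Fin m → F) (y : Fin m ⊕ Fin m → F),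
      sympForm m F (∑ i, c i • w i) y = ∑ i, c i * sympForm m F (w i) y := by
    intro c w y
    rw [sympForm_sum_left]
    apply Finset.sum_congr rfl
    intro i _
    rw [sympForm_smul_left]
  have hinj : Function.Injective Φ := by
    rw [← LinearMap.ker_eq_bot, LinearMap.ker_eq_bot']
    intro u' hu'
    have h1 : ∀ i, sympForm m F (b i : Fin m ⊕ Fin m → F) (u' : Fin m ⊕ Fin m → F) = 0 := by
      intro i
      rw [← hΦ, hu']
      rfl
    have h2 : ∀ u ∈ U, sympForm m F u (u' : Fin m ⊕ Fin m → F) = 0 := by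
      intro u hu
      rw [hrepr u hu, hpolsum]
      apply Finset.sum_eq_zero
      intro i _
      rw [h1 i, mul_zero]
    apply Subtype.ext
    change (u' : Fin m ⊕ Fin m → F) = 0
    apply (H17.sympBilin_nondegenerate (F := F) m).1
    intro y
    rw [H17.sympBilin_apply]
    obtain ⟨p, hp, p', hp', rfl⟩ := Submodule.mem_sup.mp
      (show y ∈ U ⊔ U' by rw [hsup]; exact Submodule.mem_top)
    rw [sympForm_add_right, sympForm_skew, h2 p hp, hU' _ u'.2 p' hp', neg_zero, add_zero]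
  have hsurj : Function.Surjective Φ := by
    apply (LinearMap.injective_iff_surjective_of_finrank_eq_finrank ?_).mp hinj
    rw [dU', Module.finrank_fintype_fun_eq_card]
  choose f' hf' using fun j : κ => hsurj (Pi.single j 1)
  have hdual : ∀ i j, sympForm m F (b i : Fin m ⊕ Fin m → F) (f' j : Fin m ⊕ Fin m → F) =
      if i = j then 1 else 0 := by
    intro i j
    rw [← hΦ, hf', Pi.single_apply]
  refine ⟨fun i => (b i : Fin m ⊕ Fin m → F), fun j => (f' j : Fin m ⊕ Fin m → F),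
    fun i => (b i).2, fun j => (f' j).2, hdual, ?_, ?_⟩
  · intro x hx
    have e2 : ∀ j, sympForm m F x (f' j : Fin m ⊕ Fin m → F) = b.repr ⟨x, hx⟩ j := by
      intro j
      conv_lhs => rw [hrepr x hx]
      rw [hpolsum, Finset.sum_eq_single j]
      · rw [hdual j j, if_pos rfl, mul_one]
      · intro i _ hij
        rw [hdual i j, if_neg hij, mul_zero]
      · intro h
        exact absurd (Finset.mem_univ j) h
    conv_lhs => rw [hrepr x hx]
    exact Finset.sum_congr rfl (fun j _ => by rw [e2 j])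
  · intro x hx
    have h1 : (⟨x, hx⟩ : U') = ∑ j, sympForm m F (b j : Fin m ⊕ Fin m → F) x • f' j := by
      apply hinj
      rw [map_sum]
      funext i
      rw [hΦ, Finset.sum_apply]
      simp only [map_smul, hf', Pi.smul_apply, Pi.single_apply, smul_eq_mul, mul_ite, mul_one,
        mul_zero]
      rw [Finset.sum_ite_eq]
      simp
    have h2 := congrArg (Subtype.val) h1
    rw [Submodule.coe_sum] at h2
    simp only [Submodule.coe_smul] at h2
    exact h2

lemma spW_mulVec (e f x : Fin m ⊕ Fin m → F) (hef : sympForm m F e f = 1) :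
    ((sympTransv e 1 * sympTransv f 1 * sympTransv e 1 : GL (Fin m ⊕ Fin m) F) :
      Matrix (Fin m ⊕ Fin m) (Fin m ⊕ Fin m) F) *ᵥ x
      = x + sympForm m F x f • (f - e) + sympForm m F x e • (e + f) := by
  have hfe : sympForm m F f e = -1 := by rw [sympForm_skew, hef]
  rw [Units.val_mul, Units.val_mul, ← Matrix.mulVec_mulVec, ← Matrix.mulVec_mulVec,
    sympTransv_mulVec, sympTransv_mulVec, sympTransv_mulVec]
  simp only [sympForm_add_left, sympForm_smul_left, sympForm_self, hef, hfe, one_mul, mul_zero,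
    add_zero, mul_one, mul_neg]
  module

theorem exists_prod_sp {κ : Type} [DecidableEq κ] (e f : κ → Fin m ⊕ Fin m → F)
    (hdual : ∀ i j, sympForm m F (e i) (f j) = if i = j then 1 else 0)
    (hee : ∀ i j, sympForm m F (e i) (e j) = 0) (hff : ∀ i j, sympForm m F (f i) (f j) = 0)
    (S : Finset κ) :
    ∃ g ∈ spGL m F, ∀ x, (g : Matrix (Fin m ⊕ Fin m) (Fin m ⊕ Fin m) F) *ᵥ x = x + ∑ j ∈ S,
      (sympForm m F x (f j) • (f j - e j) + sympForm m F x (e j) • (e j + f j)) := by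
  induction S using Finset.induction_on with
  | empty =>
    exact ⟨1, Subgroup.one_mem _, fun x => by simp⟩
  | insert j S hj ih =>
    obtain ⟨g, hg, hgx⟩ := ih
    refine ⟨g * (sympTransv (e j) 1 * sympTransv (f j) 1 * sympTransv (e j) 1),
      (spGL m F).mul_mem hg ((spGL m F).mul_mem ((spGL m F).mul_mem (sympTransv_mem_spGL _ _)
        (sympTransv_mem_spGL _ _)) (sympTransv_mem_spGL _ _)), fun x => ?_⟩
    rw [Units.val_mul, ← Matrix.mulVec_mulVec, spW_mulVec _ _ _ (by rw [hdual, if_pos rfl]), hgx,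
      Finset.sum_insert hj]
    have hsum : ∀ i ∈ S,
        sympForm m F (x + sympForm m F x (f j) • (f j - e j)
          + sympForm m F x (e j) • (e j + f j)) (f i) • (f i - e i)
        + sympForm m F (x + sympForm m F x (f j) • (f j - e j)
          + sympForm m F x (e j) • (e j + f j)) (e i) • (e i + f i)
        = sympForm m F x (f i) • (f i - e i) + sympForm m F x (e i) • (e i + f i) := by
      intro i hi
      have hij : i ≠ j := fun h => hj (h ▸ hi)
      have h1 : sympForm m F (f j) (e i) = 0 := by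
        rw [sympForm_skew, hdual, if_neg hij, neg_zero]
      have h2 : sympForm m F (e j) (f i) = 0 := by
        rw [hdual, if_neg (Ne.symm hij)]
      simp only [sympForm_add_left, sympForm_smul_left, sympForm_sub_left, hff, hee, h1, h2,
        sub_zero, add_zero, mul_zero]
    rw [Finset.sum_congr rfl hsum]
    abel

/-- An element of `Sp` interchanging two complementary maximal totally isotropic subspaces. -/
theorem exists_swap_sp (U U' : Submodule F (Fin m ⊕ Fin m → F))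
    (hU : IsTotallySingularFor (sympForm m F) U) (hU' : IsTotallySingularFor (sympForm m F) U')
    (dU : finrank F U = m) (dU' : finrank F U' = m) (hsup : U ⊔ U' = ⊤) :
    ∃ s ∈ spGL m F,
      (∀ x ∈ U, (s : Matrix (Fin m ⊕ Fin m) (Fin m ⊕ Fin m) F) *ᵥ x ∈ U') ∧
      (∀ x ∈ U', (s : Matrix (Fin m ⊕ Fin m) (Fin m ⊕ Fin m) F) *ᵥ x ∈ U) := by
  classical
  obtain ⟨e, f, heU, hfU', hdual, hexpU, hexpU'⟩ := exists_dual_families_sp U U' hU hU'
    (Fin m) (by rw [dU]; simp) (by rw [dU']; simp) hsup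
  obtain ⟨s, hs, hsx⟩ := exists_prod_sp e f hdual (fun i j => hU _ (heU i) _ (heU j))
    (fun i j => hU' _ (hfU' i) _ (hfU' j)) Finset.univ
  refine ⟨s, hs, ?_, ?_⟩
  · intro x hx
    have h1 : ∀ i, sympForm m F x (e i) = 0 := fun i => hU x hx _ (heU i)
    have h3 : x + ∑ i, sympForm m F x (f i) • (f i - e i)
        = (x - ∑ i, sympForm m F x (f i) • e i) + ∑ i, sympForm m F x (f i) • f i := by
      simp only [smul_sub, Finset.sum_sub_distrib]
      abel
    have h2 : (s : Matrix (Fin m ⊕ Fin m) (Fin m ⊕ Fin m) F) *ᵥ x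
        = ∑ i, sympForm m F x (f i) • f i := by
      rw [hsx]
      simp only [h1, zero_smul, add_zero]
      rw [h3, sub_eq_zero.mpr (hexpU x hx), zero_add]
    rw [h2]
    exact Submodule.sum_mem _ (fun i _ => U'.smul_mem _ (hfU' i))
  · intro x hx
    have h1 : ∀ i, sympForm m F x (f i) = 0 := fun i => hU' x hx _ (hfU' i)
    have h4 : ∑ i, sympForm m F x (e i) • f i = - ∑ i, sympForm m F (e i) x • f i := by
      rw [← Finset.sum_neg_distrib]
      apply Finset.sum_congr rfl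
      intro i _
      rw [sympForm_skew x (e i), neg_smul]
    have h3 : x + ∑ i, sympForm m F x (e i) • (e i + f i)
        = (x - ∑ i, sympForm m F (e i) x • f i) + ∑ i, sympForm m F x (e i) • e i := by
      simp only [smul_add, Finset.sum_add_distrib]
      rw [h4]
      abel
    have h2 : (s : Matrix (Fin m ⊕ Fin m) (Fin m ⊕ Fin m) F) *ᵥ x
        = ∑ i, sympForm m F x (e i) • e i := by
      rw [hsx]
      simp only [h1, zero_smul, zero_add]
      rw [h3, sub_eq_zero.mpr (hexpU' x hx), zero_add]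
    rw [h2]
    exact Submodule.sum_mem _ (fun i _ => U.smul_mem _ (heU i))

lemma spDir_of_stab (P P' : Submodule F (Fin m ⊕ Fin m → F))
    (hP : IsTotallySingularFor (sympForm m F) P) (hP' : IsTotallySingularFor (sympForm m F) P')
    (M : Subgroup (GL (Fin m ⊕ Fin m) F))
    (hmem : ∀ k : GL (Fin m ⊕ Fin m) F, k ∈ spGL m F →
      (∀ x ∈ P, (k : Matrix (Fin m ⊕ Fin m) (Fin m ⊕ Fin m) F) *ᵥ x ∈ P) →
      (∀ x ∈ P', (k : Matrix (Fin m ⊕ Fin m) (Fin m ⊕ Fin m) F) *ᵥ x ∈ P') → k ∈ M) :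
    ∀ p ∈ P, ∀ p' ∈ P', sympForm m F p p' = 0 → spDir M p p' := by
  intro p hp p' hp' hpp'
  have h0 : ∀ t : F, sympForm m F p (t • p') = 0 := fun t => by
    rw [sympForm_smul_right, hpp', mul_zero]
  refine ⟨hpp', fun t => ⟨0, spEl p (t • p'), ?_, fun x => spEl_mulVec p (t • p') x (h0 t)⟩⟩
  apply hmem _ (spEl_mem _ _)
  · intro x hx
    rw [spEl_mulVec _ _ _ (h0 t)]
    unfold spS
    rw [hP x hx p hp]
    simp only [zero_smul, add_zero, mul_zero]
    exact P.add_mem hx (P.smul_mem _ hp)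
  · intro x hx
    rw [spEl_mulVec _ _ _ (h0 t)]
    unfold spS
    rw [sympForm_smul_right, hP' x hx p' hp']
    simp only [zero_smul, add_zero, mul_zero, zero_mul]
    exact P'.add_mem hx (P'.smul_mem _ (P'.smul_mem _ hp'))

/-- In `Sp_2m(q)`, `q` odd, `m ≥ 5`, the stabiliser of a pair of complementary maximal totally
isotropic subspaces is a maximal subgroup. -/
theorem pairSp_isMaximalIn (hm : 5 ≤ m) (h2 : (2 : F) ≠ 0)
    (D : Fin 2 → Submodule F (Fin m ⊕ Fin m → F)) (hD : IsMDecomposition m D)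
    (hts : ∀ i, IsTotallySingularFor (sympForm m F) (D i)) :
    IsMaximalIn (spGL m F) (decompositionStabilizer D ⊓ spGL m F) := by
  classical
  have hV : finrank F (Fin m ⊕ Fin m → F) = 2 * m := finrank_sp
  have hdim : ∀ i, finrank F (D i) = m := hD.finrank_eq
  have h01 : (0 : Fin 2) ≠ 1 := by decide
  have hdisj : D 0 ⊓ D 1 = ⊥ := (hD.indep.pairwiseDisjoint h01).eq_bot
  have hsup : D 0 ⊔ D 1 = ⊤ := sup_eq_top_of_inf_bot hV (D 0) (D 1) (hdim 0) (hdim 1) hdisj
  have hfin2 : ∀ i : Fin 2, i = 0 ∨ i = 1 := by decide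
  refine ⟨lt_of_le_of_ne inf_le_right ?_, ?_⟩
  · intro hEq
    have hne : D 0 ≠ ⊥ := by
      intro h
      have := hdim 0
      rw [h, finrank_bot] at this
      omega
    obtain ⟨a, ha, ha0⟩ := Submodule.exists_mem_ne_zero_of_ne_bot hne
    obtain ⟨b', hb', hb'a⟩ := pairSp_exists0 (D 0) (D 1) (hts 0) hsup a ha ha0
    have hT : sympTransv a 1 ∈ decompositionStabilizer D ⊓ spGL m F := by
      rw [hEq]
      exact sympTransv_mem_spGL a 1
    obtain ⟨σ, hσ⟩ := hT.1
    have h1 : ((sympTransv a 1 : GL (Fin m ⊕ Fin m) F) :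
        Matrix (Fin m ⊕ Fin m) (Fin m ⊕ Fin m) F) *ᵥ b' ∈ D (σ 1) := by
      rw [← hσ 1]
      exact ⟨b', hb', by rw [Matrix.toLin'_apply]⟩
    rw [sympTransv_mulVec, one_mul] at h1
    rcases hfin2 (σ 1) with h | h
    · rw [h] at h1
      have h3 : b' ∈ D 0 := by
        have := (D 0).sub_mem h1 ((D 0).smul_mem (sympForm m F b' a) ha)
        rwa [add_sub_cancel_right] at this
      have hb0 : b' ∈ D 0 ⊓ D 1 := ⟨h3, hb'⟩
      rw [hdisj] at hb0
      rw [(Submodule.mem_bot F).mp hb0, sympForm_zero_left] at hb'a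
      exact hb'a rfl
    · rw [h] at h1
      have h3 : sympForm m F b' a • a ∈ D 1 := by
        have := (D 1).sub_mem h1 hb'
        rwa [add_sub_cancel_left] at this
      have ha1 : a ∈ D 1 := by
        have := (D 1).smul_mem (sympForm m F b' a)⁻¹ h3
        rwa [smul_smul, inv_mul_cancel₀ hb'a, one_smul] at this
      have h4 : a ∈ D 0 ⊓ D 1 := ⟨ha, ha1⟩
      rw [hdisj] at h4
      exact ha0 ((Submodule.mem_bot F).mp h4)
  · intro M hHM hMΩ
    by_cases hMH : M = decompositionStabilizer D ⊓ spGL m F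
    · exact Or.inl hMH
    right
    apply le_antisymm hMΩ
    obtain ⟨g, hgM, hgH⟩ : ∃ g ∈ M, g ∉ decompositionStabilizer D ⊓ spGL m F := by
      by_contra hcon
      push Not at hcon
      exact hMH (le_antisymm hcon hHM)
    have hgsp : g ∈ spGL m F := hMΩ hgM
    have hmemM : ∀ k : GL (Fin m ⊕ Fin m) F, k ∈ spGL m F →
        (∀ i, ∃ i', ∀ x ∈ D i, (k : Matrix (Fin m ⊕ Fin m) (Fin m ⊕ Fin m) F) *ᵥ x ∈ D i') →
        k ∈ M :=
      fun k hk hstab => hHM ⟨mem_decompositionStabilizer_of_forall hD _ hstab, hk⟩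
    have hE : ∀ p ∈ D 0, ∀ p' ∈ D 1, sympForm m F p p' = 0 → spDir M p p' :=
      spDir_of_stab (D 0) (D 1) (hts 0) (hts 1) M (fun k hk h0 h1 => hmemM k hk (by
        rw [Fin.forall_fin_two]
        exact ⟨⟨0, h0⟩, ⟨1, h1⟩⟩))
    have hE' : ∀ p ∈ D 1, ∀ p' ∈ D 0, sympForm m F p p' = 0 → spDir M p p' :=
      spDir_of_stab (D 1) (D 0) (hts 1) (hts 0) M (fun k hk h1 h0 => hmemM k hk (by
        rw [Fin.forall_fin_two]
        exact ⟨⟨0, h0⟩, ⟨1, h1⟩⟩))
    obtain ⟨s, hs, hsU, hsU'⟩ := exists_swap_sp (D 0) (D 1) (hts 0) (hts 1) (hdim 0) (hdim 1) hsup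
    have hsM : s ∈ M := hmemM s hs (by
      rw [Fin.forall_fin_two]
      exact ⟨⟨1, hsU⟩, ⟨0, hsU'⟩⟩)
    have hgns : ¬ ∀ i, ∃ i', ∀ x ∈ D i,
        (g : Matrix (Fin m ⊕ Fin m) (Fin m ⊕ Fin m) F) *ᵥ x ∈ D i' :=
      fun h => hgH ⟨mem_decompositionStabilizer_of_forall hD _ h, hgsp⟩
    push Not at hgns
    obtain ⟨i, hi⟩ := hgns
    obtain ⟨x₀, hx₀, hgx₀⟩ := hi 0
    obtain ⟨x₁, hx₁, hgx₁⟩ := hi 1
    obtain ⟨a₀, ha₀, h0, h1⟩ : ∃ a₀ ∈ D i,
        (g : Matrix (Fin m ⊕ Fin m) (Fin m ⊕ Fin m) F) *ᵥ a₀ ∉ D 0 ∧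
        (g : Matrix (Fin m ⊕ Fin m) (Fin m ⊕ Fin m) F) *ᵥ a₀ ∉ D 1 := by
      by_cases c1 : (g : Matrix (Fin m ⊕ Fin m) (Fin m ⊕ Fin m) F) *ᵥ x₀ ∈ D 1
      · by_cases c2 : (g : Matrix (Fin m ⊕ Fin m) (Fin m ⊕ Fin m) F) *ᵥ x₁ ∈ D 0
        · refine ⟨x₀ + x₁, (D i).add_mem hx₀ hx₁, ?_, ?_⟩
          · rw [Matrix.mulVec_add]
            intro h
            exact hgx₀ (((D 0).add_mem_iff_left c2).mp h)
          · rw [Matrix.mulVec_add]
            intro h
            exact hgx₁ (((D 1).add_mem_iff_right c1).mp h)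
        · exact ⟨x₁, hx₁, c2, hgx₁⟩
      · exact ⟨x₀, hx₀, hgx₀, c1⟩
    have hEi : ∃ i' : Fin 2, ∀ p ∈ D i, ∀ p' ∈ D i', sympForm m F p p' = 0 → spDir M p p' := by
      rcases hfin2 i with rfl | rfl
      · exact ⟨1, hE⟩
      · exact ⟨0, hE'⟩
    obtain ⟨i', hEi⟩ := hEi
    have hginj : Function.Injective (Matrix.toLin' (g : Matrix (Fin m ⊕ Fin m) (Fin m ⊕ Fin m) F)) := by
      intro v w hvw
      simp only [Matrix.toLin'_apply] at hvw
      exact mulVec_injective g hvw
    exact pairSp_core h2 hm (D 0) (D 1) (hts 0) (hts 1) (hdim 0) (hdim 1) hdisj M hMΩ hE hE'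
      s hsM hsU hsU' ((g : Matrix (Fin m ⊕ Fin m) (Fin m ⊕ Fin m) F) *ᵥ a₀) h0 h1
      ((D i').map (Matrix.toLin' (g : Matrix (Fin m ⊕ Fin m) (Fin m ⊕ Fin m) F)))
      ((LinearEquiv.finrank_eq (Submodule.equivMapOfInjective _ hginj (D i'))).symm.trans
        (hdim i'))
      (by
        rintro _ ⟨b₀, hb₀, rfl⟩ hpol
        rw [Matrix.toLin'_apply] at hpol ⊢
        have h' : sympForm m F a₀ b₀ = 0 := by
          rw [← hgsp a₀ b₀]
          exact hpol
        exact spDir_conj hgM hgsp (hEi a₀ ha₀ b₀ hb₀ h'))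

end PairSp2

end Cfsg.Agent.H95
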