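import Cfsg.Agent.H95.Quad
import Cfsg.Agent.H17.Witt
import Cfsg.Agent.H49.Witt

set_option autoImplicit false

namespace Cfsg.Agent.H95

open Cfsg Cfsg.Geo
open scoped MatrixGroups Matrix

section QF

variable {ι : Type} [Fintype ι] [DecidableEq ι] {F : Type*} [Field F] {Q : (ι → F) → F}

/-- The bundled quadratic form attached to a non-degenerate quadratic form given as a function. -/
def toQF (Q : (ι → F) → F) (hQ : IsNondegenerateQuadraticForm Q) : QuadraticForm F (ι → F) where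
  toFun := Q
  toFun_smul a x := by rw [hQ.smul, smul_eq_mul, sq]
  exists_companion' := ⟨bilOf (QuadraticMap.polar Q) hQ.polar_bilinear, fun x y => by
    rw [bilOf_apply]; unfold QuadraticMap.polar; ring⟩

lemma toQF_apply (hQ : IsNondegenerateQuadraticForm Q) (x : ι → F) : toQF Q hQ x = Q x := rfl

lemma coe_toQF (hQ : IsNondegenerateQuadraticForm Q) : (⇑(toQF Q hQ) : (ι → F) → F) = Q := rfl

lemma toQF_nondeg (hQ : IsNondegenerateQuadraticForm Q) :
    (QuadraticMap.polarBilin (toQF Q hQ)).Nondegenerate := by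
  constructor
  · intro x hx
    by_contra hne
    obtain ⟨-, ⟨y, hy⟩⟩ := hQ.nondegenerate x hne
    exact hy (hx y)
  · intro y hy
    by_contra hne
    obtain ⟨⟨x, hx⟩, -⟩ := hQ.nondegenerate y hne
    exact hx (hy x)

lemma ringChar_two_of_not_odd [Fintype F] (h : ¬ Odd (Fintype.card F)) : ringChar F = 2 := by
  rw [FiniteField.even_card_iff_char_two]
  rcases Nat.even_or_odd (Fintype.card F) with he | ho
  · exact Nat.even_iff.mp he
  · exact absurd ho h

lemma two_eq_zero_of_not_odd [Fintype F] (h : ¬ Odd (Fintype.card F)) : (2 : F) = 0 := by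
  have := ringChar_two_of_not_odd h
  have h2 : CharP F 2 := ringChar.of_eq this
  exact_mod_cast CharP.cast_eq_zero F 2

lemma exists_sq_of_not_odd [Fintype F] (h : ¬ Odd (Fintype.card F)) (a : F) : ∃ b : F, b * b = a := by
  obtain ⟨b, hb⟩ := FiniteField.isSquare_of_char_two (ringChar_two_of_not_odd h) a
  exact ⟨b, hb.symm⟩

/-- Witt: the isometry group is transitive on non-zero vectors of a given norm. -/
theorem exists_isometry_map (hQ : IsNondegenerateQuadraticForm Q) {v v' : ι → F} (hv : v ≠ 0)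
    (hv' : v' ≠ 0) (h : Q v = Q v') :
    ∃ g : GL ι F, g ∈ isometryGroup F Q ∧ (g : Matrix ι ι F) *ᵥ v = v' := by
  classical
  have hb := hQ.polar_bilinear
  obtain ⟨y, hy⟩ := (hQ.nondegenerate v hv).2
  obtain ⟨T, hT⟩ : ∃ T : (ι → F) →ₗ[F] (ι → F),
      ∀ x, T x = ((QuadraticMap.polar Q v y)⁻¹ * QuadraticMap.polar Q x y) • v' :=
    ⟨((QuadraticMap.polar Q v y)⁻¹ • (bilOf (QuadraticMap.polar Q) hb).flip y).smulRight v',
      fun x => by simp⟩
  have hTv : T v = v' := by rw [hT, inv_mul_cancel₀ hy, one_smul]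
  have hX : ∀ x ∈ Submodule.span F {v}, ∃ c : F, x = c • v := fun x hx => by
    obtain ⟨c, rfl⟩ := Submodule.mem_span_singleton.mp hx
    exact ⟨c, rfl⟩
  obtain ⟨g, hg, hgX⟩ := H17.witt_quad (toQF Q hQ) (toQF_nondeg hQ) (Submodule.span F {v}) T
    (by
      intro x hx
      obtain ⟨c, rfl⟩ := hX x hx
      rw [map_smul, hTv, toQF_apply, toQF_apply, hQ.smul, hQ.smul, h])
    (by
      intro x hx hx0
      obtain ⟨c, rfl⟩ := hX x hx
      rw [map_smul, hTv] at hx0
      rcases smul_eq_zero.mp hx0 with hc | hc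
      · rw [hc, zero_smul]
      · exact absurd hc hv')
  refine ⟨glOf g, ?_, ?_⟩
  · rw [mem_isometryGroup_iff]
    intro x
    rw [glOf_mulVec]
    exact hg x
  · rw [glOf_mulVec, hgX v (Submodule.mem_span_singleton_self v), hTv]

lemma polar_connect (hQ : IsNondegenerateQuadraticForm Q) {a a' : ι → F} (ha : a ≠ 0)
    (ha' : a' ≠ 0) :
    ∃ z, QuadraticMap.polar Q a z ≠ 0 ∧ QuadraticMap.polar Q z a' ≠ 0 := by
  have hb := hQ.polar_bilinear
  obtain ⟨x₁, h1⟩ := (hQ.nondegenerate a ha).2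
  obtain ⟨x₂, h2⟩ := (hQ.nondegenerate a' ha').1
  by_cases h3 : QuadraticMap.polar Q x₁ a' = 0
  · by_cases h4 : QuadraticMap.polar Q a x₂ = 0
    · refine ⟨x₁ + x₂, ?_, ?_⟩
      · rw [hb.add_right, h4, add_zero]; exact h1
      · rw [hb.add_left, h3, zero_add]; exact h2
    · exact ⟨x₂, h4, h2⟩
  · exact ⟨x₁, h1, h3⟩

lemma exists_singular_ne_zero [Finite F] (hQ : IsNondegenerateQuadraticForm Q)
    (h3 : 3 ≤ Fintype.card ι) : ∃ s : ι → F, s ≠ 0 ∧ Q s = 0 :=
  H49.exists_singular_of_three_le (toQF Q hQ) (by rw [Module.finrank_pi]; simpa using h3)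

/-- For a non-zero vector there is a singular vector not orthogonal to it. -/
lemma exists_singular_polar_ne [Finite F] (hQ : IsNondegenerateQuadraticForm Q)
    (h3 : 3 ≤ Fintype.card ι) {v : ι → F} (hv : v ≠ 0) :
    ∃ s : ι → F, Q s = 0 ∧ QuadraticMap.polar Q s v ≠ 0 := by
  have hb := hQ.polar_bilinear
  obtain ⟨s₀, hs₀, hQs₀⟩ := exists_singular_ne_zero hQ h3
  by_cases h0 : QuadraticMap.polar Q s₀ v = 0
  · obtain ⟨z, hz1, hz2⟩ := polar_connect hQ hs₀ hv
    refine ⟨z - (Q z / QuadraticMap.polar Q s₀ z) • s₀, ?_, ?_⟩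
    · have := q_add_smul hQ z s₀ (-(Q z / QuadraticMap.polar Q s₀ z))
      rw [neg_smul, ← sub_eq_add_neg] at this
      rw [this, hQs₀, polar_symm Q z s₀]
      field_simp
      ring
    · rw [bil_sub_left hb, hb.smul_left, h0, mul_zero, sub_zero]
      exact hz2
  · exact ⟨s₀, hQs₀, h0⟩

end QF

end Cfsg.Agent.H95
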