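import Cfsg.Agent.H95.Quad
import Cfsg.Agent.H95.TensorForm

set_option autoImplicit false
set_option linter.unusedSectionVars false

namespace Cfsg.Agent.H95

open Cfsg Cfsg.Geo
open scoped MatrixGroups Matrix

section NZ

/-- Given `k` mutually orthogonal anisotropic vectors in a nondegenerate symmetric bilinear space of
dimension more than `k`, in characteristic not two, there is an anisotropic vector orthogonal to all
of them. -/
lemma exists_orth_aniso {F V : Type*} [Field F] [AddCommGroup V] [Module F V]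
    [FiniteDimensional F V] (h2 : (2 : F) ≠ 0) (B : LinearMap.BilinForm F V)
    (hs : ∀ x y, B x y = B y x) (hnd : ∀ z, z ≠ 0 → ∃ y, B z y ≠ 0) {k : ℕ} (x : Fin k → V)
    (hx : ∀ i j, i ≠ j → B (x i) (x j) = 0) (hxx : ∀ i, B (x i) (x i) ≠ 0)
    (hk : k < Module.finrank F V) : ∃ z, (∀ i, B z (x i) = 0) ∧ B z z ≠ 0 := by
  classical
  let φ : V →ₗ[F] (Fin k → F) := LinearMap.pi (fun i => B.flip (x i))
  have hker : LinearMap.ker φ ≠ ⊥ := by
    apply LinearMap.ker_ne_bot_of_finrank_lt
    rw [Module.finrank_pi]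
    simpa using hk
  obtain ⟨z₀, hz₀, hz₀ne⟩ := (Submodule.ne_bot_iff _).mp hker
  have hz₀' : ∀ i, B z₀ (x i) = 0 := fun i => by
    have := congrFun (LinearMap.mem_ker.mp hz₀) i
    exact this
  by_contra hall
  push Not at hall
  obtain ⟨y, hy⟩ := hnd z₀ hz₀ne
  set y' := y - ∑ i, (B y (x i) / B (x i) (x i)) • x i with hy'
  have hy'x : ∀ j, B y' (x j) = 0 := by
    intro j
    rw [hy', map_sub, LinearMap.sub_apply, map_sum, LinearMap.sum_apply]
    rw [Finset.sum_eq_single j]
    · simp only [map_smul, LinearMap.smul_apply, smul_eq_mul]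
      have := hxx j
      field_simp
      ring
    · intro i _ hij
      simp only [map_smul, LinearMap.smul_apply, smul_eq_mul, hx i j hij, mul_zero]
    · intro h; exact absurd (Finset.mem_univ j) h
  have hz₀y' : B z₀ y' = B z₀ y := by
    rw [hy', map_sub, map_sum]
    simp only [map_smul, smul_eq_mul, hz₀', mul_zero, Finset.sum_const_zero, sub_zero]
  have h1 := hall z₀ hz₀'
  have h2' := hall y' hy'x
  have h3 := hall (z₀ + y') (fun i => by rw [map_add, LinearMap.add_apply, hz₀', hy'x, add_zero])
  simp only [map_add, LinearMap.add_apply] at h3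
  rw [h1, h2', hs y' z₀, hz₀y'] at h3
  apply hy
  have : 2 * B z₀ y = 0 := by linear_combination h3
  exact (mul_eq_zero.mp this).resolve_left h2

end NZ

section Plane

variable {ι : Type} [Fintype ι] [DecidableEq ι] {F : Type*} [Field F] {Q : (ι → F) → F}

/-- The function form of the previous lemma for a quadratic form. -/
lemma exists_orth_aniso_quad (hQ : IsNondegenerateQuadraticForm Q) (h2 : (2 : F) ≠ 0) {k : ℕ}
    (x : Fin k → (ι → F)) (hx : ∀ i j, i ≠ j → QuadraticMap.polar Q (x i) (x j) = 0)
    (hxx : ∀ i, Q (x i) ≠ 0) (hk : k < Fintype.card ι) :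
    ∃ z, (∀ i, QuadraticMap.polar Q z (x i) = 0) ∧ Q z ≠ 0 := by
  obtain ⟨z, hz, hzz⟩ := exists_orth_aniso h2 (bilOf (QuadraticMap.polar Q) hQ.polar_bilinear)
    (fun x y => polar_symm Q x y) (fun z hz => (hQ.nondegenerate z hz).2) x hx
    (fun i => by
      rw [bilOf_apply, polar_self hQ]
      exact mul_ne_zero h2 (hxx i))
    (by rw [Module.finrank_pi]; exact hk)
  refine ⟨z, hz, ?_⟩
  intro h0
  apply hzz
  rw [bilOf_apply, polar_self hQ, h0, mul_zero]

variable [Fintype F]

/-- From an orthogonal pair of equal non-zero norm, orthogonal pairs of any prescribed non-zero norm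
(over the field with three elements). -/
lemma pair_sign (hq : Fintype.card F = 3) (hQ : IsNondegenerateQuadraticForm Q) {u w p p' : ι → F}
    (hpp : Q p = Q p') (hp : Q p ≠ 0) (opp : QuadraticMap.polar Q p p' = 0)
    (hpu : QuadraticMap.polar Q p u = 0) (hpw : QuadraticMap.polar Q p w = 0)
    (hp'u : QuadraticMap.polar Q p' u = 0) (hp'w : QuadraticMap.polar Q p' w = 0)
    (ν : F) (hν : ν ≠ 0) :
    ∃ x y, Q x = ν ∧ Q y = ν ∧ QuadraticMap.polar Q x y = 0 ∧ QuadraticMap.polar Q x u = 0 ∧
      QuadraticMap.polar Q x w = 0 ∧ QuadraticMap.polar Q y u = 0 ∧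
      QuadraticMap.polar Q y w = 0 := by
  have h3 := three_eq_zero_of_card_three hq
  have hb := hQ.polar_bilinear
  by_cases h : Q p = ν
  · exact ⟨p, p', h, hpp ▸ h, opp, hpu, hpw, hp'u, hp'w⟩
  · have h' : Q p = -ν := by
      rcases trichotomy_of_card_three hq (Q p) with h0 | h1 | h1
      · exact absurd h0 hp
      · rcases trichotomy_of_card_three hq ν with h0' | h1' | h1'
        · exact absurd h0' hν
        · exact absurd (h1.trans h1'.symm) h
        · rw [h1, h1', neg_neg]
      · rcases trichotomy_of_card_three hq ν with h0' | h1' | h1'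
        · exact absurd h0' hν
        · rw [h1, h1']
        · exact absurd (h1.trans h1'.symm) h
    have hp'ν : Q p' = -ν := hpp ▸ h'
    have op'p := (polar_symm Q p' p).trans opp
    refine ⟨p + p', p - p', ?_, ?_, ?_, ?_, ?_, ?_, ?_⟩
    · rw [q_add Q p p', opp, h', hp'ν]
      linear_combination (-ν) * h3
    · rw [q_sub hQ, opp, h', hp'ν]
      linear_combination (-ν) * h3
    · rw [hb.add_left, bil_sub_right hb, bil_sub_right hb, polar_self hQ, polar_self hQ, opp, op'p,
        h', hp'ν]
      ring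
    · rw [hb.add_left, hpu, hp'u, add_zero]
    · rw [hb.add_left, hpw, hp'w, add_zero]
    · rw [bil_sub_left hb, hpu, hp'u, sub_zero]
    · rw [bil_sub_left hb, hpw, hp'w, sub_zero]

/-- Over the field with three elements, in dimension at least five, there are orthogonal pairs of
any prescribed non-zero norm orthogonal to two given orthogonal anisotropic vectors. -/
lemma exists_pair_orth (hq : Fintype.card F = 3) (hQ : IsNondegenerateQuadraticForm Q)
    (hdim : 5 ≤ Fintype.card ι) {u w : ι → F} (hu : Q u ≠ 0) (hw : Q w ≠ 0)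
    (huw : QuadraticMap.polar Q u w = 0) (ν : F) (hν : ν ≠ 0) :
    ∃ x y, Q x = ν ∧ Q y = ν ∧ QuadraticMap.polar Q x y = 0 ∧ QuadraticMap.polar Q x u = 0 ∧
      QuadraticMap.polar Q x w = 0 ∧ QuadraticMap.polar Q y u = 0 ∧
      QuadraticMap.polar Q y w = 0 := by
  have h2 := two_ne_zero_of_card_three hq
  have hwu := (polar_symm Q w u).trans huw
  obtain ⟨x₁, h1, hx₁⟩ := exists_orth_aniso_quad hQ h2 ![u, w]
    (by intro i j hij; fin_cases i <;> fin_cases j <;> simp_all)
    (by intro i; fin_cases i <;> simp [hu, hw]) (by omega)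
  have h1u : QuadraticMap.polar Q x₁ u = 0 := h1 0
  have h1w : QuadraticMap.polar Q x₁ w = 0 := h1 1
  have hu1 := (polar_symm Q u x₁).trans h1u
  have hw1 := (polar_symm Q w x₁).trans h1w
  obtain ⟨x₂, h2', hx₂⟩ := exists_orth_aniso_quad hQ h2 ![u, w, x₁]
    (by intro i j hij; fin_cases i <;> fin_cases j <;> simp_all)
    (by intro i; fin_cases i <;> simp [hu, hw, hx₁]) (by omega)
  have h2u : QuadraticMap.polar Q x₂ u = 0 := h2' 0
  have h2w : QuadraticMap.polar Q x₂ w = 0 := h2' 1
  have h21 : QuadraticMap.polar Q x₂ x₁ = 0 := h2' 2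
  have hu2 := (polar_symm Q u x₂).trans h2u
  have hw2 := (polar_symm Q w x₂).trans h2w
  have h12 := (polar_symm Q x₁ x₂).trans h21
  obtain ⟨x₃, h3', hx₃⟩ := exists_orth_aniso_quad hQ h2 ![u, w, x₁, x₂]
    (by intro i j hij; fin_cases i <;> fin_cases j <;> simp_all)
    (by intro i; fin_cases i <;> simp [hu, hw, hx₁, hx₂]) (by omega)
  have h3u : QuadraticMap.polar Q x₃ u = 0 := h3' 0
  have h3w : QuadraticMap.polar Q x₃ w = 0 := h3' 1
  have h31 : QuadraticMap.polar Q x₃ x₁ = 0 := h3' 2
  have h32 : QuadraticMap.polar Q x₃ x₂ = 0 := h3' 3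
  have h13 := (polar_symm Q x₁ x₃).trans h31
  have h23 := (polar_symm Q x₂ x₃).trans h32
  by_cases e12 : Q x₁ = Q x₂
  · exact pair_sign hq hQ e12 hx₁ h12 h1u h1w h2u h2w ν hν
  · by_cases e13 : Q x₁ = Q x₃
    · exact pair_sign hq hQ e13 hx₁ h13 h1u h1w h3u h3w ν hν
    · have e23 : Q x₂ = Q x₃ := by
        rcases trichotomy_of_card_three hq (Q x₁) with a1 | a1 | a1 <;>
        rcases trichotomy_of_card_three hq (Q x₂) with a2 | a2 | a2 <;>
        rcases trichotomy_of_card_three hq (Q x₃) with a3 | a3 | a3 <;>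
        first
          | exact absurd a1 hx₁
          | exact absurd a2 hx₂
          | exact absurd a3 hx₃
          | exact absurd (a1.trans a2.symm) e12
          | exact absurd (a1.trans a3.symm) e13
          | exact a2.trans a3.symm
      exact pair_sign hq hQ e23 hx₂ h23 h2u h2w h3u h3w ν hν

/-- Over the field with three elements, the stabiliser in `Ω` of a hyperbolic plane is not
maximal. -/
theorem plane_not_max_three (hq : Fintype.card F = 3) (hQ : IsNondegenerateQuadraticForm Q)
    (hdim : 5 ≤ Fintype.card ι) (W : Submodule F (ι → F)) (hdimW : Module.finrank F W = 2)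
    (hW : IsNondegenerateOn (QuadraticMap.polar Q) W) (hplus : IsPlusTypeOn Q W) :
    ∃ K : Subgroup (GL ι F), subspaceStabilizer W ⊓ omegaGL Q < K ∧ K < omegaGL Q := by
  classical
  have h3 := three_eq_zero_of_card_three hq
  have h2 := two_ne_zero_of_card_three hq
  have htri := trichotomy_of_card_three hq
  have hb := hQ.polar_bilinear
  obtain ⟨U, hUW, hUs, hUd⟩ := hplus
  have hU1 : Module.finrank F U = 1 := by omega
  have hUne : U ≠ ⊥ := by
    intro h
    rw [h, finrank_bot] at hU1
    omega
  obtain ⟨e, heU, he0⟩ := (Submodule.ne_bot_iff U).mp hUne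
  have hQe : Q e = 0 := hUs e heU
  have heW := hUW heU
  obtain ⟨⟨f', hf'W, hf'e⟩, -⟩ := hW e heW he0
  set b := QuadraticMap.polar Q f' e with hbdef
  have hbb : b * b = 1 := by
    rcases htri b with h | h | h
    · exact absurd h hf'e
    · rw [h]; ring
    · rw [h]; ring
  set t := (1 - Q f') / b with ht
  set u := f' + t • e with hu
  have hQu : Q u = 1 := by
    rw [hu, q_add_smul hQ, hQe, ← hbdef, ht]
    field_simp
    ring
  have heu : QuadraticMap.polar Q e u = b := by
    rw [hu, hb.add_right, hb.smul_right, polar_self hQ, hQe, polar_symm Q e f', ← hbdef]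
    ring
  set w := e + b • u with hw
  have hQw : Q w = -1 := by
    rw [hw, q_add_smul hQ, hQe, hQu, heu]
    linear_combination 2 * hbb + h3
  have huw : QuadraticMap.polar Q u w = 0 := by
    rw [hw, hb.add_right, hb.smul_right, polar_self hQ, hQu, polar_symm Q u e, heu]
    linear_combination b * h3
  have hwu := (polar_symm Q w u).trans huw
  have huW : u ∈ W := W.add_mem hf'W (W.smul_mem t heW)
  have hwW : w ∈ W := W.add_mem heW (W.smul_mem b huW)
  have hQu0 : Q u ≠ 0 := by rw [hQu]; exact one_ne_zero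
  have hQw0 : Q w ≠ 0 := by rw [hQw]; exact neg_ne_zero.mpr one_ne_zero
  have hli : ∀ s t : F, s • u + t • w = 0 → s = 0 ∧ t = 0 := by
    intro s t hst
    constructor
    · have := congrArg (fun z => QuadraticMap.polar Q z u) hst
      simp only [hb.add_left, hb.smul_left, polar_self hQ, hQu, hwu, bil_zero_left hb, mul_zero,
        add_zero, mul_one] at this
      exact (mul_eq_zero.mp this).resolve_right h2
    · have := congrArg (fun z => QuadraticMap.polar Q z w) hst
      simp only [hb.add_left, hb.smul_left, polar_self hQ, hQw, huw, bil_zero_left hb, mul_zero,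
        zero_add] at this
      have h' : t * 2 = 0 := by linear_combination -this
      exact (mul_eq_zero.mp h').resolve_right h2
  have hexpW : ∀ x ∈ W, ∃ α β : F, x = α • u + β • w := fun x hx =>
    mem_pair_of_finrank_two W hdimW huW hwW hli hx
  have hnorm1 : ∀ x ∈ W, Q x = 1 → x = u ∨ x = -u := by
    intro x hx hQx
    obtain ⟨α, β, rfl⟩ := hexpW x hx
    rw [q_add Q (α • u) (β • w), hQ.smul, hQ.smul, hb.smul_left, hb.smul_right, huw, hQu, hQw] at hQx
    rcases htri α with h | h | h <;> rcases htri β with h' | h' | h' <;> rw [h, h'] at hQx ⊢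
    all_goals first
      | (left; simp; done)
      | (right; simp; done)
      | (exfalso; apply h2; linear_combination 2 * hQx)
      | (exfalso; apply h2; linear_combination -2 * hQx)
      | (exfalso; apply h2; linear_combination -hQx)
  -- auxiliary vectors
  obtain ⟨x, y, hQx, hQy, oxy, oxu, oxw, oyu, oyw⟩ :=
    exists_pair_orth hq hQ hdim hQu0 hQw0 huw (-1) (neg_ne_zero.mpr one_ne_zero)
  obtain ⟨x', y', hQx', hQy', oxy', oxu', oxw', oyu', oyw'⟩ :=
    exists_pair_orth hq hQ hdim hQu0 hQw0 huw 1 one_ne_zero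
  obtain ⟨g₁, hg₁Ω, hg₁w, -, -, hg₁fix⟩ := exists_three_cycle hQ h2 (a := w) (b := x) (c := y) hQw0
    (hQw.trans hQx.symm) (hQx.trans hQy.symm) ((polar_symm Q w x).trans oxw)
    ((polar_symm Q w y).trans oyw) oxy
  obtain ⟨g₂, hg₂Ω, hg₂u, -, -, -⟩ := exists_three_cycle hQ h2 (a := u) (b := x') (c := y') hQu0
    (hQu.trans hQx'.symm) (hQx'.trans hQy'.symm) ((polar_symm Q u x').trans oxu')
    ((polar_symm Q u y').trans oyu') oxy'
  have hg₁u : (g₁ : Matrix ι ι F) *ᵥ u = u :=
    hg₁fix u huw ((polar_symm Q u x).trans oxu) ((polar_symm Q u y).trans oyu)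
  set S : Set (ι → F) := {u, -u} with hS
  refine ⟨stabilizing (glToMat ι F) S ⊓ omegaGL Q, lt_of_le_of_ne ?_ ?_,
    lt_of_le_of_ne inf_le_right ?_⟩
  · refine le_inf ?_ inf_le_right
    apply le_stabilizing_of_forall
    rintro g ⟨hgW, hgΩ⟩ z hz
    have hgI := (mem_isometryGroup_iff Q g).mp (omegaGL_le Q hgΩ)
    have hgu : (g : Matrix ι ι F) *ᵥ u ∈ W := ((mem_subspaceStabilizer_iff g W).mp hgW u).mp huW
    have hcase := hnorm1 _ hgu (by rw [hgI, hQu])
    rcases hz with hz | hz
    · rw [hz]
      rcases hcase with h | h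
      · rw [h]; exact Or.inl rfl
      · rw [h]; exact Or.inr rfl
    · rw [Set.mem_singleton_iff] at hz
      rw [hz, Matrix.mulVec_neg]
      rcases hcase with h | h
      · rw [h]; exact Or.inr rfl
      · rw [h, neg_neg]; exact Or.inl rfl
  · intro hEq
    have hg₁K : g₁ ∈ stabilizing (glToMat ι F) S ⊓ omegaGL Q := by
      refine ⟨?_, hg₁Ω⟩
      apply mem_stabilizing_of_forall
      intro z hz
      rcases hz with hz | hz
      · rw [hz, hg₁u]; exact Or.inl rfl
      · rw [Set.mem_singleton_iff] at hz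
        rw [hz, Matrix.mulVec_neg, hg₁u]; exact Or.inr rfl
    rw [← hEq] at hg₁K
    have hyW : y ∈ W := by
      have := ((mem_subspaceStabilizer_iff g₁ W).mp hg₁K.1 w).mp hwW
      rwa [hg₁w] at this
    obtain ⟨α, β, hy⟩ := hexpW y hyW
    have hα : α = 0 := by
      have := oyu
      rw [hy, hb.add_left, hb.smul_left, hb.smul_left, polar_self hQ, hQu, hwu] at this
      have h' : α * 2 = 0 := by linear_combination this
      exact (mul_eq_zero.mp h').resolve_right h2
    have hβ : β = 0 := by
      have := oyw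
      rw [hy, hb.add_left, hb.smul_left, hb.smul_left, polar_self hQ, hQw, huw] at this
      have h' : β * 2 = 0 := by linear_combination -this
      exact (mul_eq_zero.mp h').resolve_right h2
    rw [hα, hβ, zero_smul, zero_smul, add_zero] at hy
    rw [hy, q_zero hQ] at hQy
    exact neg_ne_zero.mpr one_ne_zero hQy.symm
  · intro hEq
    have hg₂K : g₂ ∈ stabilizing (glToMat ι F) S ⊓ omegaGL Q := by
      rw [hEq]; exact hg₂Ω
    have hmem := ((mem_stabilizing_iff g₂ S).mp hg₂K.1 u).mp (Or.inl rfl)
    rw [hg₂u] at hmem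
    rcases hmem with h | h
    · rw [h, polar_self hQ, hQu] at oyu'
      apply h2
      linear_combination oyu'
    · rw [Set.mem_singleton_iff] at h
      rw [h, bil_neg_left hb, polar_self hQ, hQu] at oyu'
      apply h2
      linear_combination -oyu'

end Plane

end Cfsg.Agent.H95
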