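import Cfsg.Agent.H95.Quad

set_option autoImplicit false
set_option linter.unusedSectionVars false

namespace Cfsg.Agent.H95

open Cfsg Cfsg.Geo
open scoped MatrixGroups Matrix

section QuadStd

variable {F : Type*} [Field F] {m : ℕ}

lemma polar_quadFormOdd (x y : Unit ⊕ (Fin m ⊕ Fin m) → F) :
    QuadraticMap.polar (quadFormOdd m F) x y =
      2 * x (.inl ()) * y (.inl ()) +
        ∑ i : Fin m, (x (.inr (.inl i)) * y (.inr (.inr i)) + y (.inr (.inl i)) * x (.inr (.inr i))) := by
  unfold QuadraticMap.polar quadFormOdd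
  simp only [Pi.add_apply]
  rw [Finset.sum_add_distrib]
  have : ∑ i : Fin m, (x (.inr (.inl i)) + y (.inr (.inl i))) * (x (.inr (.inr i)) + y (.inr (.inr i))) =
      ∑ i : Fin m, x (.inr (.inl i)) * x (.inr (.inr i)) + ∑ i : Fin m, y (.inr (.inl i)) * y (.inr (.inr i)) +
        (∑ i : Fin m, x (.inr (.inl i)) * y (.inr (.inr i)) + ∑ i : Fin m, y (.inr (.inl i)) * x (.inr (.inr i))) := by
    rw [← Finset.sum_add_distrib, ← Finset.sum_add_distrib, ← Finset.sum_add_distrib]
    apply Finset.sum_congr rfl
    intro i _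
    ring
  rw [this]
  ring

/-- The standard odd-dimensional quadratic form is non-degenerate in characteristic not two. -/
lemma quadFormOdd_nondeg (h2 : (2 : F) ≠ 0) : IsNondegenerateQuadraticForm (quadFormOdd m F) := by
  refine ⟨?_, ⟨?_, ?_, ?_, ?_⟩, ?_⟩
  · intro c v
    unfold quadFormOdd
    simp only [Pi.smul_apply, smul_eq_mul]
    rw [mul_add, Finset.mul_sum]
    congr 1
    · ring
    · apply Finset.sum_congr rfl
      intro i _
      ring
  · intro x y v
    rw [polar_quadFormOdd, polar_quadFormOdd, polar_quadFormOdd]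
    simp only [Pi.add_apply]
    have : ∀ a b c d : F, a + b + (c + d) = (a + c) + (b + d) := by intros; ring
    rw [this, ← Finset.sum_add_distrib]
    congr 1
    · ring
    · apply Finset.sum_congr rfl
      intro i _
      ring
  · intro c x v
    rw [polar_quadFormOdd, polar_quadFormOdd]
    simp only [Pi.smul_apply, smul_eq_mul]
    rw [mul_add, Finset.mul_sum]
    congr 1
    · ring
    · apply Finset.sum_congr rfl
      intro i _
      ring
  · intro v x y
    rw [polar_quadFormOdd, polar_quadFormOdd, polar_quadFormOdd]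
    simp only [Pi.add_apply]
    have : ∀ a b c d : F, a + b + (c + d) = (a + c) + (b + d) := by intros; ring
    rw [this, ← Finset.sum_add_distrib]
    congr 1
    · ring
    · apply Finset.sum_congr rfl
      intro i _
      ring
  · intro c v x
    rw [polar_quadFormOdd, polar_quadFormOdd]
    simp only [Pi.smul_apply, smul_eq_mul]
    rw [mul_add, Finset.mul_sum]
    congr 1
    · ring
    · apply Finset.sum_congr rfl
      intro i _
      ring
  · intro v hv
    have key : ∃ x, QuadraticMap.polar (quadFormOdd m F) x v ≠ 0 := by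
      obtain ⟨j, hj⟩ := Function.ne_iff.mp hv
      rcases j with ⟨⟩ | i | i
      · refine ⟨Pi.single (.inl ()) 1, ?_⟩
        rw [polar_quadFormOdd]
        simp
        exact ⟨h2, hj⟩
      · refine ⟨Pi.single (.inr (.inr i)) 1, ?_⟩
        rw [polar_quadFormOdd]
        simp [Pi.single_apply]
        exact hj
      · refine ⟨Pi.single (.inr (.inl i)) 1, ?_⟩
        rw [polar_quadFormOdd]
        simp [Pi.single_apply]
        exact hj
    obtain ⟨x, hx⟩ := key
    exact ⟨⟨x, hx⟩, ⟨x, by rw [polar_symm]; exact hx⟩⟩

end QuadStd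

end Cfsg.Agent.H95
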