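import Mathlib
import Cfsg.Agent.H29.Dk1

/-!
# `⟨x(k), y(kα)⟩ = SL₂(k(α))`: the general part and the infinite case (helper95)

`H` is a subgroup of `SL(2, K)` containing the upper unitriangular matrices with entries in `k` and
the lower unitriangular matrices with entries in `kα`, and normalised by the diagonal matrices over
`k`.  With `R = {t | uT t ∈ H}` and `A = {λ | λ R ⊆ R}`, chains of transvections reach the same
point of the projective line by two different words, which gives elements of `A`.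
-/

set_option autoImplicit false
set_option linter.unusedSectionVars false
set_option linter.unusedVariables false
set_option linter.unusedSimpArgs false

namespace Cfsg.Agent.H95.SG

open Matrix Cfsg.Agent.H65.SL2 Cfsg.Agent.H29.Dk

variable {k K : Type*} [Field k] [Field K] [Algebra k K]

theorem uT_neg' (s : K) : uT (-s) = (uT s)⁻¹ := by
  apply ext4 <;> simp [inv00, inv01, inv10, inv11]

theorem lT_add' (s t : K) : lT (s + t) = lT s * lT t := by
  apply ext4 <;> simp [mul00, mul01, mul10, mul11, add_comm]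

theorem lT_neg' (s : K) : lT (-s) = (lT s)⁻¹ := by
  apply ext4 <;> simp [inv00, inv01, inv10, inv11]

theorem uT_sub_mem {H : Subgroup (Matrix.SpecialLinearGroup (Fin 2) K)} {s t : K}
    (hs : uT s ∈ H) (ht : uT t ∈ H) : uT (s - t) ∈ H := by
  rw [sub_eq_add_neg, uT_add, uT_neg']
  exact H.mul_mem hs (H.inv_mem ht)

/-- The set of first columns of the elements of `H`. -/
def Orb (H : Subgroup (Matrix.SpecialLinearGroup (Fin 2) K)) : Set (K × K) :=
  {v | ∃ g ∈ H, g.1 0 0 = v.1 ∧ g.1 1 0 = v.2}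

variable {H : Subgroup (Matrix.SpecialLinearGroup (Fin 2) K)}

theorem orb_trans {p r : K} (h : (p, r) ∈ Orb H) {c : K} (hc : uT c ∈ H) :
    (p + c * r, r) ∈ Orb H := by
  obtain ⟨g, hg, h0, h1⟩ := h
  simp only at h0 h1
  refine ⟨uT c * g, H.mul_mem hc hg, ?_, ?_⟩
  · simp [mul00, h0, h1]
  · simp [mul10, h1]

theorem orb_low {p r : K} (h : (p, r) ∈ Orb H) {b : K} (hb : lT b ∈ H) :
    (p, r + b * p) ∈ Orb H := by
  obtain ⟨g, hg, h0, h1⟩ := h
  simp only at h0 h1
  refine ⟨lT b * g, H.mul_mem hb hg, ?_, ?_⟩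
  · simp [mul00, h0]
  · simp [mul10, h0, h1, add_comm]

theorem orb_step {p r : K} (h : (p, r) ∈ Orb H) {c : K} (hc : uT c ∈ H) :
    (1 - c * p * r, -(c * r ^ 2)) ∈ Orb H := by
  obtain ⟨g, hg, h0, h1⟩ := h
  simp only at h0 h1
  refine ⟨g * uT c * g⁻¹, H.mul_mem (H.mul_mem hg hc) (H.inv_mem hg), ?_, ?_⟩
  · have hd := det_eq g
    simp only [mul00, mul01, mul10, mul11, inv00, inv01, inv10, inv11, uT00, uT01, uT10, uT11,
      h0, h1] at hd ⊢
    linear_combination hd
  · simp only [mul00, mul01, mul10, mul11, inv00, inv01, inv10, inv11, uT00, uT01, uT10, uT11,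
      h0, h1]
    ring

theorem conj_uT_of_upper (h : Matrix.SpecialLinearGroup (Fin 2) K) (e10 : h.1 1 0 = 0) (t : K) :
    h * uT t * h⁻¹ = uT ((h.1 0 0) ^ 2 * t) := by
  have hdh := det_eq h
  rw [e10] at hdh
  apply ext4
  · simp only [mul00, mul01, mul10, mul11, inv00, inv01, inv10, inv11, uT00, uT01, uT10, uT11,
      e10]
    linear_combination hdh
  · simp only [mul00, mul01, mul10, mul11, inv00, inv01, inv10, inv11, uT00, uT01, uT10, uT11,
      e10]
    ring
  · simp only [mul00, mul01, mul10, mul11, inv00, inv01, inv10, inv11, uT00, uT01, uT10, uT11,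
      e10]
    ring
  · simp only [mul00, mul01, mul10, mul11, inv00, inv01, inv10, inv11, uT00, uT01, uT10, uT11,
      e10]
    linear_combination hdh

/-- Two proportional vectors of the orbit give a multiplier of the translation set. -/
theorem mult_of_prop {p r μ : K} (h : (p, r) ∈ Orb H) (h' : (μ * p, μ * r) ∈ Orb H)
    {t : K} (ht : uT t ∈ H) : uT (μ ^ 2 * t) ∈ H := by
  obtain ⟨g, hg, h0, h1⟩ := h
  obtain ⟨g', hg', h0', h1'⟩ := h'
  simp only at h0 h1 h0' h1'
  have hd := det_eq g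
  have e00 : (g⁻¹ * g').1 0 0 = μ := by
    rw [mul00, inv00, inv01, h0', h1']
    rw [h0, h1] at hd
    linear_combination μ * hd
  have e10 : (g⁻¹ * g').1 1 0 = 0 := by
    rw [mul10, inv10, inv11, h0', h1', h0, h1]
    ring
  have key := conj_uT_of_upper (g⁻¹ * g') e10 t
  rw [e00] at key
  rw [← key]
  have hh : g⁻¹ * g' ∈ H := H.mul_mem (H.inv_mem hg) hg'
  exact H.mul_mem (H.mul_mem hh ht) (H.inv_mem hh)

/-- The hypotheses on `H`: it contains `x(k)` and `y(kα)` and its translation set is stable under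
multiplication by the squares of `k`. -/
structure Hyp (k : Type*) {K : Type*} [Field k] [Field K] [Algebra k K] (α : K)
    (H : Subgroup (Matrix.SpecialLinearGroup (Fin 2) K)) : Prop where
  hu : ∀ c : k, uT (algebraMap k K c) ∈ H
  hl : ∀ c : k, lT (algebraMap k K c * α) ∈ H
  hD : ∀ (μ : k) (t : K), uT t ∈ H → uT (algebraMap k K μ ^ 2 * t) ∈ H

variable {α : K}

theorem Hyp.smul_mem (hH : Hyp k α H) (h2 : (2 : k) ≠ 0) (c : k) {t : K} (ht : uT t ∈ H) :
    uT (algebraMap k K c * t) ∈ H := by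
  have e : algebraMap k K c * t =
      algebraMap k K ((c + 1) / 2) ^ 2 * t - algebraMap k K ((c - 1) / 2) ^ 2 * t := by
    rw [← sub_mul, ← map_pow, ← map_pow, ← map_sub]
    congr 2
    field_simp
    ring
  rw [e]
  exact uT_sub_mem (hH.hD _ _ ht) (hH.hD _ _ ht)

/-- The multiplier algebra of the translation set. -/
def Amult (hH : Hyp k α H) (h2 : (2 : k) ≠ 0) : Subalgebra k K where
  carrier := {l | ∀ t : K, uT t ∈ H → uT (l * t) ∈ H}
  mul_mem' := by
    intro a b ha hb t ht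
    rw [mul_assoc]
    exact ha _ (hb _ ht)
  add_mem' := by
    intro a b ha hb t ht
    rw [add_mul, uT_add]
    exact H.mul_mem (ha _ ht) (hb _ ht)
  algebraMap_mem' := by
    intro c t ht
    exact hH.smul_mem h2 c ht

theorem mem_Amult (hH : Hyp k α H) (h2 : (2 : k) ≠ 0) {l : K} :
    l ∈ Amult hH h2 ↔ ∀ t : K, uT t ∈ H → uT (l * t) ∈ H := Iff.rfl

theorem uT_of_mem_Amult (hH : Hyp k α H) (h2 : (2 : k) ≠ 0) {l : K} (hl : l ∈ Amult hH h2) :
    uT l ∈ H := by
  have h1 : uT (1 : K) ∈ H := by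
    have := hH.hu 1
    rwa [map_one] at this
  have := hl 1 h1
  rwa [mul_one] at this

/-- Proportional orbit vectors give elements of the multiplier algebra. -/
theorem sq_mem_Amult (hH : Hyp k α H) (h2 : (2 : k) ≠ 0) {p r μ : K} (h : (p, r) ∈ Orb H)
    (h' : (μ * p, μ * r) ∈ Orb H) : μ ^ 2 ∈ Amult hH h2 :=
  fun t ht => mult_of_prop h h' ht

/-- The chain of transvections: from `(p, r)` one reaches the point
`p / r + ∑ ε_j r^(-2^j)` with denominator `r^(2^m) / ε_m`. -/
theorem chain (hH : Hyp k α H) {p r : K} (hO : (p, r) ∈ Orb H) (hr : r ≠ 0) (ε : ℕ → k)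
    (h0 : ε 0 = 1) (hε : ∀ j, ε j ≠ 0) (m : ℕ) :
    (r ^ 2 ^ m / algebraMap k K (ε m) *
        (p / r + ∑ j ∈ Finset.range m, algebraMap k K (ε (j + 1)) * (r⁻¹) ^ 2 ^ (j + 1)),
      r ^ 2 ^ m / algebraMap k K (ε m)) ∈ Orb H := by
  have he : ∀ j, algebraMap k K (ε j) ≠ 0 := fun j =>
    (map_ne_zero (algebraMap k K)).2 (hε j)
  induction m with
  | zero =>
    have e : (r ^ 2 ^ 0 / algebraMap k K (ε 0) *
        (p / r + ∑ j ∈ Finset.range 0, algebraMap k K (ε (j + 1)) * (r⁻¹) ^ 2 ^ (j + 1)),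
      r ^ 2 ^ 0 / algebraMap k K (ε 0)) = (p, r) := by
      rw [h0, map_one]
      simp
      field_simp
    rw [e]
    exact hO
  | succ m ih =>
    have hc : uT (algebraMap k K (-(ε m ^ 2 / ε (m + 1)))) ∈ H := hH.hu _
    have := orb_step ih hc
    convert this using 2
    · rw [Finset.sum_range_succ]
      have hX : r ^ 2 ^ m ≠ 0 := pow_ne_zero _ hr
      have e1 : r ^ 2 ^ (m + 1) = (r ^ 2 ^ m) ^ 2 := by rw [← pow_mul, pow_succ]
      have e2 : (r⁻¹) ^ 2 ^ (m + 1) = ((r ^ 2 ^ m) ^ 2)⁻¹ := by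
        rw [inv_pow, e1]
      rw [e1, e2]
      generalize r ^ 2 ^ m = X at hX
      generalize (∑ j ∈ Finset.range m, algebraMap k K (ε (j + 1)) * (r⁻¹) ^ 2 ^ (j + 1)) = Z
      have h1 := he m
      have h2 := he (m + 1)
      rw [map_neg, map_div₀, map_pow]
      field_simp
      ring
    · have hX : r ^ 2 ^ m ≠ 0 := pow_ne_zero _ hr
      have e1 : r ^ 2 ^ (m + 1) = (r ^ 2 ^ m) ^ 2 := by rw [← pow_mul, pow_succ]
      rw [e1]
      generalize r ^ 2 ^ m = X at hX
      have h1 := he m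
      have h2 := he (m + 1)
      rw [map_neg, map_div₀, map_pow]
      field_simp

/-- A linear relation among `1, ρ^2, ρ^4, …, ρ^(2^(M+1))` (`ρ = r⁻¹`, `r` a denominator) makes
`r^(2^(M+1))` a unit of the multiplier algebra. -/
theorem mult_of_rel (hH : Hyp k α H) (h2 : (2 : k) ≠ 0)
    (hk3 : ∀ d : k, ∃ x : k, x ≠ 0 ∧ x + d ≠ 0)
    {p r : K} (hO : (p, r) ∈ Orb H) (hr : r ≠ 0) (M : ℕ) (a : k) (δ : ℕ → k)
    (hrel : (r⁻¹) ^ 2 ^ (M + 1) = algebraMap k K a +
      ∑ j ∈ Finset.range M, algebraMap k K (δ (j + 1)) * (r⁻¹) ^ 2 ^ (j + 1)) :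
    r ^ 2 ^ (M + 1) ∈ Amult hH h2 ∧ (r ^ 2 ^ (M + 1))⁻¹ ∈ Amult hH h2 := by
  classical
  choose pick hp1 hp2 using hk3
  obtain ⟨ε', hε'⟩ : ∃ ε' : ℕ → k, ε' = fun j => if j = 0 then 1 else if j ≤ M then pick (δ j) else 1 :=
    ⟨_, rfl⟩
  obtain ⟨ε, hε⟩ : ∃ ε : ℕ → k,
      ε = fun j => if j = 0 then 1 else if j ≤ M then pick (δ j) + δ j else 1 := ⟨_, rfl⟩
  have hε'0 : ε' 0 = 1 := by simp [hε']
  have hε0 : ε 0 = 1 := by simp [hε]
  have hε'n : ∀ j, ε' j ≠ 0 := by
    intro j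
    rw [hε']
    simp only
    split_ifs
    · exact one_ne_zero
    · exact hp1 _
    · exact one_ne_zero
  have hεn : ∀ j, ε j ≠ 0 := by
    intro j
    rw [hε]
    simp only
    split_ifs
    · exact one_ne_zero
    · exact hp2 _
    · exact one_ne_zero
  have hε'M : ε' (M + 1) = 1 := by simp [hε']
  have c1 := chain hH hO hr ε' hε'0 hε'n (M + 1)
  have c2 := chain hH hO hr ε hε0 hεn M
  have c2' := orb_trans c2 (hH.hu a)
  have hsum : ∑ j ∈ Finset.range M, algebraMap k K (ε (j + 1)) * (r⁻¹) ^ 2 ^ (j + 1) =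
      ∑ j ∈ Finset.range M, algebraMap k K (ε' (j + 1)) * (r⁻¹) ^ 2 ^ (j + 1) +
      ∑ j ∈ Finset.range M, algebraMap k K (δ (j + 1)) * (r⁻¹) ^ 2 ^ (j + 1) := by
    rw [← Finset.sum_add_distrib]
    apply Finset.sum_congr rfl
    intro j hj
    have hj' : j + 1 ≤ M := Finset.mem_range.1 hj
    rw [hε, hε']
    simp only [Nat.succ_ne_zero, if_false, hj', if_true, map_add, add_mul]
  rw [Finset.sum_range_succ, hε'M, map_one, one_mul, div_one, hrel] at c1
  rw [hsum] at c2 c2'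
  have hX : r ^ 2 ^ M ≠ 0 := pow_ne_zero _ hr
  have e1 : r ^ 2 ^ (M + 1) = (r ^ 2 ^ M) ^ 2 := by rw [← pow_mul, pow_succ]
  have heM : algebraMap k K (ε M) ≠ 0 := (map_ne_zero (algebraMap k K)).2 (hεn M)
  rw [e1] at c1 ⊢
  generalize r ^ 2 ^ M = X at hX c1 c2 c2' ⊢
  generalize (∑ j ∈ Finset.range M, algebraMap k K (ε' (j + 1)) * (r⁻¹) ^ 2 ^ (j + 1)) = S1
    at c1 c2 c2'
  generalize (∑ j ∈ Finset.range M, algebraMap k K (δ (j + 1)) * (r⁻¹) ^ 2 ^ (j + 1)) = S2
    at c1 c2 c2'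
  have hA1 : (algebraMap k K (ε M)) ^ 2 ∈ Amult hH h2 :=
    pow_mem ((Amult hH h2).algebraMap_mem _) 2
  have hA2 : ((algebraMap k K (ε M))⁻¹) ^ 2 ∈ Amult hH h2 := by
    rw [← map_inv₀]
    exact pow_mem ((Amult hH h2).algebraMap_mem _) 2
  generalize algebraMap k K (ε M) = e at heM c1 c2 c2' hA1 hA2 ⊢
  -- the multiplier
  have hμ1 : (X * e) ^ 2 ∈ Amult hH h2 := by
    apply sq_mem_Amult hH h2 c2'
    convert c1 using 2
    · field_simp
      ring
    · field_simp
  have hμ2 : ((X * e)⁻¹) ^ 2 ∈ Amult hH h2 := by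
    apply sq_mem_Amult hH h2 c1
    convert c2' using 2
    · field_simp
      ring
    · field_simp
  constructor
  · have e3 : X ^ 2 = (X * e) ^ 2 * (e⁻¹) ^ 2 := by
      field_simp
    rw [e3]
    exact mul_mem hμ1 hA2
  · have e3 : (X ^ 2)⁻¹ = ((X * e)⁻¹) ^ 2 * e ^ 2 := by
      field_simp
    rw [e3]
    exact mul_mem hμ2 hA1

/-- In a finite-dimensional subspace some `f (M + 1)` is a combination of the earlier `f j`. -/
theorem exists_rel_aux (L : Submodule k K) [FiniteDimensional k L] (f : ℕ → K)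
    (hf : ∀ j, f j ∈ L) (hf0 : f 0 ≠ 0) :
    ∃ M, M + 1 ≤ Module.finrank k L ∧ ∃ c : ℕ → k,
      f (M + 1) = ∑ j ∈ Finset.range (M + 1), c j • f j := by
  classical
  by_contra hne
  push Not at hne
  have key : ∀ m, m ≤ Module.finrank k L + 1 → LinearIndependent k (fun j : Fin m => f j) := by
    intro m
    induction m with
    | zero => intro _; exact linearIndependent_empty_type
    | succ m ih =>
      intro hm
      rw [linearIndependent_finSucc']
      refine ⟨ih (by omega), ?_⟩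
      intro hmem
      have hmem' : f m ∈ Submodule.span k (Set.range (fun j : Fin m => f j)) := hmem
      rw [Submodule.mem_span_range_iff_exists_fun] at hmem'
      obtain ⟨c, hc⟩ := hmem'
      rcases Nat.eq_zero_or_pos m with h0 | hpos
      · subst h0
        simp at hc
        exact hf0 hc.symm
      · obtain ⟨M, rfl⟩ : ∃ M, m = M + 1 := ⟨m - 1, by omega⟩
        apply hne M (by omega) (fun j => if h : j < M + 1 then c ⟨j, h⟩ else 0)
        rw [← hc, Finset.sum_range]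
        apply Finset.sum_congr rfl
        intro i _
        rw [dif_pos i.2]
  have h1 := key (Module.finrank k L + 1) le_rfl
  have h2 : LinearIndependent k (fun j : Fin (Module.finrank k L + 1) => (⟨f j, hf j⟩ : L)) := by
    apply LinearIndependent.of_comp L.subtype
    exact h1
  have h3 := h2.fintype_card_le_finrank
  simp at h3

/-- For a denominator `r` of the orbit lying in a finite-dimensional intermediate field `L`,
`r ^ (2 ^ finrank)` is a unit of the multiplier algebra. -/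
theorem pow_mem_Amult (hH : Hyp k α H) (h2 : (2 : k) ≠ 0)
    (hk3 : ∀ d : k, ∃ x : k, x ≠ 0 ∧ x + d ≠ 0)
    (L : IntermediateField k K) [FiniteDimensional k L]
    {p r : K} (hO : (p, r) ∈ Orb H) (hr : r ≠ 0) (hrL : r ∈ L) :
    r ^ 2 ^ Module.finrank k L ∈ Amult hH h2 ∧ (r ^ 2 ^ Module.finrank k L)⁻¹ ∈ Amult hH h2 := by
  classical
  have hρL : r⁻¹ ∈ L := L.inv_mem hrL
  obtain ⟨f, hfdef⟩ : ∃ f : ℕ → K, f = fun j => if j = 0 then 1 else (r⁻¹) ^ 2 ^ j := ⟨_, rfl⟩
  have hf : ∀ j, f j ∈ L.toSubalgebra.toSubmodule := by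
    intro j
    rw [hfdef]
    simp only
    split_ifs
    · exact L.one_mem
    · show (r⁻¹) ^ 2 ^ j ∈ L
      exact pow_mem hρL _
  have hf0 : f 0 ≠ 0 := by rw [hfdef]; simp
  have : FiniteDimensional k L.toSubalgebra.toSubmodule := ‹FiniteDimensional k L›
  obtain ⟨M, hM, c, hc⟩ := exists_rel_aux L.toSubalgebra.toSubmodule f hf hf0
  have hM' : M + 1 ≤ Module.finrank k L := hM
  have hrel : (r⁻¹) ^ 2 ^ (M + 1) = algebraMap k K (c 0) +
      ∑ j ∈ Finset.range M, algebraMap k K (c (j + 1)) * (r⁻¹) ^ 2 ^ (j + 1) := by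
    rw [Finset.sum_range_succ'] at hc
    rw [hfdef] at hc
    simp only [Nat.succ_ne_zero, if_false, if_true, Algebra.smul_def, mul_one] at hc
    rw [hc, add_comm]
  obtain ⟨h1, h1'⟩ := mult_of_rel hH h2 hk3 hO hr M (c 0) c hrel
  have e : r ^ 2 ^ Module.finrank k L = (r ^ 2 ^ (M + 1)) ^ 2 ^ (Module.finrank k L - (M + 1)) := by
    rw [← pow_mul, ← pow_add, Nat.add_sub_cancel' hM']
  constructor
  · rw [e]
    exact pow_mem h1 _
  · rw [e, ← inv_pow]
    exact pow_mem h1' _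

/-- Lagrange extraction of a coefficient: if a polynomial function with coefficients in a vector
space takes values in a subspace at more points than its degree, the coefficients lie there. -/
theorem coeff_mem_of_evals {V : Type*} [AddCommGroup V] [Module k V] (W : Submodule k V)
    (a : ℕ → V) (N : ℕ) (S : Finset k) (hS : N < S.card)
    (h : ∀ c ∈ S, ∑ i ∈ Finset.range (N + 1), c ^ i • a i ∈ W) (j : ℕ) (hj : j ≤ N) :
    a j ∈ W := by
  classical
  have hinj : Set.InjOn (id : k → k) S := Function.injective_id.injOn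
  have key : ∀ i ≤ N, ∑ c ∈ S, (Lagrange.basis S id c).coeff j * c ^ i = if j = i then 1 else 0 := by
    intro i hi
    have hdeg : (Polynomial.X ^ i : Polynomial k).degree < S.card := by
      rw [Polynomial.degree_X_pow]
      exact_mod_cast lt_of_le_of_lt hi hS
    have h1 := Lagrange.eq_interpolate (s := S) (v := id) hinj hdeg
    have h2 := congrArg (fun q : Polynomial k => q.coeff j) h1
    simp only [Lagrange.interpolate_apply, Polynomial.finsetSum_coeff, Polynomial.coeff_C_mul,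
      Polynomial.coeff_X_pow, Polynomial.eval_pow, Polynomial.eval_X, id] at h2
    rw [h2]
    apply Finset.sum_congr rfl
    intro c _
    ring
  have hsum : ∑ c ∈ S, (Lagrange.basis S id c).coeff j •
      (∑ i ∈ Finset.range (N + 1), c ^ i • a i) = a j := by
    simp_rw [Finset.smul_sum, smul_smul]
    rw [Finset.sum_comm]
    have : ∀ i ∈ Finset.range (N + 1),
        ∑ c ∈ S, ((Lagrange.basis S id c).coeff j * c ^ i) • a i = (if j = i then 1 else 0 : k) • a i := by
      intro i hi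
      rw [← Finset.sum_smul, key i (by have := Finset.mem_range.1 hi; omega)]
    rw [Finset.sum_congr rfl this]
    simp only [ite_smul, one_smul, zero_smul]
    rw [Finset.sum_ite_eq]
    simp [Finset.mem_range]
    omega
  rw [← hsum]
  exact Submodule.sum_mem _ (fun c hc => Submodule.smul_mem _ _ (h c hc))

/-- **Infinite case**: `α` is a multiplier. -/
theorem alpha_mem_Amult [Infinite k] (hH : Hyp k α H) (h2 : (2 : k) ≠ 0) (hα0 : α ≠ 0)
    (L : IntermediateField k K) [FiniteDimensional k L]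
    (hL : ∀ g ∈ H, g.1 1 0 ∈ L) : α ∈ Amult hH h2 := by
  classical
  have hk3 : ∀ d : k, ∃ x : k, x ≠ 0 ∧ x + d ≠ 0 := by
    intro d
    obtain ⟨x, hx⟩ := Infinite.exists_notMem_finset ({0, -d} : Finset k)
    simp only [Finset.mem_insert, Finset.mem_singleton, not_or] at hx
    exact ⟨x, hx.1, fun h => hx.2 (eq_neg_of_add_eq_zero_left h)⟩
  have hlα : lT α ∈ H := by
    have := hH.hl 1
    rwa [map_one, one_mul] at this
  have hO1 : ((1 : K), α) ∈ Orb H := ⟨lT α, hlα, by simp, by simp⟩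
  have hαL : α ∈ L := by
    have := hL _ hlα
    simpa using this
  obtain ⟨n, hn⟩ : ∃ n, n = Module.finrank k L := ⟨_, rfl⟩
  obtain ⟨hαN, hαN'⟩ := pow_mem_Amult hH h2 hk3 L hO1 hα0 hαL
  rw [← hn] at hαN hαN'
  -- the denominators `α (2 + c α)`
  have hden : ∀ c : k, (algebraMap k K c * α + 2) ^ 2 ^ n ∈ Amult hH h2 := by
    intro c
    by_cases hc : algebraMap k K c * α + 2 = 0
    · rw [hc, zero_pow (by positivity)]
      exact zero_mem _
    · have hO2 : (1 + algebraMap k K c * α, α + α * (1 + algebraMap k K c * α)) ∈ Orb H :=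
        orb_low (orb_trans hO1 (hH.hu c)) hlα
      have hr : α + α * (1 + algebraMap k K c * α) ≠ 0 := by
        have e : α + α * (1 + algebraMap k K c * α) = α * (algebraMap k K c * α + 2) := by ring
        rw [e]
        exact mul_ne_zero hα0 hc
      have hrL : α + α * (1 + algebraMap k K c * α) ∈ L :=
        L.add_mem hαL (L.mul_mem hαL (L.add_mem L.one_mem (L.mul_mem (L.algebraMap_mem c) hαL)))
      obtain ⟨h3, -⟩ := pow_mem_Amult hH h2 hk3 L hO2 hr hrL
      rw [← hn] at h3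
      have e : (algebraMap k K c * α + 2) ^ 2 ^ n =
          (α + α * (1 + algebraMap k K c * α)) ^ 2 ^ n * (α ^ 2 ^ n)⁻¹ := by
        have e' : α + α * (1 + algebraMap k K c * α) = α * (algebraMap k K c * α + 2) := by ring
        rw [e', mul_pow]
        field_simp
      rw [e]
      exact mul_mem h3 hαN'
  -- binomial expansion and extraction of the linear coefficient
  obtain ⟨N, hN⟩ : ∃ N, N = 2 ^ n := ⟨_, rfl⟩
  obtain ⟨a, ha⟩ : ∃ a : ℕ → K, a = fun i => α ^ i * 2 ^ (N - i) * (N.choose i : K) := ⟨_, rfl⟩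
  obtain ⟨S, hS⟩ := Infinite.exists_subset_card_eq k (N + 1)
  have hev : ∀ c ∈ S, ∑ i ∈ Finset.range (N + 1), c ^ i • a i ∈ (Amult hH h2).toSubmodule := by
    intro c _
    have := hden c
    rw [← hN, add_pow] at this
    have e : ∑ i ∈ Finset.range (N + 1), c ^ i • a i =
        ∑ m ∈ Finset.range (N + 1), (algebraMap k K c * α) ^ m * 2 ^ (N - m) * (N.choose m : K) := by
      apply Finset.sum_congr rfl
      intro i _
      rw [ha, Algebra.smul_def, map_pow, mul_pow]
      ring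
    rw [e]
    exact this
  have h1 := coeff_mem_of_evals (Amult hH h2).toSubmodule a N S (by omega) hev 1
    (by rw [hN]; exact Nat.one_le_two_pow)
  have h1' : a 1 ∈ Amult hH h2 := h1
  have hu : (2 : K) ^ (N - 1) * (N : K) = algebraMap k K ((2 : k) ^ (N - 1) * (2 : k) ^ n) := by
    rw [hN]
    simp only [Nat.cast_pow, Nat.cast_ofNat, map_mul, map_pow, map_ofNat]
  have hne : (2 : k) ^ (N - 1) * (2 : k) ^ n ≠ 0 := mul_ne_zero (pow_ne_zero _ h2) (pow_ne_zero _ h2)
  have e : α = a 1 * algebraMap k K (((2 : k) ^ (N - 1) * (2 : k) ^ n)⁻¹) := by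
    have e1 : a 1 = α * ((2 : K) ^ (N - 1) * (N : K)) := by
      rw [ha]
      simp only [pow_one, Nat.choose_one_right]
      ring
    rw [e1, hu, mul_assoc, ← map_mul, mul_inv_cancel₀ hne, map_one, mul_one]
  have h3 := mul_mem h1' ((Amult hH h2).algebraMap_mem (((2 : k) ^ (N - 1) * (2 : k) ^ n)⁻¹))
  rwa [← e] at h3

/-- **Infinite case**: every element of `k[α]` is a translation of `H`. -/
theorem uT_mem_of_infinite [Infinite k] (hH : Hyp k α H) (h2 : (2 : k) ≠ 0) (hα0 : α ≠ 0)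
    (L : IntermediateField k K) [FiniteDimensional k L]
    (hL : ∀ g ∈ H, g.1 1 0 ∈ L) {t : K} (ht : t ∈ Algebra.adjoin k {α}) : uT t ∈ H := by
  have h1 : Algebra.adjoin k {α} ≤ Amult hH h2 := by
    apply Algebra.adjoin_le
    intro x hx
    rw [Set.mem_singleton_iff] at hx
    rw [hx]
    exact alpha_mem_Amult hH h2 hα0 L hL
  exact uT_of_mem_Amult hH h2 (h1 ht)

/-! ### The concrete subgroup -/

/-- The generators `x(c)`, `y(cα)`, `c ∈ k`. -/
def gens (k : Type*) {K : Type*} [Field k] [Field K] [Algebra k K] (α : K) :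
    Set (Matrix.SpecialLinearGroup (Fin 2) K) :=
  (Set.range fun c : k => uT (algebraMap k K c)) ∪ (Set.range fun c : k => lT (algebraMap k K c * α))

/-- The diagonal element `diag(μ, μ⁻¹)`. -/
def dT (μ : K) (hμ : μ ≠ 0) : Matrix.SpecialLinearGroup (Fin 2) K :=
  ⟨!![μ, 0; 0, μ⁻¹], by simp [Matrix.det_fin_two, hμ]⟩

@[simp] theorem dT00 (μ : K) (hμ : μ ≠ 0) : (dT μ hμ).1 0 0 = μ := rfl
@[simp] theorem dT01 (μ : K) (hμ : μ ≠ 0) : (dT μ hμ).1 0 1 = 0 := rfl
@[simp] theorem dT10 (μ : K) (hμ : μ ≠ 0) : (dT μ hμ).1 1 0 = 0 := rfl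
@[simp] theorem dT11 (μ : K) (hμ : μ ≠ 0) : (dT μ hμ).1 1 1 = μ⁻¹ := rfl

theorem dT_conj_uT (μ : K) (hμ : μ ≠ 0) (t : K) :
    dT μ hμ * uT t * (dT μ hμ)⁻¹ = uT (μ ^ 2 * t) := by
  apply ext4 <;>
    simp only [mul00, mul01, mul10, mul11, inv00, inv01, inv10, inv11, dT00, dT01, dT10, dT11,
      uT00, uT01, uT10, uT11] <;> field_simp <;> ring

theorem dT_conj_lT (μ : K) (hμ : μ ≠ 0) (t : K) :
    dT μ hμ * lT t * (dT μ hμ)⁻¹ = lT ((μ⁻¹) ^ 2 * t) := by
  apply ext4 <;>
    simp only [mul00, mul01, mul10, mul11, inv00, inv01, inv10, inv11, dT00, dT01, dT10, dT11,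
      lT00, lT01, lT10, lT11] <;> field_simp <;> ring

theorem dT_conj_mem (α : K) (μ : k) (hμ : μ ≠ 0) {g : Matrix.SpecialLinearGroup (Fin 2) K}
    (hg : g ∈ Subgroup.closure (gens k α)) :
    dT (algebraMap k K μ) ((map_ne_zero (algebraMap k K)).2 hμ) * g *
      (dT (algebraMap k K μ) ((map_ne_zero (algebraMap k K)).2 hμ))⁻¹ ∈
        Subgroup.closure (gens k α) := by
  induction hg using Subgroup.closure_induction with
  | mem x hx =>
    apply Subgroup.subset_closure
    rcases hx with ⟨c, rfl⟩ | ⟨c, rfl⟩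
    · left
      refine ⟨μ ^ 2 * c, ?_⟩
      simp only
      rw [dT_conj_uT, map_mul, map_pow]
    · right
      refine ⟨(μ⁻¹) ^ 2 * c, ?_⟩
      simp only
      rw [dT_conj_lT, map_mul, map_pow, map_inv₀, mul_assoc]
  | one => simp [Subgroup.one_mem]
  | mul x y _ _ hx hy =>
    have e : ∀ d : Matrix.SpecialLinearGroup (Fin 2) K, d * (x * y) * d⁻¹ = (d * x * d⁻¹) * (d * y * d⁻¹) := by
      intro d; group
    rw [e]
    exact Subgroup.mul_mem _ hx hy
  | inv x _ hx =>
    have e : ∀ d : Matrix.SpecialLinearGroup (Fin 2) K, d * x⁻¹ * d⁻¹ = (d * x * d⁻¹)⁻¹ := by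
      intro d; group
    rw [e]
    exact Subgroup.inv_mem _ hx

theorem hyp_closure (α : K) : Hyp k α (Subgroup.closure (gens k α)) where
  hu := fun c => Subgroup.subset_closure (Or.inl ⟨c, rfl⟩)
  hl := fun c => Subgroup.subset_closure (Or.inr ⟨c, rfl⟩)
  hD := by
    intro μ t ht
    by_cases hμ : μ = 0
    · rw [hμ, map_zero]
      simp only [ne_eq, OfNat.ofNat_ne_zero, not_false_eq_true, zero_pow, zero_mul]
      rw [uT_zero]
      exact Subgroup.one_mem _
    · have := dT_conj_mem α μ hμ ht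
      rwa [dT_conj_uT] at this

theorem entries_mem (α : K) (L : Subalgebra k K) (hαL : α ∈ L)
    {g : Matrix.SpecialLinearGroup (Fin 2) K} (hg : g ∈ Subgroup.closure (gens k α)) :
    g.1 0 0 ∈ L ∧ g.1 0 1 ∈ L ∧ g.1 1 0 ∈ L ∧ g.1 1 1 ∈ L := by
  induction hg using Subgroup.closure_induction with
  | mem x hx =>
    rcases hx with ⟨c, rfl⟩ | ⟨c, rfl⟩
    · simp only [uT00, uT01, uT10, uT11]
      exact ⟨L.one_mem, L.algebraMap_mem c, L.zero_mem, L.one_mem⟩
    · simp only [lT00, lT01, lT10, lT11]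
      exact ⟨L.one_mem, L.zero_mem, L.mul_mem (L.algebraMap_mem c) hαL, L.one_mem⟩
  | one =>
    simp only [one00, one01, one10, one11]
    exact ⟨L.one_mem, L.zero_mem, L.zero_mem, L.one_mem⟩
  | mul x y _ _ hx hy =>
    obtain ⟨x0, x1, x2, x3⟩ := hx
    obtain ⟨y0, y1, y2, y3⟩ := hy
    rw [mul00, mul01, mul10, mul11]
    exact ⟨L.add_mem (L.mul_mem x0 y0) (L.mul_mem x1 y2), L.add_mem (L.mul_mem x0 y1) (L.mul_mem x1 y3),
      L.add_mem (L.mul_mem x2 y0) (L.mul_mem x3 y2), L.add_mem (L.mul_mem x2 y1) (L.mul_mem x3 y3)⟩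
  | inv x _ hx =>
    obtain ⟨x0, x1, x2, x3⟩ := hx
    rw [inv00, inv01, inv10, inv11]
    exact ⟨x3, L.neg_mem x1, L.neg_mem x2, x0⟩

/-- Once all `x(t)`, `t ∈ L`, lie in `H`, so does every matrix with entries in `L`. -/
theorem mem_of_uT {α : K} (hα0 : α ≠ 0) (L : IntermediateField k K) (hαL : α ∈ L)
    (hlα : lT α ∈ H) (hu : ∀ t ∈ L, uT t ∈ H)
    (g : Matrix.SpecialLinearGroup (Fin 2) K)
    (hg : g.1 0 0 ∈ L ∧ g.1 0 1 ∈ L ∧ g.1 1 0 ∈ L ∧ g.1 1 1 ∈ L) : g ∈ H := by
  have hαi : α⁻¹ ∈ L := L.inv_mem hαL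
  -- the Weyl element
  have hw : uT (-α⁻¹) * lT α * uT (-α⁻¹) ∈ H :=
    H.mul_mem (H.mul_mem (hu _ (L.neg_mem hαi)) hlα) (hu _ (L.neg_mem hαi))
  have hl : ∀ t ∈ L, lT t ∈ H := by
    intro t ht
    have e : lT t = (uT (-α⁻¹) * lT α * uT (-α⁻¹)) * uT (-(t / α ^ 2)) *
        (uT (-α⁻¹) * lT α * uT (-α⁻¹))⁻¹ := by
      apply ext4 <;>
        simp only [mul00, mul01, mul10, mul11, inv00, inv01, inv10, inv11, uT00, uT01, uT10, uT11,
          lT00, lT01, lT10, lT11] <;> field_simp <;> ring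
    rw [e]
    exact H.mul_mem (H.mul_mem hw (hu _ (L.neg_mem (L.div_mem ht (pow_mem hαL 2))))) (H.inv_mem hw)
  have main : ∀ g : Matrix.SpecialLinearGroup (Fin 2) K,
      (g.1 0 0 ∈ L ∧ g.1 0 1 ∈ L ∧ g.1 1 0 ∈ L ∧ g.1 1 1 ∈ L) → g.1 1 0 ≠ 0 → g ∈ H := by
    intro g ⟨g0, g1, g2, g3⟩ hc
    have hd := det_eq g
    have e : g = uT ((g.1 0 0 - 1) / g.1 1 0) * lT (g.1 1 0) * uT ((g.1 1 1 - 1) / g.1 1 0) := by
      apply ext4
      · simp only [mul00, mul01, mul10, mul11, uT00, uT01, uT10, uT11, lT00, lT01, lT10, lT11]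
        field_simp
        ring
      · simp only [mul00, mul01, mul10, mul11, uT00, uT01, uT10, uT11, lT00, lT01, lT10, lT11]
        field_simp
        linear_combination -hd
      · simp only [mul00, mul01, mul10, mul11, uT00, uT01, uT10, uT11, lT00, lT01, lT10, lT11]
        ring
      · simp only [mul00, mul01, mul10, mul11, uT00, uT01, uT10, uT11, lT00, lT01, lT10, lT11]
        field_simp
        ring
    rw [e]
    exact H.mul_mem (H.mul_mem (hu _ (L.div_mem (L.sub_mem g0 L.one_mem) g2)) (hl _ g2))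
      (hu _ (L.div_mem (L.sub_mem g3 L.one_mem) g2))
  by_cases hc : g.1 1 0 = 0
  · have hd := det_eq g
    rw [hc, mul_zero, sub_zero] at hd
    have h00 : g.1 0 0 ≠ 0 := by
      intro h
      rw [h, zero_mul] at hd
      exact zero_ne_one hd
    obtain ⟨g0, g1, g2, g3⟩ := hg
    have h1 : lT 1 * g ∈ H := by
      apply main
      · rw [mul00, mul01, mul10, mul11]
        simp only [lT00, lT01, lT10, lT11, one_mul, zero_mul, add_zero, zero_add]
        exact ⟨g0, g1, L.add_mem g0 g2, L.add_mem g1 g3⟩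
      · rw [mul10]
        simp only [lT10, lT11, one_mul, hc, add_zero]
        exact h00
    have e : g = (lT 1)⁻¹ * (lT 1 * g) := by group
    rw [e]
    exact H.mul_mem (H.inv_mem (hl 1 L.one_mem)) h1
  · exact main g hg hc

end Cfsg.Agent.H95.SG
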