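import Mathlib
import Cfsg.Agent.H18.DkF3
import Cfsg.Agent.H95.SL2Gen

/-!
# `⟨x(k), y(kα)⟩ = SL₂(k(α))`: the finite case (helper95)

Uses helper18's / helper29's Dickson machinery: the class-equation count (`numU`) gives
`|L| = (q₀ + 1) |L ∩ B|` as soon as `q₀ = |L ∩ U| ≥ 4`, and then `field_str` makes the translation
set a subfield.
-/

set_option autoImplicit false
set_option linter.unusedSectionVars false
set_option linter.unusedVariables false
set_option linter.deprecated false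
set_option linter.unusedSimpArgs false

namespace Cfsg.Agent.H95.SF

open Matrix Cfsg.Agent.H65.SL2 Cfsg.Agent.H29.Dk Cfsg.Agent.H18.Dk

variable {F : Type*} [Field F] [Fintype F] (L : Subgroup (Matrix.SpecialLinearGroup (Fin 2) F))

/-- The counting identity of the unipotent case of Dickson's theorem, when `|L ∩ U| ≥ 4`
(the proof is the one of `Cfsg.Agent.H18.Dk.dk_unip_red`, with the two small cases excluded). -/
theorem card_identity (p : ℕ) [Fact p.Prime] [CharP F p] (hZL : (Ze : Subgroup _) ≤ L)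
    (h1 : uT (1 : F) ∈ L) (hLB : ¬ L ≤ (Bo : Subgroup _))
    (hq4 : 4 ≤ Nat.card (L ⊓ Un : Subgroup _)) :
    Nat.card L = (Nat.card (L ⊓ Un : Subgroup _) + 1) * Nat.card (L ⊓ Bo : Subgroup _) := by
  classical
  obtain ⟨g₀, hg₀L, hg₀B⟩ := SetLike.not_le_iff_exists.1 hLB
  have hu1 : uT (1 : F) ≠ 1 := uT_ne_one one_ne_zero
  have hu1Z : uT (1 : F) ∉ (Ze : Subgroup _) := uT_one_not_mem_Ze
  have hzpos : 0 < Nat.card (Ze : Subgroup (Matrix.SpecialLinearGroup (Fin 2) F)) := Nat.card_pos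
  have hβpos : 0 < Nat.card (L ⊓ Bo : Subgroup _) := Nat.card_pos
  have hLpos : 0 < Nat.card L := Nat.card_pos
  have hq2 : 2 ≤ Nat.card (L ⊓ Un : Subgroup _) := by
    have hne : (L ⊓ Un : Subgroup (Matrix.SpecialLinearGroup (Fin 2) F)) ≠ ⊥ := by
      intro h
      have hmem : uT (1 : F) ∈ (L ⊓ Un : Subgroup _) := Subgroup.mem_inf.2 ⟨h1, uT_mem_Un 1⟩
      rw [h, Subgroup.mem_bot] at hmem
      exact hu1 hmem
    exact (Subgroup.one_lt_card_iff_ne_bot _).2 hne
  have hUZ := card_UZ L hZL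
  have hcen1 : Cen L (uT (1 : F)) = L ⊓ UZ := cen_of_mem_T L (uT_mem_Un 1) hu1
  have hnb1 : Nb L (uT (1 : F)) = L ⊓ Bo := nb_of_mem_T L h1 (uT_mem_Un 1) hu1
  have hLZ : (L ⊓ Ze : Subgroup (Matrix.SpecialLinearGroup (Fin 2) F)) = Ze := inf_eq_right.2 hZL
  obtain ⟨t, ht⟩ : Nat.card (Ze : Subgroup (Matrix.SpecialLinearGroup (Fin 2) F)) *
      Nat.card (L ⊓ Un : Subgroup _) ∣ Nat.card (L ⊓ Bo : Subgroup _) := by
    rw [← hUZ]; exact Subgroup.card_dvd_of_le (inf_le_inf_left L UZ_le_Bo)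
  obtain ⟨s, hs⟩ : Nat.card (L ⊓ Bo : Subgroup _) ∣ Nat.card L :=
    Subgroup.card_dvd_of_le inf_le_left
  have hBle := card_B_le L h1
  rw [hUZ] at hBle
  have hDsub : Dc L g₀ ⊆ (L : Set (Matrix.SpecialLinearGroup (Fin 2) F)) \
      ((L ⊓ Bo : Subgroup _) : Set (Matrix.SpecialLinearGroup (Fin 2) F)) := fun x hx =>
    ⟨Dc_subset L hg₀L hx, fun hxB => Dc_not_Bo L hg₀B hx (Subgroup.mem_inf.1 hxB).2⟩
  have hD := Set.ncard_le_ncard hDsub (Set.toFinite _)
  rw [Dc_card L hg₀B, Set.ncard_diff (fun x hx => (Subgroup.mem_inf.1 hx).1)] at hD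
  have e1 : ((L : Set (Matrix.SpecialLinearGroup (Fin 2) F))).ncard = Nat.card L := rfl
  have e2 : ((L ⊓ Bo : Subgroup _) : Set (Matrix.SpecialLinearGroup (Fin 2) F)).ncard =
      Nat.card (L ⊓ Bo : Subgroup _) := rfl
  rw [e1, e2] at hD
  have hLcard := card_L_eq L hZL
  -- classes
  obtain ⟨T, hT1, hT2, hT3, hT4⟩ := class_sum L Ze hZc_Ze hCA_Ze
  obtain ⟨u₀, hu₀T, hu₀⟩ := hT3 (uT 1) h1 hu1Z
  have hu₀Z := (hT1 u₀ hu₀T).2
  have hObeq : Ob L Ze (uT (1 : F)) = Ob L Ze u₀ := ob_eq_of_mem hZc_Ze hCA_Ze hu₀Z hu₀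
  have hsemi : ∀ x ∈ T.erase u₀, tr x ^ 2 ≠ 4 := by
    intro x hx htr
    obtain ⟨hxne, hxT⟩ := Finset.mem_erase.1 hx
    have h2 := mem_ob_of_tr' L p hZL h1 (hT1 x hxT).1 (hT1 x hxT).2 htr
    rw [hObeq] at h2
    exact hT2 u₀ hu₀T x hxT (Ne.symm hxne) h2
  have hW := fun x (hx : x ∈ T.erase u₀) =>
    cls_weight L hZL (hT1 x (Finset.mem_of_mem_erase hx)).1 (hT1 x (Finset.mem_of_mem_erase hx)).2
      (hsemi x hx)
  have hob := ob_card hZc_Ze hCA_Ze (L := L) hu1Z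
  have hyb := yb_card (L := L) (Zs := Ze) (uT (1 : F)) (zs_le_cen hZc_Ze _)
  rw [hLZ, hcen1, hUZ] at hyb
  rw [hyb, hnb1, hObeq] at hob
  have hcU := card_of_mem_ob hZc_Ze hCA_Ze hu₀Z hu₀
  rw [hcen1, hnb1, hUZ] at hcU
  have hsplit := Finset.add_sum_erase T (fun x => (Ob L Ze x).ncard) hu₀T
  rw [← hsplit, Finset.sum_congr rfl (fun x hx => (hW x hx).2.2.2.2.2), ← Finset.mul_sum,
    hLZ] at hT4
  have hcB := fun y hyL hyBo hytr => cen_card_of_B L (h := y) hyL hyBo hytr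
  -- abstract the numbers
  generalize hzdef : Nat.card (Ze : Subgroup (Matrix.SpecialLinearGroup (Fin 2) F)) = z at *
  generalize hq₀def : Nat.card (L ⊓ Un : Subgroup _) = q₀ at *
  generalize hβdef : Nat.card (L ⊓ Bo : Subgroup _) = β at *
  generalize hndef : Nat.card L = n at *
  generalize hobdef : (Ob L Ze u₀).ncard = ob at *
  subst ht
  subst hs
  have hq₀pos : 0 < q₀ := by omega
  have hzq : 0 < z * q₀ := Nat.mul_pos hzpos hq₀pos
  have ht1 : 1 ≤ t := by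
    rcases Nat.eq_zero_or_pos t with h | h
    · rw [h, mul_zero] at hβpos; omega
    · exact h
  have hs1 : 1 ≤ s := by
    rcases Nat.eq_zero_or_pos s with h | h
    · rw [h, mul_zero] at hLpos; omega
    · exact h
  have htq : t + 1 ≤ q₀ := by
    have h2 : (z * q₀) * (t + 1) ≤ (z * q₀) * q₀ := by
      calc (z * q₀) * (t + 1) = z * q₀ * t + z * q₀ := by ring
        _ ≤ q₀ * (z * q₀) := hBle
        _ = (z * q₀) * q₀ := by ring
    exact Nat.le_of_mul_le_mul_left h2 hzq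
  have hsq : q₀ + 1 ≤ s := by
    have h2 : (z * q₀ * t) * (q₀ + 1) ≤ (z * q₀ * t) * s := by
      have h3 : z * q₀ * t ≤ z * q₀ * t * s := Nat.le_mul_of_pos_right _ hs1
      calc (z * q₀ * t) * (q₀ + 1) = q₀ * (z * q₀ * t) + z * q₀ * t := by ring
        _ ≤ (z * q₀ * t * s - z * q₀ * t) + z * q₀ * t := Nat.add_le_add_right hD _
        _ = z * q₀ * t * s := Nat.sub_add_cancel h3
    exact Nat.le_of_mul_le_mul_left h2 hβpos
  have hh : hC L = s * q₀ * t := by
    have h2 : z * hC L = z * (s * q₀ * t) := by rw [← hLcard]; ring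
    exact Nat.eq_of_mul_eq_mul_left hzpos h2
  have hObU : ob = z * (s * (q₀ - 1)) := by
    have h2 : z * q₀ - z = z * (q₀ - 1) := by rw [Nat.mul_sub, mul_one]
    rw [h2] at hob
    have h3 : ob * (z * q₀ * t) = (z * (s * (q₀ - 1))) * (z * q₀ * t) := by rw [hob]; ring
    exact Nat.eq_of_mul_eq_mul_right hβpos h3
  have hsum : ∑ x ∈ T.erase u₀, hC L / (eC L x * fC L x) * (eC L x - 1) + s * (q₀ - 1) + 1 =
      hC L := by
    rw [hObU, hLcard] at hT4
    have h2 : z * (∑ x ∈ T.erase u₀, hC L / (eC L x * fC L x) * (eC L x - 1) + s * (q₀ - 1) + 1) =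
        z * hC L := by rw [← hT4]; ring
    exact Nat.eq_of_mul_eq_mul_left hzpos h2
  have hi₀ : 2 ≤ t → ∃ i ∈ T.erase u₀, eC L i = t := by
    intro ht2
    have hne : ¬ ((L ⊓ Bo : Subgroup (Matrix.SpecialLinearGroup (Fin 2) F)) ≤ L ⊓ UZ) := by
      intro hle
      have h2 : Nat.card (L ⊓ Bo : Subgroup _) ≤ Nat.card (L ⊓ UZ : Subgroup _) :=
        Nat.card_mono (Set.toFinite _) (fun g hg => hle hg)
      rw [hβdef, hUZ] at h2
      have h3 : z * q₀ * t ≤ z * q₀ * 1 := by rw [mul_one]; exact h2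
      have := Nat.le_of_mul_le_mul_left h3 hzq
      omega
    obtain ⟨y, hyB, hyU⟩ := SetLike.not_le_iff_exists.1 hne
    obtain ⟨hyL, hyBo⟩ := Subgroup.mem_inf.1 hyB
    have hytr : tr y ^ 2 ≠ 4 := fun h => hyU (Subgroup.mem_inf.2 ⟨hyL, mem_UZ_of_tr hyBo h⟩)
    have hyZ : y ∉ (Ze : Subgroup _) := not_mem_Ze_of_tr hytr
    have hcy := hcB y hyL hyBo hytr
    obtain ⟨i, hiT, hyi⟩ := hT3 y hyL hyZ
    have hine : i ≠ u₀ := by
      intro hiu
      rw [hiu, ← hObeq] at hyi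
      exact hytr (tr_sq_of_mem_ob L hyi)
    have hc := card_of_mem_ob hZc_Ze hCA_Ze (hT1 i hiT).2 hyi
    refine ⟨i, Finset.mem_erase.2 ⟨hine, hiT⟩, ?_⟩
    have h2 : Nat.card (Cen L y) = z * t := by
      have h3 : Nat.card (Cen L y) * q₀ = (z * t) * q₀ := by rw [hcy]; ring
      exact Nat.eq_of_mul_eq_mul_right hq₀pos h3
    unfold eC
    rw [← hc.1, h2, hzdef, Nat.mul_div_cancel_left _ hzpos]
  rcases numU (T.erase u₀) (eC L) (fC L) (hC L) s q₀ t hq2 ht1 htq hsq hh (fun x hx => (hW x hx).1)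
    (fun x hx => (hW x hx).2.1) (fun x hx => (hW x hx).2.2.1) hsum hi₀ with
    hα | ⟨hq, x, hxT, hf, hhx⟩ | ⟨hq, ht2, hh60, i, j, hTe, hei, hfi, hej, hfj⟩
  · rw [hα]; ring
  · omega
  · omega

/-- A finite subgroup of `SL(2, F)` (odd characteristic) containing the centre, `x(1)`, some
`y(a)` with `a ≠ 0`, and at least four translations: its translations form a subfield containing
`a`. -/
theorem fin_main (p : ℕ) [Fact p.Prime] [CharP F p] (h2 : (2 : F) ≠ 0)
    (hZL : (Ze : Subgroup _) ≤ L) (h1 : uT (1 : F) ∈ L) {a : F} (ha0 : a ≠ 0) (hla : lT a ∈ L)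
    (hq4 : 4 ≤ Nat.card (L ⊓ Un : Subgroup _)) :
    ∃ K₁ : Subfield F, (∀ x ∈ K₁, uT x ∈ L) ∧ a ∈ K₁ ∧ (∀ t, uT t ∈ L → t ∈ K₁) := by
  have hg₀B : lT a ∉ (Bo : Subgroup (Matrix.SpecialLinearGroup (Fin 2) F)) := lT_not_Bo ha0
  have hLB : ¬ L ≤ (Bo : Subgroup _) := fun h => hg₀B (h hla)
  have hcard := card_identity L p hZL h1 hLB hq4
  have hDsub : Dc L (lT a) ⊆ (L : Set (Matrix.SpecialLinearGroup (Fin 2) F)) \
      ((L ⊓ Bo : Subgroup _) : Set (Matrix.SpecialLinearGroup (Fin 2) F)) := fun x hx =>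
    ⟨Dc_subset L hla hx, fun hxB => Dc_not_Bo L hg₀B hx (Subgroup.mem_inf.1 hxB).2⟩
  have hDeq : Dc L (lT a) = (L : Set (Matrix.SpecialLinearGroup (Fin 2) F)) \
      ((L ⊓ Bo : Subgroup _) : Set (Matrix.SpecialLinearGroup (Fin 2) F)) := by
    apply Set.eq_of_subset_of_ncard_le hDsub _ (Set.toFinite _)
    rw [Dc_card L hg₀B, Set.ncard_diff (fun x hx => (Subgroup.mem_inf.1 hx).1)]
    have e1 : ((L : Set (Matrix.SpecialLinearGroup (Fin 2) F))).ncard = Nat.card L := rfl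
    have e2 : ((L ⊓ Bo : Subgroup _) : Set (Matrix.SpecialLinearGroup (Fin 2) F)).ncard =
        Nat.card (L ⊓ Bo : Subgroup _) := rfl
    rw [e1, e2, hcard, Nat.add_mul, one_mul, Nat.add_sub_cancel]
  have hrel : ∀ x ∈ L, x.1 1 0 ≠ 0 → ∃ s, uT s ∈ L ∧ x.1 0 0 * a - x.1 1 0 = s * a * x.1 1 0 := by
    intro x hx hx10
    have hxD : x ∈ Dc L (lT a) := by
      rw [hDeq]
      exact ⟨hx, fun h => hx10 (mem_Bo.1 (Subgroup.mem_inf.1 h).2)⟩
    obtain ⟨s, hs, he⟩ := Dc_rel L hxD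
    refine ⟨s, hs, ?_⟩
    simpa using he
  -- `x(1/a)` lies in `L`
  have hinv : uT (1 / a) ∈ L := by
    have hx : lT a * lT a ∈ L := L.mul_mem hla hla
    have h10 : (lT a * lT a).1 1 0 = a + a := by simp [mul10]
    have h00 : (lT a * lT a).1 0 0 = 1 := by simp [mul00]
    have hne : (lT a * lT a).1 1 0 ≠ 0 := by
      rw [h10]
      intro h
      have : (2 : F) * a = 0 := by linear_combination h
      rcases mul_eq_zero.1 this with h | h
      · exact h2 h
      · exact ha0 h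
    obtain ⟨s, hs, he⟩ := hrel _ hx hne
    rw [h10, h00] at he
    have e : 1 / a = -s + -s := by
      field_simp
      have : a * (1 + 2 * s * a) = 0 := by linear_combination -he
      rcases mul_eq_zero.1 this with h | h
      · exact absurd h ha0
      · linear_combination h
    rw [e, uT_add, Cfsg.Agent.H95.SG.uT_neg']
    exact L.mul_mem (L.inv_mem hs) (L.inv_mem hs)
  have hω : ∀ x ∈ L, x.1 1 0 ≠ 0 → ∃ b, uT b ∈ L ∧ x.1 0 0 = b * x.1 1 0 := by
    intro x hx hx10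
    obtain ⟨s, hs, he⟩ := hrel x hx hx10
    refine ⟨1 / a + s, ?_, ?_⟩
    · rw [uT_add]
      exact L.mul_mem hinv hs
    · field_simp
      linear_combination he
  have hw : uT (-(1 / a)) * lT a ∈ L := by
    rw [Cfsg.Agent.H95.SG.uT_neg']
    exact L.mul_mem (L.inv_mem hinv) hla
  have hw0 : (uT (-(1 / a)) * lT a).1 0 0 = 0 := by
    simp [mul00, ha0]
  obtain ⟨K₁, hK1, hK2, hK3⟩ := field_str L h1 hw hw0 hω
  refine ⟨K₁, fun x hx => (hK1 x hx).1, ?_, hK3⟩
  obtain ⟨ν, hν, h00, -, h10, -⟩ := hK2 (lT a) hla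
  simp only [lT00, lT10, one_mul] at h00 h10
  have : a = a * ν * ν⁻¹ := by field_simp
  rw [this]
  exact K₁.mul_mem h10 (K₁.inv_mem h00)

/-- **Finite case**: every element of `k(α)` is a translation of `H`. -/
theorem uT_mem_of_finite {k K : Type*} [Field k] [Field K] [Algebra k K] [Finite k]
    (h2 : (2 : k) ≠ 0) (hcard : 4 ≤ Nat.card k) {α : K} (hα : IsAlgebraic k α) (hα0 : α ≠ 0)
    {H : Subgroup (Matrix.SpecialLinearGroup (Fin 2) K)} (hH : Cfsg.Agent.H95.SG.Hyp k α H)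
    {t : K} (ht : t ∈ IntermediateField.adjoin k ({α} : Set K)) : uT t ∈ H := by
  classical
  obtain ⟨Lf, hLf⟩ : ∃ Lf : IntermediateField k K, Lf = IntermediateField.adjoin k ({α} : Set K) :=
    ⟨_, rfl⟩
  rw [← hLf] at ht
  have hαLf : α ∈ Lf := by rw [hLf]; exact IntermediateField.mem_adjoin_simple_self k α
  have : FiniteDimensional k Lf := by
    rw [hLf]; exact IntermediateField.adjoin.finiteDimensional hα.isIntegral
  have : Finite Lf := Module.finite_of_finite k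
  let _ : Fintype Lf := Fintype.ofFinite Lf
  obtain ⟨p, hp⟩ := CharP.exists Lf
  have := hp
  have : Fact p.Prime := ⟨CharP.char_is_prime Lf p⟩
  obtain ⟨ι, hιdef⟩ : ∃ ι : Matrix.SpecialLinearGroup (Fin 2) Lf →* Matrix.SpecialLinearGroup (Fin 2) K,
      ι = Matrix.SpecialLinearGroup.map (algebraMap Lf K) := ⟨_, rfl⟩
  have hι : ∀ (g : Matrix.SpecialLinearGroup (Fin 2) Lf) (i j : Fin 2),
      (ι g).1 i j = ((g.1 i j : Lf) : K) := by
    intro g i j
    rw [hιdef]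
    simp [Matrix.SpecialLinearGroup.map_apply_coe, RingHom.mapMatrix_apply, Matrix.map_apply]
  have hιu : ∀ x : Lf, ι (uT x) = uT (x : K) := by
    intro x
    apply ext4 <;> simp [hι]
  have hιl : ∀ x : Lf, ι (lT x) = lT (x : K) := by
    intro x
    apply ext4 <;> simp [hι]
  obtain ⟨H', hH'⟩ : ∃ H' : Subgroup (Matrix.SpecialLinearGroup (Fin 2) Lf), H' = H.comap ι := ⟨_, rfl⟩
  obtain ⟨L', hL'⟩ : ∃ L' : Subgroup (Matrix.SpecialLinearGroup (Fin 2) Lf),
      L' = (H'.map (mkP Lf)).comap (mkP Lf) := ⟨_, rfl⟩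
  have hH'L : H' ≤ L' := by rw [hL']; exact Subgroup.le_comap_map _ _
  have hZL : (Ze : Subgroup _) ≤ L' := by rw [hL']; exact Ze_le_comap _
  have hmemH' : ∀ g, g ∈ H' ↔ ι g ∈ H := by intro g; rw [hH']; exact Subgroup.mem_comap
  have hukH' : ∀ c : k, uT (algebraMap k Lf c) ∈ H' := by
    intro c
    rw [hmemH', hιu]
    exact hH.hu c
  have h1 : uT (1 : Lf) ∈ L' := by
    apply hH'L
    have := hukH' 1
    rwa [map_one] at this
  have hla : lT (⟨α, hαLf⟩ : Lf) ∈ L' := by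
    apply hH'L
    rw [hmemH', hιl]
    have := hH.hl 1
    rwa [map_one, one_mul] at this
  have hα'0 : (⟨α, hαLf⟩ : Lf) ≠ 0 := by
    intro h
    apply hα0
    exact congrArg Subtype.val h
  have h2F : (2 : Lf) ≠ 0 := by
    intro h
    apply h2
    apply (algebraMap k Lf).injective
    rw [map_ofNat, h, map_zero]
  have hq4 : 4 ≤ Nat.card (L' ⊓ Un : Subgroup _) := by
    refine le_trans hcard ?_
    let f : k → (L' ⊓ Un : Subgroup (Matrix.SpecialLinearGroup (Fin 2) Lf)) := fun c =>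
      ⟨uT (algebraMap k Lf c), Subgroup.mem_inf.2 ⟨hH'L (hukH' c), uT_mem_Un _⟩⟩
    apply Nat.card_le_card_of_injective f
    intro c c' h
    have h' : uT (algebraMap k Lf c) = uT (algebraMap k Lf c') := congrArg Subtype.val h
    exact (algebraMap k Lf).injective (uT_inj h')
  obtain ⟨K₁, hK1, hK2, hK3⟩ := fin_main L' p h2F hZL h1 hα'0 hla hq4
  -- `K₁` is everything
  have hadj : Lf.toSubalgebra = Algebra.adjoin k {α} := by
    rw [hLf]
    exact IntermediateField.adjoin_simple_toSubalgebra_of_isAlgebraic hα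
  have hall : ∀ y (hy : y ∈ Algebra.adjoin k ({α} : Set K)) (hy' : y ∈ Lf), (⟨y, hy'⟩ : Lf) ∈ K₁ := by
    intro y hy
    induction hy using Algebra.adjoin_induction with
    | mem x hx =>
      intro hy'
      rw [Set.mem_singleton_iff] at hx
      subst hx
      exact hK2
    | algebraMap r =>
      intro hy'
      exact hK3 _ (hH'L (hukH' r))
    | add x y hx hy ihx ihy =>
      intro hy'
      have hx' : x ∈ Lf := by
        have : x ∈ Lf.toSubalgebra := by rw [hadj]; exact hx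
        exact this
      have hy'' : y ∈ Lf := by
        have : y ∈ Lf.toSubalgebra := by rw [hadj]; exact hy
        exact this
      exact K₁.add_mem (ihx hx') (ihy hy'')
    | mul x y hx hy ihx ihy =>
      intro hy'
      have hx' : x ∈ Lf := by
        have : x ∈ Lf.toSubalgebra := by rw [hadj]; exact hx
        exact this
      have hy'' : y ∈ Lf := by
        have : y ∈ Lf.toSubalgebra := by rw [hadj]; exact hy
        exact this
      exact K₁.mul_mem (ihx hx') (ihy hy'')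
  have h2K : (2 : K) ∈ Lf := by
    have := Lf.algebraMap_mem (2 : k)
    rwa [map_ofNat] at this
  have ht2 : t / 2 ∈ Lf := Lf.div_mem ht h2K
  have hx : uT (⟨t / 2, ht2⟩ : Lf) ∈ L' :=
    hK1 _ (hall (t / 2) (by rw [← hadj]; exact ht2) ht2)
  rw [hL', Subgroup.mem_comap, Subgroup.mem_map] at hx
  obtain ⟨h, hh, hmk⟩ := hx
  rw [mkP_eq_iff] at hmk
  have hsq : uT (⟨t / 2, ht2⟩ : Lf) * uT (⟨t / 2, ht2⟩ : Lf) = h * h := by
    rcases mem_Ze_iff.1 hmk with hz | hz
    · have : uT (⟨t / 2, ht2⟩ : Lf) = h := by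
        have := congrArg (fun z => h * z) hz
        simpa using this
      rw [this]
    · have : uT (⟨t / 2, ht2⟩ : Lf) = -h := by
        have := congrArg (fun z => h * z) hz
        simpa using this
      rw [this, neg_mul_neg]
  have hmem : uT (⟨t / 2, ht2⟩ : Lf) * uT (⟨t / 2, ht2⟩ : Lf) ∈ H' := by
    rw [hsq]; exact H'.mul_mem hh hh
  rw [hmemH', map_mul, hιu, ← uT_add] at hmem
  have h2K0 : (2 : K) ≠ 0 := by
    intro h
    apply h2
    apply (algebraMap k K).injective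
    rw [map_ofNat, h, map_zero]
  have e : ((⟨t / 2, ht2⟩ : Lf) : K) + ((⟨t / 2, ht2⟩ : Lf) : K) = t := by
    show t / 2 + t / 2 = t
    field_simp
    ring
  rwa [e] at hmem

end Cfsg.Agent.H95.SF
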