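import Cfsg.Agent.H95.Siegel
import Cfsg.Agent.H17.Forms

set_option autoImplicit false

namespace Cfsg.Agent.H95

open Cfsg Cfsg.Geo
open scoped MatrixGroups Matrix

section Siegel2

variable {ι : Type} [Fintype ι] [DecidableEq ι] {F : Type*} [Field F] {Q : (ι → F) → F}

/-- A singular partner of the singular vector `a`, orthogonal to two given vectors. -/
theorem exists_sing_partner (hQ : IsNondegenerateQuadraticForm Q) {a z₁ z₂ : ι → F}
    (ha : Q a = 0) (hind : ∀ α β : F, α • z₁ + β • z₂ ≠ a)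
    (h1 : QuadraticMap.polar Q z₁ a = 0) (h2 : QuadraticMap.polar Q z₂ a = 0) :
    ∃ y, Q y = 0 ∧ QuadraticMap.polar Q a y = 1 ∧ QuadraticMap.polar Q z₁ y = 0 ∧
      QuadraticMap.polar Q z₂ y = 0 := by
  have hb := hQ.polar_bilinear
  have haZ : a ∉ Submodule.span F {z₁, z₂} := by
    intro hmem
    obtain ⟨α, β, hαβ⟩ := Submodule.mem_span_pair.mp hmem
    exact hind α β hαβ
  obtain ⟨y₀, hy₀, hZ⟩ := H17.exists_partner (QuadraticMap.polarBilin (toQF Q hQ)) (toQF_nondeg hQ)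
    a (Submodule.span F {z₁, z₂}) haZ
  change QuadraticMap.polar Q a y₀ = 1 at hy₀
  have hz₁ : QuadraticMap.polar Q z₁ y₀ = 0 := hZ z₁ (Submodule.subset_span (by simp))
  have hz₂ : QuadraticMap.polar Q z₂ y₀ = 0 := hZ z₂ (Submodule.subset_span (by simp))
  have haa : QuadraticMap.polar Q a a = 0 := by rw [polar_self hQ, ha, mul_zero]
  refine ⟨y₀ - Q y₀ • a, ?_, ?_, ?_, ?_⟩
  · rw [q_sub hQ, hQ.smul, ha, hb.smul_right, polar_symm Q y₀ a, hy₀]
    ring
  · rw [bil_sub_right hb, hb.smul_right, haa, hy₀]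
    ring
  · rw [bil_sub_right hb, hb.smul_right, h1, hz₁]
    ring
  · rw [bil_sub_right hb, hb.smul_right, h2, hz₂]
    ring

end Siegel2

end Cfsg.Agent.H95
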