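import Cfsg.Agent.H95.Symp
import Cfsg.Agent.H17.SpBlock
import Cfsg.Agent.H17.PSpSimple

set_option autoImplicit false

namespace Cfsg.Agent.H95

open Cfsg Cfsg.Geo
open scoped MatrixGroups Matrix

section SpMax

variable {m : ℕ} {F : Type*} [Field F]

lemma sympTransv_val (v : Fin m ⊕ Fin m → F) (c : F) :
    ((sympTransv v c : GL (Fin m ⊕ Fin m) F) : Matrix (Fin m ⊕ Fin m) (Fin m ⊕ Fin m) F) = Cfsg.sympTransvection m v c := by
  apply H17.matrix_ext_mulVec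
  intro x
  rw [sympTransv_mulVec, H17.sympTransvection_mulVec]

/-- A subgroup containing all symplectic transvections contains the symplectic group. -/
theorem spGL_le_of_transv (M : Subgroup (GL (Fin m ⊕ Fin m) F))
    (h : ∀ (v : Fin m ⊕ Fin m → F) (c : F), sympTransv v c ∈ M) : spGL m F ≤ M := by
  intro g hg
  have hA : (g : Matrix (Fin m ⊕ Fin m) (Fin m ⊕ Fin m) F) ∈ Matrix.symplecticGroup (Fin m) F :=
    (H17.mem_symplecticGroup_iff_form m _).mpr hg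
  let ψ : Matrix.symplecticGroup (Fin m) F →* GL (Fin m ⊕ Fin m) F :=
    (spGL m F).subtype.comp (H17.toSpGLHom m)
  have hle : Subgroup.closure (H17.transvSet m (⊤ : Submodule F (Fin m ⊕ Fin m → F))) ≤
      M.comap ψ := by
    rw [Subgroup.closure_le]
    rintro A ⟨w, -, c, hAw⟩
    show ψ A ∈ M
    have : ψ A = sympTransv w c := by
      apply Units.ext
      rw [sympTransv_val, ← hAw]
      rfl
    rw [this]
    exact h w c
  have hmem : (⟨(g : Matrix (Fin m ⊕ Fin m) (Fin m ⊕ Fin m) F), hA⟩ :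
      Matrix.symplecticGroup (Fin m) F) ∈ M.comap ψ := by
    apply hle
    rw [H17.closure_transvSet_top]
    trivial
  have h2 : ψ ⟨(g : Matrix (Fin m ⊕ Fin m) (Fin m ⊕ Fin m) F), hA⟩ = g := Units.ext rfl
  rw [← h2]
  exact hmem

/-- The vectors all of whose transvections lie in `M`. -/
def transvCenters (M : Subgroup (GL (Fin m ⊕ Fin m) F)) : Set (Fin m ⊕ Fin m → F) :=
  {v | ∀ c : F, sympTransv v c ∈ M}

lemma spGL_inv_form {g : GL (Fin m ⊕ Fin m) F} (hg : g ∈ spGL m F) (x v : Fin m ⊕ Fin m → F) :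
    sympForm m F (((g⁻¹ : GL (Fin m ⊕ Fin m) F) : Matrix (Fin m ⊕ Fin m) (Fin m ⊕ Fin m) F) *ᵥ x) v =
      sympForm m F x ((g : Matrix (Fin m ⊕ Fin m) (Fin m ⊕ Fin m) F) *ᵥ v) := by
  have := hg (((g⁻¹ : GL (Fin m ⊕ Fin m) F) : Matrix (Fin m ⊕ Fin m) (Fin m ⊕ Fin m) F) *ᵥ x) v
  change sympForm m F ((g : Matrix (Fin m ⊕ Fin m) (Fin m ⊕ Fin m) F) *ᵥ (((g⁻¹ : GL (Fin m ⊕ Fin m) F) : Matrix (Fin m ⊕ Fin m) (Fin m ⊕ Fin m) F) *ᵥ x))
    ((g : Matrix (Fin m ⊕ Fin m) (Fin m ⊕ Fin m) F) *ᵥ v) = _ at this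
  rw [Matrix.mulVec_mulVec, ← Units.val_mul, mul_inv_cancel, Units.val_one, Matrix.one_mulVec] at this
  exact this.symm

lemma sympTransv_conj {g : GL (Fin m ⊕ Fin m) F} (hg : g ∈ spGL m F) (v : Fin m ⊕ Fin m → F)
    (c : F) : g * sympTransv v c * g⁻¹ = sympTransv ((g : Matrix (Fin m ⊕ Fin m) (Fin m ⊕ Fin m) F) *ᵥ v) c := by
  apply Units.ext
  apply H17.matrix_ext_mulVec
  intro x
  rw [Units.val_mul, Units.val_mul, ← Matrix.mulVec_mulVec, ← Matrix.mulVec_mulVec,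
    sympTransv_mulVec, sympTransv_mulVec, Matrix.mulVec_add, Matrix.mulVec_smul,
    Matrix.mulVec_mulVec, ← Units.val_mul, mul_inv_cancel, Units.val_one, Matrix.one_mulVec,
    spGL_inv_form hg]

lemma transvCenters_mulVec {M : Subgroup (GL (Fin m ⊕ Fin m) F)} {g : GL (Fin m ⊕ Fin m) F}
    (hgM : g ∈ M) (hg : g ∈ spGL m F) {v : Fin m ⊕ Fin m → F} (hv : v ∈ transvCenters M) :
    (g : Matrix (Fin m ⊕ Fin m) (Fin m ⊕ Fin m) F) *ᵥ v ∈ transvCenters M := by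
  intro c
  rw [← sympTransv_conj hg]
  exact M.mul_mem (M.mul_mem hgM (hv c)) (M.inv_mem hgM)

lemma transvCenters_transv {M : Subgroup (GL (Fin m ⊕ Fin m) F)} {u w : Fin m ⊕ Fin m → F}
    (hu : u ∈ transvCenters M) (hw : w ∈ transvCenters M) (c : F) :
    w + (c * sympForm m F w u) • u ∈ transvCenters M := by
  have := transvCenters_mulVec (hu c) (sympTransv_mem_spGL u c) hw
  rwa [sympTransv_mulVec] at this

lemma sympForm_sub_left (u u' v : Fin m ⊕ Fin m → F) :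
    sympForm m F (u - u') v = sympForm m F u v - sympForm m F u' v := by
  have := sympForm_add_left (u - u') u' v
  rw [sub_add_cancel] at this
  rw [this]; ring

lemma sympForm_sub_right (u v v' : Fin m ⊕ Fin m → F) :
    sympForm m F u (v - v') = sympForm m F u v - sympForm m F u v' := by
  have := sympForm_add_right u (v - v') v'
  rw [sub_add_cancel] at this
  rw [this]; ring

/-- In a subspace on which the form is nondegenerate, two nonzero vectors have a common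
non-orthogonal vector. -/
lemma exists_connect (N : Submodule F (Fin m ⊕ Fin m → F))
    (hnd : ∀ a ∈ N, a ≠ 0 → ∃ x ∈ N, sympForm m F a x ≠ 0)
    {a a' : Fin m ⊕ Fin m → F} (ha : a ∈ N) (ha0 : a ≠ 0) (ha' : a' ∈ N) (ha'0 : a' ≠ 0) :
    ∃ x ∈ N, sympForm m F a x ≠ 0 ∧ sympForm m F x a' ≠ 0 := by
  obtain ⟨x₁, hx₁, h1⟩ := hnd a ha ha0
  obtain ⟨x₂, hx₂, h2⟩ := hnd a' ha' ha'0
  have h2' : sympForm m F x₂ a' ≠ 0 := by
    rw [sympForm_skew]; exact neg_ne_zero.mpr h2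
  by_cases h3 : sympForm m F x₁ a' = 0
  · by_cases h4 : sympForm m F a x₂ = 0
    · refine ⟨x₁ + x₂, N.add_mem hx₁ hx₂, ?_, ?_⟩
      · rw [sympForm_add_right, h4, add_zero]; exact h1
      · rw [sympForm_add_left, h3, zero_add]; exact h2'
    · exact ⟨x₂, hx₂, h4, h2'⟩
  · exact ⟨x₁, hx₁, h1, h3⟩

lemma transvCenters_move1 {M : Subgroup (GL (Fin m ⊕ Fin m) F)}
    (N₁ N₂ : Submodule F (Fin m ⊕ Fin m → F))
    (hN₁ : ∀ a ∈ N₁, a ∈ transvCenters M)
    (horth : ∀ a ∈ N₁, ∀ b ∈ N₂, sympForm m F a b = 0)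
    {a a' b : Fin m ⊕ Fin m → F} (ha : a ∈ N₁) (ha' : a' ∈ N₁) (hb : b ∈ N₂)
    (haa' : sympForm m F a a' ≠ 0)
    (h : a + b ∈ transvCenters M) : a' + b ∈ transvCenters M := by
  have hu : a' - a ∈ transvCenters M := hN₁ _ (N₁.sub_mem ha' ha)
  have := transvCenters_transv hu h (sympForm m F a a')⁻¹
  have h1 : sympForm m F (a + b) (a' - a) = sympForm m F a a' := by
    rw [sympForm_add_left, sympForm_sub_right, sympForm_sub_right, sympForm_self,
      sympForm_skew b a', sympForm_skew b a, horth a' ha' b hb, horth a ha b hb]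
    ring
  rw [h1, inv_mul_cancel₀ haa', one_smul] at this
  have h2 : a + b + (a' - a) = a' + b := by abel
  rwa [h2] at this

lemma transvCenters_move {M : Subgroup (GL (Fin m ⊕ Fin m) F)}
    (N₁ N₂ : Submodule F (Fin m ⊕ Fin m → F))
    (hN₁ : ∀ a ∈ N₁, a ∈ transvCenters M)
    (horth : ∀ a ∈ N₁, ∀ b ∈ N₂, sympForm m F a b = 0)
    (hnd : ∀ a ∈ N₁, a ≠ 0 → ∃ x ∈ N₁, sympForm m F a x ≠ 0)
    {a a' b : Fin m ⊕ Fin m → F} (ha : a ∈ N₁) (ha0 : a ≠ 0) (ha' : a' ∈ N₁) (ha'0 : a' ≠ 0)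
    (hb : b ∈ N₂) (h : a + b ∈ transvCenters M) : a' + b ∈ transvCenters M := by
  obtain ⟨x, hx, h1, h2⟩ := exists_connect N₁ hnd ha ha0 ha' ha'0
  exact transvCenters_move1 N₁ N₂ hN₁ horth hx ha' hb h2
    (transvCenters_move1 N₁ N₂ hN₁ horth ha hx hb h1 h)

end SpMax

end Cfsg.Agent.H95
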