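import Cfsg.Agent.H95.SpMax

set_option autoImplicit false

namespace Cfsg.Agent.H95

open Cfsg Cfsg.Geo
open scoped MatrixGroups Matrix

section SpWitt

variable {m : ℕ} {F : Type*} [Field F]

/-- The stabiliser in `Sp` of a totally isotropic subspace `W` is transitive on the vectors outside
`W^⊥`. -/
theorem exists_stab_map_of_ti (W : Submodule F (Fin m ⊕ Fin m → F))
    (hW : ∀ u ∈ W, ∀ v ∈ W, sympForm m F u v = 0)
    {w w' : Fin m ⊕ Fin m → F} (hw : ∃ a ∈ W, sympForm m F a w ≠ 0)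
    (hw' : ∃ a ∈ W, sympForm m F a w' ≠ 0) :
    ∃ h : GL (Fin m ⊕ Fin m) F, h ∈ spGL m F ∧ h ∈ subspaceStabilizer W ∧
      (h : Matrix (Fin m ⊕ Fin m) (Fin m ⊕ Fin m) F) *ᵥ w = w' := by
  classical
  obtain ⟨x₁, hx₁, h1, h2⟩ : ∃ x₁ ∈ W, sympForm m F x₁ w ≠ 0 ∧ sympForm m F x₁ w' ≠ 0 := by
    obtain ⟨a, ha, haw⟩ := hw
    obtain ⟨b, hb, hbw⟩ := hw'
    by_cases h3 : sympForm m F a w' = 0
    · by_cases h4 : sympForm m F b w = 0
      · refine ⟨a + b, W.add_mem ha hb, ?_, ?_⟩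
        · rw [sympForm_add_left, h4, add_zero]; exact haw
        · rw [sympForm_add_left, h3, zero_add]; exact hbw
      · exact ⟨b, hb, h4, hbw⟩
    · exact ⟨a, ha, haw, h3⟩
  obtain ⟨α, hα⟩ : ∃ α, α = sympForm m F w x₁ := ⟨_, rfl⟩
  have hα0 : α ≠ 0 := by rw [hα, sympForm_skew]; exact neg_ne_zero.mpr h1
  obtain ⟨β, hβ⟩ : ∃ β, β = sympForm m F x₁ w' := ⟨_, rfl⟩
  have hβ0 : β ≠ 0 := by rw [hβ]; exact h2
  obtain ⟨φ, hφ⟩ : ∃ φ : (Fin m ⊕ Fin m → F) →ₗ[F] (Fin m ⊕ Fin m → F),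
      ∀ x, φ x = x + (β⁻¹ * (sympForm m F x w - sympForm m F x w')) • x₁ :=
    ⟨LinearMap.id + (β⁻¹ • (sympL w - sympL w')).smulRight x₁, fun x => by simp⟩
  obtain ⟨T, hT⟩ : ∃ T : (Fin m ⊕ Fin m → F) →ₗ[F] (Fin m ⊕ Fin m → F),
      ∀ x, T x = φ x + (α⁻¹ * sympForm m F x x₁) • (w' - φ w) :=
    ⟨φ + (α⁻¹ • sympL x₁).smulRight (w' - φ w), fun x => by simp⟩
  have hφW : ∀ a ∈ W, φ a ∈ W := fun a ha => by
    rw [hφ]; exact W.add_mem ha (W.smul_mem _ hx₁)
  have hφw' : ∀ x, sympForm m F (φ x) w' = sympForm m F x w := by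
    intro x
    rw [hφ, sympForm_add_left, sympForm_smul_left, ← hβ]
    field_simp
    ring
  have hTW : ∀ a ∈ W, T a = φ a := by
    intro a ha
    rw [hT, hW a ha x₁ hx₁, mul_zero, zero_smul, add_zero]
  have hTw : T w = w' := by
    rw [hT, ← hα, inv_mul_cancel₀ hα0, one_smul]; abel
  have hTX : ∀ a ∈ W, ∀ s : F, T (a + s • w) = φ a + s • w' := by
    intro a ha s
    rw [map_add, map_smul, hTW a ha, hTw]
  obtain ⟨X, hX⟩ : ∃ X, X = W ⊔ Submodule.span F {w} := ⟨_, rfl⟩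
  have hXmem : ∀ x ∈ X, ∃ a ∈ W, ∃ s : F, x = a + s • w := by
    intro x hx
    rw [hX] at hx
    obtain ⟨a, ha, y, hy, rfl⟩ := Submodule.mem_sup.mp hx
    obtain ⟨s, rfl⟩ := Submodule.mem_span_singleton.mp hy
    exact ⟨a, ha, s, rfl⟩
  have hiso : ∀ x ∈ X, ∀ x' ∈ X, H17.sympBilin m F (T x) (T x') = H17.sympBilin m F x x' := by
    intro x hx x' hx'
    obtain ⟨a, ha, s, rfl⟩ := hXmem x hx
    obtain ⟨a', ha', s', rfl⟩ := hXmem x' hx'
    rw [hTX a ha, hTX a' ha', H17.sympBilin_apply, H17.sympBilin_apply]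
    simp only [sympForm_add_left, sympForm_add_right, sympForm_smul_left, sympForm_smul_right,
      sympForm_self]
    rw [hW _ (hφW a ha) _ (hφW a' ha'), hW a ha a' ha', hφw', sympForm_skew w' (φ a'), hφw',
      sympForm_skew w a']
  have hinj : ∀ x ∈ X, T x = 0 → x = 0 := by
    intro x hx hx0
    obtain ⟨a, ha, s, rfl⟩ := hXmem x hx
    rw [hTX a ha] at hx0
    have hs : s = 0 := by
      by_contra hs
      have h4 : sympForm m F x₁ (s • w') = 0 := by
        have := congrArg (sympForm m F x₁) hx0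
        rwa [sympForm_add_right, hW x₁ hx₁ _ (hφW a ha), zero_add, sympForm_zero_right] at this
      rw [sympForm_smul_right] at h4
      rcases mul_eq_zero.mp h4 with h | h
      · exact hs h
      · exact h2 h
    rw [hs, zero_smul, add_zero] at hx0 ⊢
    have h5 : sympForm m F a w = 0 := by rw [← hφw', hx0, sympForm_zero_left]
    rw [hφ, h5, zero_sub] at hx0
    have h6 : a = (β⁻¹ * sympForm m F a w') • x₁ := by
      have := hx0
      rw [mul_neg, neg_smul, ← sub_eq_add_neg, sub_eq_zero] at this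
      exact this
    have h7 : (β⁻¹ * sympForm m F a w') * sympForm m F x₁ w = 0 := by
      rw [← sympForm_smul_left, ← h6, h5]
    rcases mul_eq_zero.mp h7 with h | h
    · rw [h6, h, zero_smul]
    · exact absurd h h1
  obtain ⟨g, hg, hgX⟩ := H17.witt_alt (H17.sympBilin m F) (H17.sympBilin_nondegenerate m)
    (H17.sympBilin_isAlt m) X T hiso hinj
  refine ⟨glOf g, ?_, ?_, ?_⟩
  · intro u v
    show sympForm m F (((glOf g : GL (Fin m ⊕ Fin m) F) : Matrix (Fin m ⊕ Fin m) (Fin m ⊕ Fin m) F) *ᵥ u)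
      (((glOf g : GL (Fin m ⊕ Fin m) F) : Matrix (Fin m ⊕ Fin m) (Fin m ⊕ Fin m) F) *ᵥ v) = _
    rw [glOf_mulVec, glOf_mulVec, ← H17.sympBilin_apply, hg, H17.sympBilin_apply]
  · apply mem_subspaceStabilizer_of_forall
    intro v hv
    have hvX : v ∈ X := by rw [hX]; exact Submodule.mem_sup_left hv
    rw [glOf_mulVec, hgX v hvX, hTW v hv]
    exact hφW v hv
  · have hwX : w ∈ X := by
      rw [hX]; exact Submodule.mem_sup_right (Submodule.mem_span_singleton_self w)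
    rw [glOf_mulVec, hgX w hwX, hTw]

end SpWitt

end Cfsg.Agent.H95
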