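import Cfsg.Agent.H95.Basic

set_option autoImplicit false

namespace Cfsg.Agent.H95

open Cfsg Cfsg.Geo
open scoped MatrixGroups Matrix

section Symp

variable {m : ℕ} {F : Type*} [Field F]

lemma sympForm_eq (u v : Fin m ⊕ Fin m → F) :
    sympForm m F u v =
      ∑ i, (u (Sum.inr i) * v (Sum.inl i) - u (Sum.inl i) * v (Sum.inr i)) := by
  unfold sympForm
  simp only [dotProduct, Fintype.sum_sum_type, Matrix.J, Matrix.mulVec, Matrix.fromBlocks_apply₁₁,
    Matrix.fromBlocks_apply₁₂, Matrix.fromBlocks_apply₂₁, Matrix.fromBlocks_apply₂₂,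
    Matrix.zero_apply, zero_mul, Finset.sum_const_zero, zero_add, add_zero, Matrix.neg_apply,
    Matrix.one_apply, neg_mul, ite_mul, one_mul, Finset.sum_neg_distrib, Finset.sum_ite_eq,
    Finset.mem_univ, if_true, mul_neg]
  rw [Finset.sum_sub_distrib]
  ring

lemma sympForm_add_left (u u' v : Fin m ⊕ Fin m → F) :
    sympForm m F (u + u') v = sympForm m F u v + sympForm m F u' v := by
  unfold sympForm
  rw [add_dotProduct]

lemma sympForm_smul_left (c : F) (u v : Fin m ⊕ Fin m → F) :
    sympForm m F (c • u) v = c * sympForm m F u v := by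
  unfold sympForm
  rw [smul_dotProduct, smul_eq_mul]

lemma sympForm_add_right (u v v' : Fin m ⊕ Fin m → F) :
    sympForm m F u (v + v') = sympForm m F u v + sympForm m F u v' := by
  unfold sympForm
  rw [Matrix.mulVec_add, dotProduct_add]

lemma sympForm_smul_right (c : F) (u v : Fin m ⊕ Fin m → F) :
    sympForm m F u (c • v) = c * sympForm m F u v := by
  unfold sympForm
  rw [Matrix.mulVec_smul, dotProduct_smul, smul_eq_mul]

lemma sympForm_self (v : Fin m ⊕ Fin m → F) : sympForm m F v v = 0 := by
  rw [sympForm_eq]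
  apply Finset.sum_eq_zero
  intro i _
  ring

lemma sympForm_skew (u v : Fin m ⊕ Fin m → F) : sympForm m F u v = - sympForm m F v u := by
  rw [sympForm_eq, sympForm_eq, ← Finset.sum_neg_distrib]
  apply Finset.sum_congr rfl
  intro i _
  ring

lemma sympForm_zero_left (v : Fin m ⊕ Fin m → F) : sympForm m F 0 v = 0 := by
  have := sympForm_smul_left (0 : F) 0 v
  simpa using this

lemma sympForm_zero_right (v : Fin m ⊕ Fin m → F) : sympForm m F v 0 = 0 := by
  have := sympForm_smul_right (0 : F) v 0
  simpa using this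

lemma sympForm_sum_left {α : Type*} (s : Finset α) (u : α → Fin m ⊕ Fin m → F)
    (v : Fin m ⊕ Fin m → F) : sympForm m F (∑ i ∈ s, u i) v = ∑ i ∈ s, sympForm m F (u i) v := by
  classical
  induction s using Finset.induction_on with
  | empty => simp [sympForm_zero_left]
  | insert a s ha ih => rw [Finset.sum_insert ha, Finset.sum_insert ha, sympForm_add_left, ih]

lemma sympForm_sum_right {α : Type*} (s : Finset α) (u : Fin m ⊕ Fin m → F)
    (v : α → Fin m ⊕ Fin m → F) : sympForm m F u (∑ i ∈ s, v i) = ∑ i ∈ s, sympForm m F u (v i) := by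
  classical
  induction s using Finset.induction_on with
  | empty => simp [sympForm_zero_right]
  | insert a s ha ih => rw [Finset.sum_insert ha, Finset.sum_insert ha, sympForm_add_right, ih]

/-- The linear functional `x ↦ sympForm x v`. -/
noncomputable def sympL (v : Fin m ⊕ Fin m → F) : (Fin m ⊕ Fin m → F) →ₗ[F] F where
  toFun x := sympForm m F x v
  map_add' x y := sympForm_add_left x y v
  map_smul' c x := by simp [sympForm_smul_left]

@[simp] lemma sympL_apply (v x : Fin m ⊕ Fin m → F) : sympL v x = sympForm m F x v := rfl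

lemma mem_spGL_iff (g : GL (Fin m ⊕ Fin m) F) :
    g ∈ spGL m F ↔ ∀ u v, sympForm m F ((g : Matrix _ _ F) *ᵥ u) ((g : Matrix _ _ F) *ᵥ v)
      = sympForm m F u v := Iff.rfl

/-- The symplectic transvection `x ↦ x + c f(x, v) v` as an element of `GL`. -/
noncomputable def sympTransv (v : Fin m ⊕ Fin m → F) (c : F) : GL (Fin m ⊕ Fin m) F :=
  glOf (LinearEquiv.transvection (f := c • sympL v) (v := v) (by simp [sympForm_self]))

lemma sympTransv_mulVec (v : Fin m ⊕ Fin m → F) (c : F) (x : Fin m ⊕ Fin m → F) :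
    ((sympTransv v c : GL _ F) : Matrix _ _ F) *ᵥ x = x + (c * sympForm m F x v) • v := by
  rw [sympTransv, glOf_mulVec, LinearEquiv.transvection.apply]
  simp

lemma sympTransv_mem_spGL (v : Fin m ⊕ Fin m → F) (c : F) : sympTransv v c ∈ spGL m F := by
  rw [mem_spGL_iff]
  intro x y
  rw [sympTransv_mulVec, sympTransv_mulVec]
  simp only [sympForm_add_left, sympForm_add_right, sympForm_smul_left, sympForm_smul_right,
    sympForm_self]
  rw [sympForm_skew v y]
  ring

lemma sympTransv_mem_specialLinear (v : Fin m ⊕ Fin m → F) (c : F) :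
    sympTransv v c ∈ specialLinear (Fin m ⊕ Fin m) F :=
  glOf_mem_specialLinear _ (by simp)

end Symp

end Cfsg.Agent.H95
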