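import Cfsg.Agent.H49.SingPts
import Cfsg.Agent.H95.Basic

set_option autoImplicit false
set_option linter.unusedSectionVars false

/-! Helper lemmas (helper95): in `Ω(Q)` (Witt index at least three, any characteristic) the
stabiliser of a totally singular subspace is maximal, via the "full points" argument on
Siegel elements. -/

namespace Cfsg.Agent.H95

open Module Matrix Cfsg.Agent.H49

section
variable {ι : Type} [Fintype ι] [DecidableEq ι] {F : Type*} [Field F]

theorem isTS_sup_span (Q : QuadraticForm F (ι → F)) (U : Submodule F (ι → F)) (hU : IsTS Q U)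
    (e : ι → F) (he : Q e = 0) (heU : ∀ a ∈ U, QuadraticMap.polar (⇑Q) a e = 0) :
    IsTS Q (U ⊔ Submodule.span F {e}) := by
  intro z hz
  obtain ⟨u, hu, y, hy, rfl⟩ := Submodule.mem_sup.mp hz
  obtain ⟨c, rfl⟩ := Submodule.mem_span_singleton.mp hy
  rw [Q_add', hU u hu, QuadraticMap.map_smul, he, QuadraticMap.polar_smul_right, heU u hu]
  simp

/-- A singular vector orthogonal to `U` outside `U`, by Chevalley–Warning. -/
theorem exists_singular_orth_not_mem [Finite F] (Q : QuadraticForm F (ι → F))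
    (hQ : (QuadraticMap.polarBilin Q).Nondegenerate) (U : Submodule F (ι → F))
    (hd : 2 * finrank F U + 3 ≤ finrank F (ι → F)) :
    ∃ e : ι → F, Q e = 0 ∧ (∀ a ∈ U, QuadraticMap.polar (⇑Q) a e = 0) ∧ e ∉ U := by
  obtain ⟨q, hq⟩ := Submodule.exists_isCompl U
  have h1 := Submodule.finrank_add_eq_of_isCompl hq
  have h2 := LinearMap.BilinForm.finrank_orthogonal hQ U
  have h3 := Submodule.finrank_sup_add_finrank_inf_eq q
    (LinearMap.BilinForm.orthogonal (QuadraticMap.polarBilin Q) U)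
  have h4 := Submodule.finrank_le
    (q ⊔ LinearMap.BilinForm.orthogonal (QuadraticMap.polarBilin Q) U)
  obtain ⟨⟨c, hc⟩, hne, hQc⟩ := exists_singular_of_three_le
    (Q.comp (q ⊓ LinearMap.BilinForm.orthogonal (QuadraticMap.polarBilin Q) U).subtype)
    (by omega)
  obtain ⟨hcq, hcO⟩ := Submodule.mem_inf.mp hc
  refine ⟨c, hQc, fun a ha => (LinearMap.BilinForm.mem_orthogonal_iff.mp hcO) a ha, ?_⟩
  intro hcU
  apply hne
  have : c ∈ U ⊓ q := ⟨hcU, hcq⟩
  rw [hq.inf_eq_bot] at this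
  exact Subtype.ext ((Submodule.mem_bot F).mp this)

theorem exists_ts_succ [Finite F] (Q : QuadraticForm F (ι → F))
    (hQ : (QuadraticMap.polarBilin Q).Nondegenerate) (U : Submodule F (ι → F)) (hU : IsTS Q U)
    (hd : 2 * finrank F U + 3 ≤ finrank F (ι → F)) :
    ∃ U' : Submodule F (ι → F), IsTS Q U' ∧ finrank F U' = finrank F U + 1 := by
  obtain ⟨e, he, heU, hne⟩ := exists_singular_orth_not_mem Q hQ U hd
  exact ⟨U ⊔ Submodule.span F {e}, isTS_sup_span Q U hU e he heU,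
    finrank_sup_span_singleton U hne⟩

/-- A non-degenerate quadratic space of dimension at least seven over a finite field has a
totally singular subspace of dimension three. -/
theorem hasTS3_of_finrank [Finite F] (Q : QuadraticForm F (ι → F))
    (hQ : (QuadraticMap.polarBilin Q).Nondegenerate) (h7 : 7 ≤ finrank F (ι → F)) :
    HasTS3 Q := by
  have h0 : IsTS Q (⊥ : Submodule F (ι → F)) := by
    intro u hu
    rw [(Submodule.mem_bot F).mp hu, QuadraticMap.map_zero]
  obtain ⟨U₁, hU₁, d₁⟩ := exists_ts_succ Q hQ ⊥ h0 (by rw [finrank_bot]; omega)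
  rw [finrank_bot] at d₁
  obtain ⟨U₂, hU₂, d₂⟩ := exists_ts_succ Q hQ U₁ hU₁ (by omega)
  obtain ⟨U₃, hU₃, d₃⟩ := exists_ts_succ Q hQ U₂ hU₂ (by omega)
  exact ⟨U₃, hU₃, by omega⟩

/-- Vectors all of whose Siegel elements lie in `M`. -/
def fullPts (Q : QuadraticForm F (ι → F)) (M : Subgroup ↥(Cfsg.isometryGroup F (⇑Q))) :
    Set (ι → F) :=
  {u | ∃ hu : Q u = 0, ∀ (v : ι → F) (hv : Q v = 0)
    (huv : QuadraticMap.polar (⇑Q) u v = 0) (c : F), siegelG Q u v hu hv huv c ∈ M}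

theorem fullPts_act (Q : QuadraticForm F (ι → F)) (M : Subgroup ↥(Cfsg.isometryGroup F (⇑Q)))
    {m : ↥(Cfsg.isometryGroup F (⇑Q))} (hm : m ∈ M) {u : ι → F} (hu : u ∈ fullPts Q M) :
    act m u ∈ fullPts Q M := by
  obtain ⟨hu0, h⟩ := hu
  have hmu : Q (act m u) = 0 := by rw [Q_act]; exact hu0
  refine ⟨hmu, fun v hv huv c => ?_⟩
  have hv' : Q (act m⁻¹ v) = 0 := by rw [Q_act]; exact hv
  have huv' : QuadraticMap.polar (⇑Q) u (act m⁻¹ v) = 0 := by
    rw [← polar_act_left]; exact huv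
  have key := conj_siegelG Q m u (act m⁻¹ v) hu0 hv' huv' c
  have e : siegelG Q (act m u) v hmu hv huv c
      = m * siegelG Q u (act m⁻¹ v) hu0 hv' huv' c * m⁻¹ := by
    rw [key]
    exact siegelG_congr Q _ _ _ _ _ _ _ _ _ _ c c rfl (act_act_inv m v).symm rfl
  rw [e]
  exact M.mul_mem (M.mul_mem hm (h _ hv' huv' c)) (M.inv_mem hm)

theorem fullPts_smul (Q : QuadraticForm F (ι → F)) (M : Subgroup ↥(Cfsg.isometryGroup F (⇑Q)))
    {u : ι → F} (hu : u ∈ fullPts Q M) (a : F) : a • u ∈ fullPts Q M := by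
  obtain ⟨hu0, h⟩ := hu
  have hau : Q (a • u) = 0 := by rw [QuadraticMap.map_smul, hu0, smul_zero]
  refine ⟨hau, fun v hv huv c => ?_⟩
  by_cases ha : a = 0
  · subst ha
    rw [siegelG_eq_one Q _ v hau hv huv c (Or.inl (zero_smul F u))]
    exact M.one_mem
  · have huv' : QuadraticMap.polar (⇑Q) u v = 0 := by
      rw [QuadraticMap.polar_smul_left, smul_eq_mul] at huv
      exact (mul_eq_zero.mp huv).resolve_left ha
    rw [siegelG_smul_left Q u v a hu0 hau hv huv' huv c]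
    exact h v hv huv' (a * c)

/-- Moving a singular vector to another one by a single Siegel element at `u`. -/
theorem siegel_move_at (Q : QuadraticForm F (ι → F)) (u y w : ι → F) (hu : Q u = 0)
    (hy : Q y = 0) (hw : Q w = 0) (huy : QuadraticMap.polar (⇑Q) u y = 1)
    (huw : QuadraticMap.polar (⇑Q) u w = 1) (hyw : QuadraticMap.polar (⇑Q) y w = 0) :
    ∃ (v : ι → F) (hv : Q v = 0) (huv : QuadraticMap.polar (⇑Q) u v = 0),
      act (siegelG Q u v hu hv huv 1) u = u ∧ act (siegelG Q u v hu hv huv 1) y = w := by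
  have hQ' : Q (w - y) = 0 := by
    rw [Q_sub', hw, hy, QuadraticMap.polar_comm, hyw]
    ring
  have hp : QuadraticMap.polar (⇑Q) u (w - y) = 0 := by
    rw [QuadraticMap.polar_sub_right, huy, huw, sub_self]
  have huu : QuadraticMap.polar (⇑Q) u u = 0 := by rw [polar_self', hu, mul_zero]
  have hyy : QuadraticMap.polar (⇑Q) y y = 0 := by rw [polar_self', hy, mul_zero]
  have hwy : QuadraticMap.polar (⇑Q) w y = 0 := by rw [QuadraticMap.polar_comm]; exact hyw
  have hwu : QuadraticMap.polar (⇑Q) w u = 1 := by rw [QuadraticMap.polar_comm]; exact huw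
  have hyu : QuadraticMap.polar (⇑Q) y u = 1 := by rw [QuadraticMap.polar_comm]; exact huy
  refine ⟨w - y, hQ', hp, ?_, ?_⟩
  · rw [act_siegelG, huu, QuadraticMap.polar_sub_left, hwu, hyu]
    simp
  · rw [act_siegelG, huy, QuadraticMap.polar_sub_left, hwy, hyy]
    simp

/-- If all Siegel elements at `u` lie in `M`, then `M` moves any singular point not orthogonal
to `u` to any other such point. -/
theorem exists_siegel_map_at (Q : QuadraticForm F (ι → F))
    (hQ : (QuadraticMap.polarBilin Q).Nondegenerate) (h3 : HasTS3 Q) (u y w : ι → F)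
    (hy : Q y = 0) (hw : Q w = 0) (huy : QuadraticMap.polar (⇑Q) u y ≠ 0)
    (huw : QuadraticMap.polar (⇑Q) u w ≠ 0)
    (M : Subgroup ↥(Cfsg.isometryGroup F (⇑Q))) (hM : u ∈ fullPts Q M) :
    ∃ g ∈ M, act g u = u ∧ ∃ c : F, act g y = c • w := by
  obtain ⟨hu, hMu⟩ := hM
  obtain ⟨y₁, hy₁d⟩ : ∃ y₁, y₁ = (QuadraticMap.polar (⇑Q) u y)⁻¹ • y := ⟨_, rfl⟩
  obtain ⟨w₁, hw₁d⟩ : ∃ w₁, w₁ = (QuadraticMap.polar (⇑Q) u w)⁻¹ • w := ⟨_, rfl⟩
  have hy₁ : Q y₁ = 0 := by rw [hy₁d, QuadraticMap.map_smul, hy, smul_zero]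
  have hw₁ : Q w₁ = 0 := by rw [hw₁d, QuadraticMap.map_smul, hw, smul_zero]
  have huy₁ : QuadraticMap.polar (⇑Q) u y₁ = 1 := by
    rw [hy₁d, QuadraticMap.polar_smul_right, smul_eq_mul, inv_mul_cancel₀ huy]
  have huw₁ : QuadraticMap.polar (⇑Q) u w₁ = 1 := by
    rw [hw₁d, QuadraticMap.polar_smul_right, smul_eq_mul, inv_mul_cancel₀ huw]
  have hyy₁ : y = QuadraticMap.polar (⇑Q) u y • y₁ := by
    rw [hy₁d, smul_smul, mul_inv_cancel₀ huy, one_smul]
  have hfin : ∀ g : ↥(Cfsg.isometryGroup F (⇑Q)), act g y₁ = w₁ →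
      ∃ c : F, act g y = c • w := by
    intro g hg
    refine ⟨QuadraticMap.polar (⇑Q) u y * (QuadraticMap.polar (⇑Q) u w)⁻¹, ?_⟩
    rw [hyy₁, act_smul, hg, hw₁d, smul_smul]
    congr 1
    rw [← hyy₁]
  by_cases hyw₁ : QuadraticMap.polar (⇑Q) y₁ w₁ = 0
  · obtain ⟨v, hv, huv, hgu, hgy⟩ := siegel_move_at Q u y₁ w₁ hu hy₁ hw₁ huy₁ huw₁ hyw₁
    exact ⟨_, hMu v hv huv 1, hgu, hfin _ hgy⟩
  · have hyw : QuadraticMap.polar (⇑Q) y w ≠ 0 := by
      intro h0
      apply hyw₁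
      rw [hy₁d, hw₁d, QuadraticMap.polar_smul_left, QuadraticMap.polar_smul_right, h0]
      simp
    obtain ⟨e, e', he, he', hee, hye, hwe, hye', hwe'⟩ :=
      exists_hyp_pair_orth_hyp Q hQ h3 y w hy hw hyw
    have huW : u ∉ Submodule.span F {y, w} := by
      intro hmem
      obtain ⟨a, b, hab⟩ := Submodule.mem_span_pair.mp hmem
      have hwy : QuadraticMap.polar (⇑Q) w y = QuadraticMap.polar (⇑Q) y w :=
        QuadraticMap.polar_comm _ _ _
      have e1 : QuadraticMap.polar (⇑Q) u y = b * QuadraticMap.polar (⇑Q) y w := by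
        rw [← hab, QuadraticMap.polar_add_left, QuadraticMap.polar_smul_left,
          QuadraticMap.polar_smul_left, polar_self', hy, hwy]
        simp
      have e2 : QuadraticMap.polar (⇑Q) u w = a * QuadraticMap.polar (⇑Q) y w := by
        rw [← hab, QuadraticMap.polar_add_left, QuadraticMap.polar_smul_left,
          QuadraticMap.polar_smul_left, polar_self', hw]
        simp
      have e3 : Q u = a * b * QuadraticMap.polar (⇑Q) y w := by
        rw [← hab, Q_add', QuadraticMap.map_smul, QuadraticMap.map_smul, hy, hw,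
          QuadraticMap.polar_smul_left, QuadraticMap.polar_smul_right]
        simp only [smul_eq_mul]
        ring
      have hb : b ≠ 0 := by
        rintro rfl
        rw [zero_mul] at e1
        exact huy e1
      have ha : a ≠ 0 := by
        rintro rfl
        rw [zero_mul] at e2
        exact huw e2
      rw [hu] at e3
      exact mul_ne_zero (mul_ne_zero ha hb) hyw e3.symm
    obtain ⟨t₀, ht₀, ht₀W, hut₀⟩ := exists_singular_orth_polar_ne Q hQ
      (Submodule.span F {y, w}) e e' he he' hee (polar_span_pair Q y w e hye hwe)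
      (polar_span_pair Q y w e' hye' hwe') u huW
    have hyt₀ : QuadraticMap.polar (⇑Q) y t₀ = 0 := ht₀W y (Submodule.subset_span (by simp))
    have hwt₀ : QuadraticMap.polar (⇑Q) w t₀ = 0 := ht₀W w (Submodule.subset_span (by simp))
    obtain ⟨t, htd⟩ : ∃ t, t = (QuadraticMap.polar (⇑Q) u t₀)⁻¹ • t₀ := ⟨_, rfl⟩
    have ht : Q t = 0 := by rw [htd, QuadraticMap.map_smul, ht₀, smul_zero]
    have hut : QuadraticMap.polar (⇑Q) u t = 1 := by
      rw [htd, QuadraticMap.polar_smul_right, smul_eq_mul, inv_mul_cancel₀ hut₀]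
    have hy₁t : QuadraticMap.polar (⇑Q) y₁ t = 0 := by
      rw [hy₁d, htd, QuadraticMap.polar_smul_left, QuadraticMap.polar_smul_right, hyt₀]
      simp
    have htw₁ : QuadraticMap.polar (⇑Q) t w₁ = 0 := by
      rw [hw₁d, htd, QuadraticMap.polar_smul_left, QuadraticMap.polar_smul_right,
        QuadraticMap.polar_comm (⇑Q) t₀ w, hwt₀]
      simp
    obtain ⟨v₁, hv₁, huv₁, hg₁u, hg₁y⟩ := siegel_move_at Q u y₁ t hu hy₁ ht huy₁ hut hy₁t
    obtain ⟨v₂, hv₂, huv₂, hg₂u, hg₂t⟩ := siegel_move_at Q u t w₁ hu ht hw₁ hut huw₁ htw₁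
    refine ⟨siegelG Q u v₂ hu hv₂ huv₂ 1 * siegelG Q u v₁ hu hv₁ huv₁ 1,
      M.mul_mem (hMu v₂ hv₂ huv₂ 1) (hMu v₁ hv₁ huv₁ 1), ?_, hfin _ ?_⟩
    · rw [act_mul, hg₁u, hg₂u]
    · rw [act_mul, hg₁y, hg₂t]

theorem fullPts_of_pair (Q : QuadraticForm F (ι → F))
    (hQ : (QuadraticMap.polarBilin Q).Nondegenerate) (h3 : HasTS3 Q)
    (M : Subgroup ↥(Cfsg.isometryGroup F (⇑Q))) {s x z : ι → F} (hs : s ∈ fullPts Q M)
    (hx : x ∈ fullPts Q M) (hsx : QuadraticMap.polar (⇑Q) s x ≠ 0) (hz : Q z = 0)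
    (hsz : QuadraticMap.polar (⇑Q) s z ≠ 0) : z ∈ fullPts Q M := by
  obtain ⟨g, hg, -, c, hgx⟩ := exists_siegel_map_at Q hQ h3 s x z hx.1 hz hsx hsz M hs
  have hx0 : x ≠ 0 := by
    rintro rfl
    exact hsx (QuadraticMap.polar_zero_right _ _)
  have hc : c ≠ 0 := by
    rintro rfl
    rw [zero_smul] at hgx
    exact act_ne_zero g hx0 hgx
  have h1 : act g x ∈ fullPts Q M := fullPts_act Q M hg hx
  rw [hgx] at h1
  have h2 := fullPts_smul Q M h1 c⁻¹
  rwa [smul_smul, inv_mul_cancel₀ hc, one_smul] at h2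

/-- If `M` contains all Siegel elements at two non-orthogonal singular points, then `M`
contains `Ω`. -/
theorem commutator_le_of_fullPts_pair [Fintype F] (Q : QuadraticForm F (ι → F))
    (hQ : (QuadraticMap.polarBilin Q).Nondegenerate) (h3 : HasTS3 Q)
    (M : Subgroup ↥(Cfsg.isometryGroup F (⇑Q))) {s x : ι → F} (hs : s ∈ fullPts Q M)
    (hx : x ∈ fullPts Q M) (hsx : QuadraticMap.polar (⇑Q) s x ≠ 0) :
    commutator ↥(Cfsg.isometryGroup F (⇑Q)) ≤ M := by
  have hs0 : s ≠ 0 := by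
    rintro rfl
    exact hsx (QuadraticMap.polar_zero_left _ _)
  have hall : ∀ z : ι → F, z ≠ 0 → Q z = 0 → z ∈ fullPts Q M := by
    intro z hz0 hz
    obtain ⟨y, hy, hsy, hyz⟩ := exists_common_nbr Q hQ h3 s z hs0 hz0 hs.1 hz
    have hyM : y ∈ fullPts Q M := fullPts_of_pair Q hQ h3 M hs hx hsx hy hsy
    have hys : QuadraticMap.polar (⇑Q) y s ≠ 0 := by
      rw [QuadraticMap.polar_comm]; exact hsy
    exact fullPts_of_pair Q hQ h3 M hyM hs hys hz hyz
  rw [commutator_eq_closure_siegelSet Q hQ h3, Subgroup.closure_le]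
  rintro g ⟨u, v, hu, hv, huv, c, rfl⟩
  by_cases hu0 : u = 0
  · rw [siegelG_eq_one Q u v hu hv huv c (Or.inl hu0)]
    exact M.one_mem
  · exact (hall u hu0 hu).2 v hv huv c

/-- A totally singular subspace not of half the dimension has a non-singular vector orthogonal
to it. -/
theorem exists_nonsingular_orth (Q : QuadraticForm F (ι → F))
    (hQ : (QuadraticMap.polarBilin Q).Nondegenerate) (T : Submodule F (ι → F)) (hT : IsTS Q T)
    (hd : 2 * finrank F T ≠ finrank F (ι → F)) :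
    ∃ a : ι → F, Q a ≠ 0 ∧ ∀ t ∈ T, QuadraticMap.polar (⇑Q) t a = 0 := by
  by_contra hcon
  push Not at hcon
  have hO : IsTS Q (LinearMap.BilinForm.orthogonal (QuadraticMap.polarBilin Q) T) := by
    intro a ha
    by_contra hne
    obtain ⟨t, ht, hta⟩ := hcon a hne
    exact hta ((LinearMap.BilinForm.mem_orthogonal_iff.mp ha) t ht)
  have h1 := Submodule.finrank_mono hT.le_orthogonal
  have h2 := Submodule.finrank_mono hO.le_orthogonal
  have h3 := LinearMap.BilinForm.finrank_orthogonal hQ T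
  have h4 := LinearMap.BilinForm.finrank_orthogonal hQ
    (LinearMap.BilinForm.orthogonal (QuadraticMap.polarBilin Q) T)
  have h5 := Submodule.finrank_le T
  omega

/-- Core of the maximality of totally singular subspace stabilisers in `Ω`. -/
theorem ts_max_core [Fintype F] (Q : QuadraticForm F (ι → F))
    (hQ : (QuadraticMap.polarBilin Q).Nondegenerate) (h3 : HasTS3 Q)
    (W : Submodule F (ι → F)) (hW : IsTS Q W)
    (hdim : ∀ T : Submodule F (ι → F), IsTS Q T → finrank F T = finrank F W + 1 →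
      2 * finrank F T ≠ finrank F (ι → F))
    (M : Subgroup ↥(Cfsg.isometryGroup F (⇑Q)))
    (hM : ∀ g ∈ commutator ↥(Cfsg.isometryGroup F (⇑Q)), (∀ x ∈ W, act g x ∈ W) → g ∈ M)
    (g₀ : ↥(Cfsg.isometryGroup F (⇑Q))) (hg₀ : g₀ ∈ M) (x₀ : ι → F) (hx₀ : x₀ ∈ W)
    (hgx₀ : act g₀ x₀ ∉ W) :
    commutator ↥(Cfsg.isometryGroup F (⇑Q)) ≤ M := by
  have hWP : ∀ u ∈ W, u ∈ fullPts Q M := by
    intro u hu
    refine ⟨hW u hu, fun v hv huv c =>
      hM _ (siegelG_mem_commutator Q hQ h3 u v _ hv huv c) ?_⟩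
    intro x hx
    rw [act_siegelG, hW.polar hu hx, zero_smul, zero_sub]
    exact W.add_mem hx (W.smul_mem _ (W.neg_mem (W.smul_mem _ hu)))
  by_contra hcon
  have hortho : ∀ s ∈ fullPts Q M, ∀ x ∈ fullPts Q M, QuadraticMap.polar (⇑Q) s x = 0 := by
    intro s hs x hx
    by_contra hne
    exact hcon (commutator_le_of_fullPts_pair Q hQ h3 M hs hx hne)
  obtain ⟨x₁, hx₁d⟩ : ∃ x₁, x₁ = act g₀ x₀ := ⟨_, rfl⟩
  have hx₁P : x₁ ∈ fullPts Q M := by
    rw [hx₁d]; exact fullPts_act Q M hg₀ (hWP x₀ hx₀)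
  have hx₁W : ∀ a ∈ W, QuadraticMap.polar (⇑Q) a x₁ = 0 :=
    fun a ha => hortho a (hWP a ha) x₁ hx₁P
  rw [← hx₁d] at hgx₀
  obtain ⟨y, hy, hyW, hxy⟩ := exists_partner_orth Q hQ W x₁ hx₁P.1 hx₁W hgx₀
  have hyW' : y ∉ W := by
    intro h
    have := hx₁W y h
    rw [QuadraticMap.polar_comm, hxy] at this
    exact one_ne_zero this
  obtain ⟨a, ha, haT⟩ := exists_nonsingular_orth Q hQ (W ⊔ Submodule.span F {y})
    (isTS_sup_span Q W hW y hy hyW)
    (hdim _ (isTS_sup_span Q W hW y hy hyW) (finrank_sup_span_singleton W hyW'))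
  have haW : ∀ w ∈ W, QuadraticMap.polar (⇑Q) w a = 0 :=
    fun w hw => haT w (Submodule.mem_sup_left hw)
  have hya : QuadraticMap.polar (⇑Q) y a = 0 :=
    haT y (Submodule.mem_sup_right (Submodule.mem_span_singleton_self y))
  have hay : QuadraticMap.polar (⇑Q) a y = 0 := by rw [QuadraticMap.polar_comm]; exact hya
  have hh : reflG Q a * reflG Q (a - y) ∈ M := by
    apply hM
    · rw [commutator_eq_closure_siegelSet Q hQ h3]
      exact refl_pair_mem_of_singular Q hQ h3 a y ha hy hay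
    · intro w hw
      rw [act_refl_pair Q a y ha hy hay, QuadraticMap.polar_comm (⇑Q) y w, hyW w hw,
        QuadraticMap.polar_comm (⇑Q) a w, haW w hw]
      simpa using hw
  have h1 := fullPts_act Q M hh hx₁P
  have h2 := hortho _ h1 x₁ hx₁P
  rw [act_refl_pair Q a y ha hy hay, QuadraticMap.polar_add_left, QuadraticMap.polar_sub_left,
    QuadraticMap.polar_smul_left, QuadraticMap.polar_smul_left, polar_self', hx₁P.1,
    QuadraticMap.polar_comm (⇑Q) y x₁, hxy] at h2
  have h5 : (Q a)⁻¹ = 0 := by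
    simp only [smul_eq_mul] at h2
    linear_combination -h2
  exact ha (inv_eq_zero.mp h5)

/-- `Ω` does not stabilise a non-zero totally singular subspace. -/
theorem exists_commutator_not_stab [Fintype F] (Q : QuadraticForm F (ι → F))
    (hQ : (QuadraticMap.polarBilin Q).Nondegenerate) (h3 : HasTS3 Q)
    (W : Submodule F (ι → F)) (hW0 : W ≠ ⊥) (hW : IsTS Q W) :
    ∃ g ∈ commutator ↥(Cfsg.isometryGroup F (⇑Q)), ∃ x ∈ W, act g x ∉ W := by
  obtain ⟨x, hxW, hx0⟩ := Submodule.exists_mem_ne_zero_of_ne_bot hW0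
  have hx : Q x = 0 := hW x hxW
  obtain ⟨y, hy, hxy⟩ := exists_hyp_partner Q (fun a h => hQ.1 a h) x hx0 hx
  have hy0 : y ≠ 0 := by
    rintro rfl
    rw [QuadraticMap.polar_zero_right] at hxy
    exact zero_ne_one hxy
  obtain ⟨s, hs, hxs, hsy⟩ := exists_common_nbr Q hQ h3 x y hx0 hy0 hx hy
  have hsx : QuadraticMap.polar (⇑Q) s x ≠ 0 := by rw [QuadraticMap.polar_comm]; exact hxs
  obtain ⟨g, hg, -, c, hgx⟩ := exists_siegel_map Q hQ h3 s x y hs hx hy hsx hsy
  refine ⟨g, closure_siegelSet_le_commutator Q hQ h3 hg, x, hxW, ?_⟩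
  intro hmem
  have hc : c ≠ 0 := by
    rintro rfl
    rw [zero_smul] at hgx
    exact act_ne_zero g hx0 hgx
  rw [hgx] at hmem
  have hyW : y ∈ W := by
    have := W.smul_mem c⁻¹ hmem
    rwa [smul_smul, inv_mul_cancel₀ hc, one_smul] at this
  have := hW.polar hxW hyW
  rw [hxy] at this
  exact one_ne_zero this

/-- In `Ω(Q)` the stabiliser of a non-zero totally singular subspace `W` is maximal, unless
some totally singular subspace of dimension `dim W + 1` has half the dimension of the space. -/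
theorem ts_stabilizer_isMaximalIn [Fintype F] (Q : QuadraticForm F (ι → F))
    (hQ : (QuadraticMap.polarBilin Q).Nondegenerate) (h3 : HasTS3 Q)
    (W : Submodule F (ι → F)) (hW0 : W ≠ ⊥) (hW : IsTS Q W)
    (hdim : ∀ T : Submodule F (ι → F), IsTS Q T → finrank F T = finrank F W + 1 →
      2 * finrank F T ≠ finrank F (ι → F)) :
    Cfsg.Geo.IsMaximalIn (Cfsg.Geo.omegaGL (⇑Q))
      (Cfsg.Geo.subspaceStabilizer W ⊓ Cfsg.Geo.omegaGL (⇑Q)) := by
  refine ⟨lt_of_le_of_ne inf_le_right ?_, ?_⟩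
  · intro hEq
    obtain ⟨g, hg, x, hxW, hgx⟩ := exists_commutator_not_stab Q hQ h3 W hW0 hW
    have hmem : (Cfsg.isometryGroup F (⇑Q)).subtype g ∈ Cfsg.Geo.omegaGL (⇑Q) := ⟨g, hg, rfl⟩
    rw [← hEq] at hmem
    exact hgx (((mem_subspaceStabilizer_iff _ W).mp hmem.1 x).mp hxW)
  · intro M hHM hMΩ
    by_cases hMH : M = Cfsg.Geo.subspaceStabilizer W ⊓ Cfsg.Geo.omegaGL (⇑Q)
    · exact Or.inl hMH
    · right
      apply le_antisymm hMΩ
      obtain ⟨g, hgM, hgH⟩ : ∃ g ∈ M, g ∉ Cfsg.Geo.subspaceStabilizer W ⊓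
          Cfsg.Geo.omegaGL (⇑Q) := by
        by_contra hcon
        push Not at hcon
        exact hMH (le_antisymm hcon hHM)
      obtain ⟨g', hg', rfl⟩ := hMΩ hgM
      obtain ⟨x₀, hx₀, hgx₀⟩ : ∃ x₀ ∈ W, act g' x₀ ∉ W := by
        by_contra hcon
        push Not at hcon
        exact hgH ⟨mem_subspaceStabilizer_of_forall _ W hcon, ⟨g', hg', rfl⟩⟩
      have key := ts_max_core Q hQ h3 W hW hdim (M.comap (Cfsg.isometryGroup F (⇑Q)).subtype)
        (by
          intro k hk hkW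
          exact hHM ⟨mem_subspaceStabilizer_of_forall _ W hkW, ⟨k, hk, rfl⟩⟩)
        g' hgM x₀ hx₀ hgx₀
      rintro _ ⟨k, hk, rfl⟩
      exact key hk

end

end Cfsg.Agent.H95
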