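import Cfsg.Agent.H95.Basic

set_option autoImplicit false

namespace Cfsg.Agent.H95

open Cfsg Cfsg.Geo
open scoped MatrixGroups Matrix Kronecker

section Tensor

variable {ι : Type} [Fintype ι] [DecidableEq ι] {F : Type*} [Field F] {n₁ n₂ : ℕ}

/-- The isomorphism transporting `GL (Fin n₁ × Fin n₂) F` to `GL ι F` used in the definition of the
tensor product subgroups. -/
noncomputable def tpsIso (e : ι ≃ Fin n₁ × Fin n₂) (P : GL ι F) :
    GL (Fin n₁ × Fin n₂) F ≃* GL ι F :=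
  (glReindex e.symm).trans (MulAut.conj P)

lemma tensorProductSubgroup_eq_map (e : ι ≃ Fin n₁ × Fin n₂) (P : GL ι F) :
    tensorProductSubgroup n₁ n₂ e P = (kroneckerSubgroup n₁ n₂ F).map (tpsIso e P).toMonoidHom := by
  unfold tensorProductSubgroup
  rw [Subgroup.map_map]
  rfl

lemma mem_kroneckerSubgroup_iff (g : GL (Fin n₁ × Fin n₂) F) :
    g ∈ kroneckerSubgroup n₁ n₂ F ↔ ∃ (a : GL (Fin n₁) F) (b : GL (Fin n₂) F),
      (g : Matrix (Fin n₁ × Fin n₂) (Fin n₁ × Fin n₂) F) =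
        (a : Matrix (Fin n₁) (Fin n₁) F) ⊗ₖ (b : Matrix (Fin n₂) (Fin n₂) F) := Iff.rfl

/-- The invertible block diagonal matrices. -/
def blockGL {m o : Type} [Fintype m] [DecidableEq m] [Fintype o] [DecidableEq o]
    (M M' : o → Matrix m m F) (h : ∀ k, M k * M' k = 1) (h' : ∀ k, M' k * M k = 1) :
    GL (m × o) F :=
  ⟨Matrix.blockDiagonal M, Matrix.blockDiagonal M',
    by rw [← Matrix.blockDiagonal_mul, funext h]; exact Matrix.blockDiagonal_one,
    by rw [← Matrix.blockDiagonal_mul, funext h']; exact Matrix.blockDiagonal_one⟩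

/-- The elements conjugating `J` to `J` or to its inverse. -/
def invNormalizer {G : Type*} [Group G] (J : G) : Subgroup G where
  carrier := {g | g * J * g⁻¹ = J ∨ g * J * g⁻¹ = J⁻¹}
  mul_mem' {a b} ha hb := by
    have e1 : a * b * J * (a * b)⁻¹ = a * (b * J * b⁻¹) * a⁻¹ := by group
    rcases hb with hb | hb
    · rcases ha with ha | ha
      · left; rw [e1, hb, ha]
      · right; rw [e1, hb, ha]
    · have e2 : a * J⁻¹ * a⁻¹ = (a * J * a⁻¹)⁻¹ := by group
      rcases ha with ha | ha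
      · right; rw [e1, hb, e2, ha]
      · left; rw [e1, hb, e2, ha, inv_inv]
  one_mem' := by left; group
  inv_mem' {a} ha := by
    rcases ha with ha | ha
    · left
      calc a⁻¹ * J * a⁻¹⁻¹ = a⁻¹ * (a * J * a⁻¹) * a := by rw [ha, inv_inv]
        _ = J := by group
    · right
      have h' : a * J⁻¹ * a⁻¹ = J := by
        calc a * J⁻¹ * a⁻¹ = (a * J * a⁻¹)⁻¹ := by group
          _ = J := by rw [ha, inv_inv]
      calc a⁻¹ * J * a⁻¹⁻¹ = a⁻¹ * (a * J⁻¹ * a⁻¹) * a := by rw [h', inv_inv]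
        _ = J⁻¹ := by group

lemma mem_invNormalizer_iff {G : Type*} [Group G] (J g : G) :
    g ∈ invNormalizer J ↔ g * J = J * g ∨ g * J = J⁻¹ * g := by
  change (g * J * g⁻¹ = J ∨ g * J * g⁻¹ = J⁻¹) ↔ _
  rw [mul_inv_eq_iff_eq_mul, mul_inv_eq_iff_eq_mul]

end Tensor

end Cfsg.Agent.H95
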