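import Cfsg.Agent.H95.QuadPlane

set_option autoImplicit false
set_option linter.unusedSectionVars false

namespace Cfsg.Agent.H95

open Cfsg Cfsg.Geo
open scoped MatrixGroups Matrix

section Triple

variable {F : Type*} [Field F] [Fintype F] {κ : Type} [Fintype κ] [DecidableEq κ]

/-- Three mutually orthogonal vectors of a common non-zero norm for a non-degenerate symmetric form
in dimension at least three over the field with three elements. -/
lemma exists_triple_fun (hq : Fintype.card F = 3) (f : (κ → F) → (κ → F) → F)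
    (hf : IsSymmetricForm f) (hn : 3 ≤ Fintype.card κ) :
    ∃ (η : F) (w : Fin 3 → (κ → F)), η ≠ 0 ∧ ∀ i j, f (w i) (w j) = if i = j then η else 0 := by
  have h2 := two_ne_zero_of_card_three hq
  set B := bilOf f hf.bilinear with hB
  have hs : B.IsSymm := ⟨fun x y => hf.symm x y⟩
  have hnd : ∀ z : κ → F, z ≠ 0 → ∃ y, B z y ≠ 0 := fun z hz => (hf.nondegenerate z hz).2
  have hfin : Module.finrank F (κ → F) = Fintype.card κ := Module.finrank_pi F
  obtain ⟨x₁, -, hx₁⟩ := exists_orth_aniso h2 B hf.symm hnd (k := 0) ![]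
    (fun i => i.elim0) (fun i => i.elim0) (by rw [hfin]; omega)
  obtain ⟨x₂, h21, hx₂⟩ := exists_orth_aniso h2 B hf.symm hnd (k := 1) ![x₁]
    (by intro i j hij; fin_cases i; fin_cases j; exact absurd rfl hij)
    (by intro i; fin_cases i; exact hx₁) (by rw [hfin]; omega)
  have h21' : B x₂ x₁ = 0 := h21 0
  have h12' : B x₁ x₂ = 0 := by rw [hs.eq]; exact h21'
  obtain ⟨x₃, h3, hx₃⟩ := exists_orth_aniso h2 B hf.symm hnd (k := 2) ![x₁, x₂]
    (by intro i j hij; fin_cases i <;> fin_cases j <;> simp_all)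
    (by intro i; fin_cases i <;> simp [hx₁, hx₂]) (by rw [hfin]; omega)
  have h31 : B x₃ x₁ = 0 := h3 0
  have h32 : B x₃ x₂ = 0 := h3 1
  obtain ⟨d, ν, hd, hν⟩ := frame3_of_orth hq B hs x₁ x₂ x₃ hx₁ hx₂ hx₃ h12'
    (by rw [hs.eq]; exact h31) (by rw [hs.eq]; exact h32)
  exact ⟨d, ν, hd, hν⟩

end Triple

end Cfsg.Agent.H95
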