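import Cfsg.Agent.H95.Herm2
import Cfsg.Agent.H95.TensorForm

set_option autoImplicit false
set_option linter.unusedSectionVars false

namespace Cfsg.Agent.H95

open Cfsg Cfsg.Geo
open scoped MatrixGroups Matrix Kronecker

section UForm

variable {ι : Type} [Fintype ι] [DecidableEq ι] {F : Type*} [Field F] [Fintype F] {q : ℕ}
  {f : (ι → F) → (ι → F) → F}

lemma q_ne_zero_of_card (hF : Fintype.card F = q ^ 2) : q ≠ 0 := by
  rintro rfl
  have := Fintype.card_pos (α := F)
  rw [hF] at this
  simp at this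

lemma uf_add_right (hF : Fintype.card F = q ^ 2) (hf : IsUnitaryFormPow q f) (v x y : ι → F) :
    f v (x + y) = f v x + f v y := by
  rw [hf.herm v (x + y), hf.add_left, frob_add hF, ← hf.herm, ← hf.herm]

lemma uf_smul_right (hf : IsUnitaryFormPow q f) (c : F) (v x : ι → F) :
    f v (c • x) = c ^ q * f v x := by
  rw [hf.herm v (c • x), hf.smul_left, mul_pow, ← hf.herm]

lemma uf_zero_left (hf : IsUnitaryFormPow q f) (v : ι → F) : f 0 v = 0 := by
  have := hf.smul_left 0 0 v
  simpa using this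

lemma uf_zero_right (hF : Fintype.card F = q ^ 2) (hf : IsUnitaryFormPow q f) (v : ι → F) :
    f v 0 = 0 := by
  rw [hf.herm v 0, uf_zero_left hf, zero_pow (q_ne_zero_of_card hF)]

lemma uf_sum_left (hf : IsUnitaryFormPow q f) {α : Type*} (s : Finset α) (g : α → (ι → F))
    (y : ι → F) : f (∑ a ∈ s, g a) y = ∑ a ∈ s, f (g a) y := by
  classical
  induction s using Finset.induction_on with
  | empty => simp [uf_zero_left hf]
  | insert a s ha ih => rw [Finset.sum_insert ha, Finset.sum_insert ha, hf.add_left, ih]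

lemma uf_sum_right (hF : Fintype.card F = q ^ 2) (hf : IsUnitaryFormPow q f) {α : Type*}
    (s : Finset α) (g : α → (ι → F)) (y : ι → F) : f y (∑ a ∈ s, g a) = ∑ a ∈ s, f y (g a) := by
  classical
  induction s using Finset.induction_on with
  | empty => simp [uf_zero_right hF hf]
  | insert a s ha ih => rw [Finset.sum_insert ha, Finset.sum_insert ha, uf_add_right hF hf, ih]

lemma uf_formOfGram_eq (hF : Fintype.card F = q ^ 2) (hf : IsUnitaryFormPow q f) (x y : ι → F) :
    f x y = formOfGram (fun a : F => a ^ q) (gramMatrix f) x y := by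
  have hx : x = ∑ a, x a • (Pi.single a 1 : ι → F) := by
    funext i
    simp [Finset.sum_apply, Pi.single_apply]
  have hy : y = ∑ a, y a • (Pi.single a 1 : ι → F) := by
    funext i
    simp [Finset.sum_apply, Pi.single_apply]
  unfold formOfGram gramMatrix
  conv_lhs => rw [hx, uf_sum_left hf]
  apply Finset.sum_congr rfl
  intro a _
  conv_lhs => rw [hy, uf_sum_right hF hf]
  apply Finset.sum_congr rfl
  intro b _
  rw [hf.smul_left, uf_smul_right hf]
  ring

/-- The value of a tensor form on pure tensors (unitary case). -/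
lemma tensorForm_pt_unitary {n₁ n₂ : ℕ} {h : (ι → F) → (ι → F) → F}
    {f₁ : (Fin n₁ → F) → (Fin n₁ → F) → F}
    {f₂ : (Fin n₂ → F) → (Fin n₂ → F) → F} {e : ι ≃ Fin n₁ × Fin n₂} {P : GL ι F}
    (hF : Fintype.card F = q ^ 2)
    (hf₁ : IsUnitaryFormPow q f₁) (hf₂ : IsUnitaryFormPow q f₂)
    (hT : IsTensorFormStructure (fun x : F => x ^ q) h f₁ f₂ e P) :
    ∃ c : F, c ≠ 0 ∧ ∀ (u u' : Fin n₁ → F) (v v' : Fin n₂ → F),
      h (tL e P (pt u v)) (tL e P (pt u' v')) = c * (f₁ u u' * f₂ v v') := by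
  obtain ⟨c, hc, hh⟩ := hT
  refine ⟨c, hc, fun u u' v v' => ?_⟩
  have := hh (pt u v) (pt u' v')
  rw [formOfGram_kronecker_pt (fun x : F => x ^ q) (fun a b => mul_pow a b q),
    ← uf_formOfGram_eq hF hf₁, ← uf_formOfGram_eq hF hf₂] at this
  exact this

/-! ### The case `q = 2` -/

lemma uf_self_zero_or_one (hf : IsUnitaryFormPow 2 f) (x : ι → F) : f x x = 0 ∨ f x x = 1 := by
  have h := hf.herm x x
  have h' : f x x * (f x x - 1) = 0 := by linear_combination -h
  rcases mul_eq_zero.mp h' with h0 | h1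
  · exact Or.inl h0
  · exact Or.inr (sub_eq_zero.mp h1)

lemma uf_self_eq_one (hf : IsUnitaryFormPow 2 f) {x : ι → F} (hx : f x x ≠ 0) : f x x = 1 :=
  (uf_self_zero_or_one hf x).resolve_left hx

lemma uf_norm_add_smul (hF : Fintype.card F = 2 ^ 2) (hf : IsUnitaryFormPow 2 f) (x e : ι → F)
    (c : F) :
    f (x + c • e) (x + c • e) = f x x + c ^ 2 * f x e + c * f e x + c ^ 3 * f e e := by
  rw [hf.add_left, uf_add_right hF hf, uf_add_right hF hf, hf.smul_left, uf_smul_right hf,
    hf.smul_left, uf_smul_right hf]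
  ring

/-- A non-degenerate subspace contains a vector of norm one. -/
lemma uf_exists_norm_one (hF : Fintype.card F = 2 ^ 2) (hf : IsUnitaryFormPow 2 f)
    (W : Submodule F (ι → F)) (hW0 : W ≠ ⊥) (hnd : IsNondegenerateOn f W) :
    ∃ e ∈ W, f e e = 1 := by
  have h2 := two_eq_zero_of_card_four hF
  obtain ⟨y, hyW, hy0⟩ := (Submodule.ne_bot_iff W).mp hW0
  by_cases hyy : f y y = 0
  · obtain ⟨⟨x, hxW, hx⟩, -⟩ := hnd y hyW hy0
    by_cases hxx : f x x = 0
    · set μ := f x y with hμ
      have hcard : 2 < Fintype.card F := by rw [hF]; norm_num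
      obtain ⟨c, hc0, hcμ⟩ : ∃ c : F, c ≠ 0 ∧ c ≠ μ := by
        classical
        have h3 : (({0, μ} : Finset F)).card < (Finset.univ : Finset F).card := by
          calc (({0, μ} : Finset F)).card ≤ 2 := Finset.card_le_two
            _ < Fintype.card F := hcard
            _ = (Finset.univ : Finset F).card := Finset.card_univ.symm
        obtain ⟨c, -, hc⟩ := Finset.exists_mem_notMem_of_card_lt_card h3
        simp only [Finset.mem_insert, Finset.mem_singleton, not_or] at hc
        exact ⟨c, hc.1, hc.2⟩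
      refine ⟨x + c • y, W.add_mem hxW (W.smul_mem c hyW), ?_⟩
      apply uf_self_eq_one hf
      rw [uf_norm_add_smul hF hf, hxx, hyy, hf.herm y x, ← hμ]
      have : 0 + c ^ 2 * μ + c * μ ^ 2 + c ^ 3 * 0 = c * μ * (c - μ) + 2 * (c * μ ^ 2) := by ring
      rw [this, h2, zero_mul, add_zero]
      exact mul_ne_zero (mul_ne_zero hc0 hx) (sub_ne_zero.mpr hcμ)
    · exact ⟨x, hxW, uf_self_eq_one hf hxx⟩
  · exact ⟨y, hyW, uf_self_eq_one hf hyy⟩

/-- The vectors orthogonal to `v`. -/
def ufPerp (f : (ι → F) → (ι → F) → F) (hf : IsUnitaryFormPow q f) (v : ι → F) :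
    Submodule F (ι → F) where
  carrier := {x | f x v = 0}
  add_mem' {x y} hx hy := by
    change f (x + y) v = 0
    rw [hf.add_left, hx, hy, add_zero]
  zero_mem' := uf_zero_left hf v
  smul_mem' c x hx := by
    change f (c • x) v = 0
    rw [hf.smul_left, hx, mul_zero]

lemma mem_ufPerp (hf : IsUnitaryFormPow q f) (v x : ι → F) : x ∈ ufPerp f hf v ↔ f x v = 0 :=
  Iff.rfl

lemma ufPerp_nondeg (hF : Fintype.card F = q ^ 2) (hf : IsUnitaryFormPow q f) {v : ι → F}
    (hv : f v v = 1) : IsNondegenerateOn f (ufPerp f hf v) := by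
  have hq := q_ne_zero_of_card hF
  intro w hw hw0
  obtain ⟨⟨x, hx⟩, -⟩ := hf.nondegenerate w hw0
  have hmem : x + (-(f x v)) • v ∈ ufPerp f hf v := by
    rw [mem_ufPerp, hf.add_left, hf.smul_left, hv]
    ring
  have hval : f (x + (-(f x v)) • v) w ≠ 0 := by
    rw [hf.add_left, hf.smul_left, hf.herm v w, (mem_ufPerp hf v w).mp hw, zero_pow hq, mul_zero,
      add_zero]
    exact hx
  refine ⟨⟨_, hmem, hval⟩, ⟨_, hmem, ?_⟩⟩
  rw [hf.herm]
  exact pow_ne_zero _ hval

lemma ufPerp_ne_bot (hf : IsUnitaryFormPow q f) (v : ι → F) (hcard : 2 ≤ Fintype.card ι) :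
    ufPerp f hf v ≠ ⊥ := by
  let φ : (ι → F) →ₗ[F] F :=
    { toFun := fun x => f x v
      map_add' := fun x y => hf.add_left x y v
      map_smul' := fun c x => by simp [hf.smul_left] }
  have hker : LinearMap.ker φ ≠ ⊥ := by
    apply LinearMap.ker_ne_bot_of_finrank_lt
    rw [Module.finrank_self, Module.finrank_pi]
    omega
  intro h
  apply hker
  rw [eq_bot_iff]
  intro x hx
  rw [← h]
  exact hx

/-- An orthonormal pair exists in dimension at least two. -/
lemma uf_exists_orthonormal_pair (hF : Fintype.card F = 2 ^ 2) (hf : IsUnitaryFormPow 2 f)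
    (hcard : 2 ≤ Fintype.card ι) :
    ∃ v w : ι → F, f v v = 1 ∧ f w w = 1 ∧ f w v = 0 ∧ f v w = 0 := by
  have htop : IsNondegenerateOn f (⊤ : Submodule F (ι → F)) := by
    intro w _ hw
    obtain ⟨⟨x, hx⟩, ⟨y, hy⟩⟩ := hf.nondegenerate w hw
    exact ⟨⟨x, trivial, hx⟩, ⟨y, trivial, hy⟩⟩
  have hne : (⊤ : Submodule F (ι → F)) ≠ ⊥ := by
    intro h
    have h1 : Module.finrank F (⊤ : Submodule F (ι → F)) = Fintype.card ι := by
      rw [finrank_top, Module.finrank_pi]
    rw [h, finrank_bot] at h1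
    omega
  obtain ⟨v, -, hv⟩ := uf_exists_norm_one hF hf ⊤ hne htop
  obtain ⟨w, hw, hww⟩ := uf_exists_norm_one hF hf (ufPerp f hf v) (ufPerp_ne_bot hf v hcard)
    (ufPerp_nondeg hF hf hv)
  have hwv : f w v = 0 := (mem_ufPerp hf v w).mp hw
  refine ⟨v, w, hv, hww, hwv, ?_⟩
  rw [hf.herm, hwv]
  simp

/-- An orthonormal frame in dimension two and the vectors of norm one. -/
lemma uf_frame2 (hF : Fintype.card F = 2 ^ 2) (f : (Fin 2 → F) → (Fin 2 → F) → F)
    (hf : IsUnitaryFormPow 2 f) :
    ∃ ε : Fin 2 → (Fin 2 → F), (∀ i j, f (ε i) (ε j) = if i = j then 1 else 0) ∧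
      (∀ u, u = ∑ i, f u (ε i) • ε i) ∧
      (∀ u, f u u = 1 → ∃ i, u = f u (ε i) • ε i) := by
  have h2 := two_eq_zero_of_card_four hF
  obtain ⟨v, w, hv, hw, hwv, hvw⟩ := uf_exists_orthonormal_pair hF hf (by simp)
  have hν : ∀ i j, f (![v, w] i) (![v, w] j) = if i = j then 1 else 0 := by
    intro i j
    fin_cases i <;> fin_cases j <;> simp [hv, hw, hwv, hvw]
  have hexp : ∀ u, u = ∑ i, f u (![v, w] i) • ![v, w] i := by
    intro u
    have hfin : Module.finrank F (⊤ : Submodule F (Fin 2 → F)) = 2 := by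
      rw [finrank_top]; simp
    have hli : ∀ s t : F, s • v + t • w = 0 → s = 0 ∧ t = 0 := by
      intro s t hst
      constructor
      · have := congrArg (fun z => f z v) hst
        simp only [hf.add_left, hf.smul_left, hv, hwv, uf_zero_left hf, mul_one, mul_zero,
          add_zero] at this
        exact this
      · have := congrArg (fun z => f z w) hst
        simp only [hf.add_left, hf.smul_left, hw, hvw, uf_zero_left hf, mul_one, mul_zero,
          zero_add] at this
        exact this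
    obtain ⟨α, β, hu⟩ := mem_pair_of_finrank_two (⊤ : Submodule F (Fin 2 → F)) hfin
      (e := v) (y := w) trivial trivial hli (x := u) trivial
    have hα : f u v = α := by
      rw [hu, hf.add_left, hf.smul_left, hf.smul_left, hv, hwv]; ring
    have hβ : f u w = β := by
      rw [hu, hf.add_left, hf.smul_left, hf.smul_left, hw, hvw]; ring
    rw [Fin.sum_univ_two]
    simp only [Matrix.cons_val_zero, Matrix.cons_val_one, hα, hβ]
    exact hu
  refine ⟨![v, w], hν, hexp, ?_⟩
  intro u huu
  have hu := hexp u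
  rw [Fin.sum_univ_two] at hu
  simp only [Matrix.cons_val_zero, Matrix.cons_val_one] at hu
  set x := f u v with hx
  set y := f u w with hy
  have hnorm : f u u = x ^ 3 + y ^ 3 := by
    have h1 : f u u = f (x • v + y • w) u := by rw [← hu]
    rw [h1, hf.add_left, hf.smul_left, hf.smul_left, hf.herm v u, hf.herm w u, ← hx, ← hy]
    ring
  rw [huu] at hnorm
  by_cases hx0 : x = 0
  · refine ⟨1, ?_⟩
    change u = f u w • w
    rw [← hy]
    rw [hx0, zero_smul, zero_add] at hu
    exact hu
  · by_cases hy0 : y = 0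
    · refine ⟨0, ?_⟩
      change u = f u v • v
      rw [← hx]
      rw [hy0, zero_smul, add_zero] at hu
      exact hu
    · exfalso
      rw [pow_three_of_card_four hF hx0, pow_three_of_card_four hF hy0] at hnorm
      have : (1 : F) = 0 := by linear_combination -hnorm
      exact one_ne_zero this

end UForm

end Cfsg.Agent.H95
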